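import Mathlib
import Cfsg.Agent.H8.AutI

set_option autoImplicit false

namespace Cfsg.Agent.H8.AutPSL

open Matrix Matrix.SpecialLinearGroup
open scoped Pointwise

section field
variable {F : Type*} [Field F]

/-- surjectivity of the norm onto the fixed field of a cyclic group of automorphisms -/
theorem exists_cyc_norm [Finite F] (σ : F ≃+* F) (c : F) (hc : σ c = c) : ∃ d : F, ∏ i ∈ Finset.range (orderOf σ), (σ ^ i) d = c := by
  classical
  haveI := Fintype.ofFinite F
  let G : Subgroup (RingAut F) := Subgroup.zpowers σ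
  haveI : Finite (RingAut F) := by
    apply Finite.of_injective (fun τ : RingAut F => (fun x : F => τ x))
    intro a b h
    ext x
    exact congrFun h x
  haveI : Fintype G := Fintype.ofFinite G
  haveI : FaithfulSMul G F := ⟨fun {a b} h => Subtype.ext (RingEquiv.ext (fun x => h x))⟩
  let K := FixedPoints.subfield G F
  have hcK : c ∈ K := by
    rintro ⟨g, hg⟩
    obtain ⟨k, rfl⟩ := Subgroup.mem_zpowers_iff.1 hg
    show (σ ^ k) c = c
    have h1 : ∀ m : ℕ, (σ ^ m) c = c := by
      intro m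
      induction m with
      | zero => rfl
      | succ m ih =>
        rw [pow_succ]
        show (σ ^ m) (σ c) = c
        rw [hc, ih]
    rcases k with m | m
    · have : (σ ^ (Int.ofNat m) : RingAut F) = σ ^ m := zpow_natCast σ m
      rw [this]; exact h1 m
    · have h2 : (σ ^ (Int.negSucc m) : RingAut F) = (σ ^ (m + 1))⁻¹ := zpow_negSucc σ m
      rw [h2]
      show (σ ^ (m + 1)).symm c = c
      rw [RingEquiv.symm_apply_eq]
      exact (h1 (m + 1)).symm
  obtain ⟨d, hd⟩ := FiniteField.norm_surjective K F ⟨c, hcK⟩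
  refine ⟨d, ?_⟩
  have h1 := Algebra.norm_eq_prod_automorphisms K (L := F) d
  rw [hd] at h1
  have h2 : algebraMap K F ⟨c, hcK⟩ = c := rfl
  rw [h2] at h1
  rw [h1]
  -- product over the Galois group = product over G = product over range
  have e1 : ∏ τ : (F ≃ₐ[K] F), τ d = ∏ g : G, g • d := by
    symm
    apply Fintype.prod_equiv (FixedPoints.toAlgAutMulEquiv G F).toEquiv
    intro g; rfl
  rw [e1]
  have e2 : ∏ g : G, g • d = ∏ i : Fin (orderOf σ), (σ ^ (i : ℕ)) d := by
    symm
    apply Fintype.prod_equiv (finEquivZPowers (isOfFinOrder_of_finite σ))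
    intro i
    rfl
  rw [e2, ← Fin.prod_univ_eq_prod_range (fun i => (σ ^ i) d)]

end field

variable {F : Type*} [Field F] {n : ℕ}

/-- Galois descent for a semilinear map of finite order -/
theorem descent (σ : F ≃+* F) (r : ℕ) (hr : 0 < r) (hord : orderOf σ = r) (s : (Fin n → F) → (Fin n → F))
    (hadd : ∀ u v, s (u + v) = s u + s v) (hsm : ∀ (a : F) v, s (a • v) = σ a • s v) (hsr : ∀ v, s^[r] v = v) :
    ∃ b : Module.Basis (Fin n) F (Fin n → F), ∀ j, s (b j) = b j := by
  classical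
  let T : (Fin n → F) → (Fin n → F) := fun v => ∑ i ∈ Finset.range r, s^[i] v
  let S : (Fin n → F) →+ (Fin n → F) := AddMonoidHom.mk' s hadd
  have hT : ∀ v, s (T v) = T v := by
    intro v
    have h1 : s (T v) = ∑ i ∈ Finset.range r, s (s^[i] v) := map_sum S _ _
    rw [h1]
    have h2 : ∀ i, s (s^[i] v) = s^[i + 1] v := fun i => (Function.iterate_succ_apply' s i v).symm
    rw [Finset.sum_congr rfl (fun i _ => h2 i)]
    have h3 := Finset.sum_range_succ (fun i => s^[i] v) r
    have h4 := Finset.sum_range_succ' (fun i => s^[i] v) r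
    rw [h3] at h4
    have h5 : s^[0] v = v := rfl
    rw [h5, hsr v] at h4
    exact (add_right_cancel h4).symm
  have hit : ∀ (i : ℕ) (a : F) v, s^[i] (a • v) = (σ ^ i) a • s^[i] v := by
    intro i
    induction i with
    | zero => intro a v; rfl
    | succ i ih =>
      intro a v
      rw [Function.iterate_succ_apply, hsm, ih, Function.iterate_succ_apply, pow_succ]
      rfl
  have hspan : ⊤ ≤ Submodule.span F (Set.range T) := by
    by_contra hcon
    have hlt : Submodule.span F (Set.range T) < ⊤ := lt_of_le_of_ne le_top (fun h => hcon (le_of_eq h.symm))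
    obtain ⟨f, hf0, hf⟩ := Submodule.exists_le_ker_of_lt_top _ hlt
    apply hf0
    apply LinearMap.ext
    intro v
    rw [LinearMap.zero_apply]
    have h1 : ∀ a : F, ∑ i : Fin r, f (s^[(i : ℕ)] v) * (σ ^ (i : ℕ)) a = 0 := by
      intro a
      have h2 : T (a • v) ∈ LinearMap.ker f := hf (Submodule.subset_span ⟨_, rfl⟩)
      rw [LinearMap.mem_ker] at h2
      have h3 : T (a • v) = ∑ i ∈ Finset.range r, (σ ^ i) a • s^[i] v := Finset.sum_congr rfl (fun i _ => hit i a v)
      rw [h3, map_sum] at h2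
      rw [Fin.sum_univ_eq_sum_range (fun i => f (s^[i] v) * (σ ^ i) a), ← h2]
      apply Finset.sum_congr rfl
      intro i _
      rw [map_smul, smul_eq_mul, mul_comm]
    have hinj : Function.Injective (fun i : Fin r => (((σ ^ (i : ℕ) : F ≃+* F) : F →+* F) : F →* F)) := by
      intro i j hij
      have h4 : σ ^ (i : ℕ) = σ ^ (j : ℕ) := by
        ext x
        exact congrArg (fun g : F →* F => g x) hij
      have h5 := pow_inj_mod.1 h4
      rw [hord, Nat.mod_eq_of_lt i.2, Nat.mod_eq_of_lt j.2] at h5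
      exact Fin.ext h5
    have hli := (linearIndependent_monoidHom F F).comp _ hinj
    rw [Fintype.linearIndependent_iff] at hli
    have h6 := hli (fun i => f (s^[(i : ℕ)] v)) (by
      funext a
      have := h1 a
      rw [Finset.sum_apply]
      exact this) ⟨0, hr⟩
    exact h6
  let b0 := Module.Basis.ofSpan hspan
  haveI : Fintype ((linearIndepOn_empty F (id : (Fin n → F) → (Fin n → F))).extend (Set.empty_subset (Set.range T))) := FiniteDimensional.fintypeBasisIndex b0
  have hcard : Fintype.card ((linearIndepOn_empty F (id : (Fin n → F) → (Fin n → F))).extend (Set.empty_subset (Set.range T))) = n := by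
    have := Module.finrank_eq_card_basis b0
    rw [Module.finrank_fintype_fun_eq_card, Fintype.card_fin] at this
    exact this.symm
  let b := b0.reindex (Fintype.equivFinOfCardEq hcard)
  refine ⟨b, ?_⟩
  intro j
  have h1 : b j ∈ Set.range T := by
    apply Module.Basis.ofSpan_subset hspan
    rw [Module.Basis.reindex_apply]
    exact ⟨_, rfl⟩
  obtain ⟨v, hv⟩ := h1
  rw [← hv, hT]

theorem fldW_val (σ : F ≃+* F) (W : GL (Fin n) F) : (fldW σ W : Matrix (Fin n) (Fin n) F) = (W : Matrix (Fin n) (Fin n) F).map σ := rfl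

theorem fldW_mul (σ : F ≃+* F) (W V : GL (Fin n) F) : fldW σ (W * V) = fldW σ W * fldW σ V := by
  apply Units.ext
  rw [fldW_val, Units.val_mul, Units.val_mul, Matrix.map_mul]; rfl

theorem fldW_one (σ : F ≃+* F) : fldW σ (1 : GL (Fin n) F) = 1 := by
  apply Units.ext
  rw [fldW_val, Units.val_one, Matrix.map_one σ (map_zero σ) (map_one σ)]

theorem fldW_inv (σ : F ≃+* F) (W : GL (Fin n) F) : fldW σ W⁻¹ = (fldW σ W)⁻¹ := by
  rw [eq_inv_iff_mul_eq_one, ← fldW_mul, inv_mul_cancel, fldW_one]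

/-- the cocycle products -/
def Pk (σ : F ≃+* F) (W : GL (Fin n) F) : ℕ → GL (Fin n) F
  | 0 => 1
  | k + 1 => W * fldW σ (Pk σ W k)

theorem Pk_comm (σ : F ≃+* F) (W : GL (Fin n) F) (k : ℕ) : W * fldW σ (Pk σ W k) = Pk σ W k * fldW (σ ^ k) W := by
  induction k with
  | zero =>
    show W * fldW σ 1 = 1 * fldW 1 W
    rw [fldW_one, mul_one, one_mul]; apply Units.ext; rfl
  | succ k ih =>
    show W * fldW σ (W * fldW σ (Pk σ W k)) = W * fldW σ (Pk σ W k) * fldW (σ ^ (k + 1)) W
    rw [ih, fldW_mul, ← mul_assoc]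
    congr 1
    apply Units.ext
    rw [pow_succ']; rfl

theorem cj_fld_pow (σ : F ≃+* F) (W : GL (Fin n) F) (k : ℕ) : (cj W * fld σ) ^ k = cj (Pk σ W k) * fld (σ ^ k) := by
  induction k with
  | zero =>
    show 1 = cj 1 * fld (σ ^ 0)
    rw [pow_zero, map_one, map_one, one_mul]
  | succ k ih =>
    rw [pow_succ', ih]
    show cj W * fld σ * (cj (Pk σ W k) * fld (σ ^ k)) = cj (W * fldW σ (Pk σ W k)) * fld (σ ^ (k + 1))
    rw [mul_assoc, ← mul_assoc (fld σ), fld_cj, map_mul cj, pow_succ', map_mul fld, mul_assoc, mul_assoc]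

theorem iter_eq (σ : F ≃+* F) (W : GL (Fin n) F) (k : ℕ) (v : Fin n → F) :
    (fun v : Fin n → F => (W : Matrix (Fin n) (Fin n) F) *ᵥ (σ ∘ v))^[k] v = (Pk σ W k : Matrix (Fin n) (Fin n) F) *ᵥ ((σ ^ k : F ≃+* F) ∘ v) := by
  induction k with
  | zero =>
    show v = (1 : Matrix (Fin n) (Fin n) F) *ᵥ v
    rw [Matrix.one_mulVec]
  | succ k ih =>
    rw [Function.iterate_succ_apply', ih]
    show (W : Matrix (Fin n) (Fin n) F) *ᵥ (σ ∘ ((Pk σ W k : Matrix (Fin n) (Fin n) F) *ᵥ ((σ ^ k : F ≃+* F) ∘ v))) = ((W : Matrix (Fin n) (Fin n) F) * (Pk σ W k : Matrix (Fin n) (Fin n) F).map σ) *ᵥ _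
    rw [← Matrix.mulVec_mulVec]
    congr 1
    funext i
    show σ (((Pk σ W k : Matrix (Fin n) (Fin n) F) *ᵥ ((σ ^ k : F ≃+* F) ∘ v)) i) = _
    rw [Matrix.mulVec, Matrix.mulVec, dotProduct, dotProduct, map_sum]
    apply Finset.sum_congr rfl
    intro j _
    rw [map_mul, Matrix.map_apply, pow_succ']
    rfl

theorem h90 (σ : F ≃+* F) (r : ℕ) (hr : 0 < r) (hord : orderOf σ = r) (W : GL (Fin n) F) (hW : Pk σ W r = 1) :
    ∃ V : GL (Fin n) F, W = V * (fldW σ V)⁻¹ := by
  obtain ⟨b, hb⟩ := descent σ r hr hord (fun v : Fin n → F => (W : Matrix (Fin n) (Fin n) F) *ᵥ (σ ∘ v)) (by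
      intro u v
      show (W : Matrix (Fin n) (Fin n) F) *ᵥ (σ ∘ (u + v)) = _
      rw [← Matrix.mulVec_add]
      congr 1
      funext i
      exact map_add σ _ _) (by
      intro a v
      show (W : Matrix (Fin n) (Fin n) F) *ᵥ (σ ∘ (a • v)) = σ a • _
      rw [← Matrix.mulVec_smul]
      congr 1
      funext i
      exact map_mul σ _ _) (by
      intro v
      rw [iter_eq, hW, ← hord, pow_orderOf_eq_one, Units.val_one, Matrix.one_mulVec]
      rfl)
  let Vm : Matrix (Fin n) (Fin n) F := (Pi.basisFun F (Fin n)).toMatrix b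
  have hVu : IsUnit Vm := by
    rw [Matrix.isUnit_iff_isUnit_det]
    haveI := (Pi.basisFun F (Fin n)).invertibleToMatrix b
    exact Matrix.isUnit_det_of_invertible _
  have hVa : ∀ i j, Vm i j = b j i := fun i j => rfl
  refine ⟨hVu.unit, ?_⟩
  rw [eq_mul_inv_iff_mul_eq]
  apply Units.ext
  rw [Units.val_mul, fldW_val]
  show (W : Matrix (Fin n) (Fin n) F) * Vm.map σ = Vm
  ext i j
  rw [hVa, ← hb j]
  rfl

theorem Pk_smul (σ : F ≃+* F) (W : GL (Fin n) F) (d : Fˣ) (k : ℕ) :
    (Pk σ (Matrix.GeneralLinearGroup.scalar (Fin n) d * W) k : Matrix (Fin n) (Fin n) F) = (∏ i ∈ Finset.range k, (σ ^ i) (d : F)) • (Pk σ W k : Matrix (Fin n) (Fin n) F) := by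
  induction k with
  | zero =>
    show (1 : Matrix (Fin n) (Fin n) F) = _ • (1 : Matrix (Fin n) (Fin n) F)
    simp
  | succ k ih =>
    show ((Matrix.scalar (Fin n) (d : F)) * (W : Matrix (Fin n) (Fin n) F)) * (Pk σ (Matrix.GeneralLinearGroup.scalar (Fin n) d * W) k : Matrix (Fin n) (Fin n) F).map σ =
      _ • ((W : Matrix (Fin n) (Fin n) F) * (Pk σ W k : Matrix (Fin n) (Fin n) F).map σ)
    rw [ih, Matrix.map_smul' σ _ _ (map_mul σ), Finset.prod_range_succ', Matrix.mul_smul, mul_assoc, Matrix.scalar_apply, ← Matrix.smul_eq_diagonal_mul, smul_smul]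
    congr 1
    rw [map_prod, pow_zero]
    congr 1
    apply Finset.prod_congr rfl
    intro i _
    rw [pow_succ']; rfl

/-- **conjugacy of automorphisms of order `r` in the coset of a field automorphism** -/
theorem field_coset [Finite F] (hn : 2 ≤ n) (σ : F ≃+* F) (W : GL (Fin n) F) (hW : (ind (cj W * fld σ)) ^ orderOf σ = 1) :
    ∃ V : GL (Fin n) F, ind (cj W * fld σ) = ind (cj V) * ind (fld σ) * (ind (cj V))⁻¹ := by
  haveI : Finite (F ≃+* F) := by
    apply Finite.of_injective (fun τ : F ≃+* F => (fun x : F => τ x))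
    intro a b h
    ext x
    exact congrFun h x
  set r := orderOf σ with hr
  have hr0 : 0 < r := orderOf_pos σ
  rw [← map_pow, cj_fld_pow, hr, pow_orderOf_eq_one, ← hr] at hW
  have h1 := (ker_cj_fld hn _ _ hW).2
  rw [Matrix.GeneralLinearGroup.center_eq_range_scalar] at h1
  obtain ⟨c, hc⟩ := h1
  have hcv : (Pk σ W r : Matrix (Fin n) (Fin n) F) = (c : F) • 1 := by
    rw [← hc]
    show Matrix.scalar (Fin n) (c : F) = _
    rw [Matrix.scalar_apply, Matrix.smul_one_eq_diagonal]
  -- c is fixed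
  have hσc : σ (c : F) = c := by
    have h2 := Pk_comm σ W r
    have h3 : (W : Matrix (Fin n) (Fin n) F) * (Pk σ W r : Matrix (Fin n) (Fin n) F).map σ = (Pk σ W r : Matrix (Fin n) (Fin n) F) * (W : Matrix (Fin n) (Fin n) F).map (σ ^ r : F ≃+* F) := congrArg Units.val h2
    rw [hcv, Matrix.map_smul' σ _ _ (map_mul σ), Matrix.map_one σ (map_zero σ) (map_one σ), Matrix.mul_smul, Matrix.smul_mul, mul_one, one_mul, hr, pow_orderOf_eq_one] at h3
    have h4 : (W : Matrix (Fin n) (Fin n) F).map (1 : F ≃+* F) = (W : Matrix (Fin n) (Fin n) F) := rfl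
    rw [h4, ← sub_eq_zero, ← sub_smul] at h3
    rcases smul_eq_zero.1 h3 with h5 | h5
    · exact sub_eq_zero.1 h5
    · exact absurd h5 (W_ne_zero (by omega) W)
  obtain ⟨d, hd⟩ := exists_cyc_norm σ ((c : F)⁻¹) (by rw [map_inv₀, hσc])
  have hd0 : d ≠ 0 := by
    rintro rfl
    have : ∏ i ∈ Finset.range (orderOf σ), (σ ^ i) (0 : F) = 0 := Finset.prod_eq_zero (Finset.mem_range.2 hr0) (map_zero _)
    rw [this] at hd
    exact inv_ne_zero c.ne_zero hd.symm
  obtain ⟨V, hV⟩ := h90 σ r hr0 rfl (Matrix.GeneralLinearGroup.scalar (Fin n) (Units.mk0 d hd0) * W) (by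
    apply Units.ext
    rw [Pk_smul, hcv, Units.val_mk0, hr, hd, smul_smul, inv_mul_cancel₀ c.ne_zero, one_smul]; rfl)
  refine ⟨V, ?_⟩
  rw [← ind_cj_center (by omega) W (Units.mk0 d hd0), hV, ← map_mul, ← map_inv, ← map_inv, ← map_mul]
  congr 1
  rw [mul_assoc, fld_cj, ← mul_assoc, ← map_mul, fldW_inv]

end Cfsg.Agent.H8.AutPSL
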