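import Mathlib
import Cfsg.Agent.H8.AutJ
import Cfsg.Agent.H7.FormBasis

set_option autoImplicit false

namespace Cfsg.Agent.H8.AutPSL

open Matrix Matrix.SpecialLinearGroup
open scoped Pointwise

variable {F : Type*} [Field F] {n : ℕ}

/-- sesquilinear form attached to a matrix -/
noncomputable def sB (σ : F →+* F) (H : Matrix (Fin n) (Fin n) F) : (Fin n → F) →ₛₗ[σ] (Fin n → F) →ₗ[F] F :=
  LinearMap.mk₂'ₛₗ σ (RingHom.id F) (fun u v => v ⬝ᵥ (H *ᵥ (σ ∘ u)))
    (fun u u' v => by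
      rw [← dotProduct_add, ← Matrix.mulVec_add]
      congr 2
      funext i
      exact map_add σ _ _)
    (fun c u v => by
      have : (σ ∘ (c • u)) = σ c • (σ ∘ u) := by funext i; exact map_mul σ _ _
      rw [this, Matrix.mulVec_smul, dotProduct_smul])
    (fun u v v' => by rw [add_dotProduct])
    (fun c u v => by rw [smul_dotProduct]; rfl)

theorem sB_apply (σ : F →+* F) (H : Matrix (Fin n) (Fin n) F) (u v : Fin n → F) : sB σ H u v = v ⬝ᵥ (H *ᵥ (σ ∘ u)) := rfl

theorem herm_decomp [Finite F] (σ : F ≃+* F) (hσ : σ ≠ 1) (hσ2 : ∀ a, σ (σ a) = a) (H : GL (Fin n) F) (hH : ((H : Matrix (Fin n) (Fin n) F).map σ)ᵀ = H) :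
    ∃ V : GL (Fin n) F, (H : Matrix (Fin n) (Fin n) F) = (V : Matrix (Fin n) (Fin n) F) * ((V : Matrix (Fin n) (Fin n) F).map σ)ᵀ := by
  have hσ' : (σ : F →+* F) ≠ RingHom.id F := by
    intro h; apply hσ; ext x; exact RingHom.congr_fun h x
  have hHij : ∀ i j, σ ((H : Matrix (Fin n) (Fin n) F) i j) = (H : Matrix (Fin n) (Fin n) F) j i := by
    intro i j
    exact congrFun (congrFun hH j) i
  obtain ⟨b, hb⟩ := H7.FormBasis.exists_orthonormal_basis (B := sB (σ : F →+* F) (H : Matrix (Fin n) (Fin n) F)) hσ' hσ2 (by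
      intro u v
      rw [sB_apply, sB_apply, dotProduct, dotProduct, map_sum]
      simp only [Matrix.mulVec, dotProduct, Function.comp, map_mul, map_sum, Finset.mul_sum]
      rw [Finset.sum_comm]
      apply Finset.sum_congr rfl
      intro j _
      apply Finset.sum_congr rfl
      intro i _
      show σ (v i) * (σ ((H : Matrix (Fin n) (Fin n) F) i j) * σ (σ (u j))) = u j * ((H : Matrix (Fin n) (Fin n) F) j i * σ (v i))
      rw [hHij, hσ2]; ring) (by
      intro v h
      have h1 : (H : Matrix (Fin n) (Fin n) F) *ᵥ (σ ∘ v) = 0 := by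
        funext i
        have := h (Pi.single i 1)
        rw [sB_apply, single_dotProduct, one_mul] at this
        exact this
      have h2 : ((H⁻¹ : GL (Fin n) F) : Matrix (Fin n) (Fin n) F) *ᵥ ((H : Matrix (Fin n) (Fin n) F) *ᵥ (σ ∘ v)) = 0 := by rw [h1, Matrix.mulVec_zero]
      rw [Matrix.mulVec_mulVec, val_inv_mul, Matrix.one_mulVec] at h2
      funext i
      have h3 : σ (v i) = 0 := congrFun h2 i
      rw [Pi.zero_apply]
      exact (map_eq_zero_iff σ σ.injective).1 h3)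
  have hfr : Module.finrank F (Fin n → F) = n := by rw [Module.finrank_fintype_fun_eq_card, Fintype.card_fin]
  let e : Fin (Module.finrank F (Fin n → F)) ≃ Fin n := finCongr hfr
  let P : Matrix (Fin n) (Fin n) F := Matrix.of fun i j => b (e.symm i) j
  have hP : P * ((H : Matrix (Fin n) (Fin n) F) * (P.map σ)ᵀ) = 1 := by
    ext i j
    have h1 : (P * ((H : Matrix (Fin n) (Fin n) F) * (P.map σ)ᵀ)) i j = sB (σ : F →+* F) (H : Matrix (Fin n) (Fin n) F) (b (e.symm j)) (b (e.symm i)) := by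
      rw [sB_apply, Matrix.mul_apply, dotProduct]
      apply Finset.sum_congr rfl
      intro k _
      rfl
    rw [h1, hb, Matrix.one_apply]
    by_cases hij : i = j
    · rw [if_pos (by rw [hij]), if_pos hij]
    · rw [if_neg (fun h => hij (e.symm.injective h.symm)), if_neg hij]
  have hP2 : ((H : Matrix (Fin n) (Fin n) F) * (P.map σ)ᵀ) * P = 1 := mul_eq_one_comm.1 hP
  let Pu : GL (Fin n) F := ⟨P, (H : Matrix (Fin n) (Fin n) F) * (P.map σ)ᵀ, hP, hP2⟩
  refine ⟨Pu⁻¹, ?_⟩
  have hV : ((Pu⁻¹ : GL (Fin n) F) : Matrix (Fin n) (Fin n) F) = (H : Matrix (Fin n) (Fin n) F) * (P.map σ)ᵀ := rfl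
  have h5 : (P.map σ)ᵀ * (((Pu⁻¹ : GL (Fin n) F) : Matrix (Fin n) (Fin n) F).map σ)ᵀ = 1 := by
    rw [← Matrix.transpose_mul, ← Matrix.map_mul, hV, hP2, Matrix.map_one σ (map_zero σ) (map_one σ), Matrix.transpose_one]
  rw [hV] at h5 ⊢
  rw [mul_assoc, h5, mul_one]

theorem giT_mul (W V : GL (Fin n) F) : giT (W * V) = giT W * giT V := by
  apply Units.ext
  rw [giT_val, Units.val_mul, giT_val, giT_val, ← Matrix.transpose_mul, _root_.mul_inv_rev]; rfl

theorem fi_cj (σ : F ≃+* F) (W : GL (Fin n) F) : (fld σ * iota) * cj W = cj (fldW σ (giT W)) * (fld σ * iota) := by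
  rw [mul_assoc, iota_cj, ← mul_assoc, fld_cj, mul_assoc]

theorem fi_sq (σ : F ≃+* F) : (fld σ * iota : MulAut (SpecialLinearGroup (Fin n) F)) * (fld σ * iota) = fld (σ * σ) := by
  rw [mul_assoc, ← mul_assoc iota, iota_fld, map_mul]
  rw [mul_assoc (fld σ) iota iota, iota_sq, mul_one]

/-- **conjugacy of involutory graph-field automorphisms** -/
theorem graph_field_coset [Finite F] (hn : 2 ≤ n) (σ : F ≃+* F) (hσ : σ ≠ 1) (hσ2 : ∀ a, σ (σ a) = a) (W : GL (Fin n) F)
    (hW : (ind (cj W * fld σ * iota)) ^ 2 = 1) :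
    ∃ V : GL (Fin n) F, ind (cj W * fld σ * iota) = ind (cj V) * ind (fld σ * iota) * (ind (cj V))⁻¹ := by
  have hσσ : σ * σ = 1 := by ext x; exact hσ2 x
  have h0 : (cj W * fld σ * iota) ^ 2 = cj (W * fldW σ (giT W)) * fld (1 : F ≃+* F) := by
    have e1 : (cj W * fld σ * iota) ^ 2 = cj W * ((fld σ * iota) * cj W) * (fld σ * iota) := by
      rw [sq]; simp only [mul_assoc]
    have e2 : cj W * (cj (fldW σ (giT W)) * (fld σ * iota)) * (fld σ * iota) = (cj W * cj (fldW σ (giT W))) * ((fld σ * iota) * (fld σ * iota)) := by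
      simp only [mul_assoc]
    rw [e1, fi_cj, e2, fi_sq, hσσ, map_mul cj]
  rw [← map_pow, h0] at hW
  have h1 := (ker_cj_fld hn _ _ hW).2
  rw [Matrix.GeneralLinearGroup.center_eq_range_scalar] at h1
  obtain ⟨c, hc⟩ := h1
  -- W = c σ(W)ᵀ
  have h2 : (W : Matrix (Fin n) (Fin n) F) = (c : F) • ((W : Matrix (Fin n) (Fin n) F).map σ)ᵀ := by
    have h3 : W = Matrix.GeneralLinearGroup.scalar (Fin n) c * (fldW σ (giT W))⁻¹ := by rw [hc]; group
    have h4 : ((fldW σ (giT W))⁻¹ : GL (Fin n) F) = fldW σ (giT W)⁻¹ := (fldW_inv _ _).symm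
    have h5 := congrArg Units.val h3
    rw [h4, Units.val_mul, fldW_val, giT_inv_val] at h5
    rw [Matrix.transpose_map, ← Matrix.transpose_map] at h5
    have h6 : (Matrix.GeneralLinearGroup.scalar (Fin n) c : Matrix (Fin n) (Fin n) F) = Matrix.scalar (Fin n) (c : F) := rfl
    rw [h6, Matrix.scalar_apply, ← Matrix.smul_eq_diagonal_mul] at h5
    exact h5
  have h3 : (c : F) * σ c = 1 := by
    have h4 : ((W : Matrix (Fin n) (Fin n) F).map σ)ᵀ = σ c • (W : Matrix (Fin n) (Fin n) F) := by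
      conv_lhs => rw [h2]
      rw [Matrix.map_smul' σ _ _ (map_mul σ), Matrix.transpose_smul]
      congr 1
      ext i j
      simp only [Matrix.transpose_apply, Matrix.map_apply, hσ2]
    rw [h4, smul_smul] at h2
    have h5 : ((c : F) * σ c - 1) • (W : Matrix (Fin n) (Fin n) F) = 0 := by
      rw [sub_smul, one_smul, ← h2, sub_self]
    rcases smul_eq_zero.1 h5 with h6 | h6
    · exact sub_eq_zero.1 h6
    · exact absurd h6 (W_ne_zero (by omega) W)
  -- choose e with σ e = c e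
  obtain ⟨e, he0, he⟩ : ∃ e : F, e ≠ 0 ∧ σ e = c * e := by
    have hcc : (σ (c : F)) = (c : F)⁻¹ := eq_inv_of_mul_eq_one_right h3
    have hex : ∃ u : F, u + (c : F)⁻¹ * σ u ≠ 0 := by
      by_contra hcon
      push Not at hcon
      apply hσ
      have h4 := hcon 1
      rw [map_one, mul_one] at h4
      ext u
      have h5 := hcon u
      show σ u = u
      have h6 : (c : F)⁻¹ = -1 := by linear_combination h4
      rw [h6] at h5
      linear_combination -h5
    obtain ⟨u, hu⟩ := hex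
    refine ⟨_, hu, ?_⟩
    rw [map_add, map_mul, hσ2, map_inv₀, hcc, inv_inv, mul_add, ← mul_assoc, mul_inv_cancel₀ c.ne_zero, one_mul, add_comm]
  let E : Fˣ := Units.mk0 e he0
  let H := Matrix.GeneralLinearGroup.scalar (Fin n) E * W
  have hHv : (H : Matrix (Fin n) (Fin n) F) = e • (W : Matrix (Fin n) (Fin n) F) := by
    show Matrix.scalar (Fin n) e * (W : Matrix (Fin n) (Fin n) F) = _
    rw [Matrix.scalar_apply, ← Matrix.smul_eq_diagonal_mul]
  have hH : ((H : Matrix (Fin n) (Fin n) F).map σ)ᵀ = H := by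
    rw [hHv, Matrix.map_smul' σ _ _ (map_mul σ), Matrix.transpose_smul, he]
    conv_rhs => rw [h2]
    rw [smul_smul, mul_comm]
  obtain ⟨V, hV⟩ := herm_decomp σ hσ hσ2 H hH
  refine ⟨V, ?_⟩
  have hHV : H = V * fldW σ (giT V⁻¹) := by
    apply Units.ext
    rw [hV, Units.val_mul, fldW_val, giT_val, inv_inv, Matrix.transpose_map]
  have h7 : cj W = cj H := (ind_cj_center (by omega) W E).symm
  rw [h7, hHV, ← map_mul, ← map_inv, ← map_inv, ← map_mul]
  congr 1
  rw [mul_assoc (cj V) _ (cj V⁻¹), fi_cj, ← mul_assoc, ← map_mul, ← mul_assoc]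

theorem inndiag_eq : Cfsg.inndiagPSL n F = dgN n F := by
  apply le_antisymm
  · apply (Subgroup.closure_le _).2
    rintro β ⟨g, hg⟩
    refine ⟨g, ?_⟩
    apply psl_ext
    intro s
    show ind (cj g) (pr n F s) = β (pr n F s)
    rw [ind_pr]
    exact (hg s (cj g s) rfl).symm
  · rintro _ ⟨g, rfl⟩
    apply Subgroup.subset_closure
    refine ⟨g, ?_⟩
    intro s s' hs
    show ind (cj g) (pr n F s) = pr n F s'
    rw [ind_pr]
    congr 1
    apply Subtype.ext
    rw [hs]; rfl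

theorem std_eq {σ : F ≃+* F} {β : MulAut (ProjectiveSpecialLinearGroup (Fin n) F)} (h : Cfsg.IsStdFieldAutPSL σ β) : β = ind (fld σ) := by
  apply psl_ext
  intro s
  rw [ind_pr]
  exact h s (fld σ s) rfl

theorem it_eq {β : MulAut (ProjectiveSpecialLinearGroup (Fin n) F)} (h : Cfsg.IsInverseTransposeAutPSL β) : β = ind iota := by
  apply psl_ext
  intro s
  rw [ind_pr]
  exact h s (iota s) rfl

theorem orderOf_conj' {G : Type*} [Group G] (a x : G) : orderOf (a * x * a⁻¹) = orderOf x := by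
  have := orderOf_injective (MulAut.conj a).toMonoidHom (MulAut.conj a).injective x
  exact this

theorem fld_orderOf [Finite F] (hn : 2 ≤ n) (σ : F ≃+* F) : orderOf (ind (fld σ) : MulAut (ProjectiveSpecialLinearGroup (Fin n) F)) = orderOf σ := by
  have hinj : Function.Injective ((ind : MulAut (SpecialLinearGroup (Fin n) F) →* _).comp fld) := by
    rw [injective_iff_map_eq_one]
    intro τ hτ
    have h1 : ind (cj 1 * fld τ) = (1 : MulAut (ProjectiveSpecialLinearGroup (Fin n) F)) := by rw [map_one, one_mul]; exact hτ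
    exact (ker_cj_fld hn _ _ h1).1
  exact orderOf_injective _ hinj σ

/-- transport to the standard coset -/
theorem coset_transport {G : Type*} [Group G] (N : Subgroup G) [N.Normal] (x δ α φ : G) (r : ℕ) (hx : α * x * α⁻¹ = φ) (hδ : δ ∈ N) (hxr : orderOf x = r)
    (h : ∀ δ' ∈ N, (δ' * φ) ^ r = 1 → ∃ h ∈ N, δ' * φ = h * φ * h⁻¹) :
    orderOf (δ * x) = r ↔ Cfsg.IsConjUnder N x (δ * x) := by
  constructor
  · intro ho
    have h1 : α * δ * α⁻¹ ∈ N := Subgroup.Normal.conj_mem inferInstance δ hδ α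
    have h2 : α * δ * α⁻¹ * φ = α * (δ * x) * α⁻¹ := by rw [← hx]; group
    obtain ⟨k, hk, hk2⟩ := h _ h1 (by
      rw [h2, conj_pow, ← ho, pow_orderOf_eq_one]; group)
    refine ⟨α⁻¹ * k * α, ?_, ?_⟩
    · have := Subgroup.Normal.conj_mem (inferInstance : N.Normal) k hk α⁻¹
      rwa [inv_inv] at this
    · rw [h2, ← hx] at hk2
      have : δ * x = α⁻¹ * (α * (δ * x) * α⁻¹) * α := by group
      rw [this, hk2]; group
  · rintro ⟨k, hk, hk2⟩
    rw [hk2, orderOf_conj', hxr]

end Cfsg.Agent.H8.AutPSL
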