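import Mathlib
import Cfsg.Agent.H8.AutK

set_option autoImplicit false

namespace Cfsg.Agent.H8.AutPSL

open Matrix Matrix.SpecialLinearGroup
open scoped Pointwise

section general
variable {G : Type*} [Group G]

theorem isConjUnder_congr (N : Subgroup G) (x φ : G) (h : Cfsg.IsConjUnder N φ x) : Cfsg.IsConjUnder N x = Cfsg.IsConjUnder N φ := by
  obtain ⟨n, hn, hx⟩ := h
  funext y
  apply propext
  constructor
  · rintro ⟨k, hk, hy⟩
    exact ⟨k * n, N.mul_mem hk hn, by rw [hy, hx]; group⟩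
  · rintro ⟨k, hk, hy⟩
    exact ⟨k * n⁻¹, N.mul_mem hk (N.inv_mem hn), by rw [hy, hx]; group⟩

theorem split_congr (N K : Subgroup G) (x φ : G) (h : Cfsg.IsConjUnder N φ x) : Cfsg.splitClassCount N K x = Cfsg.splitClassCount N K φ := by
  unfold Cfsg.splitClassCount
  rw [isConjUnder_congr N x φ h]

theorem cent_congr (N : Subgroup G) (x φ : G) (h : Cfsg.IsConjUnder N φ x) : Nonempty (↥(N ⊓ Subgroup.centralizer {x}) ≃* ↥(N ⊓ Subgroup.centralizer {φ})) := by
  obtain ⟨n, hn, hx⟩ := h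
  have key : ∀ y : G, y ∈ N ⊓ Subgroup.centralizer {x} ↔ n⁻¹ * y * n ∈ N ⊓ Subgroup.centralizer {φ} := by
    intro y
    rw [Subgroup.mem_inf, Subgroup.mem_inf, Subgroup.mem_centralizer_singleton_iff, Subgroup.mem_centralizer_singleton_iff]
    constructor
    · rintro ⟨h1, h2⟩
      refine ⟨N.mul_mem (N.mul_mem (N.inv_mem hn) h1) hn, ?_⟩
      rw [hx] at h2
      have e1 : n⁻¹ * y * n * φ = n⁻¹ * (y * (n * φ * n⁻¹)) * n := by group
      rw [e1, h2]; group
    · rintro ⟨h1, h2⟩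
      constructor
      · have := N.mul_mem (N.mul_mem hn h1) (N.inv_mem hn)
        have e : n * (n⁻¹ * y * n) * n⁻¹ = y := by group
        rwa [e] at this
      · rw [hx]
        have e1 : y * (n * φ * n⁻¹) = n * (n⁻¹ * y * n * φ) * n⁻¹ := by group
        rw [e1, h2]; group
  refine ⟨{ toFun := fun y => ⟨n⁻¹ * y.1 * n, (key y.1).1 y.2⟩, invFun := fun y => ⟨n * y.1 * n⁻¹, (key _).2 (by
    have : n⁻¹ * (n * y.1 * n⁻¹) * n = y.1 := by group
    rw [this]; exact y.2)⟩, left_inv := ?_, right_inv := ?_, map_mul' := ?_ }⟩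
  · intro y; apply Subtype.ext; show n * (n⁻¹ * y.1 * n) * n⁻¹ = y.1; group
  · intro y; apply Subtype.ext; show n⁻¹ * (n * y.1 * n⁻¹) * n = y.1; group
  · intro y z; apply Subtype.ext; show n⁻¹ * (y.1 * z.1) * n = (n⁻¹ * y.1 * n) * (n⁻¹ * z.1 * n); group

/-- index of the join of power-type subgroups of a finite cyclic group -/
theorem index_join {C : Type*} [CommGroup C] [Finite C] [IsCyclic C] (n k m : ℕ) (hm : Nat.card C = k * m) :
    ((powMonoidHom n : C →* C).range ⊔ (powMonoidHom k : C →* C).ker).index = Nat.gcd n m := by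
  have hk0 : 0 < k := by
    rcases Nat.eq_zero_or_pos k with h | h
    · rw [h, zero_mul] at hm; have := Nat.card_pos (α := C); omega
    · exact h
  have h1 : (powMonoidHom m : C →* C).range = (powMonoidHom k : C →* C).ker := by
    apply Subgroup.eq_of_le_of_card_ge
    · rintro _ ⟨x, rfl⟩
      rw [MonoidHom.mem_ker]
      show (x ^ m) ^ k = 1
      rw [← pow_mul, mul_comm, ← hm]; exact pow_card_eq_one'
    · rw [IsCyclic.card_powMonoidHom_ker, IsCyclic.card_powMonoidHom_range, hm, Nat.gcd_mul_right_left, Nat.gcd_mul_left_left]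
      have hm0 : 0 < m := by
        rcases Nat.eq_zero_or_pos m with h | h
        · rw [h, mul_zero] at hm; have := Nat.card_pos (α := C); omega
        · exact h
      rw [Nat.mul_div_cancel _ hm0]
  rw [← h1]
  have h2 : (powMonoidHom n : C →* C).range ⊔ (powMonoidHom m : C →* C).range = (powMonoidHom (Nat.gcd n m) : C →* C).range := by
    apply le_antisymm
    · apply sup_le
      · rintro _ ⟨x, rfl⟩
        obtain ⟨c, hc⟩ := Nat.gcd_dvd_left n m
        refine ⟨x ^ c, ?_⟩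
        show (x ^ c) ^ (Nat.gcd n m) = x ^ n
        rw [← pow_mul, mul_comm, ← hc]
      · rintro _ ⟨x, rfl⟩
        obtain ⟨c, hc⟩ := Nat.gcd_dvd_right n m
        refine ⟨x ^ c, ?_⟩
        show (x ^ c) ^ (Nat.gcd n m) = x ^ m
        rw [← pow_mul, mul_comm, ← hc]
    · rintro _ ⟨x, rfl⟩
      show x ^ (Nat.gcd n m) ∈ _
      have h3 := Nat.gcd_eq_gcd_ab n m
      have h4 : x ^ (Nat.gcd n m) = (x ^ (Nat.gcdA n m)) ^ n * (x ^ (Nat.gcdB n m)) ^ m := by
        rw [← zpow_natCast x, h3, _root_.zpow_add, mul_comm (n : ℤ), mul_comm (m : ℤ), _root_.zpow_mul, _root_.zpow_mul, zpow_natCast, zpow_natCast]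
      rw [h4]
      exact Subgroup.mul_mem_sup ⟨_, rfl⟩ ⟨_, rfl⟩
  rw [h2, IsCyclic.index_powMonoidHom_range, hm]
  apply Nat.gcd_eq_right
  exact (Nat.gcd_dvd_right n m).mul_left k

end general

variable {F : Type*} [Field F] {n : ℕ}

theorem det_ne (W : GL (Fin n) F) : (W : Matrix (Fin n) (Fin n) F).det ≠ 0 := ((Matrix.isUnit_iff_isUnit_det _).1 W.isUnit).ne_zero

noncomputable def dt : GL (Fin n) F →* Fˣ := Matrix.GeneralLinearGroup.det

theorem dt_val (W : GL (Fin n) F) : ((dt W : Fˣ) : F) = (W : Matrix (Fin n) (Fin n) F).det := rfl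

/-- the number of `T`-classes in a `G`-class -/
theorem split_card (φ : MulAut (ProjectiveSpecialLinearGroup (Fin n) F)) (M : Subgroup Fˣ)
    (ha : ∀ W : GL (Fin n) F, ind (cj W) * φ = φ * ind (cj W) → dt W ∈ M)
    (hb : ∀ m ∈ M, ∃ W : GL (Fin n) F, dt W = m ∧ ind (cj W) * φ = φ * ind (cj W)) (hsurj : Function.Surjective (dt : GL (Fin n) F → Fˣ)) :
    Cfsg.splitClassCount (dgN n F) (Cfsg.Inn (ProjectiveSpecialLinearGroup (Fin n) F)) φ = M.index := by
  unfold Cfsg.splitClassCount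
  have hg : ∀ y : {y : MulAut (ProjectiveSpecialLinearGroup (Fin n) F) // Cfsg.IsConjUnder (dgN n F) φ y}, ∃ W : GL (Fin n) F, y.1 = ind (cj W) * φ * (ind (cj W))⁻¹ := by
    rintro ⟨y, h, ⟨W, rfl⟩, hy⟩
    exact ⟨W, hy⟩
  choose g hg using hg
  have hrel : ∀ y z : {y : MulAut (ProjectiveSpecialLinearGroup (Fin n) F) // Cfsg.IsConjUnder (dgN n F) φ y}, ∀ W V : GL (Fin n) F,
      y.1 = ind (cj W) * φ * (ind (cj W))⁻¹ → z.1 = ind (cj V) * φ * (ind (cj V))⁻¹ →
      (Cfsg.IsConjUnder (Cfsg.Inn (ProjectiveSpecialLinearGroup (Fin n) F)) y.1 z.1 ↔ (dt V)⁻¹ * dt W ∈ M) := by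
    intro y z W V hy hz
    constructor
    · rintro ⟨k, ⟨x, rfl⟩, hk⟩
      obtain ⟨s, rfl⟩ := pr_surj x
      rw [← ind_cj_toGL] at hk
      have h1 : ind (cj (V⁻¹ * toGL s * W)) * φ = φ * ind (cj (V⁻¹ * toGL s * W)) := by
        rw [hy, hz] at hk
        simp only [map_mul, map_inv]
        have h2 : ind (cj (toGL s)) * (ind (cj W) * φ * (ind (cj W))⁻¹) * (ind (cj (toGL s)))⁻¹ = ind (cj V) * φ * (ind (cj V))⁻¹ := hk.symm
        calc (ind (cj V))⁻¹ * ind (cj (toGL s)) * ind (cj W) * φ = (ind (cj V))⁻¹ * (ind (cj (toGL s)) * (ind (cj W) * φ * (ind (cj W))⁻¹) * (ind (cj (toGL s)))⁻¹) * ind (cj (toGL s)) * ind (cj W) := by group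
          _ = _ := by rw [h2]; group
      have h2 := ha _ h1
      rw [map_mul, map_mul, map_inv] at h2
      have h3 : dt (toGL s : GL (Fin n) F) = 1 := Units.ext s.2
      rwa [h3, mul_one] at h2
    · intro h
      obtain ⟨k, hk, hk2⟩ := hb _ h
      obtain ⟨s, hs⟩ := exists_SL_of_det (V * k * W⁻¹) (by
        have : dt (V * k * W⁻¹) = 1 := by rw [map_mul, map_mul, map_inv, hk]; group
        exact congrArg Units.val this)
      refine ⟨ind (cj (toGL s)), ⟨pr n F s, (ind_cj_toGL s).symm⟩, ?_⟩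
      rw [hy, hz, hs]
      simp only [map_mul, map_inv]
      have h5 : φ = ind (cj k) * φ * (ind (cj k))⁻¹ := by rw [hk2]; group
      conv_lhs => rw [h5]
      group
  let f : (Quot fun y z : {y : MulAut (ProjectiveSpecialLinearGroup (Fin n) F) // Cfsg.IsConjUnder (dgN n F) φ y} => Cfsg.IsConjUnder (Cfsg.Inn (ProjectiveSpecialLinearGroup (Fin n) F)) y.1 z.1) → Fˣ ⧸ M :=
    Quot.lift (fun y => QuotientGroup.mk (dt (g y))) (by
      intro y z h
      rw [eq_comm, QuotientGroup.eq]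
      exact (hrel y z _ _ (hg y) (hg z)).1 h)
  rw [Subgroup.index]
  apply Nat.card_congr
  apply Equiv.ofBijective f
  constructor
  · rintro ⟨y⟩ ⟨z⟩ h
    apply Quot.sound
    apply (hrel y z _ _ (hg y) (hg z)).2
    have h1 : (QuotientGroup.mk (dt (g y)) : Fˣ ⧸ M) = QuotientGroup.mk (dt (g z)) := h
    rw [eq_comm, QuotientGroup.eq] at h1
    exact h1
  · intro c
    obtain ⟨c, rfl⟩ := QuotientGroup.mk_surjective c
    obtain ⟨W, rfl⟩ := hsurj c
    let y : {y : MulAut (ProjectiveSpecialLinearGroup (Fin n) F) // Cfsg.IsConjUnder (dgN n F) φ y} := ⟨ind (cj W) * φ * (ind (cj W))⁻¹, ind (cj W), ⟨W, rfl⟩, rfl⟩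
    refine ⟨Quot.mk _ y, ?_⟩
    show (QuotientGroup.mk (dt (g y)) : Fˣ ⧸ M) = QuotientGroup.mk (dt W)
    rw [eq_comm, QuotientGroup.eq]
    apply (hrel y y _ _ (hg y) rfl).1
    exact ⟨1, Subgroup.one_mem _, by group⟩

theorem dt_surj (hn : 1 ≤ n) : Function.Surjective (dt : GL (Fin n) F → Fˣ) := by
  intro a
  exact ⟨Dg hn a, Units.ext (Dg_det hn a)⟩

theorem aut_comm [Finite F] (σ τ : F ≃+* F) : σ * τ = τ * σ := by
  obtain ⟨p, hp⟩ := CharP.exists F
  haveI : Fact p.Prime := ⟨CharP.char_is_prime F p⟩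
  haveI := Fintype.ofFinite F
  obtain ⟨k, -, hk⟩ := FiniteField.card F p
  have := (fieldAut F (p := p) (f := k) (by rw [Nat.card_eq_fintype_card, hk]) k.pos).1
  letI := IsCyclic.commGroup (α := F ≃+* F)
  exact mul_comm σ τ

/-- every conjugate of a standard element is conjugate under the inner-diagonal group -/
theorem to_std [Finite F] (hn : 2 ≤ n) (x α φ : MulAut (ProjectiveSpecialLinearGroup (Fin n) F)) (hx : α * x * α⁻¹ = φ)
    (h1 : ∀ τ : F ≃+* F, Commute (ind (fld τ)) φ) (h2 : Commute (ind iota) φ) : Cfsg.IsConjUnder (dgN n F) φ x := by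
  haveI := dgN_normal (F := F) hn
  have key : ∀ κ : MulAut (ProjectiveSpecialLinearGroup (Fin n) F), Commute κ φ → (∃ V : GL (Fin n) F, α = ind (cj V) * κ) → Cfsg.IsConjUnder (dgN n F) φ x := by
    rintro κ hκ ⟨V, hV⟩
    have h3 : κ⁻¹ * ind (cj V) * κ ∈ dgN n F := by
      have := Subgroup.Normal.conj_mem (inferInstance : (dgN n F).Normal) (ind (cj V)) ⟨V, rfl⟩ κ⁻¹
      rwa [inv_inv] at this
    refine ⟨(κ⁻¹ * ind (cj V) * κ)⁻¹, (dgN n F).inv_mem h3, ?_⟩
    have h4 : x = α⁻¹ * φ * α := by rw [← hx]; group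
    have h5 : κ * φ = φ * κ := hκ
    have h6 : κ⁻¹ * φ * κ = φ := by rw [mul_assoc, ← h5]; group
    rw [h4, hV]
    calc (ind (cj V) * κ)⁻¹ * φ * (ind (cj V) * κ) = κ⁻¹ * (ind (cj V))⁻¹ * κ * (κ⁻¹ * φ * κ) * κ⁻¹ * ind (cj V) * κ := by group
      _ = _ := by rw [h6]; group
  obtain ⟨V, σ, h | ⟨-, h⟩⟩ := exists_form hn α
  · apply key (ind (fld σ)) (h1 σ)
    exact ⟨V, by rw [h, map_mul]⟩
  · apply key (ind (fld σ) * ind iota) ((h1 σ).mul_left h2)
    exact ⟨V, by rw [h, map_mul, map_mul, mul_assoc]⟩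

theorem fix_iff [Finite F] {p f : ℕ} [Fact p.Prime] (hF : Nat.card F = p ^ f) (hf : 1 ≤ f) (σ : F ≃+* F) :
    orderOf σ ∣ f ∧ (∀ x : F, σ x = x ↔ x ^ (p ^ (f / orderOf σ)) = x) ∧ Nat.card (FixedPoints.subfield (Subgroup.zpowers (σ : RingAut F)) F) = p ^ (f / orderOf σ) ∧
      (∀ x : F, x ∈ FixedPoints.subfield (Subgroup.zpowers (σ : RingAut F)) F ↔ σ x = x) := by
  classical
  haveI := Fintype.ofFinite F
  haveI : Finite (RingAut F) := by
    apply Finite.of_injective (fun τ : RingAut F => (fun x : F => τ x))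
    intro a b h
    ext x
    exact congrFun h x
  set G : Subgroup (RingAut F) := Subgroup.zpowers σ with hG
  haveI : Fintype G := Fintype.ofFinite G
  haveI : FaithfulSMul G F := ⟨fun {a b} h => Subtype.ext (RingEquiv.ext (fun x => h x))⟩
  set K := FixedPoints.subfield G F with hK
  have hmem : ∀ x : F, x ∈ K ↔ σ x = x := by
    intro x
    constructor
    · intro h
      exact h ⟨σ, Subgroup.mem_zpowers σ⟩
    · intro hc
      rintro ⟨g, hg⟩
      obtain ⟨k, rfl⟩ := Subgroup.mem_zpowers_iff.1 hg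
      show (σ ^ k) x = x
      have h1 : ∀ m : ℕ, (σ ^ m) x = x := by
        intro m
        induction m with
        | zero => rfl
        | succ m ih =>
          rw [pow_succ]
          show (σ ^ m) (σ x) = x
          rw [hc, ih]
      rcases k with m | m
      · have : (σ ^ (Int.ofNat m) : RingAut F) = σ ^ m := zpow_natCast σ m
        rw [this]; exact h1 m
      · have h2 : (σ ^ (Int.negSucc m) : RingAut F) = (σ ^ (m + 1))⁻¹ := zpow_negSucc σ m
        rw [h2]
        show (σ ^ (m + 1)).symm x = x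
        rw [RingEquiv.symm_apply_eq]
        exact (h1 (m + 1)).symm
  have hr : Nat.card G = orderOf σ := Nat.card_zpowers σ
  have h1 : Nat.card F = Nat.card K ^ orderOf σ := by
    have h2 := FixedPoints.finrank_eq_card G F
    have h3 := Module.card_eq_pow_finrank (K := K) (V := F)
    rw [Fintype.card_eq_nat_card, Fintype.card_eq_nat_card, h2, Fintype.card_eq_nat_card, hr] at h3
    exact h3
  have hr0 : 0 < orderOf σ := by rw [← hr]; exact Nat.card_pos
  have h2 : ∃ k, k ≤ f ∧ Nat.card K = p ^ k := by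
    have h3 : Nat.card K ∣ p ^ f := by
      rw [← hF, h1]; exact dvd_pow_self _ hr0.ne'
    exact (Nat.dvd_prime_pow Fact.out).1 h3
  obtain ⟨k, -, hk⟩ := h2
  have h3 : f = k * orderOf σ := by
    rw [hF, hk, ← pow_mul] at h1
    exact Nat.pow_right_injective (Fact.out : p.Prime).two_le h1
  have h4 : f / orderOf σ = k := by rw [h3]; exact Nat.mul_div_cancel _ hr0
  refine ⟨⟨k, by rw [h3, mul_comm]⟩, ?_, by rw [h4, hk], hmem⟩
  intro x
  rw [h4, ← hmem]
  constructor
  · intro hx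
    haveI := Fintype.ofFinite K
    have := FiniteField.pow_card (⟨x, hx⟩ : K)
    rw [Fintype.card_eq_nat_card, hk] at this
    exact congrArg Subtype.val this
  · intro hx
    -- roots of X^q - X
    have hk1 : 1 < p ^ k := by
      rw [← hk]; exact Finite.one_lt_card
    let P : Polynomial F := Polynomial.X ^ (p ^ k) - Polynomial.X
    have hP : P ≠ 0 := FiniteField.X_pow_card_sub_X_ne_zero F hk1
    have hdeg : P.natDegree = p ^ k := FiniteField.X_pow_card_sub_X_natDegree_eq F hk1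
    let S : Finset F := Finset.univ.filter (fun y => y ∈ K)
    have hS : S.card = p ^ k := by
      rw [← hk, Nat.card_eq_fintype_card, Fintype.card_subtype]
    have hsub : S ⊆ P.roots.toFinset := by
      intro y hy
      rw [Multiset.mem_toFinset, Polynomial.mem_roots hP, Polynomial.IsRoot.def]
      simp only [P, Polynomial.eval_sub, Polynomial.eval_pow, Polynomial.eval_X]
      have hyK : y ∈ K := (Finset.mem_filter.1 hy).2
      haveI := Fintype.ofFinite K
      have := FiniteField.pow_card (⟨y, hyK⟩ : K)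
      rw [Fintype.card_eq_nat_card, hk] at this
      have h5 : y ^ (p ^ k) = y := congrArg Subtype.val this
      rw [h5, sub_self]
    have hcard : P.roots.toFinset.card ≤ S.card := by
      rw [hS, ← hdeg]
      exact (Multiset.toFinset_card_le _).trans (Polynomial.card_roots' P)
    have heq := Finset.eq_of_subset_of_card_le hsub hcard
    have hx2 : x ∈ P.roots.toFinset := by
      rw [Multiset.mem_toFinset, Polynomial.mem_roots hP, Polynomial.IsRoot.def]
      simp only [P, Polynomial.eval_sub, Polynomial.eval_pow, Polynomial.eval_X]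
      rw [hx, sub_self]
    rw [← heq] at hx2
    exact (Finset.mem_filter.1 hx2).2

end Cfsg.Agent.H8.AutPSL
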