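import Mathlib
import Cfsg.Agent.H8.AutL

set_option autoImplicit false

namespace Cfsg.Agent.H8.AutPSL

open Matrix Matrix.SpecialLinearGroup
open scoped Pointwise

variable {F : Type*} [Field F] {n : ℕ}

theorem Pk_one (σ : F ≃+* F) (k : ℕ) : Pk σ (1 : GL (Fin n) F) k = 1 := by
  induction k with
  | zero => rfl
  | succ k ih =>
    show 1 * fldW σ (Pk σ 1 k) = 1
    rw [ih, fldW_one, one_mul]

theorem h90_field [Finite F] (σ : F ≃+* F) (c : Fˣ) (hc : ∏ i ∈ Finset.range (orderOf σ), (σ ^ i) (c : F) = 1) :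
    ∃ d : Fˣ, (c : F) * σ d = d := by
  haveI : Finite (F ≃+* F) := by
    apply Finite.of_injective (fun τ : F ≃+* F => (fun x : F => τ x))
    intro a b h
    ext x
    exact congrFun h x
  obtain ⟨V, hV⟩ := h90 (n := 1) σ (orderOf σ) (orderOf_pos σ) rfl (Matrix.GeneralLinearGroup.scalar (Fin 1) c * 1) (by
    apply Units.ext
    rw [Pk_smul, hc, one_smul, Pk_one])
  rw [eq_mul_inv_iff_mul_eq, mul_one] at hV
  have h0 : ((Matrix.GeneralLinearGroup.scalar (Fin 1) c * fldW σ V : GL (Fin 1) F) : Matrix (Fin 1) (Fin 1) F) = (V : Matrix (Fin 1) (Fin 1) F) := congrArg Units.val hV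
  have h1 := congrFun (congrFun h0 0) 0
  have h2 : ((Matrix.GeneralLinearGroup.scalar (Fin 1) c * fldW σ V : GL (Fin 1) F) : Matrix (Fin 1) (Fin 1) F) 0 0 = (c : F) * σ ((V : Matrix (Fin 1) (Fin 1) F) 0 0) := by
    show (Matrix.scalar (Fin 1) (c : F) * (V : Matrix (Fin 1) (Fin 1) F).map σ) 0 0 = _
    rw [Matrix.scalar_apply, ← Matrix.smul_eq_diagonal_mul]; rfl
  rw [h2] at h1
  have hne : (V : Matrix (Fin 1) (Fin 1) F) 0 0 ≠ 0 := by
    have := det_ne V
    rwa [Matrix.det_fin_one] at this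
  exact ⟨Units.mk0 _ hne, h1⟩

theorem scalar_val (c : Fˣ) : (Matrix.GeneralLinearGroup.scalar (Fin n) c : Matrix (Fin n) (Fin n) F) = (c : F) • 1 := by
  show Matrix.scalar (Fin n) (c : F) = _
  rw [Matrix.scalar_apply, Matrix.smul_one_eq_diagonal]

theorem scalar_mul_val (c : Fˣ) (W : GL (Fin n) F) : ((Matrix.GeneralLinearGroup.scalar (Fin n) c * W : GL (Fin n) F) : Matrix (Fin n) (Fin n) F) = (c : F) • (W : Matrix (Fin n) (Fin n) F) := by
  rw [Units.val_mul, scalar_val, Matrix.smul_mul, one_mul]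

theorem ind_cj_eq [Finite F] (hn : 2 ≤ n) (W V : GL (Fin n) F) (h : ind (cj W) = ind (cj V)) : ∃ c : Fˣ, V = Matrix.GeneralLinearGroup.scalar (Fin n) c * W := by
  have h1 : ind (cj (V * W⁻¹) * fld (1 : F ≃+* F)) = 1 := by
    rw [map_one, mul_one, map_mul, map_mul, map_inv, map_inv, h, mul_inv_cancel]
  have h2 := (ker_cj_fld hn _ _ h1).2
  rw [Matrix.GeneralLinearGroup.center_eq_range_scalar] at h2
  obtain ⟨c, hc⟩ := h2
  exact ⟨c, by rw [hc]; group⟩

/-- centralizer of a field automorphism -/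
theorem comm_field [Finite F] (hn : 2 ≤ n) (σ : F ≃+* F) (W : GL (Fin n) F) (h : ind (cj W) * ind (fld σ) = ind (fld σ) * ind (cj W)) :
    ∃ d : Fˣ, fldW σ (Matrix.GeneralLinearGroup.scalar (Fin n) d * W) = Matrix.GeneralLinearGroup.scalar (Fin n) d * W := by
  have h1 : ind (cj W) = ind (cj (fldW σ W)) := by
    rw [← map_mul ind (fld σ), fld_cj, map_mul ind] at h
    exact mul_right_cancel h
  obtain ⟨c, hc⟩ := ind_cj_eq hn _ _ h1
  have hcv : (W : Matrix (Fin n) (Fin n) F).map σ = (c : F) • (W : Matrix (Fin n) (Fin n) F) := by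
    rw [← fldW_val, hc, scalar_mul_val]
  have hk : ∀ k : ℕ, (W : Matrix (Fin n) (Fin n) F).map (σ ^ k : F ≃+* F) = (∏ i ∈ Finset.range k, (σ ^ i) (c : F)) • (W : Matrix (Fin n) (Fin n) F) := by
    intro k
    induction k with
    | zero =>
      rw [Finset.range_zero, Finset.prod_empty, one_smul]; rfl
    | succ k ih =>
      have e1 : (W : Matrix (Fin n) (Fin n) F).map (σ ^ (k + 1) : F ≃+* F) = ((W : Matrix (Fin n) (Fin n) F).map σ).map (σ ^ k : F ≃+* F) := by
        rw [pow_succ]; rfl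
      rw [e1, hcv, Matrix.map_smul' _ _ _ (map_mul (σ ^ k : F ≃+* F)), ih, smul_smul, Finset.prod_range_succ, mul_comm]
  have hN : ∏ i ∈ Finset.range (orderOf σ), (σ ^ i) (c : F) = 1 := by
    have h2 := hk (orderOf σ)
    rw [pow_orderOf_eq_one] at h2
    have h3 : (W : Matrix (Fin n) (Fin n) F).map (1 : F ≃+* F) = (W : Matrix (Fin n) (Fin n) F) := rfl
    rw [h3] at h2
    have h4 : ((∏ i ∈ Finset.range (orderOf σ), (σ ^ i) (c : F)) - 1) • (W : Matrix (Fin n) (Fin n) F) = 0 := by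
      rw [sub_smul, one_smul, ← h2, sub_self]
    rcases smul_eq_zero.1 h4 with h5 | h5
    · exact sub_eq_zero.1 h5
    · exact absurd h5 (W_ne_zero (by omega) W)
  obtain ⟨d, hd⟩ := h90_field σ c hN
  refine ⟨d, ?_⟩
  apply Units.ext
  rw [fldW_val, scalar_mul_val, Matrix.map_smul' _ _ _ (map_mul σ), hcv, smul_smul, mul_comm, hd]

theorem comm_field' (σ : F ≃+* F) (W : GL (Fin n) F) (h : fldW σ W = W) : ind (cj W) * ind (fld σ) = ind (fld σ) * ind (cj W) := by
  rw [← map_mul ind (fld σ), fld_cj, h, map_mul ind]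

theorem ind_cj_scalar (hn : 1 ≤ n) (d : Fˣ) (W : GL (Fin n) F) : ind (cj (Matrix.GeneralLinearGroup.scalar (Fin n) d * W)) = ind (cj W) := by
  rw [ind_cj_center hn]

theorem dt_scalar (c : Fˣ) : dt (Matrix.GeneralLinearGroup.scalar (Fin n) c) = c ^ n := by
  apply Units.ext
  rw [dt_val, scalar_det, Units.val_pow_eq_pow_val]

theorem fldW_det (σ : F ≃+* F) (W : GL (Fin n) F) : ((fldW σ W : GL (Fin n) F) : Matrix (Fin n) (Fin n) F).det = σ (W : Matrix (Fin n) (Fin n) F).det := by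
  rw [fldW_val]
  exact (RingHom.map_det (σ : F →+* F) _).symm

theorem fldW_Dg (σ : F ≃+* F) (hn : 1 ≤ n) (k : Fˣ) (hk : σ (k : F) = k) : fldW σ (Dg hn k) = Dg (F := F) hn k := by
  apply Units.ext
  rw [fldW_val]
  show (Matrix.diagonal _).map σ = Matrix.diagonal _
  rw [Matrix.diagonal_map (map_zero σ)]
  congr 1
  funext i
  show σ (Function.update (fun _ => (1 : F)) (⟨0, hn⟩ : Fin n) (k : F) i) = Function.update (fun _ => (1 : F)) (⟨0, hn⟩ : Fin n) (k : F) i
  by_cases hi : i = ⟨0, hn⟩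
  · rw [hi, Function.update_self, hk]
  · rw [Function.update_of_ne hi, map_one]

/-- class splitting for field automorphisms -/
theorem split_field [Finite F] (hn : 2 ≤ n) {p f : ℕ} [Fact p.Prime] (hF : Nat.card F = p ^ f) (hf : 1 ≤ f) (σ : F ≃+* F) :
    Cfsg.splitClassCount (dgN n F) (Cfsg.Inn (ProjectiveSpecialLinearGroup (Fin n) F)) (ind (fld σ)) = Nat.gcd n ((p ^ f - 1) / (p ^ (f / orderOf σ) - 1)) := by
  haveI := Fintype.ofFinite F
  obtain ⟨h1, h2, -, -⟩ := fix_iff hF hf σ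
  set q0 := p ^ (f / orderOf σ) with hq0
  have hpp : p.Prime := Fact.out
  have hr0 : 0 < orderOf σ := Nat.pos_of_dvd_of_pos h1 (by omega)
  have hfr : 1 ≤ f / orderOf σ := Nat.div_pos (Nat.le_of_dvd (by omega) h1) hr0
  have hq01 : 1 < q0 := Nat.one_lt_pow (by omega) hpp.one_lt
  have hdiv : (q0 - 1) ∣ (p ^ f - 1) := by
    have h3 : p ^ f = q0 ^ orderOf σ := by rw [hq0, ← pow_mul, Nat.div_mul_cancel h1]
    rw [h3]
    have := Nat.sub_dvd_pow_sub_pow q0 1 (orderOf σ)
    rwa [one_pow] at this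
  have hfix : ∀ u : Fˣ, σ (u : F) = u ↔ u ^ (q0 - 1) = 1 := by
    intro u
    rw [h2]
    have h4 : (u : F) ^ q0 = (u : F) ^ (q0 - 1) * u := by rw [← pow_succ]; congr 1; omega
    rw [h4]
    constructor
    · intro h
      apply Units.ext
      rw [Units.val_pow_eq_pow_val, Units.val_one]
      have h5 : (u : F) ^ (q0 - 1) * u = 1 * u := by rw [h, one_mul]
      exact mul_right_cancel₀ u.ne_zero h5
    · intro h
      have h5 : (u : F) ^ (q0 - 1) = 1 := by rw [← Units.val_pow_eq_pow_val, h, Units.val_one]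
      rw [h5, one_mul]
  rw [split_card (ind (fld σ)) ((powMonoidHom n : Fˣ →* Fˣ).range ⊔ (powMonoidHom (q0 - 1) : Fˣ →* Fˣ).ker) _ _ (dt_surj (by omega))]
  · apply index_join
    rw [Nat.card_units, hF, Nat.mul_div_cancel' hdiv]
  · intro W hW
    obtain ⟨d, hd⟩ := comm_field hn σ W hW
    have h5 : dt (Matrix.GeneralLinearGroup.scalar (Fin n) d * W) ∈ (powMonoidHom (q0 - 1) : Fˣ →* Fˣ).ker := by
      rw [MonoidHom.mem_ker]
      apply (hfix _).1
      rw [dt_val, ← fldW_det, hd]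
    have h6 : dt W = (d⁻¹) ^ n * dt (Matrix.GeneralLinearGroup.scalar (Fin n) d * W) := by
      rw [map_mul, dt_scalar, ← mul_assoc, ← mul_pow, inv_mul_cancel, one_pow, one_mul]
    rw [h6]
    exact Subgroup.mul_mem_sup ⟨d⁻¹, rfl⟩ h5
  · intro m hm
    obtain ⟨a, ⟨x, rfl⟩, k, hk, rfl⟩ := Subgroup.mem_sup.1 hm
    have hn1 : 1 ≤ n := by omega
    have hk' : σ (k : F) = k := (hfix k).2 hk
    refine ⟨Matrix.GeneralLinearGroup.scalar (Fin n) x * Dg hn1 k, ?_, ?_⟩
    · rw [map_mul, dt_scalar]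
      congr 1
      exact Units.ext (Dg_det hn1 k)
    · rw [ind_cj_scalar hn1]
      exact comm_field' σ _ (fldW_Dg σ hn1 k hk')

/-- the centralizer of a field automorphism is `PGL_n` of the fixed field -/
theorem cent_field [Finite F] (hn : 2 ≤ n) {p f : ℕ} [Fact p.Prime] (hF : Nat.card F = p ^ f) (hf : 1 ≤ f) (σ : F ≃+* F)
    (F₀ : Type*) [Field F₀] [Finite F₀] (hF₀ : Nat.card F₀ = p ^ (f / orderOf σ)) :
    Nonempty (↥(dgN n F ⊓ Subgroup.centralizer {ind (fld σ)}) ≃* Matrix.ProjGenLinGroup (Fin n) F₀) := by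
  haveI := Fintype.ofFinite F
  haveI := Fintype.ofFinite F₀
  obtain ⟨h1, h2, h3, h4⟩ := fix_iff hF hf σ
  set K := FixedPoints.subfield (Subgroup.zpowers (σ : RingAut F)) F with hK
  haveI : Fintype K := Fintype.ofFinite K
  let e : F₀ ≃+* K := FiniteField.ringEquivOfCardEq (by rw [Fintype.card_eq_nat_card, Fintype.card_eq_nat_card, hF₀, h3])
  let j : F₀ →+* F := K.subtype.comp (e : F₀ →+* K)
  have hj : ∀ x, σ (j x) = j x := fun x => (h4 _).1 (e x).2
  have hjs : ∀ y : F, σ y = y → ∃ x, j x = y := by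
    intro y hy
    refine ⟨e.symm ⟨y, (h4 y).2 hy⟩, ?_⟩
    show ((e (e.symm ⟨y, (h4 y).2 hy⟩) : K) : F) = y
    rw [RingEquiv.apply_symm_apply]
  let Γ : GL (Fin n) F₀ →* MulAut (ProjectiveSpecialLinearGroup (Fin n) F) := (ind.comp cj).comp (Matrix.GeneralLinearGroup.map j)
  have hval : ∀ g : GL (Fin n) F₀, ((Matrix.GeneralLinearGroup.map j g : GL (Fin n) F) : Matrix (Fin n) (Fin n) F) = (g : Matrix (Fin n) (Fin n) F₀).map j := fun g => rfl
  have hker : Γ.ker = Subgroup.center (GL (Fin n) F₀) := by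
    ext g
    rw [MonoidHom.mem_ker]
    constructor
    · intro h
      have h5 : ind (cj (1 : GL (Fin n) F)) = ind (cj (Matrix.GeneralLinearGroup.map j g)) := by
        rw [map_one, map_one]; exact h.symm
      obtain ⟨c, hc⟩ := ind_cj_eq hn _ _ h5
      rw [mul_one] at hc
      rw [Matrix.GeneralLinearGroup.mem_center_iff_val_mem_range_scalar]
      refine ⟨(g : Matrix (Fin n) (Fin n) F₀) ⟨0, by omega⟩ ⟨0, by omega⟩, ?_⟩
      have h6 : (g : Matrix (Fin n) (Fin n) F₀).map j = (c : F) • 1 := by rw [← hval, hc, scalar_val]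
      ext a b
      apply j.injective
      have h7 := congrFun (congrFun h6 a) b
      rw [Matrix.map_apply] at h7
      rw [h7, Matrix.scalar_apply]
      by_cases hab : a = b
      · rw [hab, Matrix.diagonal_apply_eq, Matrix.smul_apply, Matrix.one_apply_eq]
        have h8 := congrFun (congrFun h6 ⟨0, by omega⟩) ⟨0, by omega⟩
        rw [Matrix.map_apply, Matrix.smul_apply, Matrix.one_apply_eq] at h8
        exact h8
      · rw [Matrix.diagonal_apply_ne _ hab, Matrix.smul_apply, Matrix.one_apply_ne hab, smul_zero, map_zero]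
    · intro h
      rw [Matrix.GeneralLinearGroup.center_eq_range_scalar] at h
      obtain ⟨c, rfl⟩ := h
      show ind (cj (Matrix.GeneralLinearGroup.map j (Matrix.GeneralLinearGroup.scalar (Fin n) c))) = 1
      have h5 : Matrix.GeneralLinearGroup.map j (Matrix.GeneralLinearGroup.scalar (Fin n) c) = Matrix.GeneralLinearGroup.scalar (Fin n) (Units.map (j : F₀ →* F) c) * 1 := by
        apply Units.ext
        rw [hval, scalar_val, scalar_mul_val, Matrix.map_smul' _ _ _ (map_mul j), Matrix.map_one j (map_zero j) (map_one j)]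
        rfl
      rw [h5, ind_cj_scalar (by omega), map_one, map_one]
  have hrange : Γ.range = dgN n F ⊓ Subgroup.centralizer {ind (fld σ)} := by
    ext y
    rw [Subgroup.mem_inf, Subgroup.mem_centralizer_singleton_iff]
    constructor
    · rintro ⟨g, rfl⟩
      refine ⟨⟨_, rfl⟩, ?_⟩
      apply comm_field'
      apply Units.ext
      rw [fldW_val, hval]
      ext a b
      exact hj _
    · rintro ⟨⟨W, rfl⟩, h⟩
      obtain ⟨d, hd⟩ := comm_field hn σ W h
      set W' := Matrix.GeneralLinearGroup.scalar (Fin n) d * W with hW'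
      have hent : ∀ a b, σ ((W' : Matrix (Fin n) (Fin n) F) a b) = (W' : Matrix (Fin n) (Fin n) F) a b := by
        intro a b
        have h0 : (fldW σ W' : Matrix (Fin n) (Fin n) F) = (W' : Matrix (Fin n) (Fin n) F) := congrArg Units.val hd
        have := congrFun (congrFun h0 a) b
        rwa [fldW_val] at this
      choose g hg using fun a b => hjs _ (hent a b)
      have hdet : IsUnit (Matrix.of g : Matrix (Fin n) (Fin n) F₀) := by
        rw [Matrix.isUnit_iff_isUnit_det, isUnit_iff_ne_zero]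
        intro h0
        apply det_ne W'
        have h6 : (W' : Matrix (Fin n) (Fin n) F) = (Matrix.of g : Matrix (Fin n) (Fin n) F₀).map j := by
          ext a b
          exact (hg a b).symm
        rw [h6]
        have h7 : ((Matrix.of g : Matrix (Fin n) (Fin n) F₀).map j).det = j (Matrix.of g : Matrix (Fin n) (Fin n) F₀).det := (RingHom.map_det j _).symm
        rw [h7, h0, map_zero]
      refine ⟨hdet.unit, ?_⟩
      show ind (cj (Matrix.GeneralLinearGroup.map j hdet.unit)) = ind (cj W)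
      have h8 : Matrix.GeneralLinearGroup.map j hdet.unit = W' := by
        apply Units.ext
        ext a b
        exact hg a b
      rw [h8, hW', ind_cj_scalar (by omega)]
  rw [← hrange]
  have e1 : GL (Fin n) F₀ ⧸ Subgroup.center (GL (Fin n) F₀) ≃* Γ.range := (QuotientGroup.quotientMulEquivOfEq hker.symm).trans (QuotientGroup.quotientKerEquivRange Γ)
  exact ⟨e1.symm⟩

end Cfsg.Agent.H8.AutPSL
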