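import Mathlib
import Cfsg.Agent.H8.AutM
import Cfsg.Agent.H7.GU

set_option autoImplicit false

namespace Cfsg.Agent.H8.AutPSL

open Matrix Matrix.SpecialLinearGroup
open scoped Pointwise

variable {F : Type*} [Field F] {n : ℕ}

/-- an involutory field automorphism of a finite field is the `√|F|`-th power map -/
theorem invol_eq [Finite F] {p f : ℕ} [Fact p.Prime] (hF : Nat.card F = p ^ f) (hf : 1 ≤ f) (σ : F ≃+* F) (hord : orderOf σ = 2) :
    Even f ∧ Nat.card F = (p ^ (f / 2)) ^ 2 ∧ ∀ x, σ x = x ^ (p ^ (f / 2)) := by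
  haveI := Fintype.ofFinite F
  obtain ⟨h1, h2, -, -⟩ := fix_iff hF hf σ
  rw [hord] at h1 h2
  have hcard : Nat.card F = (p ^ (f / 2)) ^ 2 := by
    rw [hF, ← pow_mul, Nat.div_mul_cancel h1]
  refine ⟨even_iff_two_dvd.2 h1, hcard, ?_⟩
  obtain ⟨τ, hτ, hτ2, hτ1⟩ := Cfsg.Agent.H7.Herm.exists_frob (F := F) (q := p ^ (f / 2)) (by rw [← Nat.card_eq_fintype_card, hcard])
  have hσσ : ∀ a, σ (σ a) = a := by
    intro a
    have : σ ^ 2 = 1 := by rw [← hord, pow_orderOf_eq_one]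
    exact congrArg (fun t : F ≃+* F => t a) (by rw [← sq]; exact this : σ * σ = 1)
  intro x
  rw [← hτ]
  have h3 : ∀ t, σ t = t → τ t = t := by
    intro t ht; rw [hτ]; exact (h2 t).1 ht
  have h4 := h3 (x + σ x) (by rw [map_add, hσσ, add_comm])
  have h5 := h3 (x * σ x) (by rw [map_mul, hσσ, mul_comm])
  have h6 : (τ x - x) * (τ x - σ x) = 0 := by
    rw [map_add] at h4
    rw [map_mul] at h5
    linear_combination (τ x) * h4 - h5
  rcases mul_eq_zero.1 h6 with h | h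
  · have h7 : τ x = x := sub_eq_zero.1 h
    rw [hτ] at h7
    rw [(h2 x).2 h7, hτ, h7]
  · exact (sub_eq_zero.1 h).symm

theorem unit_iff (σ : F ≃+* F) (hσ2 : ∀ a, σ (σ a) = a) (W : GL (Fin n) F) :
    fldW σ (giT W) = W ↔ (W : Matrix (Fin n) (Fin n) F)ᵀ * (W : Matrix (Fin n) (Fin n) F).map σ = 1 := by
  have hmm : ∀ A : Matrix (Fin n) (Fin n) F, (A.map σ).map σ = A := by
    intro A; ext i j; simp only [Matrix.map_apply, hσ2]
  constructor
  · intro h
    have h1 : fldW σ (giT W)⁻¹ * W = 1 := by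
      rw [fldW_inv, h, inv_mul_cancel]
    have h2 := congrArg Units.val h1
    rw [Units.val_mul, fldW_val, giT_inv_val] at h2
    have h3 := congrArg (fun A : Matrix (Fin n) (Fin n) F => A.map σ) h2
    simp only [Matrix.map_mul, hmm] at h3
    rw [h3]
    exact Matrix.map_one σ (map_zero σ) (map_one σ)
  · intro h
    have h3 := congrArg (fun A : Matrix (Fin n) (Fin n) F => A.map σ) h
    simp only [Matrix.map_mul, hmm] at h3
    have h1 : fldW σ (giT W)⁻¹ * W = 1 := by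
      apply Units.ext
      rw [Units.val_mul, fldW_val, giT_inv_val]
      exact h3.trans (Matrix.map_one σ (map_zero σ) (map_one σ))
    rw [fldW_inv] at h1
    exact (inv_mul_eq_one.1 h1)

/-- the elements commuting with a graph-field involution are unitary up to scalars -/
theorem comm_gf [Finite F] (hn : 2 ≤ n) (σ : F ≃+* F) (hσ : σ ≠ 1) (hσ2 : ∀ a, σ (σ a) = a) (W : GL (Fin n) F)
    (h : ind (cj W) * ind (fld σ * iota) = ind (fld σ * iota) * ind (cj W)) :
    ∃ d : Fˣ, fldW σ (giT (Matrix.GeneralLinearGroup.scalar (Fin n) d * W)) = Matrix.GeneralLinearGroup.scalar (Fin n) d * W := by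
  have hσ' : (σ : F →+* F) ≠ RingHom.id F := by
    intro h; apply hσ; ext x; exact RingHom.congr_fun h x
  have hmm : ∀ A : Matrix (Fin n) (Fin n) F, (A.map σ).map σ = A := by
    intro A; ext i j; simp only [Matrix.map_apply, hσ2]
  have h1 : ind (cj W) = ind (cj (fldW σ (giT W))) := by
    rw [← map_mul ind (fld σ * iota) (cj W), fi_cj, map_mul ind (cj (fldW σ (giT W)))] at h
    exact mul_right_cancel h
  obtain ⟨c, hc⟩ := ind_cj_eq hn _ _ h1
  -- (W.map σ)ᵀ * W = c⁻¹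
  have h2 : (c : F) • (((W : Matrix (Fin n) (Fin n) F).map σ)ᵀ * (W : Matrix (Fin n) (Fin n) F)) = 1 := by
    have h3 : fldW σ (giT W)⁻¹ * (Matrix.GeneralLinearGroup.scalar (Fin n) c * W) = 1 := by
      rw [← hc, fldW_inv]; group
    have h4 := congrArg Units.val h3
    rw [Units.val_mul, fldW_val, giT_inv_val, scalar_mul_val, Matrix.mul_smul] at h4
    exact h4
  have h5 : (c : F) • ((W : Matrix (Fin n) (Fin n) F)ᵀ * (W : Matrix (Fin n) (Fin n) F).map σ) = 1 := by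
    have := congrArg Matrix.transpose h2
    rw [Matrix.transpose_smul, Matrix.transpose_mul, Matrix.transpose_transpose, Matrix.transpose_one] at this
    exact this
  have h6 : σ (c : F) = c := by
    have h7 : (σ (c : F)) • ((W : Matrix (Fin n) (Fin n) F)ᵀ * (W : Matrix (Fin n) (Fin n) F).map σ) = 1 := by
      have h8 := congrArg (fun A : Matrix (Fin n) (Fin n) F => A.map σ) h2
      simp only [Matrix.map_smul' σ _ _ (map_mul σ), Matrix.map_mul] at h8
      rw [Matrix.transpose_map, hmm, Matrix.map_one σ (map_zero σ) (map_one σ)] at h8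
      exact h8
    have h9 : (W : Matrix (Fin n) (Fin n) F)ᵀ * (W : Matrix (Fin n) (Fin n) F).map σ = (c : F)⁻¹ • 1 := by
      rw [← h5, smul_smul, inv_mul_cancel₀ c.ne_zero, one_smul]
    rw [h9, smul_smul] at h7
    have h10 := congrFun (congrFun h7 ⟨0, by omega⟩) ⟨0, by omega⟩
    rw [Matrix.smul_apply, Matrix.one_apply_eq, smul_eq_mul, mul_one] at h10
    exact (mul_inv_eq_one₀ c.ne_zero).1 h10
  obtain ⟨l, hl⟩ := Cfsg.Agent.H7.FormBasis.norm_surj (σ := (σ : F →+* F)) hσ' hσ2 (c : F) c.ne_zero h6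
  have hl0 : l ≠ 0 := by
    rintro rfl
    rw [mul_zero] at hl
    exact c.ne_zero hl.symm
  refine ⟨Units.mk0 l hl0, ?_⟩
  rw [unit_iff σ hσ2, scalar_mul_val, Matrix.map_smul' σ _ _ (map_mul σ), Matrix.transpose_smul, Matrix.smul_mul, Matrix.mul_smul, smul_smul]
  have h11 : ((Units.mk0 l hl0 : Fˣ) : F) * σ ((Units.mk0 l hl0 : Fˣ) : F) = c := by
    rw [Units.val_mk0, mul_comm]; exact hl
  rw [h11, h5]

theorem comm_gf' (σ : F ≃+* F) (W : GL (Fin n) F) (h : fldW σ (giT W) = W) : ind (cj W) * ind (fld σ * iota) = ind (fld σ * iota) * ind (cj W) := by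
  rw [← map_mul ind (fld σ * iota) (cj W), fi_cj, h, map_mul ind (cj W)]

theorem mem_GU_iff [Finite F] {q : ℕ} (σ : F ≃+* F) (hσ2 : ∀ a, σ (σ a) = a) (hσ : ∀ x, σ x = x ^ q) (W : GL (Fin n) F) :
    W ∈ Cfsg.GU n F q ↔ fldW σ (giT W) = W := by
  haveI := Fintype.ofFinite F
  rw [unit_iff σ hσ2]
  exact Cfsg.Agent.H7.Herm.preserve_iff (σ := (σ : F →+* F)) hσ

/-- class splitting for graph-field involutions -/
theorem split_gf [Finite F] (hn : 2 ≤ n) {q : ℕ} (hq : 1 < q) (hF : Nat.card F = q ^ 2) (σ : F ≃+* F) (hσ : ∀ x, σ x = x ^ q)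
    (hσ1 : σ ≠ 1) (hσ2 : ∀ a, σ (σ a) = a) :
    Cfsg.splitClassCount (dgN n F) (Cfsg.Inn (ProjectiveSpecialLinearGroup (Fin n) F)) (ind (fld σ * iota)) = Nat.gcd n (q - 1) := by
  haveI := Fintype.ofFinite F
  have hfix : ∀ u : Fˣ, (u : F) * σ (u : F) = 1 ↔ u ^ (q + 1) = 1 := by
    intro u
    rw [hσ, ← pow_succ', Units.ext_iff, Units.val_pow_eq_pow_val, Units.val_one]
  rw [split_card (ind (fld σ * iota)) ((powMonoidHom n : Fˣ →* Fˣ).range ⊔ (powMonoidHom (q + 1) : Fˣ →* Fˣ).ker) _ _ (dt_surj (by omega))]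
  · apply index_join
    rw [Nat.card_units, hF]; have := Nat.sq_sub_sq q 1; rw [one_pow] at this; exact this
  · intro W hW
    obtain ⟨d, hd⟩ := comm_gf hn σ hσ1 hσ2 W hW
    have h5 : dt (Matrix.GeneralLinearGroup.scalar (Fin n) d * W) ∈ (powMonoidHom (q + 1) : Fˣ →* Fˣ).ker := by
      rw [MonoidHom.mem_ker]
      apply (hfix _).1
      rw [unit_iff σ hσ2] at hd
      have h6 := congrArg Matrix.det hd
      rw [Matrix.det_mul, Matrix.det_transpose, Matrix.det_one] at h6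
      rw [dt_val, ← h6]
      congr 1
      exact RingHom.map_det (σ : F →+* F) _
    have h6 : dt W = (d⁻¹) ^ n * dt (Matrix.GeneralLinearGroup.scalar (Fin n) d * W) := by
      rw [map_mul, dt_scalar, ← mul_assoc, ← mul_pow, inv_mul_cancel, one_pow, one_mul]
    rw [h6]
    exact Subgroup.mul_mem_sup ⟨d⁻¹, rfl⟩ h5
  · intro m hm
    obtain ⟨a, ⟨x, rfl⟩, k, hk, rfl⟩ := Subgroup.mem_sup.1 hm
    have hn1 : 1 ≤ n := by omega
    have hk' : (k : F) * σ (k : F) = 1 := (hfix k).2 hk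
    refine ⟨Matrix.GeneralLinearGroup.scalar (Fin n) x * Dg hn1 k, ?_, ?_⟩
    · rw [map_mul, dt_scalar]
      congr 1
      exact Units.ext (Dg_det hn1 k)
    · rw [ind_cj_scalar hn1]
      apply comm_gf' σ
      rw [unit_iff σ hσ2]
      show (Matrix.diagonal _)ᵀ * (Matrix.diagonal _).map σ = 1
      rw [Matrix.diagonal_transpose, Matrix.diagonal_map (map_zero σ), Matrix.diagonal_mul_diagonal, ← Matrix.diagonal_one]
      congr 1
      funext i
      show Function.update (fun _ => (1 : F)) (⟨0, hn1⟩ : Fin n) (k : F) i * σ (Function.update (fun _ => (1 : F)) (⟨0, hn1⟩ : Fin n) (k : F) i) = 1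
      by_cases hi : i = ⟨0, hn1⟩
      · rw [hi, Function.update_self, hk']
      · rw [Function.update_of_ne hi, map_one, one_mul]

/-- the centralizer of a graph-field involution is `PGU_n` -/
theorem cent_gf [Finite F] (hn : 2 ≤ n) {q : ℕ} (σ : F ≃+* F) (hσ : ∀ x, σ x = x ^ q)
    (hσ1 : σ ≠ 1) (hσ2 : ∀ a, σ (σ a) = a) :
    Nonempty (↥(dgN n F ⊓ Subgroup.centralizer {ind (fld σ * iota)}) ≃* Cfsg.PGU n F q) := by
  let Γ : (Cfsg.GU n F q) →* MulAut (ProjectiveSpecialLinearGroup (Fin n) F) := (ind.comp cj).comp (Cfsg.GU n F q).subtype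
  have hker : Γ.ker = (Cfsg.Geo.scalars (Fin n) F).subgroupOf (Cfsg.GU n F q) := by
    ext g
    rw [MonoidHom.mem_ker, Subgroup.mem_subgroupOf, Cfsg.Geo.mem_scalars_iff]
    constructor
    · intro h
      have h5 : ind (cj (1 : GL (Fin n) F)) = ind (cj (g : GL (Fin n) F)) := by
        rw [map_one, map_one]; exact h.symm
      obtain ⟨c, hc⟩ := ind_cj_eq hn _ _ h5
      refine ⟨c, ?_⟩
      rw [hc, scalar_mul_val]; rfl
    · rintro ⟨c, hc⟩
      show ind (cj (g : GL (Fin n) F)) = 1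
      have h5 : (g : GL (Fin n) F) = Matrix.GeneralLinearGroup.scalar (Fin n) c * 1 := by
        apply Units.ext
        rw [hc, scalar_mul_val]; rfl
      rw [h5, ind_cj_scalar (by omega), map_one, map_one]
  have hrange : Γ.range = dgN n F ⊓ Subgroup.centralizer {ind (fld σ * iota)} := by
    ext y
    rw [Subgroup.mem_inf, Subgroup.mem_centralizer_singleton_iff]
    constructor
    · rintro ⟨g, rfl⟩
      refine ⟨⟨_, rfl⟩, ?_⟩
      exact comm_gf' σ _ ((mem_GU_iff σ hσ2 hσ _).1 g.2)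
    · rintro ⟨⟨W, rfl⟩, h⟩
      obtain ⟨d, hd⟩ := comm_gf hn σ hσ1 hσ2 W h
      refine ⟨⟨Matrix.GeneralLinearGroup.scalar (Fin n) d * W, (mem_GU_iff σ hσ2 hσ _).2 hd⟩, ?_⟩
      show ind (cj (Matrix.GeneralLinearGroup.scalar (Fin n) d * W)) = ind (cj W)
      rw [ind_cj_scalar (by omega)]
  rw [← hrange]
  have e1 : (Cfsg.GU n F q) ⧸ (Cfsg.Geo.scalars (Fin n) F).subgroupOf (Cfsg.GU n F q) ≃* Γ.range := (QuotientGroup.quotientMulEquivOfEq hker.symm).trans (QuotientGroup.quotientKerEquivRange Γ)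
  exact ⟨e1.symm⟩

/-- data of an involutory graph-field automorphism -/
theorem gf_data [Finite F] (hn : 2 ≤ n) (x : MulAut (ProjectiveSpecialLinearGroup (Fin n) F)) (hx : Cfsg.IsGraphFieldAutClassPSL x) (hx2 : orderOf x = 2) :
    ∃ σ : F ≃+* F, σ ≠ 1 ∧ (∀ a, σ (σ a) = a) ∧ orderOf σ = 2 ∧ Cfsg.IsConjUnder (dgN n F) (ind (fld σ * iota)) x := by
  obtain ⟨hn3, α, φ, γ, σ, hσ, hφ, hγ, hx⟩ := hx
  have e1 := std_eq hφ
  have e2 := it_eq hγ
  rw [e1, e2, ← map_mul] at hx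
  have hpow : (ind (fld σ * iota) : MulAut (Matrix.ProjectiveSpecialLinearGroup (Fin n) F)) ^ 2 = 1 := by
    rw [← hx, conj_pow, ← hx2, pow_orderOf_eq_one]; group
  have hσσ : σ * σ = 1 := by
    rw [← map_pow, sq, fi_sq] at hpow
    have h4 : ind (cj 1 * fld (σ * σ)) = (1 : MulAut (Matrix.ProjectiveSpecialLinearGroup (Fin n) F)) := by
      rw [map_one, one_mul]; exact hpow
    exact (ker_cj_fld hn _ _ h4).1
  have hσ2 : ∀ a, σ (σ a) = a := fun a => congrArg (fun τ : F ≃+* F => τ a) hσσ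
  refine ⟨σ, hσ, hσ2, orderOf_eq_prime (by rw [sq]; exact hσσ) hσ, ?_⟩
  apply to_std hn x α _ hx
  · intro τ
    rw [commute_iff_eq, ← map_mul, ← map_mul, ← mul_assoc, ← map_mul, mul_assoc, iota_fld, ← mul_assoc, ← map_mul, aut_comm]
  · rw [commute_iff_eq, ← map_mul, ← map_mul, ← mul_assoc, iota_fld]

end Cfsg.Agent.H8.AutPSL
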