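import Mathlib

set_option autoImplicit false

namespace Cfsg.Agent.H8

/-- Splitting of a `G`-class into classes of the kernel `S` of `f : G → A`. -/
theorem card_classes_split {S G A : Type*} [Group S] [Group G] [CommGroup A] (φ : S →* G)
    (hφ : Function.Injective φ) (f : G →* A) (hf : Function.Surjective f) (hker : φ.range = f.ker) (x : S) :
    Nat.card {C : ConjClasses S // ∃ s, ConjClasses.mk s = C ∧ IsConj (φ x) (φ s)} =
      ((Subgroup.centralizer {φ x}).map f).index := by
  classical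
  have hfx : ∀ s, f (φ s) = 1 := by
    intro s
    have : φ s ∈ f.ker := by rw [← hker]; exact ⟨s, rfl⟩
    exact this
  have hex : ∀ g : G, ∃ s : S, φ s = g * φ x * g⁻¹ := by
    intro g
    have : g * φ x * g⁻¹ ∈ φ.range := by
      rw [hker, MonoidHom.mem_ker]; simp [hfx]
    exact this
  choose s hs using hex
  have hkey : ∀ g h : G, IsConj (s g) (s h) ↔ (f g)⁻¹ * f h ∈ (Subgroup.centralizer {φ x}).map f := by
    intro g h
    rw [isConj_iff]
    constructor
    · rintro ⟨k, hk⟩
      have h1 := congrArg φ hk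
      rw [map_mul, map_mul, map_inv, hs, hs] at h1
      -- k g x g⁻¹ k⁻¹ = h x h⁻¹
      refine ⟨g⁻¹ * (φ k)⁻¹ * h, ?_, ?_⟩
      · show _ ∈ Subgroup.centralizer {φ x}
        rw [Subgroup.mem_centralizer_singleton_iff]
        calc g⁻¹ * (φ k)⁻¹ * h * φ x = g⁻¹ * (φ k)⁻¹ * (h * φ x * h⁻¹) * h := by group
          _ = g⁻¹ * (φ k)⁻¹ * (φ k * (g * φ x * g⁻¹) * (φ k)⁻¹) * h := by rw [h1]
          _ = φ x * (g⁻¹ * (φ k)⁻¹ * h) := by group
      · rw [map_mul, map_mul, map_inv, map_inv, hfx]; simp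
    · rintro ⟨c, hc, hc2⟩
      have hc' : c * φ x = φ x * c := (Subgroup.mem_centralizer_singleton_iff).1 hc
      have h1 : h * c⁻¹ * g⁻¹ ∈ φ.range := by
        rw [hker, MonoidHom.mem_ker, map_mul, map_mul, map_inv, map_inv, hc2]
        simp [mul_comm]
      obtain ⟨k, hk⟩ := h1
      refine ⟨k, hφ ?_⟩
      rw [map_mul, map_mul, map_inv, hs, hs, hk]
      calc h * c⁻¹ * g⁻¹ * (g * φ x * g⁻¹) * (h * c⁻¹ * g⁻¹)⁻¹ = h * c⁻¹ * (φ x * c) * h⁻¹ := by group
        _ = h * c⁻¹ * (c * φ x) * h⁻¹ := by rw [hc']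
        _ = h * φ x * h⁻¹ := by group
  choose r hr using hf
  let F : A ⧸ ((Subgroup.centralizer {φ x}).map f) → {C : ConjClasses S // ∃ s, ConjClasses.mk s = C ∧ IsConj (φ x) (φ s)} :=
    Quotient.lift (fun a => ⟨ConjClasses.mk (s (r a)), ⟨s (r a), rfl, by rw [hs, isConj_iff]; exact ⟨r a, rfl⟩⟩⟩) (by
      intro a b hab
      apply Subtype.ext
      rw [ConjClasses.mk_eq_mk_iff_isConj, hkey, hr, hr]
      exact QuotientGroup.leftRel_apply.1 hab)
  have hF : Function.Bijective F := by
    constructor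
    · intro a b
      refine Quotient.inductionOn₂' a b ?_
      intro a b hab
      have h1 : ConjClasses.mk (s (r a)) = ConjClasses.mk (s (r b)) := congrArg Subtype.val hab
      rw [ConjClasses.mk_eq_mk_iff_isConj, hkey, hr, hr] at h1
      exact QuotientGroup.eq.2 h1
    · rintro ⟨C, t, rfl, ht⟩
      obtain ⟨g, hg⟩ := isConj_iff.1 ht
      refine ⟨QuotientGroup.mk (f g), ?_⟩
      apply Subtype.ext
      show ConjClasses.mk (s (r (f g))) = ConjClasses.mk t
      rw [ConjClasses.mk_eq_mk_iff_isConj]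
      have h2 : t = s g := hφ (by rw [hs, hg])
      rw [h2, hkey, hr, inv_mul_cancel]
      exact Subgroup.one_mem _
  rw [← Nat.card_congr (Equiv.ofBijective F hF)]
  rfl

/-- the version for `SL_n` in `GL_n` -/
theorem card_SL_classes {F : Type*} [Field F] {n : ℕ} (hn : 1 ≤ n) (x : Matrix.SpecialLinearGroup (Fin n) F) :
    Nat.card {C : ConjClasses (Matrix.SpecialLinearGroup (Fin n) F) // ∃ s, ConjClasses.mk s = C ∧
      IsConj (Matrix.SpecialLinearGroup.toGL x) (Matrix.SpecialLinearGroup.toGL s)} =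
      ((Subgroup.centralizer {Matrix.SpecialLinearGroup.toGL x}).map (Matrix.GeneralLinearGroup.det (n := Fin n) (R := F))).index := by
  apply card_classes_split
  · intro a b h
    apply Subtype.ext
    exact congrArg Units.val h
  · intro d
    refine ⟨⟨Matrix.diagonal (fun i => if i = ⟨0, by omega⟩ then (d : F) else 1), Matrix.diagonal (fun i => if i = ⟨0, by omega⟩ then ((d⁻¹ : Fˣ) : F) else 1), ?_, ?_⟩, ?_⟩
    · rw [Matrix.diagonal_mul_diagonal, ← Matrix.diagonal_one]; congr 1; ext i; split_ifs <;> simp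
    · rw [Matrix.diagonal_mul_diagonal, ← Matrix.diagonal_one]; congr 1; ext i; split_ifs <;> simp
    · apply Units.ext
      show (Matrix.diagonal (fun i : Fin n => if i = ⟨0, by omega⟩ then (d : F) else 1)).det = d
      rw [Matrix.det_diagonal]
      simp
  · ext g
    constructor
    · rintro ⟨s, rfl⟩
      rw [MonoidHom.mem_ker]
      apply Units.ext
      exact s.2
    · intro h
      rw [MonoidHom.mem_ker] at h
      refine ⟨⟨g, congrArg Units.val h⟩, ?_⟩
      apply Units.ext
      rfl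

end Cfsg.Agent.H8
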