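import Mathlib

set_option autoImplicit false

namespace Cfsg.Agent.H8

theorem cyc_pow_iff {G : Type*} [CommGroup G] [Finite G] [IsCyclic G] (n : ℕ) (x : G) :
    (∃ y : G, y ^ n = x) ↔ x ^ (Nat.card G / Nat.gcd (Nat.card G) n) = 1 := by
  have hN : 0 < Nat.card G := Nat.card_pos
  set N := Nat.card G with hNdef
  have hd : 0 < Nat.gcd N n := Nat.gcd_pos_of_pos_left _ hN
  constructor
  · rintro ⟨y, rfl⟩
    rw [← pow_mul]
    obtain ⟨n', hn'⟩ := Nat.gcd_dvd_right N n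
    obtain ⟨N', hN'⟩ := Nat.gcd_dvd_left N n
    have h1 : n * (N / Nat.gcd N n) = N * n' := by
      have h2 : N / Nat.gcd N n = N' := Nat.div_eq_of_eq_mul_right hd hN'
      rw [h2]
      calc n * N' = (Nat.gcd N n * n') * N' := by rw [← hn']
        _ = (Nat.gcd N n * N') * n' := by ring
        _ = N * n' := by rw [← hN']
    rw [h1, pow_mul, hNdef, pow_card_eq_one', one_pow]
  · intro h
    obtain ⟨g, hg⟩ := IsCyclic.exists_generator (α := G)
    obtain ⟨k, rfl⟩ := (Subgroup.mem_zpowers_iff).1 (hg x)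
    have hord : orderOf g = N := by rw [hNdef]; exact orderOf_eq_card_of_forall_mem_zpowers hg
    obtain ⟨N', hN'⟩ := Nat.gcd_dvd_left N n
    have h2 : N / Nat.gcd N n = N' := Nat.div_eq_of_eq_mul_right hd hN'
    rw [h2, ← zpow_natCast, ← zpow_mul] at h
    have h3 := orderOf_dvd_iff_zpow_eq_one.2 h
    rw [hord] at h3
    have h4 : (Nat.gcd N n : ℤ) ∣ k := by
      have hN'0 : (N' : ℤ) ≠ 0 := by
        intro h0
        have : N' = 0 := by exact_mod_cast h0
        rw [this, mul_zero] at hN'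
        omega
      have h5 : ((Nat.gcd N n : ℤ) * N') ∣ k * N' := by
        have : ((Nat.gcd N n : ℤ) * N') = (N : ℤ) := by exact_mod_cast hN'.symm
        rw [this]; exact h3
      exact Int.dvd_of_mul_dvd_mul_right hN'0 h5
    obtain ⟨t, ht⟩ := h4
    refine ⟨g ^ (Nat.gcdB N n * t), ?_⟩
    rw [← zpow_natCast, ← zpow_mul]
    have h6 := Nat.gcd_eq_gcd_ab N n
    have h7 : k = N * (Nat.gcdA N n * t) + Nat.gcdB N n * t * n := by
      rw [ht, h6]; ring
    have h8 : g ^ N = 1 := by rw [← hord]; exact pow_orderOf_eq_one g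
    have h9 : g ^ ((N : ℤ) * (Nat.gcdA N n * t)) = 1 := by rw [zpow_mul, zpow_natCast, h8, one_zpow]
    rw [h7, zpow_add, h9, one_mul]

/-- order form -/
theorem cyc_pow_iff' {G : Type*} [CommGroup G] [Finite G] [IsCyclic G] (n : ℕ) (x : G) :
    (∃ y : G, y ^ n = x) ↔ orderOf x ∣ (Nat.card G / Nat.gcd (Nat.card G) n) := by
  rw [cyc_pow_iff, orderOf_dvd_iff_pow_eq_one]

/-- a 2-element of order `2^b` is an `n`th power iff `b + v(n) ≤ v(N)` or `b = 0`. -/
theorem cyc_two_pow_iff {G : Type*} [CommGroup G] [Finite G] [IsCyclic G] (n : ℕ) (hn : n ≠ 0) (x : G) (b : ℕ)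
    (hb : orderOf x = 2 ^ b) :
    (∃ y : G, y ^ n = x) ↔ (b = 0 ∨ b + padicValNat 2 n ≤ padicValNat 2 (Nat.card G)) := by
  have hN : Nat.card G ≠ 0 := Nat.card_pos.ne'
  rw [cyc_pow_iff', hb]
  have hg0 : Nat.gcd (Nat.card G) n ≠ 0 := (Nat.gcd_pos_of_pos_right _ (Nat.pos_of_ne_zero hn)).ne'
  have hq0 : Nat.card G / Nat.gcd (Nat.card G) n ≠ 0 :=
    (Nat.div_pos (Nat.le_of_dvd Nat.card_pos (Nat.gcd_dvd_left _ _)) (Nat.pos_of_ne_zero hg0)).ne'
  rw [padicValNat_dvd_iff_le hq0, padicValNat.div_of_dvd (Nat.gcd_dvd_left _ _)]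
  have hgv : padicValNat 2 (Nat.gcd (Nat.card G) n) = min (padicValNat 2 (Nat.card G)) (padicValNat 2 n) := by
    have h1 := Nat.factorization_gcd hN hn
    have h2 := DFunLike.congr_fun h1 2
    simpa [Nat.factorization_def _ Nat.prime_two] using h2
  rw [hgv]
  omega

end Cfsg.Agent.H8
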