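import Mathlib
import Cfsg.Prelude.Def_LieTypeDatum
import Cfsg.Agent.H8.AutM

set_option autoImplicit false

namespace Cfsg.Agent.H8.MDat

open Matrix
open Cfsg.Agent.H8.AutPSL (ind ind_mk exists_proj)

variable {ι : Type} [Fintype ι] [DecidableEq ι] {F : Type*} [Field F]

/-- entrywise field automorphism -/
def fW (σ : F ≃+* F) : GL ι F →* GL ι F := Matrix.GeneralLinearGroup.map (σ : F →+* F)

/-- scalar matrices -/
def sc : Fˣ →* GL ι F := Matrix.GeneralLinearGroup.scalar ι

theorem fW_val (σ : F ≃+* F) (W : GL ι F) : (fW σ W : Matrix ι ι F) = (W : Matrix ι ι F).map σ := rfl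

theorem fW_mul (σ : F ≃+* F) (W V : GL ι F) : fW σ (W * V) = fW σ W * fW σ V := map_mul _ _ _

theorem fW_one (σ : F ≃+* F) : fW σ (1 : GL ι F) = 1 := map_one _

theorem fW_inv (σ : F ≃+* F) (W : GL ι F) : fW σ W⁻¹ = (fW σ W)⁻¹ := map_inv _ _

theorem fW_id (W : GL ι F) : fW 1 W = W := by apply Units.ext; rfl

theorem fW_comp (σ τ : F ≃+* F) (W : GL ι F) : fW (σ * τ) W = fW σ (fW τ W) := by apply Units.ext; rfl

theorem sc_val (c : Fˣ) : ((sc c : GL ι F) : Matrix ι ι F) = (c : F) • 1 := by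
  show Matrix.scalar ι (c : F) = _
  rw [Matrix.scalar_apply, Matrix.smul_one_eq_diagonal]

theorem sc_mul_val (c : Fˣ) (W : GL ι F) : ((sc c * W : GL ι F) : Matrix ι ι F) = (c : F) • (W : Matrix ι ι F) := by
  rw [Units.val_mul, sc_val, Matrix.smul_mul, one_mul]

theorem sc_comm (c : Fˣ) (W : GL ι F) : sc c * W = W * sc c := by
  apply Units.ext
  rw [sc_mul_val, Units.val_mul, sc_val, Matrix.mul_smul, mul_one]

theorem fW_sc (σ : F ≃+* F) (c : Fˣ) : fW σ (sc c : GL ι F) = sc (Units.map (σ : F →* F) c) := by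
  apply Units.ext
  rw [fW_val, sc_val, sc_val, Matrix.map_smul' σ _ _ (map_mul σ), Matrix.map_one σ (map_zero σ) (map_one σ)]
  rfl

theorem W_ne_zero [Nonempty ι] (W : GL ι F) : (W : Matrix ι ι F) ≠ 0 := by
  intro h
  have h1 : (W : Matrix ι ι F) * ((W⁻¹ : GL ι F) : Matrix ι ι F) = 1 := congrArg Units.val (mul_inv_cancel W)
  rw [h, zero_mul] at h1
  have i : ι := Classical.arbitrary ι
  have h2 := congrFun (congrFun h1 i) i
  simp at h2

theorem sc_inj [Nonempty ι] {c d : Fˣ} (h : (sc c : GL ι F) = sc d) : c = d := by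
  have h1 : ((sc c : GL ι F) : Matrix ι ι F) = ((sc d : GL ι F) : Matrix ι ι F) := congrArg Units.val h
  rw [sc_val, sc_val] at h1
  have i : ι := Classical.arbitrary ι
  have h2 := congrFun (congrFun h1 i) i
  simp at h2
  exact Units.ext h2

/-- Galois descent for a semilinear map of finite order -/
theorem descent (σ : F ≃+* F) (r : ℕ) (hr : 0 < r) (hord : orderOf σ = r) (s : (ι → F) → (ι → F))
    (hadd : ∀ u v, s (u + v) = s u + s v) (hsm : ∀ (a : F) v, s (a • v) = σ a • s v) (hsr : ∀ v, s^[r] v = v) :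
    ∃ b : Module.Basis ι F (ι → F), ∀ j, s (b j) = b j := by
  classical
  let T : (ι → F) → (ι → F) := fun v => ∑ i ∈ Finset.range r, s^[i] v
  let S : (ι → F) →+ (ι → F) := AddMonoidHom.mk' s hadd
  have hT : ∀ v, s (T v) = T v := by
    intro v
    have h1 : s (T v) = ∑ i ∈ Finset.range r, s (s^[i] v) := map_sum S _ _
    rw [h1]
    have h2 : ∀ i, s (s^[i] v) = s^[i + 1] v := fun i => (Function.iterate_succ_apply' s i v).symm
    rw [Finset.sum_congr rfl (fun i _ => h2 i)]
    have h3 := Finset.sum_range_succ (fun i => s^[i] v) r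
    have h4 := Finset.sum_range_succ' (fun i => s^[i] v) r
    rw [h3] at h4
    have h5 : s^[0] v = v := rfl
    rw [h5, hsr v] at h4
    exact (add_right_cancel h4).symm
  have hit : ∀ (i : ℕ) (a : F) v, s^[i] (a • v) = (σ ^ i) a • s^[i] v := by
    intro i
    induction i with
    | zero => intro a v; rfl
    | succ i ih =>
      intro a v
      rw [Function.iterate_succ_apply, hsm, ih, Function.iterate_succ_apply, pow_succ]
      rfl
  have hspan : ⊤ ≤ Submodule.span F (Set.range T) := by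
    by_contra hcon
    have hlt : Submodule.span F (Set.range T) < ⊤ := lt_of_le_of_ne le_top (fun h => hcon (le_of_eq h.symm))
    obtain ⟨f, hf0, hf⟩ := Submodule.exists_le_ker_of_lt_top _ hlt
    apply hf0
    apply LinearMap.ext
    intro v
    rw [LinearMap.zero_apply]
    have h1 : ∀ a : F, ∑ i : Fin r, f (s^[(i : ℕ)] v) * (σ ^ (i : ℕ)) a = 0 := by
      intro a
      have h2 : T (a • v) ∈ LinearMap.ker f := hf (Submodule.subset_span ⟨_, rfl⟩)
      rw [LinearMap.mem_ker] at h2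
      have h3 : T (a • v) = ∑ i ∈ Finset.range r, (σ ^ i) a • s^[i] v := Finset.sum_congr rfl (fun i _ => hit i a v)
      rw [h3, map_sum] at h2
      rw [Fin.sum_univ_eq_sum_range (fun i => f (s^[i] v) * (σ ^ i) a), ← h2]
      apply Finset.sum_congr rfl
      intro i _
      rw [map_smul, smul_eq_mul, mul_comm]
    have hinj : Function.Injective (fun i : Fin r => (((σ ^ (i : ℕ) : F ≃+* F) : F →+* F) : F →* F)) := by
      intro i j hij
      have h4 : σ ^ (i : ℕ) = σ ^ (j : ℕ) := by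
        ext x
        exact congrArg (fun g : F →* F => g x) hij
      have h5 := pow_inj_mod.1 h4
      rw [hord, Nat.mod_eq_of_lt i.2, Nat.mod_eq_of_lt j.2] at h5
      exact Fin.ext h5
    have hli := (linearIndependent_monoidHom F F).comp _ hinj
    rw [Fintype.linearIndependent_iff] at hli
    have h6 := hli (fun i => f (s^[(i : ℕ)] v)) (by
      funext a
      have := h1 a
      rw [Finset.sum_apply]
      exact this) ⟨0, hr⟩
    exact h6
  let b0 := Module.Basis.ofSpan hspan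
  haveI : Fintype ((linearIndepOn_empty F (id : (ι → F) → (ι → F))).extend (Set.empty_subset (Set.range T))) := FiniteDimensional.fintypeBasisIndex b0
  have hcard : Fintype.card ((linearIndepOn_empty F (id : (ι → F) → (ι → F))).extend (Set.empty_subset (Set.range T))) = Fintype.card ι := by
    have := Module.finrank_eq_card_basis b0
    rw [Module.finrank_fintype_fun_eq_card] at this
    exact this.symm
  let b := b0.reindex (Fintype.equivOfCardEq hcard)
  refine ⟨b, ?_⟩
  intro j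
  have h1 : b j ∈ Set.range T := by
    apply Module.Basis.ofSpan_subset hspan
    rw [Module.Basis.reindex_apply]
    exact ⟨_, rfl⟩
  obtain ⟨v, hv⟩ := h1
  rw [← hv, hT]

/-- the cocycle products -/
def Pk (σ : F ≃+* F) (W : GL ι F) : ℕ → GL ι F
  | 0 => 1
  | k + 1 => W * fW σ (Pk σ W k)

theorem Pk_comm (σ : F ≃+* F) (W : GL ι F) (k : ℕ) : W * fW σ (Pk σ W k) = Pk σ W k * fW (σ ^ k) W := by
  induction k with
  | zero =>
    show W * fW σ 1 = 1 * fW 1 W
    rw [fW_one, mul_one, one_mul]; apply Units.ext; rfl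
  | succ k ih =>
    show W * fW σ (W * fW σ (Pk σ W k)) = W * fW σ (Pk σ W k) * fW (σ ^ (k + 1)) W
    rw [ih, fW_mul, ← mul_assoc]
    congr 1
    apply Units.ext
    rw [pow_succ']; rfl

theorem iter_eq (σ : F ≃+* F) (W : GL ι F) (k : ℕ) (v : ι → F) :
    (fun v : ι → F => (W : Matrix ι ι F) *ᵥ (σ ∘ v))^[k] v = (Pk σ W k : Matrix ι ι F) *ᵥ ((σ ^ k : F ≃+* F) ∘ v) := by
  induction k with
  | zero =>
    show v = (1 : Matrix ι ι F) *ᵥ v
    rw [Matrix.one_mulVec]
  | succ k ih =>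
    rw [Function.iterate_succ_apply', ih]
    show (W : Matrix ι ι F) *ᵥ (σ ∘ ((Pk σ W k : Matrix ι ι F) *ᵥ ((σ ^ k : F ≃+* F) ∘ v))) = ((W : Matrix ι ι F) * (Pk σ W k : Matrix ι ι F).map σ) *ᵥ _
    rw [← Matrix.mulVec_mulVec]
    congr 1
    funext i
    show σ (((Pk σ W k : Matrix ι ι F) *ᵥ ((σ ^ k : F ≃+* F) ∘ v)) i) = _
    rw [Matrix.mulVec, Matrix.mulVec, dotProduct, dotProduct, map_sum]
    apply Finset.sum_congr rfl
    intro j _
    rw [map_mul, Matrix.map_apply, pow_succ']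
    rfl

theorem h90 (σ : F ≃+* F) (r : ℕ) (hr : 0 < r) (hord : orderOf σ = r) (W : GL ι F) (hW : Pk σ W r = 1) :
    ∃ V : GL ι F, W = V * (fW σ V)⁻¹ := by
  obtain ⟨b, hb⟩ := descent σ r hr hord (fun v : ι → F => (W : Matrix ι ι F) *ᵥ (σ ∘ v)) (by
      intro u v
      show (W : Matrix ι ι F) *ᵥ (σ ∘ (u + v)) = _
      rw [← Matrix.mulVec_add]
      congr 1
      funext i
      exact map_add σ _ _) (by
      intro a v
      show (W : Matrix ι ι F) *ᵥ (σ ∘ (a • v)) = σ a • _
      rw [← Matrix.mulVec_smul]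
      congr 1
      funext i
      exact map_mul σ _ _) (by
      intro v
      rw [iter_eq, hW, ← hord, pow_orderOf_eq_one, Units.val_one, Matrix.one_mulVec]
      rfl)
  let Vm : Matrix ι ι F := (Pi.basisFun F ι).toMatrix b
  have hVu : IsUnit Vm := by
    rw [Matrix.isUnit_iff_isUnit_det]
    haveI := (Pi.basisFun F ι).invertibleToMatrix b
    exact Matrix.isUnit_det_of_invertible _
  have hVa : ∀ i j, Vm i j = b j i := fun i j => rfl
  refine ⟨hVu.unit, ?_⟩
  rw [eq_mul_inv_iff_mul_eq]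
  apply Units.ext
  rw [Units.val_mul, fW_val]
  show (W : Matrix ι ι F) * Vm.map σ = Vm
  ext i j
  rw [hVa, ← hb j]
  rfl


theorem Pk_smul (σ : F ≃+* F) (W : GL ι F) (d : Fˣ) (k : ℕ) :
    (Pk σ (sc d * W) k : Matrix ι ι F) = (∏ i ∈ Finset.range k, (σ ^ i) (d : F)) • (Pk σ W k : Matrix ι ι F) := by
  induction k with
  | zero =>
    show (1 : Matrix ι ι F) = _ • (1 : Matrix ι ι F)
    simp
  | succ k ih =>
    have e0 : (Pk σ (sc d * W) (k + 1) : Matrix ι ι F) = ((sc d * W : GL ι F) : Matrix ι ι F) * (Pk σ (sc d * W) k : Matrix ι ι F).map σ := rfl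
    have e1 : (Pk σ W (k + 1) : Matrix ι ι F) = (W : Matrix ι ι F) * (Pk σ W k : Matrix ι ι F).map σ := rfl
    rw [e0, e1, ih, sc_mul_val, Matrix.map_smul' σ _ _ (map_mul σ), Finset.prod_range_succ', Matrix.mul_smul, Matrix.smul_mul, smul_smul]
    congr 1
    rw [map_prod, pow_zero]
    congr 1
    apply Finset.prod_congr rfl
    intro i _
    rw [pow_succ']; rfl

theorem Pk_mem (D : Subgroup (GL ι F)) (σ : F ≃+* F) (hD : ∀ W ∈ D, fW σ W ∈ D) {W : GL ι F} (hW : W ∈ D) (k : ℕ) : Pk σ W k ∈ D := by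
  induction k with
  | zero => exact D.one_mem
  | succ k ih => exact D.mul_mem hW (hD _ ih)

end Cfsg.Agent.H8.MDat
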