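import Mathlib
import Cfsg.Agent.H8.MD0

set_option autoImplicit false

namespace Cfsg.Agent.H8.MDat

open Matrix
open Cfsg.Agent.H8.AutPSL (ind ind_mk exists_proj)

/-- matrix group datum -/
structure MD (ι : Type) [Fintype ι] [DecidableEq ι] (F : Type*) [Field F] (S : Type*) [Group S] where
  m : S →* GL ι F
  minj : Function.Injective m
  D : Subgroup (GL ι F)
  cjm : ∀ W ∈ D, ∀ s, ∃ s', m s' = W * m s * W⁻¹
  fdm : ∀ (σ : F ≃+* F) s, ∃ s', m s' = fW σ (m s)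
  fD : ∀ (σ : F ≃+* F) W, W ∈ D → fW σ W ∈ D
  SD : ∀ s, m s ∈ D
  rig : ∀ W ∈ D, ∀ σ : F ≃+* F, (∀ s s', m s' = W * fW σ (m s) * W⁻¹ →
    (QuotientGroup.mk s' : S ⧸ Subgroup.center S) = QuotientGroup.mk s) → σ = 1 ∧ ∃ c : Fˣ, W = sc c

variable {ι : Type} [Fintype ι] [DecidableEq ι] {F : Type*} [Field F] {S : Type*} [Group S]

namespace MD
variable (X : MD ι F S)

noncomputable def cjF (W : X.D) (s : S) : S := Classical.choose (X.cjm W.1 W.2 s)

theorem m_cjF (W : X.D) (s : S) : X.m (X.cjF W s) = W.1 * X.m s * W.1⁻¹ := Classical.choose_spec (X.cjm W.1 W.2 s)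

noncomputable def fdF (σ : F ≃+* F) (s : S) : S := Classical.choose (X.fdm σ s)

theorem m_fdF (σ : F ≃+* F) (s : S) : X.m (X.fdF σ s) = fW σ (X.m s) := Classical.choose_spec (X.fdm σ s)

/-- conjugation -/
noncomputable def cj : X.D →* MulAut S where
  toFun W := { toFun := X.cjF W, invFun := X.cjF W⁻¹,
               left_inv := fun s => by
                 apply X.minj; rw [X.m_cjF, X.m_cjF]; show W.1⁻¹ * _ * (W.1⁻¹)⁻¹ = _; group
               right_inv := fun s => by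
                 apply X.minj; rw [X.m_cjF, X.m_cjF]; show _ * (W.1⁻¹ * _ * (W.1⁻¹)⁻¹) * _ = _; group
               map_mul' := fun s t => by
                 apply X.minj; rw [X.m_cjF, map_mul, map_mul, X.m_cjF, X.m_cjF]; group }
  map_one' := by
    ext1 s
    apply X.minj
    show X.m (X.cjF 1 s) = X.m s
    rw [X.m_cjF]; show 1 * _ * 1⁻¹ = _; group
  map_mul' W V := by
    ext1 s
    apply X.minj
    show X.m (X.cjF (W * V) s) = X.m (X.cjF W (X.cjF V s))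
    rw [X.m_cjF, X.m_cjF, X.m_cjF]; show (W.1 * V.1) * _ * (W.1 * V.1)⁻¹ = _; group

theorem m_cj (W : X.D) (s : S) : X.m (X.cj W s) = W.1 * X.m s * W.1⁻¹ := X.m_cjF W s

/-- field automorphisms -/
noncomputable def fd : (F ≃+* F) →* MulAut S where
  toFun σ := { toFun := X.fdF σ, invFun := X.fdF σ⁻¹,
               left_inv := fun s => by
                 apply X.minj; rw [X.m_fdF, X.m_fdF, ← fW_comp, inv_mul_cancel, fW_id]
               right_inv := fun s => by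
                 apply X.minj; rw [X.m_fdF, X.m_fdF, ← fW_comp, mul_inv_cancel, fW_id]
               map_mul' := fun s t => by
                 apply X.minj; rw [X.m_fdF, map_mul, map_mul, map_mul, X.m_fdF, X.m_fdF] }
  map_one' := by
    ext1 s
    apply X.minj
    show X.m (X.fdF 1 s) = X.m s
    rw [X.m_fdF, fW_id]
  map_mul' σ τ := by
    ext1 s
    apply X.minj
    show X.m (X.fdF (σ * τ) s) = X.m (X.fdF σ (X.fdF τ s))
    rw [X.m_fdF, X.m_fdF, X.m_fdF, fW_comp]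

theorem m_fd (σ : F ≃+* F) (s : S) : X.m (X.fd σ s) = fW σ (X.m s) := X.m_fdF σ s

noncomputable def fWD (σ : F ≃+* F) (W : X.D) : X.D := ⟨fW σ W.1, X.fD σ W.1 W.2⟩

theorem fd_cj (σ : F ≃+* F) (W : X.D) : X.fd σ * X.cj W = X.cj (X.fWD σ W) * X.fd σ := by
  ext1 s
  apply X.minj
  rw [MulAut.mul_apply, MulAut.mul_apply, X.m_fd, X.m_cj, X.m_cj, X.m_fd, fW_mul, fW_mul, fW_inv]
  rfl

theorem T_ext {α β : MulAut (S ⧸ Subgroup.center S)} (h : ∀ s : S, α (QuotientGroup.mk s) = β (QuotientGroup.mk s)) : α = β := by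
  ext x
  obtain ⟨s, rfl⟩ := QuotientGroup.mk_surjective x
  exact h s

/-- kernel computation -/
theorem ker_cj_fd (W : X.D) (σ : F ≃+* F) (h : ind (X.cj W * X.fd σ) = 1) : σ = 1 ∧ ∃ c : Fˣ, W.1 = sc c := by
  apply X.rig W.1 W.2 σ
  intro s s' hs
  have h1 : s' = (X.cj W * X.fd σ) s := by
    apply X.minj
    rw [hs, MulAut.mul_apply, X.m_cj, X.m_fd]
  rw [h1, ← ind_mk, h]; rfl

theorem ind_cj_sc (W : X.D) (c : Fˣ) (h : W.1 = sc c) : X.cj W = 1 := by
  ext1 s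
  apply X.minj
  rw [X.m_cj, h, sc_comm, mul_assoc, mul_inv_cancel, mul_one]; rfl

theorem mem_center_iff (s : S) : s ∈ Subgroup.center S ↔ ∃ c : Fˣ, X.m s = sc c := by
  constructor
  · intro hs
    have h1 : ind (X.cj ⟨X.m s, X.SD s⟩ * X.fd (1 : F ≃+* F)) = 1 := by
      rw [map_one X.fd, mul_one]
      apply T_ext
      intro t
      rw [ind_mk]
      show (QuotientGroup.mk _ : S ⧸ Subgroup.center S) = QuotientGroup.mk t
      congr 1
      apply X.minj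
      rw [X.m_cj, ← map_mul, ← map_inv, ← map_mul]
      congr 1
      rw [← Subgroup.mem_center_iff.1 hs t]; group
    exact (X.ker_cj_fd _ _ h1).2
  · rintro ⟨c, hc⟩
    rw [Subgroup.mem_center_iff]
    intro t
    apply X.minj
    rw [map_mul, map_mul, hc, sc_comm]

/-- elements of S act as inner automorphisms -/
theorem ind_cj_m (s : S) : ind (X.cj ⟨X.m s, X.SD s⟩) = MulAut.conj (QuotientGroup.mk s : S ⧸ Subgroup.center S) := by
  apply T_ext
  intro t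
  rw [ind_mk, MulAut.conj_apply, ← QuotientGroup.mk_inv, ← QuotientGroup.mk_mul, ← QuotientGroup.mk_mul]
  congr 1
  apply X.minj
  rw [X.m_cj, map_mul, map_mul, map_inv]

/-- the inner-diagonal group -/
noncomputable def N : Subgroup (MulAut (S ⧸ Subgroup.center S)) := ((ind : MulAut S →* _).comp X.cj).range

theorem inn_le : Cfsg.Inn (S ⧸ Subgroup.center S) ≤ X.N := by
  rintro _ ⟨x, rfl⟩
  obtain ⟨s, rfl⟩ := QuotientGroup.mk_surjective x
  exact ⟨⟨X.m s, X.SD s⟩, X.ind_cj_m s⟩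

/-- surjectivity of semilinear description -/
def Full : Prop := ∀ α : MulAut (S ⧸ Subgroup.center S), ∃ (W : X.D) (σ : F ≃+* F), α = ind (X.cj W * X.fd σ)

theorem N_normal (hM : X.Full) : X.N.Normal := by
  constructor
  rintro _ ⟨W, rfl⟩ g
  show g * ind (X.cj W) * g⁻¹ ∈ X.N
  have k1 : ∀ V : X.D, ∀ x ∈ X.N, ind (X.cj V) * x * (ind (X.cj V))⁻¹ ∈ X.N := by
    intro V x hx
    exact X.N.mul_mem (X.N.mul_mem ⟨V, rfl⟩ hx) (X.N.inv_mem ⟨V, rfl⟩)
  have k2 : ∀ σ : F ≃+* F, ∀ x ∈ X.N, ind (X.fd σ) * x * (ind (X.fd σ))⁻¹ ∈ X.N := by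
    rintro σ _ ⟨V, rfl⟩
    refine ⟨X.fWD σ V, ?_⟩
    show ind (X.cj (X.fWD σ V)) = ind (X.fd σ) * ind (X.cj V) * (ind (X.fd σ))⁻¹
    rw [← map_mul, X.fd_cj, map_mul]; group
  have hx : ind (X.cj W) ∈ X.N := ⟨W, rfl⟩
  obtain ⟨V, σ, h⟩ := hM g
  rw [h, map_mul]
  have := k1 V _ (k2 σ _ hx)
  have e : ind (X.cj V) * (ind (X.fd σ) * ind (X.cj W) * (ind (X.fd σ))⁻¹) * (ind (X.cj V))⁻¹ = ind (X.cj V) * ind (X.fd σ) * ind (X.cj W) * (ind (X.cj V) * ind (X.fd σ))⁻¹ := by group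
  rwa [e] at this

theorem exists_Psi (hM : X.Full) : ∃ Ψ : MulAut (S ⧸ Subgroup.center S) →* (F ≃+* F), Ψ.ker = X.N ∧ ∀ a, Ψ (ind (X.fd a)) = a := by
  haveI := X.N_normal hM
  apply exists_proj X.N ((ind : MulAut S →* _).comp X.fd)
  · intro g
    obtain ⟨V, σ, h⟩ := hM g
    exact ⟨ind (X.cj V), ⟨V, rfl⟩, σ, by rw [h, map_mul]; rfl⟩
  · rintro σ ⟨V, hV⟩
    have hV' : ind (X.cj V) = ind (X.fd σ) := hV
    have : ind (X.cj V⁻¹ * X.fd σ) = 1 := by
      rw [map_mul, map_inv, map_inv, hV', inv_mul_cancel]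
    exact (X.ker_cj_fd _ _ this).1

theorem ind_cj_eq (W V : X.D) (h : ind (X.cj W) = ind (X.cj V)) : ∃ c : Fˣ, V.1 = sc c * W.1 := by
  have h1 : ind (X.cj (V * W⁻¹) * X.fd (1 : F ≃+* F)) = 1 := by
    rw [map_one, mul_one, map_mul, map_mul, map_inv, map_inv, h, mul_inv_cancel]
  obtain ⟨c, hc⟩ := (X.ker_cj_fd _ _ h1).2
  have hc' : V.1 * W.1⁻¹ = sc c := hc
  exact ⟨c, by rw [← hc']; group⟩

theorem cj_sc_mul (W V : X.D) (c : Fˣ) (h : V.1 = sc c * W.1) : X.cj V = X.cj W := by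
  ext1 s
  apply X.minj
  rw [X.m_cj, X.m_cj, h, _root_.mul_inv_rev]
  have : sc c * W.1 * X.m s * (W.1⁻¹ * (sc c)⁻¹) = sc c * (W.1 * X.m s * W.1⁻¹) * (sc c)⁻¹ := by group
  rw [this, sc_comm]; group

/-- `ind (cj W)` is inner iff `W` is a scalar times an element of `S` -/
theorem inner_iff (W : X.D) :
    ind (X.cj W) ∈ Cfsg.Inn (S ⧸ Subgroup.center S) ↔ ∃ (c : Fˣ) (s : S), W.1 = sc c * X.m s := by
  constructor
  · rintro ⟨x, hx⟩
    obtain ⟨s, rfl⟩ := QuotientGroup.mk_surjective x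
    have hx' : MulAut.conj (QuotientGroup.mk s : S ⧸ Subgroup.center S) = ind (X.cj W) := hx
    rw [← X.ind_cj_m] at hx'
    obtain ⟨c, hc⟩ := X.ind_cj_eq _ _ hx'
    exact ⟨c, s, hc⟩
  · rintro ⟨c, s, hc⟩
    refine ⟨QuotientGroup.mk s, ?_⟩
    show MulAut.conj (QuotientGroup.mk s : S ⧸ Subgroup.center S) = ind (X.cj W)
    rw [← X.ind_cj_m, X.cj_sc_mul ⟨X.m s, X.SD s⟩ W c hc]

theorem fd_orderOf [Finite F] (σ : F ≃+* F) : orderOf (ind (X.fd σ)) = orderOf σ := by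
  have hinj : Function.Injective ((ind : MulAut S →* _).comp X.fd) := by
    rw [injective_iff_map_eq_one]
    intro τ hτ
    have h1 : ind (X.cj 1 * X.fd τ) = 1 := by rw [map_one, one_mul]; exact hτ
    exact (X.ker_cj_fd _ _ h1).1
  exact orderOf_injective _ hinj σ


include X in
theorem conj_inj : Function.Injective (MulAut.conj : S ⧸ Subgroup.center S →* MulAut (S ⧸ Subgroup.center S)) := by
  rw [injective_iff_map_eq_one]
  intro x hx
  obtain ⟨s, rfl⟩ := QuotientGroup.mk_surjective x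
  rw [← X.ind_cj_m] at hx
  have h1 : ind (X.cj ⟨X.m s, X.SD s⟩ * X.fd (1 : F ≃+* F)) = 1 := by
    rw [map_one X.fd, mul_one, hx]
  rw [QuotientGroup.eq_one_iff, X.mem_center_iff]
  exact (X.ker_cj_fd _ _ h1).2

include X in
theorem card_Inn : Nat.card (Cfsg.Inn (S ⧸ Subgroup.center S)) = Nat.card (S ⧸ Subgroup.center S) := by
  exact Nat.card_congr (MonoidHom.ofInjective X.conj_inj).symm.toEquiv

end MD

end Cfsg.Agent.H8.MDat
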