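import Mathlib
import Cfsg.Agent.H8.MD1

set_option autoImplicit false

namespace Cfsg.Agent.H8.MDat

open Matrix
open Cfsg.Agent.H8.AutPSL (ind ind_mk exists_proj)

variable {ι : Type} [Fintype ι] [DecidableEq ι] {F : Type*} [Field F] {S : Type*} [Group S]

namespace MD
variable (X : MD ι F S)

variable {A : Type*} [CommGroup A] (δ : X.D →* A) (hs : Function.Surjective δ) (hδ : ∀ W, δ W = 1 ↔ ∃ s, W.1 = X.m s)
  (Z : Subgroup A) (hZ : ∀ a, a ∈ Z ↔ ∃ (W : X.D) (c : Fˣ), W.1 = sc c ∧ δ W = a)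

include hδ hZ in
theorem inner_iff' (W : X.D) : ind (X.cj W) ∈ Cfsg.Inn (S ⧸ Subgroup.center S) ↔ δ W ∈ Z := by
  rw [X.inner_iff, hZ]
  constructor
  · rintro ⟨c, s, h⟩
    have h1 : δ ⟨X.m s, X.SD s⟩ = 1 := (hδ _).2 ⟨s, rfl⟩
    refine ⟨W * (⟨X.m s, X.SD s⟩ : X.D)⁻¹, c, ?_, ?_⟩
    · show W.1 * (X.m s)⁻¹ = sc c
      rw [h]; group
    · rw [map_mul, map_inv, h1]; simp
  · rintro ⟨V, c, h1, h2⟩
    have h3 : δ (V⁻¹ * W) = 1 := by rw [map_mul, map_inv, h2]; simp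
    obtain ⟨s, hs⟩ := (hδ _).1 h3
    refine ⟨c, s, ?_⟩
    have h4 : V.1⁻¹ * W.1 = X.m s := hs
    rw [← h4, ← h1]; group

noncomputable def theta : X.D →* Cfsg.Out (S ⧸ Subgroup.center S) :=
  (QuotientGroup.mk' (Cfsg.Inn (S ⧸ Subgroup.center S))).comp ((ind : MulAut S →* _).comp X.cj)

theorem theta_range : X.theta.range = X.N.map (QuotientGroup.mk' (Cfsg.Inn (S ⧸ Subgroup.center S))) := by
  ext x
  constructor
  · rintro ⟨a, rfl⟩
    exact ⟨ind (X.cj a), ⟨a, rfl⟩, rfl⟩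
  · rintro ⟨_, ⟨W, rfl⟩, rfl⟩
    exact ⟨W, rfl⟩

include hδ hZ in
theorem theta_ker : X.theta.ker = ((QuotientGroup.mk' Z).comp δ).ker := by
  ext W
  rw [MonoidHom.mem_ker, MonoidHom.mem_ker]
  show (QuotientGroup.mk (ind (X.cj W)) : Cfsg.Out (S ⧸ Subgroup.center S)) = 1 ↔ (QuotientGroup.mk (δ W) : A ⧸ Z) = 1
  rw [QuotientGroup.eq_one_iff, QuotientGroup.eq_one_iff, X.inner_iff' δ hδ Z hZ]

include hs hδ hZ in
theorem theta_iso : Nonempty (X.theta.range ≃* (A ⧸ Z)) := by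
  have h1 : Function.Surjective ((QuotientGroup.mk' Z).comp δ) := (QuotientGroup.mk'_surjective Z).comp hs
  exact ⟨(QuotientGroup.quotientKerEquivRange X.theta).symm.trans ((QuotientGroup.quotientMulEquivOfEq (X.theta_ker δ hδ Z hZ)).trans
    (QuotientGroup.quotientKerEquivOfSurjective _ h1))⟩

include hs hδ hZ in
theorem out_ker {B : Type*} [Group B] (Ψ : MulAut (S ⧸ Subgroup.center S) →* B) (hker : Ψ.ker = X.N) :
    ∃ φ : Cfsg.Out (S ⧸ Subgroup.center S) →* B, (∀ α, φ (QuotientGroup.mk α) = Ψ α) ∧ (IsCyclic A → IsCyclic φ.ker) ∧ Nat.card φ.ker = Z.index := by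
  have hle : Cfsg.Inn (S ⧸ Subgroup.center S) ≤ Ψ.ker := by rw [hker]; exact X.inn_le
  refine ⟨QuotientGroup.lift _ Ψ hle, fun α => rfl, ?_⟩
  have hk : (QuotientGroup.lift _ Ψ hle).ker = X.theta.range := by
    rw [theta_range, ← hker]
    ext x
    obtain ⟨α, rfl⟩ := QuotientGroup.mk_surjective x
    constructor
    · intro h
      exact ⟨α, h, rfl⟩
    · rintro ⟨β, hβ, hαβ⟩
      show QuotientGroup.lift _ Ψ hle (QuotientGroup.mk α) = 1
      have h2 : (QuotientGroup.mk β : Cfsg.Out (S ⧸ Subgroup.center S)) = QuotientGroup.mk α := hαβ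
      rw [← h2]
      exact hβ
  rw [hk]
  obtain ⟨e⟩ := X.theta_iso δ hs hδ Z hZ
  refine ⟨?_, Nat.card_congr e.toEquiv⟩
  intro hA
  haveI : IsCyclic (A ⧸ Z) := isCyclic_of_surjective (QuotientGroup.mk' Z) (QuotientGroup.mk'_surjective Z)
  exact isCyclic_of_surjective e.symm.toMonoidHom e.symm.surjective

include hs hδ hZ in
theorem card_N : Nat.card X.N = Z.index * Nat.card (S ⧸ Subgroup.center S) := by
  obtain ⟨e⟩ := X.theta_iso δ hs hδ Z hZ
  have h1 : Nat.card X.theta.range = Z.index := Nat.card_congr e.toEquiv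
  have hle : Cfsg.Inn (S ⧸ Subgroup.center S) ≤ X.N := X.inn_le
  have h2 : Nat.card X.N = Nat.card (X.N.map (QuotientGroup.mk' (Cfsg.Inn (S ⧸ Subgroup.center S)))) * Nat.card (Cfsg.Inn (S ⧸ Subgroup.center S)) := by
    let f : X.N →* Cfsg.Out (S ⧸ Subgroup.center S) := (QuotientGroup.mk' (Cfsg.Inn (S ⧸ Subgroup.center S))).comp X.N.subtype
    have hr : f.range = X.N.map (QuotientGroup.mk' (Cfsg.Inn (S ⧸ Subgroup.center S))) := by
      rw [MonoidHom.range_comp, Subgroup.range_subtype]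
    have hkk : f.ker = (Cfsg.Inn (S ⧸ Subgroup.center S)).subgroupOf X.N := by
      ext x
      rw [MonoidHom.mem_ker, Subgroup.mem_subgroupOf]
      exact QuotientGroup.eq_one_iff _
    have h3 : Nat.card X.N = Nat.card f.range * Nat.card f.ker := by
      rw [← Subgroup.index_ker, mul_comm, Subgroup.card_mul_index]
    rw [h3, hr, hkk]
    congr 1
    exact Nat.card_congr (Subgroup.subgroupOfEquivOfLe hle).toEquiv
  rw [h2, ← X.theta_range, h1, X.card_Inn]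

theorem cj_fd_pow (σ : F ≃+* F) (W : X.D) (k : ℕ) : (X.cj W * X.fd σ) ^ k = X.cj ⟨Pk σ W.1 k, Pk_mem X.D σ (X.fD σ) W.2 k⟩ * X.fd (σ ^ k) := by
  induction k with
  | zero =>
    have : (⟨Pk σ W.1 0, Pk_mem X.D σ (X.fD σ) W.2 0⟩ : X.D) = 1 := rfl
    rw [this, pow_zero, pow_zero, map_one, map_one, one_mul]
  | succ k ih =>
    rw [pow_succ', ih]
    have : (⟨Pk σ W.1 (k + 1), Pk_mem X.D σ (X.fD σ) W.2 (k + 1)⟩ : X.D) = W * X.fWD σ ⟨Pk σ W.1 k, Pk_mem X.D σ (X.fD σ) W.2 k⟩ := rfl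
    rw [this, mul_assoc, ← mul_assoc (X.fd σ), X.fd_cj, map_mul X.cj, pow_succ' σ, map_mul X.fd, mul_assoc, mul_assoc]

/-- **conjugacy in the coset of a field automorphism** -/
theorem coset [Finite F] [Nonempty ι] (σ : F ≃+* F)
    (hscale : ∀ c : Fˣ, σ (c : F) = c → (sc c : GL ι F) ∈ X.D → ∃ d : Fˣ, (sc d : GL ι F) ∈ X.D ∧ ∏ i ∈ Finset.range (orderOf σ), (σ ^ i) (d : F) = (c : F)⁻¹)
    (hdesc : ∀ W ∈ X.D, ∀ V : GL ι F, W = V * (fW σ V)⁻¹ → ∃ V' ∈ X.D, W = V' * (fW σ V')⁻¹)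
    (W : X.D) (hW : (ind (X.cj W * X.fd σ)) ^ orderOf σ = 1) :
    ∃ V : X.D, ind (X.cj W * X.fd σ) = ind (X.cj V) * ind (X.fd σ) * (ind (X.cj V))⁻¹ := by
  haveI : Finite (F ≃+* F) := by
    apply Finite.of_injective (fun τ : F ≃+* F => (fun x : F => τ x))
    intro a b h
    ext x
    exact congrFun h x
  set r := orderOf σ with hr
  have hr0 : 0 < r := orderOf_pos σ
  rw [← map_pow, cj_fd_pow, hr, pow_orderOf_eq_one, ← hr] at hW
  obtain ⟨c, hc⟩ := (X.ker_cj_fd _ _ hW).2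
  have hc : Pk σ W.1 r = sc c := hc
  have hcv : (Pk σ W.1 r : Matrix ι ι F) = (c : F) • 1 := by
    rw [hc, sc_val]
  have hσc : σ (c : F) = c := by
    have h2 := Pk_comm σ W.1 r
    have h3 : (W.1 : Matrix ι ι F) * (Pk σ W.1 r : Matrix ι ι F).map σ = (Pk σ W.1 r : Matrix ι ι F) * (W.1 : Matrix ι ι F).map (σ ^ r : F ≃+* F) := congrArg Units.val h2
    rw [hcv, Matrix.map_smul' σ _ _ (map_mul σ), Matrix.map_one σ (map_zero σ) (map_one σ), Matrix.mul_smul, Matrix.smul_mul, mul_one, one_mul, hr, pow_orderOf_eq_one] at h3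
    have h4 : (W.1 : Matrix ι ι F).map (1 : F ≃+* F) = (W.1 : Matrix ι ι F) := rfl
    rw [h4, ← sub_eq_zero, ← sub_smul] at h3
    rcases smul_eq_zero.1 h3 with h5 | h5
    · exact sub_eq_zero.1 h5
    · exact absurd h5 (W_ne_zero W.1)
  obtain ⟨d, hdD, hd⟩ := hscale c hσc (by rw [← hc]; exact Pk_mem X.D σ (X.fD σ) W.2 r)
  obtain ⟨V, hV⟩ := h90 σ r hr0 rfl (sc d * W.1) (by
    apply Units.ext
    rw [Pk_smul, hcv, hr, hd, smul_smul, inv_mul_cancel₀ c.ne_zero, one_smul]; rfl)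
  obtain ⟨V', hV'D, hV'⟩ := hdesc _ (X.D.mul_mem hdD W.2) V hV
  refine ⟨⟨V', hV'D⟩, ?_⟩
  have h6 : X.cj ⟨sc d * W.1, X.D.mul_mem hdD W.2⟩ = X.cj W := X.cj_sc_mul W ⟨sc d * W.1, X.D.mul_mem hdD W.2⟩ d rfl
  have h7 : (⟨sc d * W.1, X.D.mul_mem hdD W.2⟩ : X.D) = ⟨V', hV'D⟩ * (X.fWD σ ⟨V', hV'D⟩)⁻¹ := Subtype.ext hV'
  have h8 : X.fWD σ (⟨V', hV'D⟩⁻¹ : X.D) = (X.fWD σ ⟨V', hV'D⟩)⁻¹ := by
    apply Subtype.ext
    exact fW_inv σ V'
  rw [← h6, h7, ← map_mul, ← map_inv, ← map_inv, ← map_mul]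
  congr 1
  rw [mul_assoc, X.fd_cj, ← mul_assoc, ← map_mul, h8]

/-- centralizer of a field automorphism -/
theorem comm_field [Finite F] [Nonempty ι] (σ : F ≃+* F)
    (hL : ∀ c : Fˣ, (sc c : GL ι F) ∈ X.D → ∏ i ∈ Finset.range (orderOf σ), (σ ^ i) (c : F) = 1 → ∃ d : Fˣ, (sc d : GL ι F) ∈ X.D ∧ (c : F) * σ d = d)
    (W : X.D) (h : ind (X.cj W) * ind (X.fd σ) = ind (X.fd σ) * ind (X.cj W)) :
    ∃ d : Fˣ, (sc d : GL ι F) ∈ X.D ∧ fW σ (sc d * W.1) = sc d * W.1 := by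
  have h1 : ind (X.cj W) = ind (X.cj (X.fWD σ W)) := by
    rw [← map_mul ind (X.fd σ), X.fd_cj, map_mul ind] at h
    exact mul_right_cancel h
  obtain ⟨c, hc⟩ := X.ind_cj_eq _ _ h1
  have hc : fW σ W.1 = sc c * W.1 := hc
  have hcv : (W.1 : Matrix ι ι F).map σ = (c : F) • (W.1 : Matrix ι ι F) := by
    rw [← fW_val, hc, sc_mul_val]
  have hk : ∀ k : ℕ, (W.1 : Matrix ι ι F).map (σ ^ k : F ≃+* F) = (∏ i ∈ Finset.range k, (σ ^ i) (c : F)) • (W.1 : Matrix ι ι F) := by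
    intro k
    induction k with
    | zero =>
      rw [Finset.range_zero, Finset.prod_empty, one_smul]; rfl
    | succ k ih =>
      have e1 : (W.1 : Matrix ι ι F).map (σ ^ (k + 1) : F ≃+* F) = ((W.1 : Matrix ι ι F).map σ).map (σ ^ k : F ≃+* F) := by
        rw [pow_succ]; rfl
      rw [e1, hcv, Matrix.map_smul' _ _ _ (map_mul (σ ^ k : F ≃+* F)), ih, smul_smul, Finset.prod_range_succ, mul_comm]
  have hN : ∏ i ∈ Finset.range (orderOf σ), (σ ^ i) (c : F) = 1 := by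
    have h2 := hk (orderOf σ)
    rw [pow_orderOf_eq_one] at h2
    have h3 : (W.1 : Matrix ι ι F).map (1 : F ≃+* F) = (W.1 : Matrix ι ι F) := rfl
    rw [h3] at h2
    have h4 : ((∏ i ∈ Finset.range (orderOf σ), (σ ^ i) (c : F)) - 1) • (W.1 : Matrix ι ι F) = 0 := by
      rw [sub_smul, one_smul, ← h2, sub_self]
    rcases smul_eq_zero.1 h4 with h5 | h5
    · exact sub_eq_zero.1 h5
    · exact absurd h5 (W_ne_zero W.1)
  have hcD : (sc c : GL ι F) ∈ X.D := by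
    have : sc c = fW σ W.1 * W.1⁻¹ := by rw [hc]; group
    rw [this]
    exact X.D.mul_mem (X.fD σ _ W.2) (X.D.inv_mem W.2)
  obtain ⟨d, hdD, hd⟩ := hL c hcD hN
  refine ⟨d, hdD, ?_⟩
  apply Units.ext
  rw [fW_val, sc_mul_val, Matrix.map_smul' _ _ _ (map_mul σ), hcv, smul_smul, mul_comm, hd]

theorem comm_field' (σ : F ≃+* F) (W : X.D) (h : fW σ W.1 = W.1) : ind (X.cj W) * ind (X.fd σ) = ind (X.fd σ) * ind (X.cj W) := by
  have h1 : X.fWD σ W = W := Subtype.ext h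
  rw [← map_mul ind (X.fd σ), X.fd_cj, h1, map_mul ind]

/-- the number of `T`-classes in a class -/
theorem split_card (hs : Function.Surjective δ) (hδ : ∀ W, δ W = 1 ↔ ∃ s, W.1 = X.m s) (φ : MulAut (S ⧸ Subgroup.center S)) (M : Subgroup A)
    (ha : ∀ W : X.D, ind (X.cj W) * φ = φ * ind (X.cj W) → δ W ∈ M)
    (hb : ∀ m ∈ M, ∃ W : X.D, δ W = m ∧ ind (X.cj W) * φ = φ * ind (X.cj W)) :
    Cfsg.splitClassCount X.N (Cfsg.Inn (S ⧸ Subgroup.center S)) φ = M.index := by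
  unfold Cfsg.splitClassCount
  have hg : ∀ y : {y : MulAut (S ⧸ Subgroup.center S) // Cfsg.IsConjUnder X.N φ y}, ∃ W : X.D, y.1 = ind (X.cj W) * φ * (ind (X.cj W))⁻¹ := by
    rintro ⟨y, h, ⟨W, rfl⟩, hy⟩
    exact ⟨W, hy⟩
  choose g hg using hg
  have hrel : ∀ y z : {y : MulAut (S ⧸ Subgroup.center S) // Cfsg.IsConjUnder X.N φ y}, ∀ W V : X.D,
      y.1 = ind (X.cj W) * φ * (ind (X.cj W))⁻¹ → z.1 = ind (X.cj V) * φ * (ind (X.cj V))⁻¹ →
      (Cfsg.IsConjUnder (Cfsg.Inn (S ⧸ Subgroup.center S)) y.1 z.1 ↔ (δ V)⁻¹ * δ W ∈ M) := by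
    intro y z W V hy hz
    constructor
    · rintro ⟨k, ⟨x, rfl⟩, hk⟩
      obtain ⟨s, rfl⟩ := QuotientGroup.mk_surjective x
      have hk : z.1 = MulAut.conj (QuotientGroup.mk s : S ⧸ Subgroup.center S) * y.1 * (MulAut.conj (QuotientGroup.mk s : S ⧸ Subgroup.center S))⁻¹ := hk
      rw [← X.ind_cj_m] at hk
      set s' : X.D := ⟨X.m s, X.SD s⟩ with hs'
      have h1 : ind (X.cj (V⁻¹ * s' * W)) * φ = φ * ind (X.cj (V⁻¹ * s' * W)) := by
        rw [hy, hz] at hk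
        simp only [map_mul, map_inv]
        have h2 : ind (X.cj s') * (ind (X.cj W) * φ * (ind (X.cj W))⁻¹) * (ind (X.cj s'))⁻¹ = ind (X.cj V) * φ * (ind (X.cj V))⁻¹ := hk.symm
        calc (ind (X.cj V))⁻¹ * ind (X.cj s') * ind (X.cj W) * φ = (ind (X.cj V))⁻¹ * (ind (X.cj s') * (ind (X.cj W) * φ * (ind (X.cj W))⁻¹) * (ind (X.cj s'))⁻¹) * ind (X.cj s') * ind (X.cj W) := by group
          _ = _ := by rw [h2]; group
      have h2 := ha _ h1
      have h3 : δ s' = 1 := (hδ _).2 ⟨s, rfl⟩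
      rwa [map_mul, map_mul, map_inv, h3, mul_one] at h2
    · intro h
      obtain ⟨k, hk, hk2⟩ := hb _ h
      obtain ⟨s, hs⟩ := (hδ (V * k * W⁻¹)).1 (by
        rw [map_mul, map_mul, map_inv, hk, mul_assoc (δ V)]
        rw [mul_assoc ((δ V)⁻¹), mul_inv_cancel, mul_one, mul_inv_cancel])
      refine ⟨ind (X.cj ⟨X.m s, X.SD s⟩), ⟨QuotientGroup.mk s, (X.ind_cj_m s).symm⟩, ?_⟩
      have hs2 : (⟨X.m s, X.SD s⟩ : X.D) = V * k * W⁻¹ := Subtype.ext hs.symm
      rw [hy, hz, hs2]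
      simp only [map_mul, map_inv]
      have h5 : φ = ind (X.cj k) * φ * (ind (X.cj k))⁻¹ := by rw [hk2]; group
      conv_lhs => rw [h5]
      group
  let f : (Quot fun y z : {y : MulAut (S ⧸ Subgroup.center S) // Cfsg.IsConjUnder X.N φ y} => Cfsg.IsConjUnder (Cfsg.Inn (S ⧸ Subgroup.center S)) y.1 z.1) → A ⧸ M :=
    Quot.lift (fun y => QuotientGroup.mk (δ (g y))) (by
      intro y z h
      rw [eq_comm, QuotientGroup.eq]
      exact (hrel y z _ _ (hg y) (hg z)).1 h)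
  rw [Subgroup.index]
  apply Nat.card_congr
  apply Equiv.ofBijective f
  constructor
  · rintro ⟨y⟩ ⟨z⟩ h
    apply Quot.sound
    apply (hrel y z _ _ (hg y) (hg z)).2
    have h1 : (QuotientGroup.mk (δ (g y)) : A ⧸ M) = QuotientGroup.mk (δ (g z)) := h
    rw [eq_comm, QuotientGroup.eq] at h1
    exact h1
  · intro c
    obtain ⟨c, rfl⟩ := QuotientGroup.mk_surjective c
    obtain ⟨W, rfl⟩ := hs c
    let y : {y : MulAut (S ⧸ Subgroup.center S) // Cfsg.IsConjUnder X.N φ y} := ⟨ind (X.cj W) * φ * (ind (X.cj W))⁻¹, ind (X.cj W), ⟨W, rfl⟩, rfl⟩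
    refine ⟨Quot.mk _ y, ?_⟩
    show (QuotientGroup.mk (δ (g y)) : A ⧸ M) = QuotientGroup.mk (δ W)
    rw [eq_comm, QuotientGroup.eq]
    apply (hrel y y _ _ (hg y) rfl).1
    exact ⟨1, Subgroup.one_mem _, by group⟩

/-- the centralizer is the descended group -/
theorem cent_iso [Finite F] [Nonempty ι] (σ : F ≃+* F)
    (hL : ∀ c : Fˣ, (sc c : GL ι F) ∈ X.D → ∏ i ∈ Finset.range (orderOf σ), (σ ^ i) (c : F) = 1 → ∃ d : Fˣ, (sc d : GL ι F) ∈ X.D ∧ (c : F) * σ d = d)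
    {F₀ : Type*} [Field F₀] (j : F₀ →+* F) (hj : ∀ x, σ (j x) = j x) (hjs : ∀ y : F, σ y = y → ∃ x, j x = y)
    (D₀ : Subgroup (GL ι F₀)) (hγ : ∀ g : GL ι F₀, Matrix.GeneralLinearGroup.map j g ∈ X.D ↔ g ∈ D₀) :
    Nonempty (↥(X.N ⊓ Subgroup.centralizer {ind (X.fd σ)}) ≃* Cfsg.projQuot D₀) := by
  classical
  let γ : D₀ →* X.D := ((Matrix.GeneralLinearGroup.map j).comp D₀.subtype).codRestrict X.D (fun g => (hγ g.1).2 g.2)
  have hγv : ∀ g : D₀, ((γ g).1 : Matrix ι ι F) = (g.1 : Matrix ι ι F₀).map j := fun g => rfl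
  let Γ : D₀ →* MulAut (S ⧸ Subgroup.center S) := ((ind : MulAut S →* _).comp X.cj).comp γ
  have hker : Γ.ker = (Cfsg.Geo.scalars ι F₀).subgroupOf D₀ := by
    ext g
    rw [MonoidHom.mem_ker, Subgroup.mem_subgroupOf, Cfsg.Geo.mem_scalars_iff]
    constructor
    · intro h
      have h5 : ind (X.cj (γ g) * X.fd (1 : F ≃+* F)) = 1 := by
        rw [map_one, mul_one]; exact h
      obtain ⟨c, hc⟩ := (X.ker_cj_fd _ _ h5).2
      have h6 : (g.1 : Matrix ι ι F₀).map j = (c : F) • 1 := by rw [← hγv, hc, sc_val]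
      have i0 : ι := Classical.arbitrary ι
      have h8 : j ((g.1 : Matrix ι ι F₀) i0 i0) = c := by
        have := congrFun (congrFun h6 i0) i0
        rw [Matrix.map_apply, Matrix.smul_apply, Matrix.one_apply_eq, smul_eq_mul, mul_one] at this
        exact this
      have hne : (g.1 : Matrix ι ι F₀) i0 i0 ≠ 0 := by
        intro h0
        rw [h0, map_zero] at h8
        exact c.ne_zero h8.symm
      refine ⟨Units.mk0 _ hne, ?_⟩
      ext a b
      apply j.injective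
      have h7 := congrFun (congrFun h6 a) b
      rw [Matrix.map_apply] at h7
      have h9 : (g.1 : Matrix ι ι F₀) a b = g.1 a b := rfl
      rw [h9] at h7
      rw [h7, Matrix.smul_apply, Matrix.smul_apply, Matrix.one_apply, Matrix.one_apply]
      by_cases hab : a = b
      · rw [if_pos hab, if_pos hab, smul_eq_mul, smul_eq_mul, mul_one, mul_one]; exact h8.symm
      · rw [if_neg hab, if_neg hab, smul_zero, smul_zero, map_zero]
    · rintro ⟨c, hc⟩
      have h5 : X.cj (γ g) = 1 := by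
        apply X.ind_cj_sc _ (Units.map (j : F₀ →* F) c)
        apply Units.ext
        rw [hγv, hc, sc_val, Matrix.map_smul' _ _ _ (map_mul j), Matrix.map_one j (map_zero j) (map_one j)]
        rfl
      show ind (X.cj (γ g)) = 1
      rw [h5, map_one]
  have hrange : Γ.range = X.N ⊓ Subgroup.centralizer {ind (X.fd σ)} := by
    ext y
    rw [Subgroup.mem_inf, Subgroup.mem_centralizer_singleton_iff]
    constructor
    · rintro ⟨g, rfl⟩
      refine ⟨⟨_, rfl⟩, ?_⟩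
      apply X.comm_field'
      apply Units.ext
      rw [fW_val, hγv]
      ext a b
      exact hj _
    · rintro ⟨⟨W, rfl⟩, h⟩
      obtain ⟨d, hdD, hd⟩ := X.comm_field σ hL W h
      set W' := sc d * W.1 with hW'
      have hent : ∀ a b, σ ((W' : Matrix ι ι F) a b) = (W' : Matrix ι ι F) a b := by
        intro a b
        have h0 : (fW σ W' : Matrix ι ι F) = (W' : Matrix ι ι F) := congrArg Units.val hd
        have := congrFun (congrFun h0 a) b
        rwa [fW_val] at this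
      choose g hg using fun a b => hjs _ (hent a b)
      have hdet : IsUnit (Matrix.of g : Matrix ι ι F₀) := by
        rw [Matrix.isUnit_iff_isUnit_det, isUnit_iff_ne_zero]
        intro h0
        have hWd : (W' : Matrix ι ι F).det ≠ 0 := ((Matrix.isUnit_iff_isUnit_det _).1 W'.isUnit).ne_zero
        apply hWd
        have h6 : (W' : Matrix ι ι F) = (Matrix.of g : Matrix ι ι F₀).map j := by
          ext a b
          exact (hg a b).symm
        rw [h6]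
        have h7 : ((Matrix.of g : Matrix ι ι F₀).map j).det = j (Matrix.of g : Matrix ι ι F₀).det := (RingHom.map_det j _).symm
        rw [h7, h0, map_zero]
      have h8 : Matrix.GeneralLinearGroup.map j hdet.unit = W' := by
        apply Units.ext
        ext a b
        exact hg a b
      have hW'D : W' ∈ X.D := X.D.mul_mem hdD W.2
      refine ⟨⟨hdet.unit, (hγ _).1 (by rw [h8]; exact hW'D)⟩, ?_⟩
      show ind (X.cj _) = ind (X.cj W)
      congr 1
      apply X.cj_sc_mul W _ d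
      exact h8
  rw [← hrange]
  have e1 : D₀ ⧸ (Cfsg.Geo.scalars ι F₀).subgroupOf D₀ ≃* Γ.range := (QuotientGroup.quotientMulEquivOfEq hker.symm).trans (QuotientGroup.quotientKerEquivRange Γ)
  exact ⟨e1.symm⟩

end MD

section transport
variable {G : Type*} [Group G]

theorem conj_iff (N : Subgroup G) [hN : N.Normal] (α x y : G) : Cfsg.IsConjUnder N (α * x * α⁻¹) (α * y * α⁻¹) ↔ Cfsg.IsConjUnder N x y := by
  constructor
  · rintro ⟨h, hh, e⟩
    refine ⟨α⁻¹ * h * α, ?_, ?_⟩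
    · have := hN.conj_mem h hh α⁻¹
      rwa [inv_inv] at this
    · have : y = α⁻¹ * (α * y * α⁻¹) * α := by group
      rw [this, e]; group
  · rintro ⟨h, hh, e⟩
    exact ⟨α * h * α⁻¹, hN.conj_mem h hh α, by rw [e]; group⟩

theorem split_conj (N K : Subgroup G) [N.Normal] [K.Normal] (α x : G) : Cfsg.splitClassCount N K (α * x * α⁻¹) = Cfsg.splitClassCount N K x := by
  unfold Cfsg.splitClassCount
  apply Nat.card_congr
  symm
  refine Quot.congr ?_ ?_
  · exact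
    { toFun := fun y => ⟨α * y.1 * α⁻¹, (conj_iff N α x y.1).2 y.2⟩
      invFun := fun y => ⟨α⁻¹ * y.1 * α, by
        rw [← conj_iff N α]
        have : α * (α⁻¹ * y.1 * α) * α⁻¹ = y.1 := by group
        rw [this]; exact y.2⟩
      left_inv := fun y => by apply Subtype.ext; show α⁻¹ * (α * y.1 * α⁻¹) * α = y.1; group
      right_inv := fun y => by apply Subtype.ext; show α * (α⁻¹ * y.1 * α) * α⁻¹ = y.1; group }
  · intro y z
    exact (conj_iff K α y.1 z.1).symm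

theorem cent_conj (N : Subgroup G) [hN : N.Normal] (α x : G) : Nonempty (↥(N ⊓ Subgroup.centralizer {x}) ≃* ↥(N ⊓ Subgroup.centralizer {α * x * α⁻¹})) := by
  have key : ∀ y : G, y ∈ N ⊓ Subgroup.centralizer {x} ↔ α * y * α⁻¹ ∈ N ⊓ Subgroup.centralizer {α * x * α⁻¹} := by
    intro y
    rw [Subgroup.mem_inf, Subgroup.mem_inf, Subgroup.mem_centralizer_singleton_iff, Subgroup.mem_centralizer_singleton_iff]
    constructor
    · rintro ⟨h1, h2⟩
      refine ⟨hN.conj_mem y h1 α, ?_⟩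
      have e1 : α * y * α⁻¹ * (α * x * α⁻¹) = α * (y * x) * α⁻¹ := by group
      rw [e1, h2]; group
    · rintro ⟨h1, h2⟩
      constructor
      · have := hN.conj_mem _ h1 α⁻¹
        have e : α⁻¹ * (α * y * α⁻¹) * α⁻¹⁻¹ = y := by group
        rwa [e] at this
      · have e1 : y * x = α⁻¹ * (α * y * α⁻¹ * (α * x * α⁻¹)) * α := by group
        rw [e1, h2]; group
  refine ⟨{ toFun := fun y => ⟨α * y.1 * α⁻¹, (key y.1).1 y.2⟩, invFun := fun y => ⟨α⁻¹ * y.1 * α, (key _).2 (by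
    have : α * (α⁻¹ * y.1 * α) * α⁻¹ = y.1 := by group
    rw [this]; exact y.2)⟩, left_inv := ?_, right_inv := ?_, map_mul' := ?_ }⟩
  · intro y; apply Subtype.ext; show α⁻¹ * (α * y.1 * α⁻¹) * α = y.1; group
  · intro y; apply Subtype.ext; show α * (α⁻¹ * y.1 * α) * α⁻¹ = y.1; group
  · intro y z; apply Subtype.ext; show α * (y.1 * z.1) * α⁻¹ = (α * y.1 * α⁻¹) * (α * z.1 * α⁻¹); group

end transport

end Cfsg.Agent.H8.MDat
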