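import Mathlib

set_option autoImplicit false

namespace Cfsg.Agent.H8.TVA

variable {F : Type*} [Field F] {V : Type*} [AddCommGroup V] [Module F V] {σ : F →+* F}

/-- `ε`-hermitian non-degenerate trace-valued form with isotropic scalars -/
structure Frm (B : V →ₛₗ[σ] V →ₗ[F] F) (ε : F) : Prop where
  sq : ∀ a, σ (σ a) = a
  e2 : ε * ε = 1
  se : σ ε = ε
  sym : ∀ x y, σ (B x y) = ε * B y x
  nd : ∀ x, (∀ y, B x y = 0) → x = 0
  tr : ∀ x, ∃ b, σ b + ε * b = - B x x
  a0 : ∃ a : F, a ≠ 0 ∧ a + ε * σ a = 0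

variable {B : V →ₛₗ[σ] V →ₗ[F] F} {ε : F}

namespace Frm

theorem e_ne (H : Frm B ε) : ε ≠ 0 := left_ne_zero_of_mul_eq_one H.e2

theorem sym' (H : Frm B ε) (x y : V) : B x y = ε * σ (B y x) := by
  rw [H.sym, ← mul_assoc, H.e2, one_mul]

theorem comm0 (H : Frm B ε) {x y : V} (h : B x y = 0) : B y x = 0 := by
  rw [H.sym', h, map_zero, mul_zero]

theorem comm0_iff (H : Frm B ε) {x y : V} : B x y = 0 ↔ B y x = 0 := ⟨H.comm0, H.comm0⟩

theorem nd' (H : Frm B ε) (x : V) (h : ∀ y, B y x = 0) : x = 0 := H.nd x fun y => H.comm0 (h y)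

theorem exists_ne (H : Frm B ε) {v : V} (hv : v ≠ 0) : ∃ x, B v x = 1 := by
  by_contra hcon
  apply hv
  apply H.nd
  intro y
  by_contra hy
  apply hcon
  refine ⟨(B v y)⁻¹ • y, ?_⟩
  rw [map_smul, smul_eq_mul, inv_mul_cancel₀ hy]

/-- double perp -/
theorem dperp (H : Frm B ε) {v u : V} (hv : v ≠ 0) (h : ∀ x, B v x = 0 → B u x = 0) : ∃ c : F, u = c • v := by
  obtain ⟨x0, hx0⟩ := H.exists_ne hv
  refine ⟨σ (B u x0), ?_⟩
  rw [← sub_eq_zero]
  apply H.nd
  intro y
  have h1 := h (y - B v y • x0) (by rw [map_sub, map_smul, hx0, smul_eq_mul, mul_one, sub_self])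
  rw [map_sub, map_smul, smul_eq_mul, sub_eq_zero] at h1
  rw [map_sub, LinearMap.sub_apply, LinearMap.map_smulₛₗ, LinearMap.smul_apply, H.sq, smul_eq_mul, h1]
  ring

/-- isotropic vectors not perpendicular to `e` span -/
theorem spanS (H : Frm B ε) (M D : Submodule F V) {e w0 : V} (he : e ∈ M) (hee : B e e = 0) (hw0 : w0 ∈ M)
    (hew : B e w0 ≠ 0) (hD : ∀ x ∈ M, B x x = 0 → B e x ≠ 0 → x ∈ D) : M ≤ D := by
  set w1 := (B e w0)⁻¹ • w0 with hw1
  have h1M : w1 ∈ M := M.smul_mem _ hw0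
  have h1 : B e w1 = 1 := by rw [hw1, map_smul, smul_eq_mul, inv_mul_cancel₀ hew]
  have h2 : B w1 e = ε := by rw [H.sym', h1, map_one, mul_one]
  obtain ⟨b, hb⟩ := H.tr w1
  set w := w1 + b • e with hw
  have hwM : w ∈ M := M.add_mem h1M (M.smul_mem _ he)
  have e1 : B e w = 1 := by rw [hw, map_add, h1, map_smul (B e) b e, hee, smul_zero, add_zero]
  have e2 : B w e = ε := by rw [H.sym', e1, map_one, mul_one]
  have e3 : B w w = 0 := by
    rw [hw]
    simp only [map_add, LinearMap.add_apply, LinearMap.map_smulₛₗ, LinearMap.smul_apply, map_smul, smul_eq_mul, h1, h2, hee]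
    linear_combination hb
  have hwD : w ∈ D := hD w hwM e3 (by rw [e1]; exact one_ne_zero)
  obtain ⟨a, ha, ha0⟩ := H.a0
  have heD : e ∈ D := by
    have h3 : w + a • e ∈ D := by
      apply hD _ (M.add_mem hwM (M.smul_mem _ he))
      · simp only [map_add, LinearMap.add_apply, LinearMap.map_smulₛₗ, LinearMap.smul_apply, map_smul, smul_eq_mul, e1, e2, e3, hee]
        linear_combination ε * ha0 - σ a * H.e2
      · rw [map_add, e1, map_smul (B e) a e, hee, smul_zero, add_zero]; exact one_ne_zero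
    have h4 : a • e ∈ D := by
      have := D.sub_mem h3 hwD
      rwa [add_sub_cancel_left] at this
    have := D.smul_mem a⁻¹ h4
    rwa [smul_smul, inv_mul_cancel₀ ha, one_smul] at this
  intro y hy
  set y' := y - B e y • w - (ε * B w y) • e with hy'
  have hyM : y' ∈ M := M.sub_mem (M.sub_mem hy (M.smul_mem _ hwM)) (M.smul_mem _ he)
  have f1 : B e y' = 0 := by
    rw [hy']; simp only [map_sub, map_smul, smul_eq_mul, e1, hee]; ring
  have f2 : B w y' = 0 := by
    rw [hy']; simp only [map_sub, map_smul, smul_eq_mul, e2, e3]; linear_combination (-B w y) * H.e2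
  have f3 := H.comm0 f1
  have f4 := H.comm0 f2
  obtain ⟨b', hb'⟩ := H.tr y'
  have h5 : w + y' + b' • e ∈ D := by
    apply hD _ (M.add_mem (M.add_mem hwM hyM) (M.smul_mem _ he))
    · simp only [map_add, LinearMap.add_apply, LinearMap.map_smulₛₗ, LinearMap.smul_apply, map_smul, smul_eq_mul, e1, e2, e3, hee, f1, f2, f3, f4]
      linear_combination hb'
    · simp only [map_add, map_smul, smul_eq_mul, e1, f1, hee]
      simp
  have h6 : y' ∈ D := by
    have := D.sub_mem (D.sub_mem h5 hwD) (D.smul_mem b' heD)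
    have e4 : w + y' + b' • e - w - b' • e = y' := by abel
    rwa [e4] at this
  have h7 : y = y' + B e y • w + (ε * B w y) • e := by rw [hy']; abel
  rw [h7]
  exact D.add_mem (D.add_mem h6 (D.smul_mem _ hwD)) (D.smul_mem _ heD)

/-- isotropic partner -/
theorem exists_hyp (H : Frm B ε) {e : V} (he : e ≠ 0) (hee : B e e = 0) : ∃ f, B e f = 1 ∧ B f f = 0 := by
  obtain ⟨w1, h1⟩ := H.exists_ne he
  have h2 : B w1 e = ε := by rw [H.sym', h1, map_one, mul_one]
  obtain ⟨b, hb⟩ := H.tr w1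
  refine ⟨w1 + b • e, ?_, ?_⟩
  · rw [map_add, h1, map_smul (B e) b e, hee, smul_zero, add_zero]
  · simp only [map_add, LinearMap.add_apply, LinearMap.map_smulₛₗ, LinearMap.smul_apply, map_smul, smul_eq_mul, h1, h2, hee]
    linear_combination hb

end Frm

/-- `s`-elements -/
def sf (B : V →ₛₗ[σ] V →ₗ[F] F) (ε : F) (e w : V) (c : F) (x : V) : V := x + B e x • (w + c • e) - (ε * B w x) • e

end Cfsg.Agent.H8.TVA
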