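import Mathlib
import Cfsg.Agent.H8.TVA1

set_option autoImplicit false

namespace Cfsg.Agent.H8.TVA

variable {F : Type*} [Field F] {V : Type*} [AddCommGroup V] [Module F V] {σ : F →+* F}

/-- configuration: `G` acts on `V` by isometries, contains all the `s`-elements, `T` is the quotient by scalars -/
structure Cfg (p : ℕ) (B : V →ₛₗ[σ] V →ₗ[F] F) (ε : F) (G T : Type*) [Group G] [Group T] where
  H : Frm B ε
  ρ : G →* (V ≃ₗ[F] V)
  inj : Function.Injective ρ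
  iso : ∀ g x y, B (ρ g x) (ρ g y) = B x y
  hS : ∀ (e w : V) (c : F), B e e = 0 → B e w = 0 → ε * c + σ c + B w w = 0 → ∃ g : G, ∀ x, ρ g x = sf B ε e w c x
  π : G →* T
  πs : Function.Surjective π
  ker : ∀ g, π g = 1 ↔ ∃ c : F, ∀ x, ρ g x = c • x
  cnt : p ∣ Nat.card {v : V // B v v = 0}
  κ : ∀ k : F, (∀ μ : F, μ * k = ε * σ (μ * k)) → k = 0
  hD : ∀ c, c + ε * σ c = 0 → ∃ b, c = ε * b - σ b

variable {p : ℕ} {B : V →ₛₗ[σ] V →ₗ[F] F} {ε : F} {G T : Type*} [Group G] [Group T]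

namespace Cfg

variable (C : Cfg p B ε G T)

theorem ext {g h : G} (e : ∀ x, C.ρ g x = C.ρ h x) : g = h := C.inj (LinearEquiv.ext e)

theorem mulρ (g h : G) (x : V) : C.ρ (g * h) x = C.ρ g (C.ρ h x) := by rw [map_mul]; rfl

theorem oneρ (x : V) : C.ρ 1 x = x := by rw [map_one]; rfl

theorem invρ (g : G) (x : V) : C.ρ g⁻¹ (C.ρ g x) = x := by rw [← C.mulρ, inv_mul_cancel, C.oneρ]

theorem invρ' (g : G) (x : V) : C.ρ g (C.ρ g⁻¹ x) = x := by rw [← C.mulρ, mul_inv_cancel, C.oneρ]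

theorem iso' (g : G) (x y : V) : B (C.ρ g x) y = B x (C.ρ g⁻¹ y) := by
  conv_lhs => rw [← C.invρ' g y]
  rw [C.iso]

/-- the transvections with centre `v`, in `T` -/
def X (v : V) : Set T := {t | ∃ (g : G) (c : F), c + ε * σ c = 0 ∧ (∀ x, C.ρ g x = x + (c * B v x) • v) ∧ C.π g = t}

theorem exists_tv {v : V} (hv : B v v = 0) {c : F} (hc : c + ε * σ c = 0) : ∃ g : G, ∀ x, C.ρ g x = x + (c * B v x) • v := by
  obtain ⟨g, hg⟩ := C.hS v 0 c hv (map_zero _) (by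
    rw [map_zero, add_zero]
    linear_combination ε * hc - σ c * C.H.e2)
  refine ⟨g, fun x => ?_⟩
  rw [hg x, sf, map_zero, LinearMap.zero_apply, mul_zero, zero_smul, sub_zero, zero_add, smul_smul, mul_comm]

theorem conj_tv {g t : G} {v : V} {c : F} (ht : ∀ x, C.ρ t x = x + (c * B v x) • v) (x : V) :
    C.ρ (g * t * g⁻¹) x = x + (c * B (C.ρ g v) x) • C.ρ g v := by
  rw [C.mulρ, C.mulρ, ht, map_add, map_smul, C.invρ', C.iso' g v x]

theorem conjX {v : V} (g : G) {t : T} (ht : t ∈ C.X v) : C.π g * t * (C.π g)⁻¹ ∈ C.X (C.ρ g v) := by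
  obtain ⟨s, c, hc, hs, rfl⟩ := ht
  exact ⟨g * s * g⁻¹, c, hc, C.conj_tv hs, by rw [map_mul, map_mul, map_inv]⟩

theorem X_smul_le {v : V} {μ : F} (hμ : μ ≠ 0) {t : T} (ht : t ∈ C.X v) : t ∈ C.X (μ • v) := by
  obtain ⟨s, c, hc, hs, rfl⟩ := ht
  have hμ' : σ μ ≠ 0 := fun h => hμ (by rw [← C.H.sq μ, h, map_zero])
  refine ⟨s, c * (σ μ)⁻¹ * μ⁻¹, ?_, ?_, rfl⟩
  · rw [map_mul, map_mul, map_inv₀, map_inv₀, C.H.sq]
    linear_combination (σ μ)⁻¹ * μ⁻¹ * hc
  · intro x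
    rw [hs, LinearMap.map_smulₛₗ, LinearMap.smul_apply, smul_eq_mul, smul_smul]
    congr 2
    field_simp

theorem X_smul {v : V} {μ : F} (hμ : μ ≠ 0) {t : T} : t ∈ C.X (μ • v) ↔ t ∈ C.X v := by
  constructor
  · intro h
    have := C.X_smul_le (inv_ne_zero hμ) h
    rwa [smul_smul, inv_mul_cancel₀ hμ, one_smul] at this
  · exact C.X_smul_le hμ

variable [CharP F p] [Fact p.Prime]

theorem pow_one_of {c : F} {k : ℕ} (h : c ^ p ^ k = 1) : c = 1 := by
  have h1 : (c - 1) ^ p ^ k = 0 := by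
    rw [sub_pow_char_pow, h, one_pow, sub_self]
  have := pow_eq_zero_iff (pow_ne_zero k (Fact.out : p.Prime).ne_zero) |>.1 h1
  exact sub_eq_zero.1 this

theorem smul_pow {g : G} {v : V} {c : F} (h : C.ρ g v = c • v) (k : ℕ) : C.ρ (g ^ k) v = c ^ k • v := by
  induction k with
  | zero => rw [pow_zero, pow_zero, one_smul, C.oneρ]
  | succ k ih => rw [pow_succ', C.mulρ, ih, map_smul, h, smul_smul, pow_succ]

theorem eig_one {g : G} {v : V} (hv : v ≠ 0) {c : F} (h : C.ρ g v = c • v) {k : ℕ} (hg : g ^ p ^ k = 1) : c = 1 := by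
  have h1 := C.smul_pow h (p ^ k)
  rw [hg, C.oneρ] at h1
  apply pow_one_of (k := k)
  by_contra hcon
  have h2 : (c ^ p ^ k - 1) • v = 0 := by rw [sub_smul, one_smul, ← h1, sub_self]
  rcases smul_eq_zero.1 h2 with h3 | h3
  · exact hcon (sub_eq_zero.1 h3)
  · exact hv h3

theorem ker_p [Nontrivial V] {g : G} {k : ℕ} (h1 : C.π g = 1) (h2 : g ^ p ^ k = 1) : g = 1 := by
  obtain ⟨c, hc⟩ := (C.ker g).1 h1
  obtain ⟨v, hv⟩ := exists_ne (0 : V)
  have h3 := C.eig_one hv (hc v) h2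
  apply C.ext
  intro x
  rw [hc, h3, one_smul, C.oneρ]

/-- the Heisenberg group `Q_v` -/
def Q (v : V) : Subgroup G where
  carrier := {g | C.ρ g v = v ∧ ∀ x, B v x = 0 → ∃ k : F, C.ρ g x = x + k • v}
  one_mem' := ⟨C.oneρ v, fun x _ => ⟨0, by rw [C.oneρ, zero_smul, add_zero]⟩⟩
  mul_mem' := by
    rintro a b ⟨ha, ha'⟩ ⟨hb, hb'⟩
    refine ⟨by rw [C.mulρ, hb, ha], fun x hx => ?_⟩
    obtain ⟨k, hk⟩ := hb' x hx
    obtain ⟨l, hl⟩ := ha' x hx
    refine ⟨l + k, ?_⟩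
    rw [C.mulρ, hk, map_add, map_smul, ha, hl, add_smul, add_assoc]
  inv_mem' := by
    rintro a ⟨ha, ha'⟩
    have h1 : C.ρ a⁻¹ v = v := by conv_lhs => rw [← ha, C.invρ]
    refine ⟨h1, fun x hx => ?_⟩
    obtain ⟨k, hk⟩ := ha' x hx
    refine ⟨-k, ?_⟩
    have h2 := C.invρ a x
    rw [hk, map_add, map_smul, h1] at h2
    rw [neg_smul, ← sub_eq_add_neg, eq_sub_iff_add_eq, h2]

theorem mem_Q {v : V} {g : G} : g ∈ C.Q v ↔ C.ρ g v = v ∧ ∀ x, B v x = 0 → ∃ k : F, C.ρ g x = x + k • v := Iff.rfl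

theorem sf_mem {v w : V} {c : F} (hv : B v v = 0) (hw : B v w = 0) {g : G} (hg : ∀ x, C.ρ g x = sf B ε v w c x) : g ∈ C.Q v := by
  constructor
  · rw [hg, sf, hv, C.H.comm0 hw, mul_zero, zero_smul, zero_smul, add_zero, sub_zero]
  · intro x hx
    refine ⟨-(ε * B w x), ?_⟩
    rw [hg, sf, hx, zero_smul, add_zero, neg_smul, sub_eq_add_neg]

theorem tv_mem {v : V} {c : F} (hv : B v v = 0) {g : G} (hg : ∀ x, C.ρ g x = x + (c * B v x) • v) : g ∈ C.Q v := by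
  constructor
  · rw [hg, hv, mul_zero, zero_smul, add_zero]
  · intro x hx
    exact ⟨0, by rw [hg, hx, mul_zero]⟩

/-- unipotence -/
theorem Q_pow {v : V} {g : G} (hg : g ∈ C.Q v) : g ^ p ^ 2 = 1 := by
  have hp : p.Prime := Fact.out
  set N : Module.End F V := (C.ρ g : V →ₗ[F] V) - 1 with hN
  have hNx : ∀ x, N x = C.ρ g x - x := fun x => rfl
  have hcp : CharP (Module.End F V) p ∨ Subsingleton V := by
    rcases subsingleton_or_nontrivial V with h | h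
    · right; exact h
    · left; exact charP_of_injective_algebraMap (algebraMap F (Module.End F V)).injective p
  rcases hcp with hcp | hsub
  swap
  · apply C.ext
    intro x
    exact Subsingleton.elim _ _
  have h0 : ∀ x, B v (N x) = 0 := by
    intro x
    rw [hNx, map_sub]
    have := C.iso g v x
    rw [hg.1] at this
    rw [this, sub_self]
  have hNv : N v = 0 := by rw [hNx, hg.1, sub_self]
  have h3 : N ^ 3 = 0 := by
    apply LinearMap.ext
    intro x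
    have e : (N ^ 3) x = N (N (N x)) := by
      rw [pow_succ, pow_succ, pow_one]; rfl
    obtain ⟨k, hk⟩ := hg.2 (N x) (h0 x)
    have h4 : N (N x) = k • v := by rw [hNx (N x), hk]; abel
    rw [e, h4, map_smul, hNv, smul_zero, LinearMap.zero_apply]
  have h5 : N ^ p ^ 2 = 0 := by
    have : 3 ≤ p ^ 2 := by nlinarith [hp.two_le]
    obtain ⟨d, hd⟩ := Nat.exists_eq_add_of_le this
    rw [hd, pow_add, h3, zero_mul]
  have h6 : ((C.ρ g : V →ₗ[F] V) : Module.End F V) ^ p ^ 2 = 1 := by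
    have h7 : ((C.ρ g : V →ₗ[F] V) : Module.End F V) = N + 1 := by rw [hN, sub_add_cancel]
    rw [h7, add_pow_char_pow_of_commute _ _ (Commute.one_right N), h5, one_pow, zero_add]
  apply C.ext
  intro x
  have h8 : ∀ n : ℕ, C.ρ (g ^ n) x = (((C.ρ g : V →ₗ[F] V) : Module.End F V) ^ n) x := by
    intro n
    induction n with
    | zero => rw [pow_zero, pow_zero, C.oneρ]; rfl
    | succ n ih => rw [pow_succ', pow_succ', C.mulρ, ih]; rfl
  rw [h8, h6, C.oneρ]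
  rfl

theorem conjQ {v : V} {g h : G} (hh : h ∈ C.Q v) {μ : F} (hμ : μ ≠ 0) (hg : C.ρ g v = μ • v) : g * h * g⁻¹ ∈ C.Q v := by
  have hg' : C.ρ g⁻¹ v = μ⁻¹ • v := by
    have h1 := C.invρ g v
    rw [hg, map_smul] at h1
    rw [eq_inv_smul_iff₀ hμ, h1]
  constructor
  · rw [C.mulρ, C.mulρ, hg', map_smul, hh.1, map_smul, hg, smul_smul, inv_mul_cancel₀ hμ, one_smul]
  · intro x hx
    have h1 : B v (C.ρ g⁻¹ x) = 0 := by
      rw [← C.iso', hg, LinearMap.map_smulₛₗ, LinearMap.smul_apply, hx, smul_zero]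
    obtain ⟨k, hk⟩ := hh.2 _ h1
    refine ⟨k * μ, ?_⟩
    rw [C.mulρ, C.mulρ, hk, map_add, C.invρ', map_smul, hg, smul_smul]

end Cfg

end Cfsg.Agent.H8.TVA
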