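import Mathlib
import Cfsg.Agent.H8.TVA2

set_option autoImplicit false

namespace Cfsg.Agent.H8.TVA

variable {F : Type*} [Field F] {V : Type*} [AddCommGroup V] [Module F V] {σ : F →+* F}
variable {p : ℕ} {B : V →ₛₗ[σ] V →ₗ[F] F} {ε : F} {G T : Type*} [Group G] [Group T]

theorem sf_perp (H : Frm B ε) {v w : V} {c : F} (hv : B v v = 0) (hw : B v w = 0) (x : V) : B v (sf B ε v w c x) = B v x := by
  rw [sf]
  simp only [map_add, map_sub, map_smul, smul_eq_mul, hv, hw, mul_zero, add_zero, sub_zero]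

namespace Cfg

variable (C : Cfg p B ε G T) [CharP F p] [Fact p.Prime] [Nontrivial V] [Finite V] [Finite G]

theorem isP_Q (v : V) : IsPGroup p (C.Q v) := by
  intro g
  refine ⟨2, ?_⟩
  apply Subtype.ext
  exact C.Q_pow g.2

theorem Q_le_sylow (U : Sylow p G) {v : V} (hv : ∀ u ∈ U, C.ρ u v = v) : C.Q v ≤ U := by
  have h1 : (U : Subgroup G) ≤ Subgroup.normalizer (C.Q v : Set G) := by
    intro u hu
    rw [Subgroup.mem_normalizer_iff]
    intro h
    have e1 : C.ρ u v = (1 : F) • v := by rw [one_smul]; exact hv u hu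
    have e2 : C.ρ u⁻¹ v = (1 : F) • v := by rw [one_smul]; exact hv _ (inv_mem hu)
    constructor
    · intro hh
      exact C.conjQ hh one_ne_zero e1
    · intro hh
      have := C.conjQ hh one_ne_zero e2
      have e3 : u⁻¹ * (u * h * u⁻¹) * u⁻¹⁻¹ = h := by group
      rwa [e3] at this
  have h2 := U.is_maximal' (IsPGroup.to_sup_of_normal_right' U.2 (C.isP_Q v) h1) le_sup_left
  rw [← h2]
  exact le_sup_right

theorem exists_pow_one {U : Subgroup G} (hU : IsPGroup p U) {g : G} (hg : g ∈ U) : ∃ k, g ^ p ^ k = 1 := by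
  obtain ⟨k, hk⟩ := hU ⟨g, hg⟩
  exact ⟨k, congrArg Subtype.val hk⟩

theorem exists_fixed_iso (U : Sylow p G) : ∃ v : V, v ≠ 0 ∧ B v v = 0 ∧ ∀ u ∈ U, C.ρ u v = v := by
  letI : MulAction U {v : V // B v v = 0} :=
    { smul := fun u v => ⟨C.ρ u.1 v.1, by rw [C.iso]; exact v.2⟩
      one_smul := fun v => Subtype.ext (C.oneρ v.1)
      mul_smul := fun a b v => Subtype.ext (C.mulρ a.1 b.1 v.1) }
  obtain ⟨v, hv, hv0⟩ := U.2.exists_fixed_point_of_prime_dvd_card_of_fixed_point {v : V // B v v = 0} C.cnt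
    (a := ⟨0, map_zero _⟩) (fun u => Subtype.ext (map_zero (C.ρ u.1)))
  refine ⟨v.1, fun h => hv0 (Subtype.ext h.symm), v.2, fun u hu => ?_⟩
  exact congrArg Subtype.val (hv ⟨u, hu⟩)

theorem sf_eq_of {v w w' : V} {c : F} (h : ∀ x, sf B ε v w c x = sf B ε v w' c x) (x : V) :
    B v x • (w' - w) = (ε * B (w' - w) x) • v := by
  have h1 := h x
  rw [sf, sf, smul_add, smul_add] at h1
  rw [map_sub, LinearMap.sub_apply, mul_sub, sub_smul, smul_sub]
  have e : (B v x • w' - B v x • w) - ((ε * B w' x) • v - (ε * B w x) • v) =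
      (x + (B v x • w' + B v x • c • v) - (ε * B w' x) • v) - (x + (B v x • w + B v x • c • v) - (ε * B w x) • v) := by abel
  rw [← sub_eq_zero, e, h1, sub_self]

/-- the centre of a Sylow subgroup of `T` -/
theorem ZU (U : Sylow p T) : ∃ v : V, v ≠ 0 ∧ B v v = 0 ∧ ∀ t, t ∈ C.X v ↔ (t ∈ U ∧ ∀ u ∈ U, t * u = u * t) := by
  obtain ⟨W, hW⟩ := Sylow.mapSurjective_surjective C.πs p U
  have hmem : ∀ t, t ∈ U ↔ ∃ g ∈ W, C.π g = t := by
    intro t
    rw [← hW]
    exact Subgroup.mem_map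
  obtain ⟨v, hv, hvv, hfix⟩ := C.exists_fixed_iso W
  have hQ := C.Q_le_sylow W hfix
  refine ⟨v, hv, hvv, fun t => ⟨?_, ?_⟩⟩
  · rintro ⟨g, c, hc, hg, rfl⟩
    refine ⟨(hmem _).2 ⟨g, hQ (C.tv_mem hvv hg), rfl⟩, ?_⟩
    intro u hu
    obtain ⟨h, hh, rfl⟩ := (hmem u).1 hu
    have h1 : h * g * h⁻¹ = g := by
      apply C.ext
      intro x
      rw [C.conj_tv hg, hfix h hh, hg]
    rw [← map_mul, ← map_mul]
    congr 1
    conv_lhs => rw [← h1]
    group
  · rintro ⟨ht, hcom⟩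
    obtain ⟨z, hz, rfl⟩ := (hmem t).1 ht
    have hzQ : ∀ s ∈ C.Q v, z * s = s * z := by
      intro s hs
      have h1 : C.π (z * s * z⁻¹ * s⁻¹) = 1 := by
        rw [map_mul, map_mul, map_mul, map_inv, map_inv, hcom _ ((hmem _).2 ⟨s, hQ hs, rfl⟩)]
        group
      have h2 : z * s * z⁻¹ * s⁻¹ ∈ W := mul_mem (mul_mem (mul_mem hz (hQ hs)) (inv_mem hz)) (inv_mem (hQ hs))
      obtain ⟨k, hk⟩ := exists_pow_one (p := p) W.2 h2
      have h3 := C.ker_p h1 hk
      calc z * s = (z * s * z⁻¹ * s⁻¹) * s * z := by group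
        _ = s * z := by rw [h3, one_mul]
    have hzv := hfix z hz
    -- z fixes `v^⊥`
    have key : ∀ w, B v w = 0 → C.ρ z w = w := by
      have key1 : ∀ w, B v w = 0 → ∃ k : F, C.ρ z w - w = k • v ∧ k = ε * σ k := by
        intro w hw
        obtain ⟨b, hb⟩ := C.H.tr w
        obtain ⟨s, hs⟩ := C.hS v w b hvv hw (by linear_combination hb)
        have h1 := hzQ s (C.sf_mem hvv hw hs)
        have h2 : ∀ x, sf B ε v w b x = sf B ε v (C.ρ z w) b x := by
          intro x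
          have h3 : C.ρ z (C.ρ s (C.ρ z⁻¹ x)) = C.ρ s x := by
            rw [← C.mulρ, ← C.mulρ, h1, mul_assoc, mul_inv_cancel, mul_one]
          rw [hs, hs] at h3
          rw [← h3, sf, sf]
          have hzv' : C.ρ z⁻¹ v = v := by conv_lhs => rw [← hzv, C.invρ]
          rw [map_sub, map_add, map_smul, map_add, map_smul, map_smul, hzv, C.invρ']
          rw [← C.iso' z v x, hzv, ← C.iso' z w x]
        obtain ⟨x0, hx0⟩ := C.H.exists_ne hv
        have h4 := sf_eq_of h2 x0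
        rw [hx0, one_smul] at h4
        refine ⟨_, h4, ?_⟩
        conv_lhs => rw [h4]
        rw [LinearMap.map_smulₛₗ, LinearMap.smul_apply, hx0, smul_eq_mul, mul_one]
      intro w hw
      obtain ⟨k, hk, hk1⟩ := key1 w hw
      have hk0 : k = 0 := by
        apply C.κ
        intro μ
        obtain ⟨l, hl, hl1⟩ := key1 (μ • w) (by rw [map_smul, hw, smul_zero])
        have : l = μ * k := by
          have h5 : l • v = (μ * k) • v := by rw [← hl, map_smul, ← smul_sub, hk, smul_smul]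
          have h6 : (l - μ * k) • v = 0 := by rw [sub_smul, h5, sub_self]
          rcases smul_eq_zero.1 h6 with h7 | h7
          · exact sub_eq_zero.1 h7
          · exact absurd h7 hv
        rw [← this]
        exact hl1
      rw [hk0, zero_smul, sub_eq_zero] at hk
      exact hk
    obtain ⟨x0, hx0⟩ := C.H.exists_ne hv
    have hy : ∀ u, B v u = 0 → B (C.ρ z x0 - x0) u = 0 := by
      intro u hu
      rw [map_sub, LinearMap.sub_apply]
      conv_lhs => rw [← key u hu]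
      rw [C.iso, key u hu, sub_self]
    obtain ⟨c, hc⟩ := C.H.dperp hv hy
    have hzx : ∀ x, C.ρ z x = x + (c * B v x) • v := by
      intro x
      have h1 := key (x - B v x • x0) (by rw [map_sub, map_smul, hx0, smul_eq_mul, mul_one, sub_self])
      rw [map_sub, map_smul] at h1
      have h2 : C.ρ z x0 = x0 + c • v := by rw [← hc]; abel
      rw [h2] at h1
      have h3 : C.ρ z x = x - B v x • x0 + B v x • (x0 + c • v) := by rw [← h1]; abel
      rw [h3, smul_add, smul_smul, mul_comm (B v x) c]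
      abel
    refine ⟨z, c, ?_, hzx, rfl⟩
    have h1 := C.iso z x0 x0
    rw [hzx] at h1
    have h2 : B x0 v = ε := by rw [C.H.sym', hx0, map_one, mul_one]
    simp only [map_add, LinearMap.add_apply, LinearMap.map_smulₛₗ, LinearMap.smul_apply, map_smul, smul_eq_mul, hx0, h2, hvv, map_one, mul_one, map_mul] at h1
    linear_combination ε * h1 - c * C.H.e2

/-- transitivity on isotropic points -/
theorem trans {v w : V} (hv : v ≠ 0) (hvv : B v v = 0) (hw : w ≠ 0) (hww : B w w = 0) : ∃ (g : G) (μ : F), μ ≠ 0 ∧ C.ρ g v = μ • w := by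
  have main : ∀ v w : V, B v v = 0 → B w w = 0 → B v w ≠ 0 → ∃ (g : G) (μ : F), μ ≠ 0 ∧ C.ρ g v = μ • w := by
    intro v w hvv hww hvw
    obtain ⟨a, ha, ha0⟩ := C.H.a0
    have hsa : σ a ≠ 0 := fun h => ha (by rw [← C.H.sq a, h, map_zero])
    set w' := (a * (B v w)⁻¹) • w with hw'
    have e1 : B v w' = a := by rw [hw', map_smul, smul_eq_mul, mul_assoc, inv_mul_cancel₀ hvw, mul_one]
    have e2 : B w' v = -a := by rw [C.H.sym', e1]; linear_combination ha0
    have e3 : B w' w' = 0 := by rw [hw', map_smul, LinearMap.map_smulₛₗ, LinearMap.smul_apply, hww, smul_zero, smul_zero]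
    have e4 : B (v + w') (v + w') = 0 := by
      simp only [map_add, LinearMap.add_apply, hvv, e1, e2, e3]; ring
    obtain ⟨g, hg⟩ := C.exists_tv e4 (c := a⁻¹) (by
      rw [map_inv₀]
      field_simp
      linear_combination ε * ha0 - σ a * C.H.e2)
    refine ⟨g, -(a * (B v w)⁻¹), neg_ne_zero.2 (mul_ne_zero ha (inv_ne_zero hvw)), ?_⟩
    rw [hg, map_add, LinearMap.add_apply, hvv, e2, zero_add, mul_neg, inv_mul_cancel₀ ha, neg_smul, one_smul, neg_smul, ← hw']
    abel
  by_cases hvw : B v w = 0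
  · -- find isotropic `u` not perpendicular to both
    obtain ⟨x0, hx0⟩ := C.H.exists_ne hv
    have : ∃ u, B u u = 0 ∧ B v u ≠ 0 ∧ B w u ≠ 0 := by
      by_contra hcon
      push Not at hcon
      apply hw
      apply C.H.nd
      intro y
      have h1 := C.H.spanS ⊤ (LinearMap.ker (B w)) (e := v) (w0 := x0) trivial hvv trivial (by rw [hx0]; exact one_ne_zero)
        (fun x _ hx hvx => LinearMap.mem_ker.2 (hcon x hx hvx))
      exact LinearMap.mem_ker.1 (h1 (show y ∈ ⊤ from trivial))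
    obtain ⟨u, huu, hvu, hwu⟩ := this
    obtain ⟨g, μ, hμ, hg⟩ := main v u hvv huu hvu
    obtain ⟨h, ν, hν, hh⟩ := main u w huu hww (fun e => hwu (C.H.comm0 e))
    refine ⟨h * g, μ * ν, mul_ne_zero hμ hν, ?_⟩
    rw [C.mulρ, hg, map_smul, hh, smul_smul]
  · exact main v w hvv hww hvw

theorem exists_sylow {v : V} (hv : v ≠ 0) (hvv : B v v = 0) : ∃ U : Sylow p T, ∀ t, t ∈ C.X v ↔ (t ∈ U ∧ ∀ u ∈ U, t * u = u * t) := by
  obtain ⟨U⟩ : Nonempty (Sylow p T) := inferInstance
  obtain ⟨w, hw, hww, hU⟩ := C.ZU U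
  obtain ⟨g, μ, hμ, hg⟩ := C.trans hw hww hv hvv
  have hg' : C.ρ g⁻¹ v = μ⁻¹ • w := by
    have h1 := C.invρ g w
    rw [hg, map_smul] at h1
    rw [eq_inv_smul_iff₀ hμ, h1]
  refine ⟨(C.π g) • U, fun t => ?_⟩
  have hmem : ∀ t, t ∈ (C.π g) • U ↔ (C.π g)⁻¹ * t * C.π g ∈ U := by
    intro t
    show t ∈ ((C.π g • U : Sylow p T) : Subgroup T) ↔ _
    rw [Sylow.smul_def, Sylow.pointwise_smul_def, Subgroup.mem_pointwise_smul_iff_inv_smul_mem, ← map_inv, MulAut.smul_def, MulAut.conj_apply, inv_inv]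
    exact Iff.rfl
  have h1 : t ∈ C.X v ↔ (C.π g)⁻¹ * t * C.π g ∈ C.X w := by
    constructor
    · intro ht
      have := C.conjX g⁻¹ ht
      rw [hg', C.X_smul (inv_ne_zero hμ), map_inv, inv_inv] at this
      exact this
    · intro ht
      have := C.conjX g ht
      rw [hg, C.X_smul hμ] at this
      have e : C.π g * ((C.π g)⁻¹ * t * C.π g) * (C.π g)⁻¹ = t := by group
      rwa [e] at this
  rw [h1, hU, hmem]
  refine and_congr_right fun _ => ⟨?_, ?_⟩
  · intro h u hu
    have h2 := h _ ((hmem u).1 hu)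
    calc t * u = C.π g * ((C.π g)⁻¹ * t * C.π g * ((C.π g)⁻¹ * u * C.π g)) * (C.π g)⁻¹ := by group
      _ = u * t := by rw [h2]; group
  · intro h u hu
    have h2 := h (C.π g * u * (C.π g)⁻¹) ((hmem _).2 (by
      have e : (C.π g)⁻¹ * (C.π g * u * (C.π g)⁻¹) * C.π g = u := by group
      rw [e]; exact hu))
    calc (C.π g)⁻¹ * t * C.π g * u = (C.π g)⁻¹ * (t * (C.π g * u * (C.π g)⁻¹)) * C.π g := by group
      _ = u * ((C.π g)⁻¹ * t * C.π g) := by rw [h2]; group

/-- an automorphism permutes the transvection groups -/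
theorem aut_X (α : T ≃* T) {v : V} (hv : v ≠ 0) (hvv : B v v = 0) : ∃ w : V, w ≠ 0 ∧ B w w = 0 ∧ ∀ t, α t ∈ C.X w ↔ t ∈ C.X v := by
  haveI : Finite T := Finite.of_surjective C.π C.πs
  obtain ⟨U, hU⟩ := C.exists_sylow hv hvv
  obtain ⟨w, hw, hww, hW⟩ := C.ZU (U.mapSurjective (f := (α : T →* T)) α.surjective)
  refine ⟨w, hw, hww, fun t => ?_⟩
  have hmem : ∀ t, α t ∈ U.mapSurjective (f := (α : T →* T)) α.surjective ↔ t ∈ U := by
    intro t
    show α t ∈ (U : Subgroup T).map (α : T →* T) ↔ t ∈ U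
    rw [Subgroup.mem_map]
    constructor
    · rintro ⟨s, hs, hst⟩
      rwa [← α.injective hst]
    · intro h
      exact ⟨t, h, rfl⟩
  rw [hW, hU, hmem]
  refine and_congr_right fun _ => ⟨?_, ?_⟩
  · intro h u hu
    have := h _ ((hmem u).2 hu)
    rw [← map_mul, ← map_mul] at this
    exact α.injective this
  · intro h u hu
    obtain ⟨s, rfl⟩ := α.surjective u
    rw [← map_mul, ← map_mul, h s ((hmem s).1 hu)]

end Cfg

end Cfsg.Agent.H8.TVA
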