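import Mathlib
import Cfsg.Agent.H8.TVA3

set_option autoImplicit false

namespace Cfsg.Agent.H8.TVA

variable {F : Type*} [Field F] {V : Type*} [AddCommGroup V] [Module F V] {σ : F →+* F}
variable {p : ℕ} {B : V →ₛₗ[σ] V →ₗ[F] F} {ε : F} {G T : Type*} [Group G] [Group T]

/-- each hyperbolic complement contains isotropic vectors or is one-dimensional -/
def Dich (B : V →ₛₗ[σ] V →ₗ[F] F) : Prop :=
  ∀ e f, B e e = 0 → B f f = 0 → B e f = 1 →
    ((∃ v, v ≠ 0 ∧ B v v = 0 ∧ B e v = 0 ∧ B f v = 0) ∨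
      (∀ x y, B e x = 0 → B f x = 0 → B e y = 0 → B f y = 0 → x ≠ 0 → ∃ c : F, y = c • x))

theorem tv_eq (H : Frm B ε) {v w : V} {a c : F} (hw : w ≠ 0) (ha : a ≠ 0) (h : ∀ x : V, (a * B w x) • w = (c * B v x) • v) : ∃ d : F, w = d • v := by
  obtain ⟨x, hx⟩ := H.exists_ne hw
  have := h x
  rw [hx, mul_one] at this
  exact ⟨a⁻¹ * (c * B v x), by rw [mul_smul, ← this, smul_smul, inv_mul_cancel₀ ha, one_smul]⟩

namespace Cfg

variable (C : Cfg p B ε G T) [CharP F p] [Fact p.Prime] [Nontrivial V] [Finite V] [Finite G]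

theorem eq_of_pi {g h : G} {k l : ℕ} (hg : g ^ p ^ k = 1) (hh : h ^ p ^ l = 1) (e : C.π g = C.π h) : g = h := by
  obtain ⟨c, hc⟩ := (C.ker (h⁻¹ * g)).1 (by rw [map_mul, map_inv, e, inv_mul_cancel])
  set z := h⁻¹ * g with hz
  have hcom : ∀ a : G, z * a = a * z := by
    intro a
    apply C.ext
    intro x
    rw [C.mulρ z a, C.mulρ a z, hc, hc, map_smul]
  have hgz : g = h * z := by rw [hz, mul_inv_cancel_left]
  have h1 : z ^ p ^ (k + l) = 1 := by
    have h2 : g ^ p ^ (k + l) = 1 := by rw [pow_add, pow_mul, hg, one_pow]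
    have h3 : h ^ p ^ (k + l) = 1 := by rw [add_comm, pow_add, pow_mul, hh, one_pow]
    have h4 : Commute h z := (hcom h).symm
    rw [hgz, h4.mul_pow, h3, one_mul] at h2
    exact h2
  have h2 : C.π z = 1 := (C.ker z).2 ⟨c, hc⟩
  have h3 := C.ker_p h2 h1
  rw [hgz, h3, mul_one]

theorem tv_pow {v : V} {c : F} (hv : B v v = 0) {g : G} (hg : ∀ x, C.ρ g x = x + (c * B v x) • v) : g ^ p ^ 2 = 1 :=
  C.Q_pow (C.tv_mem hv hg)

theorem X_inj {v w : V} (hv : v ≠ 0) (hvv : B v v = 0) (hww : B w w = 0) (h : ∀ t ∈ C.X v, t ∈ C.X w) : ∃ d : F, v = d • w := by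
  obtain ⟨a, ha, ha0⟩ := C.H.a0
  obtain ⟨g, hg⟩ := C.exists_tv hvv ha0
  obtain ⟨s, c, hc, hs, e⟩ := h (C.π g) ⟨g, a, ha0, hg, rfl⟩
  have h1 := C.eq_of_pi (C.tv_pow hww hs) (C.tv_pow hvv hg) e
  apply tv_eq C.H (a := a) (c := c) hv ha
  intro x
  have h2 := hs x
  rw [h1, hg] at h2
  exact add_left_cancel h2

theorem comm_iff {v w : V} (hvv : B v v = 0) (hw : w ≠ 0) (hww : B w w = 0) :
    (∀ s ∈ C.X v, ∀ t ∈ C.X w, s * t = t * s) ↔ B v w = 0 := by
  constructor
  · intro h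
    obtain ⟨a, ha, ha0⟩ := C.H.a0
    obtain ⟨g, hg⟩ := C.exists_tv hvv ha0
    obtain ⟨s, hs⟩ := C.exists_tv hww ha0
    have h1 := h (C.π g) ⟨g, a, ha0, hg, rfl⟩ (C.π s) ⟨s, a, ha0, hs, rfl⟩
    have h2 := C.conj_tv (g := g) hs
    have hgw : B (C.ρ g w) (C.ρ g w) = 0 := by rw [C.iso]; exact hww
    have h3 : g * s * g⁻¹ = s := by
      apply C.eq_of_pi (C.tv_pow hgw h2) (C.tv_pow hww hs)
      rw [map_mul, map_mul, map_inv, h1, mul_inv_cancel_right]
    have h4 : ∀ x : V, (a * B (C.ρ g w) x) • C.ρ g w = (a * B w x) • w := by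
      intro x
      have h5 := h2 x
      rw [h3, hs] at h5
      exact (add_left_cancel h5).symm
    obtain ⟨d, hd⟩ := tv_eq C.H (a := a) (c := a) (v := w) (w := C.ρ g w) (fun h => hw (by
      have := C.invρ g w; rw [h, map_zero] at this; exact this.symm)) ha h4
    rw [hg] at hd
    have h5 : B v (w + (a * B v w) • v) = B v w := by rw [map_add, map_smul, hvv, smul_zero, add_zero]
    by_contra hne
    have h6 : B w (w + (a * B v w) • v) = 0 := by rw [hd, map_smul, hww, smul_zero]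
    rw [map_add, hww, zero_add, map_smul, smul_eq_mul] at h6
    rcases mul_eq_zero.1 h6 with h7 | h7
    · exact mul_ne_zero ha hne h7
    · exact hne (C.H.comm0 h7)
  · rintro h _ ⟨g, a, ha, hg, rfl⟩ _ ⟨s, b, hb, hs, rfl⟩
    rw [← map_mul, ← map_mul]
    congr 1
    have h1 : g * s * g⁻¹ = s := by
      apply C.ext
      intro x
      have hgw : C.ρ g w = w := by rw [hg, h, mul_zero, zero_smul, add_zero]
      rw [C.conj_tv hs, hgw, hs]
    calc g * s = g * s * g⁻¹ * g := by group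
      _ = s * g := by rw [h1]

theorem norm_iff {v : V} (hv : v ≠ 0) (hvv : B v v = 0) (g : G) :
    (∀ t ∈ C.X v, C.π g * t * (C.π g)⁻¹ ∈ C.X v) ↔ ∃ μ : F, μ ≠ 0 ∧ C.ρ g v = μ • v := by
  constructor
  · intro h
    have hgv : C.ρ g v ≠ 0 := fun h => hv (by have := C.invρ g v; rw [h, map_zero] at this; exact this.symm)
    obtain ⟨d, hd⟩ := C.X_inj (v := C.ρ g v) (w := v) hgv (by rw [C.iso]; exact hvv) hvv (by
      intro t ht
      have h1 := C.conjX g⁻¹ ht
      rw [C.invρ] at h1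
      have h2 := h _ h1
      rw [map_inv] at h2
      have e : C.π g * ((C.π g)⁻¹ * t * (C.π g)⁻¹⁻¹) * (C.π g)⁻¹ = t := by group
      rwa [e] at h2)
    refine ⟨d, ?_, hd⟩
    rintro rfl
    exact hgv (by rw [hd, zero_smul])
  · rintro ⟨μ, hμ, hg⟩ t ht
    have := C.conjX g ht
    rwa [hg, C.X_smul hμ] at this

/-- the largest normal `p`-subgroup of the normaliser of `X e` -/
theorem Op (hdich : Dich B) {e : V} (he : e ≠ 0) (hee : B e e = 0) (R : Subgroup T) (hR : IsPGroup p R)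
    (h1 : ∀ r ∈ R, ∀ t ∈ C.X e, r * t * r⁻¹ ∈ C.X e)
    (h2 : ∀ n : T, (∀ t ∈ C.X e, n * t * n⁻¹ ∈ C.X e) → ∀ r ∈ R, n * r * n⁻¹ ∈ R) :
    R ≤ (C.Q e).map C.π := by
  obtain ⟨U, hU⟩ := hR.exists_le_sylow
  obtain ⟨W, hW⟩ := Sylow.mapSurjective_surjective C.πs p U
  have hmem : ∀ t, t ∈ U ↔ ∃ g ∈ W, C.π g = t := by
    intro t
    rw [← hW]
    exact Subgroup.mem_map
  set R' : Subgroup G := W ⊓ R.comap C.π with hR'
  have hR'p : IsPGroup p R' := W.2.to_le inf_le_left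
  have hlift : ∀ r ∈ R, ∃ g ∈ R', C.π g = r := by
    intro r hr
    obtain ⟨g, hg, rfl⟩ := (hmem r).1 (hU hr)
    exact ⟨g, ⟨hg, hr⟩, rfl⟩
  have hfix : ∀ g ∈ R', C.ρ g e = e := by
    intro g hg
    obtain ⟨μ, hμ, h3⟩ := (C.norm_iff he hee g).1 (h1 _ hg.2)
    obtain ⟨k, hk⟩ := exists_pow_one (p := p) hR'p hg
    rw [h3, C.eig_one he h3 hk, one_smul]
  -- the submodule `D`
  let D : Submodule F V :=
    { carrier := {x | B e x = 0 ∧ ∀ g ∈ R', ∃ k : F, C.ρ g x = x + k • e}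
      zero_mem' := ⟨map_zero _, fun g _ => ⟨0, by rw [map_zero, zero_smul, add_zero]⟩⟩
      add_mem' := by
        rintro a b ⟨ha, ha'⟩ ⟨hb, hb'⟩
        refine ⟨by rw [map_add, ha, hb, add_zero], fun g hg => ?_⟩
        obtain ⟨k, hk⟩ := ha' g hg
        obtain ⟨l, hl⟩ := hb' g hg
        exact ⟨k + l, by rw [map_add, hk, hl, add_smul]; abel⟩
      smul_mem' := by
        rintro c a ⟨ha, ha'⟩
        refine ⟨by rw [map_smul, ha, smul_zero], fun g hg => ?_⟩
        obtain ⟨k, hk⟩ := ha' g hg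
        exact ⟨c * k, by rw [map_smul, hk, smul_add, smul_smul]⟩ }
  have hDinv : ∀ n : G, C.ρ n e = e → ∀ x ∈ D, C.ρ n x ∈ D := by
    rintro n hn x ⟨hx, hx'⟩
    refine ⟨by rw [← C.iso n e x, hn] at hx; exact hx, fun g hg => ?_⟩
    have hn' : C.ρ n⁻¹ e = e := by conv_lhs => rw [← hn, C.invρ]
    have h3 := h2 (C.π n⁻¹) ((C.norm_iff he hee n⁻¹).2 ⟨1, one_ne_zero, by rw [hn', one_smul]⟩) (C.π g) hg.2
    obtain ⟨g', hg', e'⟩ := hlift _ h3
    obtain ⟨k1, hk1⟩ := exists_pow_one (p := p) hR'p hg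
    obtain ⟨k2, hk2⟩ := exists_pow_one (p := p) hR'p hg'
    have h4 : g' = n⁻¹ * g * n := by
      apply C.eq_of_pi (k := k2) (l := k1) hk2
      · have : n⁻¹ * g * n = n⁻¹ * g * n⁻¹⁻¹ := by rw [inv_inv]
        rw [this, conj_pow, hk1, mul_one, mul_inv_cancel]
      · rw [e', map_mul, map_mul, map_inv, inv_inv]
    obtain ⟨k, hk⟩ := hx' g' hg'
    refine ⟨k, ?_⟩
    have h5 : g * n = n * g' := by rw [h4]; group
    rw [← C.mulρ, h5, C.mulρ, hk, map_add, map_smul, hn]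
  have hkey : ∀ x, B e x = 0 → x ∈ D := by
    obtain ⟨f, hef, hff⟩ := C.H.exists_hyp he hee
    have hfe : B f e = ε := by rw [C.H.sym', hef, map_one, mul_one]
    by_cases hbig : ∃ y, B e y = 0 ∧ ∀ c : F, y ≠ c • e
    swap
    · push Not at hbig
      intro x hx
      obtain ⟨c, rfl⟩ := hbig x hx
      apply D.smul_mem
      exact ⟨hee, fun g hg => ⟨0, by rw [hfix g hg, zero_smul, add_zero]⟩⟩
    obtain ⟨y0, hy0, hy0'⟩ := hbig
    -- a fixed vector in `e^⊥/e`
    have hfp : ∃ x ∈ D, ∀ c : F, x ≠ c • e := by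
      let M : Submodule F V := LinearMap.ker (B e)
      let e' : M := ⟨e, LinearMap.mem_ker.2 hee⟩
      let S : Submodule F M := Submodule.span F {e'}
      have hgM : ∀ g : R', ∀ x : M, C.ρ g.1 x.1 ∈ M := by
        intro g x
        rw [LinearMap.mem_ker, ← hfix g.1 g.2, C.iso]
        exact LinearMap.mem_ker.1 x.2
      let gM : R' → (M →ₗ[F] M) := fun g =>
        { toFun := fun x => ⟨C.ρ g.1 x.1, hgM g x⟩
          map_add' := fun a b => Subtype.ext (map_add _ _ _)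
          map_smul' := fun a b => Subtype.ext (map_smul _ _ _) }
      have hgS : ∀ g : R', S ≤ S.comap (gM g) := by
        intro g
        rw [Submodule.span_le]
        rintro _ rfl
        have : gM g e' = e' := Subtype.ext (hfix g.1 g.2)
        show gM g e' ∈ S
        rw [this]
        exact Submodule.subset_span rfl
      letI : MulAction R' (M ⧸ S) :=
        { smul := fun g q => S.mapQ S (gM g) (hgS g) q
          one_smul := by
            intro q
            obtain ⟨x, rfl⟩ := Submodule.mkQ_surjective S q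
            show S.mapQ S (gM 1) (hgS 1) (S.mkQ x) = S.mkQ x
            rw [Submodule.mkQ_apply, Submodule.mapQ_apply]
            congr 1
            exact Subtype.ext (C.oneρ x.1)
          mul_smul := by
            intro a b q
            obtain ⟨x, rfl⟩ := Submodule.mkQ_surjective S q
            show S.mapQ S (gM (a * b)) (hgS _) (S.mkQ x) = S.mapQ S (gM a) (hgS a) (S.mapQ S (gM b) (hgS b) (S.mkQ x))
            rw [Submodule.mkQ_apply, Submodule.mapQ_apply, Submodule.mapQ_apply, Submodule.mapQ_apply]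
            congr 1
            exact Subtype.ext (C.mulρ a.1 b.1 x.1) }
      have hsmul : ∀ (g : R') (x : M), g • (S.mkQ x) = S.mkQ (gM g x) := fun g x => rfl
      haveI : Finite (M ⧸ S) := Finite.of_surjective _ (Submodule.mkQ_surjective S)
      have hne : S.mkQ ⟨y0, LinearMap.mem_ker.2 hy0⟩ ≠ 0 := by
        intro h3
        rw [Submodule.mkQ_apply, Submodule.Quotient.mk_eq_zero, Submodule.mem_span_singleton] at h3
        obtain ⟨c, hc⟩ := h3
        exact hy0' c (congrArg Subtype.val hc).symm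
      have hdvd : p ∣ Nat.card (M ⧸ S) := by
        have h3 : addOrderOf (S.mkQ ⟨y0, LinearMap.mem_ker.2 hy0⟩) = p := by
          apply addOrderOf_eq_prime
          · rw [← Nat.cast_smul_eq_nsmul F, CharP.cast_eq_zero, zero_smul]
          · exact hne
        rw [← h3]
        exact addOrderOf_dvd_natCard _
      obtain ⟨q, hq, hq0⟩ := hR'p.exists_fixed_point_of_prime_dvd_card_of_fixed_point (M ⧸ S) hdvd (a := 0) (by
        intro g
        show S.mapQ S (gM g) (hgS g) 0 = 0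
        exact map_zero _)
      obtain ⟨x, rfl⟩ := Submodule.mkQ_surjective S q
      refine ⟨x.1, ⟨LinearMap.mem_ker.1 x.2, fun g hg => ?_⟩, ?_⟩
      · have h3 := hq ⟨g, hg⟩
        rw [hsmul, Submodule.mkQ_apply, Submodule.mkQ_apply, Submodule.Quotient.eq, Submodule.mem_span_singleton] at h3
        obtain ⟨c, hc⟩ := h3
        refine ⟨c, ?_⟩
        have h4 : c • e = C.ρ g x.1 - x.1 := congrArg Subtype.val hc
        rw [h4]; abel
      · intro c hc
        apply hq0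
        symm
        rw [Submodule.mkQ_apply, Submodule.Quotient.mk_eq_zero, Submodule.mem_span_singleton]
        exact ⟨c, Subtype.ext hc.symm⟩
    obtain ⟨x, hxD, hxe⟩ := hfp
    have heD : e ∈ D := ⟨hee, fun g hg => ⟨0, by rw [hfix g hg, zero_smul, add_zero]⟩⟩
    obtain ⟨a, ha, ha0⟩ := C.H.a0
    have htv : ∀ v, B v v = 0 → B e v = 0 → ∀ x ∈ D, B v x ≠ 0 → v ∈ D := by
      intro v hvv hev x hx hvx
      obtain ⟨g, hg⟩ := C.exists_tv hvv ha0
      have h3 := hDinv g (by rw [hg, C.H.comm0 hev, mul_zero, zero_smul, add_zero]) x hx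
      rw [hg] at h3
      have h4 : (a * B v x) • v ∈ D := by
        have := D.sub_mem h3 hx
        rwa [add_sub_cancel_left] at this
      have := D.smul_mem (a * B v x)⁻¹ h4
      rwa [smul_smul, inv_mul_cancel₀ (mul_ne_zero ha hvx), one_smul] at this
    -- projection to `W`
    have hproj : ∀ y, B e y = 0 → ∃ c : F, B e (y - c • e) = 0 ∧ B f (y - c • e) = 0 := by
      intro y hy
      refine ⟨ε * B f y, ?_, ?_⟩
      · rw [map_sub, map_smul, hy, hee, smul_zero, sub_zero]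
      · rw [map_sub, map_smul, hfe, smul_eq_mul]; linear_combination (-B f y) * C.H.e2
    rcases hdich e f hee hff hef with ⟨v0, hv0, hv0', hev0, hfv0⟩ | h3
    · obtain ⟨y1, hy1⟩ := C.H.exists_ne hv0
      -- push `y1` into `e^⊥`
      set y2 := y1 - B e y1 • f with hy2
      have h4 : B e y2 = 0 := by rw [hy2, map_sub, map_smul, hef, smul_eq_mul, mul_one, sub_self]
      have h5 : B v0 y2 = 1 := by rw [hy2, map_sub, map_smul, C.H.comm0 hfv0, smul_zero, sub_zero, hy1]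
      have : ∃ v, B v v = 0 ∧ B e v = 0 ∧ B v x ≠ 0 := by
        by_contra hcon
        push Not at hcon
        have h6 : ∀ y, B e y = 0 → B x y = 0 := by
          intro y hy
          have h7 := C.H.spanS (LinearMap.ker (B e)) (LinearMap.ker (B x)) (e := v0) (w0 := y2)
            (LinearMap.mem_ker.2 hev0) hv0' (LinearMap.mem_ker.2 h4) (by rw [h5]; exact one_ne_zero)
            (fun u hu huu _ => LinearMap.mem_ker.2 (C.H.comm0 (hcon u huu (LinearMap.mem_ker.1 hu))))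
          exact LinearMap.mem_ker.1 (h7 (LinearMap.mem_ker.2 hy))
        obtain ⟨c, hc⟩ := C.H.dperp he h6
        exact hxe c hc
      obtain ⟨v, hvv, hev, hvx⟩ := this
      have hvD := htv v hvv hev x hxD hvx
      intro y hy
      have h7 := C.H.spanS (LinearMap.ker (B e)) D (e := v) (w0 := x)
            (LinearMap.mem_ker.2 hev) hvv (LinearMap.mem_ker.2 hxD.1) hvx
            (fun u hu huu hvu => htv u huu (LinearMap.mem_ker.1 hu) v hvD (fun h => hvu (C.H.comm0 h)))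
      exact h7 (LinearMap.mem_ker.2 hy)
    · intro y hy
      obtain ⟨c, hc1, hc2⟩ := hproj x hxD.1
      obtain ⟨d, hd1, hd2⟩ := hproj y hy
      obtain ⟨k, hk⟩ := h3 (x - c • e) (y - d • e) hc1 hc2 hd1 hd2 (fun h => hxe c (sub_eq_zero.1 h))
      have : y = k • (x - c • e) + d • e := by rw [← hk]; abel
      rw [this]
      exact D.add_mem (D.smul_mem _ (D.sub_mem hxD (D.smul_mem _ heD))) (D.smul_mem _ heD)
  intro r hr
  obtain ⟨g, hg, rfl⟩ := hlift r hr
  exact ⟨g, ⟨hfix g hg, fun x hx => (hkey x hx).2 g hg⟩, rfl⟩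

theorem aut_Q (hdich : Dich B) (α : T ≃* T) {v w : V} (hv : v ≠ 0) (hvv : B v v = 0) (hw : w ≠ 0) (hww : B w w = 0)
    (h : ∀ t, α t ∈ C.X w ↔ t ∈ C.X v) (t : T) (ht : t ∈ (C.Q v).map C.π) : α t ∈ (C.Q w).map C.π := by
  have hN : ∀ n : T, (∀ t ∈ C.X w, n * t * n⁻¹ ∈ C.X w) → (∀ t ∈ C.X v, α.symm n * t * (α.symm n)⁻¹ ∈ C.X v) := by
    intro n hn t ht
    rw [← h, map_mul, map_mul, map_inv, α.apply_symm_apply]
    exact hn _ ((h t).2 ht)
  have h1 : ((C.Q v).map C.π).map (α : T →* T) ≤ (C.Q w).map C.π := by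
    apply C.Op hdich hw hww
    · exact ((C.isP_Q v).map C.π).map _
    · rintro _ ⟨_, ⟨g, hg, rfl⟩, rfl⟩ t ht
      obtain ⟨s, rfl⟩ := α.surjective t
      show α (C.π g) * α s * (α (C.π g))⁻¹ ∈ C.X w
      rw [← map_inv, ← map_mul, ← map_mul, h]
      exact (C.norm_iff hv hvv g).2 ⟨1, one_ne_zero, by rw [one_smul]; exact hg.1⟩ s ((h s).1 ht)
    · rintro n hn _ ⟨_, ⟨g, hg, rfl⟩, rfl⟩
      obtain ⟨m, hm⟩ := C.πs (α.symm n)
      have h3 := hN n hn
      rw [← hm] at h3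
      obtain ⟨μ, hμ, h4⟩ := (C.norm_iff hv hvv m).1 h3
      refine ⟨C.π (m * g * m⁻¹), ⟨_, C.conjQ hg hμ h4, rfl⟩, ?_⟩
      show α (C.π (m * g * m⁻¹)) = n * α (C.π g) * n⁻¹
      rw [map_mul, map_mul, map_inv, map_mul, map_mul, map_inv, hm, α.apply_symm_apply]
  exact h1 ⟨t, ht, rfl⟩

end Cfg

end Cfsg.Agent.H8.TVA
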