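import Mathlib
import Cfsg.Agent.H8.TVA4

set_option autoImplicit false

namespace Cfsg.Agent.H8.TVA

variable {F : Type*} [Field F] {V : Type*} [AddCommGroup V] [Module F V] {σ : F →+* F}
variable {p : ℕ} {B : V →ₛₗ[σ] V →ₗ[F] F} {ε : F} {G T : Type*} [Group G] [Group T]

/-- hyperbolic pair -/
structure Hyp (B : V →ₛₗ[σ] V →ₗ[F] F) (e f : V) : Prop where
  ee : B e e = 0
  ff : B f f = 0
  ef : B e f = 1

theorem Hyp.fe (H : Frm B ε) {e f : V} (h : Hyp B e f) : B f e = ε := by rw [H.sym', h.ef, map_one, mul_one]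

theorem Hyp.e0 {e f : V} (h : Hyp B e f) : e ≠ 0 := by
  rintro rfl
  have := h.ef
  rw [map_zero, LinearMap.zero_apply] at this
  exact zero_ne_one this

theorem Hyp.f0 {e f : V} (h : Hyp B e f) : f ≠ 0 := by
  rintro rfl
  have := h.ef
  rw [map_zero] at this
  exact zero_ne_one this

/-- admissible parameters -/
structure Ok (B : V →ₛₗ[σ] V →ₗ[F] F) (ε : F) (e f w : V) (c : F) : Prop where
  ew : B e w = 0
  fw : B f w = 0
  eq : ε * c + σ c + B w w = 0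

theorem sf_mul (H : Frm B ε) {e w w2 : V} {c c2 : F} (hee : B e e = 0) (hw : B e w = 0) (hw2 : B e w2 = 0) (x : V) :
    sf B ε e w c (sf B ε e w2 c2 x) = sf B ε e (w + w2) (c + c2 - ε * B w w2) x := by
  have h1 : B e (sf B ε e w2 c2 x) = B e x := sf_perp H hee hw2 x
  have h2 : B w (sf B ε e w2 c2 x) = B w x + B e x * B w w2 := by
    rw [sf]
    simp only [map_add, map_sub, map_smul, smul_eq_mul, H.comm0 hw, mul_zero, add_zero, sub_zero]
  rw [sf, h1, h2]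
  conv_lhs => rw [sf]
  conv_rhs => rw [sf]
  rw [map_add, LinearMap.add_apply]
  simp only [smul_add, mul_add, add_smul, sub_smul, smul_sub, smul_smul]
  have e1 : (ε * (B e x * B w w2)) • e = (B e x * (ε * B w w2)) • e := by congr 1; ring
  rw [e1]
  abel

theorem Ok.mul (H : Frm B ε) {e f w w2 : V} {c c2 : F} (h : Ok B ε e f w c) (h2 : Ok B ε e f w2 c2) :
    Ok B ε e f (w + w2) (c + c2 - ε * B w w2) := by
  refine ⟨by rw [map_add, h.ew, h2.ew, add_zero], by rw [map_add, h.fw, h2.fw, add_zero], ?_⟩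
  have e1 := h.eq
  have e2 := h2.eq
  have e3 : σ (ε * B w w2) = B w2 w := by rw [map_mul, H.se, H.sym, ← mul_assoc, H.e2, one_mul]
  have e4 : B (w + w2) (w + w2) = B w w + B w w2 + (B w2 w + B w2 w2) := by
    simp only [map_add, LinearMap.add_apply]; ring
  rw [map_sub, map_add, e3, e4]
  linear_combination e1 + e2 - B w w2 * H.e2

theorem sf_zero {e : V} (x : V) : sf B ε e 0 0 x = x := by
  rw [sf, map_zero, LinearMap.zero_apply]; simp

theorem sf_uniq (H : Frm B ε) {e f w w2 : V} {c c2 : F} (hh : Hyp B e f) (h : Ok B ε e f w c) (h2 : Ok B ε e f w2 c2)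
    (hs : ∀ x, sf B ε e w c x = sf B ε e w2 c2 x) : w = w2 ∧ c = c2 := by
  have h3 := hs f
  rw [sf, sf, hh.ef, H.comm0 h.fw, H.comm0 h2.fw, one_smul, one_smul] at h3
  simp only [mul_zero, zero_smul, sub_zero] at h3
  have h4 : w + c • e = w2 + c2 • e := add_left_cancel h3
  have h5 : c = c2 := by
    have h6 := congrArg (B f) h4
    rw [map_add, map_add, h.fw, h2.fw, map_smul, map_smul, hh.fe H, zero_add, zero_add, smul_eq_mul, smul_eq_mul] at h6
    exact mul_right_cancel₀ H.e_ne h6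
  subst h5
  exact ⟨add_right_cancel h4, rfl⟩

namespace Cfg

variable (C : Cfg p B ε G T) [CharP F p] [Fact p.Prime] [Nontrivial V] [Finite V] [Finite G]

theorem Q_coord {e f : V} (hh : Hyp B e f) {g : G} (hg : g ∈ C.Q e) : ∃ w c, Ok B ε e f w c ∧ ∀ x, C.ρ g x = sf B ε e w c x := by
  set y := C.ρ g f - f with hy
  have hey : B e y = 0 := by
    rw [hy, map_sub]
    have := C.iso g e f
    rw [hg.1] at this
    rw [this, sub_self]
  set c := ε * B f y with hc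
  set w := y - c • e with hw
  have hew : B e w = 0 := by rw [hw, map_sub, map_smul, hey, hh.ee, smul_zero, sub_zero]
  have hfw : B f w = 0 := by
    rw [hw, map_sub, map_smul, hh.fe C.H, smul_eq_mul, hc]
    linear_combination (-B f y) * C.H.e2
  have hgf : C.ρ g f = f + (w + c • e) := by rw [hw, hy]; abel
  have hwe := C.H.comm0 hew
  have hwf := C.H.comm0 hfw
  refine ⟨w, c, ⟨hew, hfw, ?_⟩, ?_⟩
  · have h1 := C.iso g f f
    rw [hgf] at h1
    simp only [map_add, LinearMap.add_apply, LinearMap.map_smulₛₗ, LinearMap.smul_apply, map_smul, smul_eq_mul, hh.ff, hh.ee, hh.ef, hh.fe C.H, hew, hfw, hwe, hwf] at h1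
    linear_combination h1
  · intro x
    obtain ⟨k, hk⟩ := hg.2 (x - B e x • f) (by rw [map_sub, map_smul, hh.ef, smul_eq_mul, mul_one, sub_self])
    have h1 := C.iso g (x - B e x • f) f
    rw [hk, hgf] at h1
    have h2 : B x e = ε * σ (B e x) := C.H.sym' x e
    simp only [map_add, map_sub, LinearMap.add_apply, LinearMap.sub_apply, LinearMap.map_smulₛₗ, LinearMap.smul_apply, map_smul, smul_eq_mul, hh.ff, hh.ee, hh.ef, hh.fe C.H, hew, hfw, hwe, hwf, h2] at h1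
    have h3 : σ k = - B x w := by linear_combination h1
    have h4 : k = - (ε * B w x) := by rw [← C.H.sq k, h3, map_neg, C.H.sym]
    rw [map_sub, map_smul, hgf, h4] at hk
    have h5 : C.ρ g x = x - B e x • f + -(ε * B w x) • e + B e x • (f + (w + c • e)) := by rw [← hk]; abel
    rw [h5, sf, smul_add (B e x) f, neg_smul]
    abel

/-- the correspondence of parameters under `α` -/
def Rl (α : T ≃* T) (e f e' f' w : V) (c : F) (w' : V) (c' : F) : Prop :=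
  Ok B ε e f w c ∧ Ok B ε e' f' w' c' ∧ ∃ g g' : G, (∀ x, C.ρ g x = sf B ε e w c x) ∧ (∀ x, C.ρ g' x = sf B ε e' w' c' x) ∧ α (C.π g) = C.π g'

variable {C} {α : T ≃* T} {e f e' f' : V}

theorem Rl.fn (hh : Hyp B e f) (hh' : Hyp B e' f') {w w1 w2 : V} {c c1 c2 : F}
    (h1 : C.Rl α e f e' f' w c w1 c1) (h2 : C.Rl α e f e' f' w c w2 c2) : w1 = w2 ∧ c1 = c2 := by
  obtain ⟨o, o1, g, g1, hg, hg1, e1⟩ := h1
  obtain ⟨-, o2, k, g2, hk, hg2, e2⟩ := h2
  have hgk : g = k := C.ext fun x => by rw [hg, hk]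
  subst hgk
  have h3 : g1 = g2 := by
    apply C.eq_of_pi (C.Q_pow (C.sf_mem hh'.ee o1.ew hg1)) (C.Q_pow (C.sf_mem hh'.ee o2.ew hg2))
    rw [← e1, ← e2]
  subst h3
  exact sf_uniq C.H hh' o1 o2 fun x => by rw [← hg1, ← hg2]

theorem Rl.mul (hh : Hyp B e f) (hh' : Hyp B e' f') {w w' w2 w2' : V} {c c' c2 c2' : F}
    (h1 : C.Rl α e f e' f' w c w' c') (h2 : C.Rl α e f e' f' w2 c2 w2' c2') :
    C.Rl α e f e' f' (w + w2) (c + c2 - ε * B w w2) (w' + w2') (c' + c2' - ε * B w' w2') := by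
  obtain ⟨o, o1, g, g1, hg, hg1, e1⟩ := h1
  obtain ⟨o2, o3, k, g2, hk, hg2, e2⟩ := h2
  refine ⟨o.mul C.H o2, o1.mul C.H o3, g * k, g1 * g2, ?_, ?_, ?_⟩
  · intro x; rw [C.mulρ, hg, hk, sf_mul C.H hh.ee o.ew o2.ew]
  · intro x; rw [C.mulρ, hg1, hg2, sf_mul C.H hh'.ee o1.ew o3.ew]
  · rw [map_mul, map_mul, e1, e2, map_mul]

theorem Rl.zero (hh : Hyp B e f) (hh' : Hyp B e' f') : C.Rl α e f e' f' 0 0 0 0 := by
  refine ⟨⟨map_zero _, map_zero _, by simp⟩, ⟨map_zero _, map_zero _, by simp⟩, 1, 1, ?_, ?_, ?_⟩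
  · intro x; rw [C.oneρ, sf_zero]
  · intro x; rw [C.oneρ, sf_zero]
  · rw [map_one, map_one]

theorem Rl.total (hdich : Dich B) (hh : Hyp B e f) (hh' : Hyp B e' f') (hX : ∀ t, α t ∈ C.X e' ↔ t ∈ C.X e) {w : V} {c : F}
    (o : Ok B ε e f w c) : ∃ w' c', C.Rl α e f e' f' w c w' c' := by
  obtain ⟨g, hg⟩ := C.hS e w c hh.ee o.ew o.eq
  have h1 := C.aut_Q hdich α hh.e0 hh.ee hh'.e0 hh'.ee hX (C.π g) ⟨g, C.sf_mem hh.ee o.ew hg, rfl⟩
  obtain ⟨g', hg', e1⟩ := h1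
  obtain ⟨w', c', o', hs⟩ := C.Q_coord hh' hg'
  exact ⟨w', c', o, o', g, g', hg, hs, e1.symm⟩

theorem Rl.total' (hdich : Dich B) (hh : Hyp B e f) (hh' : Hyp B e' f') (hX : ∀ t, α t ∈ C.X e' ↔ t ∈ C.X e) {w' : V} {c' : F}
    (o : Ok B ε e' f' w' c') : ∃ w c, C.Rl α e f e' f' w c w' c' := by
  obtain ⟨g, hg⟩ := C.hS e' w' c' hh'.ee o.ew o.eq
  have h1 := C.aut_Q hdich α.symm hh'.e0 hh'.ee hh.e0 hh.ee (fun t => by rw [← hX, α.apply_symm_apply]) (C.π g) ⟨g, C.sf_mem hh'.ee o.ew hg, rfl⟩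
  obtain ⟨g', hg', e1⟩ := h1
  obtain ⟨w', c', o', hs⟩ := C.Q_coord hh hg'
  refine ⟨w', c', o', o, g', g, hs, hg, ?_⟩
  rw [e1, α.apply_symm_apply]

theorem Rl.fn' (hh : Hyp B e f) (hh' : Hyp B e' f') {w w1 w2 : V} {c c1 c2 : F}
    (h1 : C.Rl α e f e' f' w1 c1 w c) (h2 : C.Rl α e f e' f' w2 c2 w c) : w1 = w2 ∧ c1 = c2 := by
  obtain ⟨o1, o, g1, g, hg1, hg, e1⟩ := h1
  obtain ⟨o2, -, g2, k, hg2, hk, e2⟩ := h2
  have hgk : g = k := C.ext fun x => by rw [hg, hk]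
  subst hgk
  have h3 : g1 = g2 := by
    apply C.eq_of_pi (C.Q_pow (C.sf_mem hh.ee o1.ew hg1)) (C.Q_pow (C.sf_mem hh.ee o2.ew hg2))
    apply α.injective
    rw [e1, e2]
  subst h3
  exact sf_uniq C.H hh o1 o2 fun x => by rw [← hg1, ← hg2]

/-- central parameters -/
theorem Rl.central (hh : Hyp B e f) (hh' : Hyp B e' f') (hX : ∀ t, α t ∈ C.X e' ↔ t ∈ C.X e) {w w' : V} {c c' : F}
    (h : C.Rl α e f e' f' w c w' c') : w = 0 ↔ w' = 0 := by
  have key : ∀ {e f w : V} {c : F} {g : G}, Hyp B e f → Ok B ε e f w c → (∀ x, C.ρ g x = sf B ε e w c x) → (C.π g ∈ C.X e ↔ w = 0) := by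
    intro e f w c g hh o hg
    constructor
    · rintro ⟨s, a, ha, hs, e1⟩
      have h1 := C.eq_of_pi (C.tv_pow hh.ee hs) (C.Q_pow (C.sf_mem hh.ee o.ew hg)) e1
      subst h1
      have o2 : Ok B ε e f (0 : V) a := ⟨map_zero _, map_zero _, by
        rw [map_zero, add_zero]; linear_combination ε * ha - σ a * C.H.e2⟩
      refine (sf_uniq C.H hh o o2 fun x => ?_).1
      rw [← hg, hs, sf, map_zero, LinearMap.zero_apply, mul_zero, zero_smul, sub_zero, zero_add, smul_smul, mul_comm]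
    · rintro rfl
      refine ⟨g, c, ?_, ?_, rfl⟩
      · have := o.eq
        rw [map_zero, add_zero] at this
        linear_combination ε * this - c * C.H.e2
      · intro x
        rw [hg, sf, map_zero, LinearMap.zero_apply, mul_zero, zero_smul, sub_zero, zero_add, smul_smul, mul_comm]
  obtain ⟨o, o1, g, g1, hg, hg1, e1⟩ := h
  rw [← key hh o hg, ← key hh' o1 hg1, ← e1, hX]

theorem Rl.neg (hdich : Dich B) (hh : Hyp B e f) (hh' : Hyp B e' f') (hX : ∀ t, α t ∈ C.X e' ↔ t ∈ C.X e) {w w' : V} {c c' : F}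
    (h : C.Rl α e f e' f' w c w' c') : C.Rl α e f e' f' (-w) (-c - ε * B w w) (-w') (-c' - ε * B w' w') := by
  have o := h.1
  have o2 : Ok B ε e f (-w) (-c - ε * B w w) := by
    refine ⟨by rw [map_neg, o.ew, neg_zero], by rw [map_neg, o.fw, neg_zero], ?_⟩
    have e1 := o.eq
    have e0 : B (-w) (-w) = B w w := by simp
    rw [e0, map_sub, map_neg, map_mul, C.H.se, C.H.sym]
    linear_combination (-1 : F) * e1 - 2 * B w w * C.H.e2
  obtain ⟨w2, c2, h2⟩ := Rl.total hdich hh hh' hX o2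
  have h3 := Rl.mul hh hh' h h2
  have e2 : w + -w = 0 := add_neg_cancel w
  have e3 : c + (-c - ε * B w w) - ε * B w (-w) = 0 := by rw [map_neg]; ring
  rw [e2, e3] at h3
  obtain ⟨h4, h5⟩ := Rl.fn hh hh' h3 (Rl.zero hh hh')
  have h6 : w2 = -w' := (neg_eq_of_add_eq_zero_right h4).symm
  subst h6
  have h7 : c2 = -c' - ε * B w' w' := by
    rw [map_neg] at h5
    linear_combination h5
  rw [← h7]
  exact h2

/-- difference of two parameters over the same `w` -/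
theorem Rl.diff (hdich : Dich B) (hh : Hyp B e f) (hh' : Hyp B e' f') (hX : ∀ t, α t ∈ C.X e' ↔ t ∈ C.X e) {w w1 w2 : V} {c1 c2 c1' c2' : F}
    (h1 : C.Rl α e f e' f' w c1 w1 c1') (h2 : C.Rl α e f e' f' w c2 w2 c2') : w1 = w2 ∧ C.Rl α e f e' f' 0 (c1 - c2) 0 (c1' - c2') := by
  have h3 := Rl.mul hh hh' h1 (Rl.neg hdich hh hh' hX h2)
  have e2 : w + -w = 0 := add_neg_cancel w
  rw [e2] at h3
  have h4 := (Rl.central hh hh' hX h3).1 rfl
  have h5 : w1 = w2 := by rwa [← sub_eq_add_neg, sub_eq_zero] at h4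
  subst h5
  refine ⟨rfl, ?_⟩
  rw [h4] at h3
  have e3 : c1 + (-c2 - ε * B w w) - ε * B w (-w) = c1 - c2 := by rw [map_neg]; ring
  have e4 : c1' + (-c2' - ε * B w1 w1) - ε * B w1 (-w1) = c1' - c2' := by rw [map_neg]; ring
  rwa [e3, e4] at h3

theorem ok_exists (H : Frm B ε) {w : V} (h1 : B e w = 0) (h2 : B f w = 0) : ∃ c, Ok B ε e f w c := by
  obtain ⟨b, hb⟩ := H.tr w
  exact ⟨b, h1, h2, by linear_combination hb⟩

/-- equivariance -/
theorem Rl.equi (hh : Hyp B e f) (hh' : Hyp B e' f') {w w' : V} {c c' : F} (h : C.Rl α e f e' f' w c w' c')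
    {k k' : G} (hk : α (C.π k) = C.π k') {μ ν μ' ν' : F} (hμ : μ ≠ 0) (hν : ν ≠ 0) (hμ' : μ' ≠ 0) (hν' : ν' ≠ 0)
    (h1 : C.ρ k e = μ • e) (h2 : C.ρ k f = ν • f) (h1' : C.ρ k' e' = μ' • e') (h2' : C.ρ k' f' = ν' • f') :
    C.Rl α e f e' f' (σ μ • C.ρ k w) (μ * σ μ * c) (σ μ' • C.ρ k' w') (μ' * σ μ' * c') := by
  have key : ∀ {e f w : V} {c μ ν : F} {k g : G}, Hyp B e f → Ok B ε e f w c → μ ≠ 0 → ν ≠ 0 → C.ρ k e = μ • e → C.ρ k f = ν • f →
      (∀ x, C.ρ g x = sf B ε e w c x) → Ok B ε e f (σ μ • C.ρ k w) (μ * σ μ * c) ∧ ∀ x, C.ρ (k * g * k⁻¹) x = sf B ε e (σ μ • C.ρ k w) (μ * σ μ * c) x := by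
    intro e f w c μ ν k g hh o hμ hν he hf hg
    have e1 : B e (C.ρ k w) = 0 := by
      have := C.iso k e w
      rw [he, LinearMap.map_smulₛₗ, LinearMap.smul_apply, o.ew, smul_eq_mul] at this
      exact (mul_eq_zero.1 this).resolve_left (fun h => hμ (by rw [← C.H.sq μ, h, map_zero]))
    have e2 : B f (C.ρ k w) = 0 := by
      have := C.iso k f w
      rw [hf, LinearMap.map_smulₛₗ, LinearMap.smul_apply, o.fw, smul_eq_mul] at this
      exact (mul_eq_zero.1 this).resolve_left (fun h => hν (by rw [← C.H.sq ν, h, map_zero]))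
    refine ⟨⟨by rw [map_smul, e1, smul_zero], by rw [map_smul, e2, smul_zero], ?_⟩, ?_⟩
    · rw [map_smul, LinearMap.map_smulₛₗ, LinearMap.smul_apply, C.iso, C.H.sq, map_mul, map_mul, C.H.sq, smul_eq_mul, smul_eq_mul]
      linear_combination (μ * σ μ) * o.eq
    · intro x
      rw [C.mulρ, C.mulρ, hg, sf, sf, map_sub, map_add, C.invρ', map_smul, map_add, map_smul, map_smul, he]
      rw [← C.iso' k e x, ← C.iso' k w x, he]
      simp only [LinearMap.map_smulₛₗ, LinearMap.smul_apply, smul_eq_mul, C.H.sq, smul_smul, smul_add, RingHom.id_apply]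
      congr 1
      · congr 1
        congr 1
        · congr 1; ring
        · congr 1; ring
      · congr 1; ring
  obtain ⟨o, o1, g, g1, hg, hg1, e1⟩ := h
  obtain ⟨a1, a2⟩ := key hh o hμ hν h1 h2 hg
  obtain ⟨b1, b2⟩ := key hh' o1 hμ' hν' h1' h2' hg1
  exact ⟨a1, b1, _, _, a2, b2, by rw [map_mul, map_mul, map_inv, map_mul, map_mul, map_inv, hk, e1, map_mul, map_mul, map_inv]⟩

end Cfg

end Cfsg.Agent.H8.TVA
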