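import Mathlib
import Cfsg.Agent.H8.TVA5

set_option autoImplicit false

namespace Cfsg.Agent.H8.TVA

variable {F : Type*} [Field F] {V : Type*} [AddCommGroup V] [Module F V] {σ : F →+* F}
variable {p : ℕ} {B : V →ₛₗ[σ] V →ₗ[F] F} {ε : F} {G T : Type*} [Group G] [Group T]

/-- the hyperbolic complement -/
def Wm (B : V →ₛₗ[σ] V →ₗ[F] F) (e f : V) : Submodule F V := LinearMap.ker (B e) ⊓ LinearMap.ker (B f)

theorem mem_Wm {e f w : V} : w ∈ Wm B e f ↔ B e w = 0 ∧ B f w = 0 := by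
  rw [Wm, Submodule.mem_inf, LinearMap.mem_ker, LinearMap.mem_ker]

def pr (B : V →ₛₗ[σ] V →ₗ[F] F) (ε : F) (e f x : V) : V := x - B e x • f - (ε * B f x) • e

theorem pr_mem (H : Frm B ε) {e f : V} (hh : Hyp B e f) (x : V) : pr B ε e f x ∈ Wm B e f := by
  rw [mem_Wm, pr]
  constructor
  · simp only [map_sub, map_smul, smul_eq_mul, hh.ef, hh.ee]; ring
  · simp only [map_sub, map_smul, smul_eq_mul, hh.ff, hh.fe H]; linear_combination (-B f x) * H.e2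

theorem pr_add {e f : V} (x y : V) : pr B ε e f (x + y) = pr B ε e f x + pr B ε e f y := by
  simp only [pr, map_add, mul_add, add_smul]; abel

theorem pr_smul {e f : V} (c : F) (x : V) : pr B ε e f (c • x) = c • pr B ε e f x := by
  simp only [pr, map_smul, smul_eq_mul, smul_sub, smul_smul]
  congr 2; ring

theorem exists_W (H : Frm B ε) {e f : V} (hh : Hyp B e f) {w : V} (hw : w ∈ Wm B e f) (hw0 : w ≠ 0) : ∃ y ∈ Wm B e f, B w y = 1 := by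
  obtain ⟨y, hy⟩ := H.exists_ne hw0
  refine ⟨pr B ε e f y, pr_mem H hh y, ?_⟩
  rw [mem_Wm] at hw
  rw [pr]
  simp only [map_sub, map_smul, smul_eq_mul, H.comm0 hw.1, H.comm0 hw.2, hy]; ring

/-- environment -/
structure Env (C : Cfg p B ε G T) : Prop where
  dich : Dich B
  hW : ∀ e f, Hyp B e f → ∃ w ∈ Wm B e f, w ≠ 0
  comm : ∀ (τ : F →+* F) (x : F), τ (σ x) = σ (τ x)
  CL : ∀ e f, Hyp B e f → ∀ c : V → V, (∀ w ∈ Wm B e f, c w ∈ Wm B e f) →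
    (∀ w ∈ Wm B e f, ∀ w2 ∈ Wm B e f, c (w + w2) = c w + c w2) →
    (∀ (k : G) (μ ν : F), μ ≠ 0 → ν ≠ 0 → C.ρ k e = μ • e → C.ρ k f = ν • f → ∀ w ∈ Wm B e f, c (σ μ • C.ρ k w) = σ μ • C.ρ k (c w)) →
    ∃ l : F, ∀ w ∈ Wm B e f, c w = l • w
  dl : ∀ e f, Hyp B e f → ∀ (τ : F →+* F) (δ : V → F), (∀ w ∈ Wm B e f, ∀ w2 ∈ Wm B e f, δ (w + w2) = δ w + δ w2) →
    (∀ (k : G) (μ ν : F), μ ≠ 0 → ν ≠ 0 → C.ρ k e = μ • e → C.ρ k f = ν • f → ∀ w ∈ Wm B e f, δ (σ μ • C.ρ k w) = τ (μ * σ μ) * δ w) →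
    ∀ w ∈ Wm B e f, δ w = 0

namespace Cfg

variable (C : Cfg p B ε G T) [CharP F p] [Fact p.Prime] [Nontrivial V] [Finite V] [Finite G] [Finite F]

theorem exists_pairs (α : T ≃* T) : ∃ e f e' f' : V, Hyp B e f ∧ Hyp B e' f' ∧ (∀ t, α t ∈ C.X e' ↔ t ∈ C.X e) ∧ (∀ t, α t ∈ C.X f' ↔ t ∈ C.X f) := by
  obtain ⟨U⟩ : Nonempty (Sylow p G) := inferInstance
  obtain ⟨e, he, hee, -⟩ := C.exists_fixed_iso U
  obtain ⟨f, hef, hff⟩ := C.H.exists_hyp he hee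
  have hh : Hyp B e f := ⟨hee, hff, hef⟩
  obtain ⟨e', he', hee', hX⟩ := C.aut_X α he hee
  obtain ⟨f1, hf1, hff1, hX1⟩ := C.aut_X α hh.f0 hff
  have hne : B e' f1 ≠ 0 := by
    intro h0
    have h1 := (C.comm_iff hee' hf1 hff1).2 h0
    have h2 : B e f = 0 := by
      rw [← C.comm_iff hee hh.f0 hff]
      intro s hs t ht
      apply α.injective
      rw [map_mul, map_mul]
      exact h1 _ ((hX s).2 hs) _ ((hX1 t).2 ht)
    rw [hef] at h2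
    exact one_ne_zero h2
  refine ⟨e, f, e', (B e' f1)⁻¹ • f1, hh, ⟨hee', ?_, ?_⟩, hX, ?_⟩
  · rw [map_smul, LinearMap.map_smulₛₗ, LinearMap.smul_apply, hff1, smul_zero, smul_zero]
  · rw [map_smul, smul_eq_mul, inv_mul_cancel₀ hne]
  · intro t
    rw [C.X_smul (inv_ne_zero hne), hX1]

theorem conj_mem {v : V} (s : G) (t : T) : t ∈ C.X (C.ρ s v) ↔ (C.π s)⁻¹ * t * C.π s ∈ C.X v := by
  constructor
  · intro h
    have := C.conjX s⁻¹ h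
    rwa [C.invρ, map_inv, inv_inv] at this
  · intro h
    have := C.conjX s h
    have e : C.π s * ((C.π s)⁻¹ * t * C.π s) * (C.π s)⁻¹ = t := by group
    rwa [e] at this

variable {C} {α : T ≃* T} {e f e' f' : V}

/-- the additive map on the hyperbolic complement -/
theorem exists_A (E : Env C) (hh : Hyp B e f) (hh' : Hyp B e' f') (hX : ∀ t, α t ∈ C.X e' ↔ t ∈ C.X e) :
    ∃ A : V → V, (∀ w ∈ Wm B e f, A w ∈ Wm B e' f') ∧ (∀ w ∈ Wm B e f, ∀ w2 ∈ Wm B e f, A (w + w2) = A w + A w2) ∧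
      (∀ w ∈ Wm B e f, A w = 0 → w = 0) ∧ (∀ w' ∈ Wm B e' f', ∃ w ∈ Wm B e f, A w = w') ∧
      (∀ w c w' c', C.Rl α e f e' f' w c w' c' → w' = A w) ∧ (∀ w c, Ok B ε e f w c → ∃ c', C.Rl α e f e' f' w c (A w) c') := by
  have h1 : ∀ w, w ∈ Wm B e f → ∃ w', ∀ c w1 c', C.Rl α e f e' f' w c w1 c' → w1 = w' := by
    intro w hw
    rw [mem_Wm] at hw
    obtain ⟨c, hc⟩ := ok_exists C.H hw.1 hw.2
    obtain ⟨w', c', h2⟩ := Rl.total E.dich hh hh' hX hc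
    exact ⟨w', fun c1 w1 c1' h3 => (Rl.diff E.dich hh hh' hX h3 h2).1⟩
  choose! A hA using h1
  have hmem : ∀ {w c w' c'}, C.Rl α e f e' f' w c w' c' → w ∈ Wm B e f ∧ w' ∈ Wm B e' f' := fun h =>
    ⟨mem_Wm.2 ⟨h.1.ew, h.1.fw⟩, mem_Wm.2 ⟨h.2.1.ew, h.2.1.fw⟩⟩
  have h2 : ∀ w c, Ok B ε e f w c → ∃ c', C.Rl α e f e' f' w c (A w) c' := by
    intro w c hc
    obtain ⟨w', c', h3⟩ := Rl.total E.dich hh hh' hX hc
    have := hA w (mem_Wm.2 ⟨hc.ew, hc.fw⟩) c w' c' h3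
    subst this
    exact ⟨c', h3⟩
  have h3 : ∀ w ∈ Wm B e f, ∃ c c', C.Rl α e f e' f' w c (A w) c' := by
    intro w hw
    rw [mem_Wm] at hw
    obtain ⟨c, hc⟩ := ok_exists C.H hw.1 hw.2
    obtain ⟨c', h4⟩ := h2 w c hc
    exact ⟨c, c', h4⟩
  refine ⟨A, ?_, ?_, ?_, ?_, ?_, h2⟩
  · intro w hw
    obtain ⟨c, c', h4⟩ := h3 w hw
    exact (hmem h4).2
  · intro w hw w2 hw2
    obtain ⟨c, c', h4⟩ := h3 w hw
    obtain ⟨c2, c2', h5⟩ := h3 w2 hw2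
    have h6 := Rl.mul hh hh' h4 h5
    exact (hA _ (hmem h6).1 _ _ _ h6).symm
  · intro w hw h0
    obtain ⟨c, c', h4⟩ := h3 w hw
    exact (Rl.central hh hh' hX h4).2 h0
  · intro w' hw'
    rw [mem_Wm] at hw'
    obtain ⟨c', hc'⟩ := ok_exists C.H hw'.1 hw'.2
    obtain ⟨w, c, h4⟩ := Rl.total' E.dich hh hh' hX hc'
    exact ⟨w, (hmem h4).1, (hA _ (hmem h4).1 _ _ _ h4).symm⟩
  · intro w c w' c' h4
    exact hA _ (hmem h4).1 _ _ _ h4

theorem exists_tau (E : Env C) (hh : Hyp B e f) (hh' : Hyp B e' f') (hX : ∀ t, α t ∈ C.X e' ↔ t ∈ C.X e)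
    (hX1 : ∀ t, α t ∈ C.X f' ↔ t ∈ C.X f) {A : V → V} (A1 : ∀ w ∈ Wm B e f, A w ∈ Wm B e' f')
    (A2 : ∀ w ∈ Wm B e f, ∀ w2 ∈ Wm B e f, A (w + w2) = A w + A w2) (A3 : ∀ w ∈ Wm B e f, A w = 0 → w = 0)
    (A4 : ∀ w' ∈ Wm B e' f', ∃ w ∈ Wm B e f, A w = w') (A5 : ∀ w c w' c', C.Rl α e f e' f' w c w' c' → w' = A w)
    (A6 : ∀ w c, Ok B ε e f w c → ∃ c', C.Rl α e f e' f' w c (A w) c') :
    ∃ τ : F →+* F, ∀ (c : F), ∀ w ∈ Wm B e f, A (c • w) = τ c • A w := by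
  have A0 : A 0 = 0 := by
    have := A2 0 (zero_mem _) 0 (zero_mem _)
    rw [add_zero] at this
    simpa using this
  have An : ∀ w ∈ Wm B e f, A (-w) = - A w := by
    intro w hw
    have := A2 w hw (-w) (neg_mem hw)
    rw [add_neg_cancel, A0] at this
    exact (neg_eq_of_add_eq_zero_right this.symm).symm
  have Ainj : ∀ w ∈ Wm B e f, ∀ w2 ∈ Wm B e f, A w = A w2 → w = w2 := by
    intro w hw w2 hw2 h
    have h1 := A2 w hw (-w2) (neg_mem hw2)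
    rw [An w2 hw2, h, add_neg_cancel] at h1
    have := A3 _ (add_mem hw (neg_mem hw2)) h1
    rwa [← sub_eq_add_neg, sub_eq_zero] at this
  choose! Ai Ai1 Ai2 using A4
  have Ai3 : ∀ w ∈ Wm B e f, Ai (A w) = w := fun w hw => Ainj _ (Ai1 _ (A1 w hw)) _ hw (Ai2 _ (A1 w hw))
  have h1 : ∀ c : F, ∃ l : F, ∀ w ∈ Wm B e f, A (c • w) = l • A w := by
    intro c
    obtain ⟨l, hl⟩ := E.CL e' f' hh' (fun w' => A (c • Ai w')) (fun w' hw' => A1 _ (Submodule.smul_mem _ _ (Ai1 _ hw'))) (by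
      intro w hw w2 hw2
      have e1 : Ai (w + w2) = Ai w + Ai w2 := by
        apply Ainj _ (Ai1 _ (add_mem hw hw2)) _ (add_mem (Ai1 _ hw) (Ai1 _ hw2))
        rw [Ai2 _ (add_mem hw hw2), A2 _ (Ai1 _ hw) _ (Ai1 _ hw2), Ai2 _ hw, Ai2 _ hw2]
      show A (c • Ai (w + w2)) = A (c • Ai w) + A (c • Ai w2)
      rw [e1, smul_add, A2 _ (Submodule.smul_mem _ _ (Ai1 _ hw)) _ (Submodule.smul_mem _ _ (Ai1 _ hw2))]) (by
      intro k' μ' ν' hμ' hν' hk1 hk2 w' hw'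
      obtain ⟨k, hk⟩ := C.πs (α.symm (C.π k'))
      have hk' : α (C.π k) = C.π k' := by rw [hk, α.apply_symm_apply]
      obtain ⟨μ, hμ, hke⟩ := (C.norm_iff hh.e0 hh.ee k).1 (by
        intro t ht
        rw [← hX, map_mul, map_mul, map_inv, hk']
        exact (C.norm_iff hh'.e0 hh'.ee k').2 ⟨μ', hμ', hk1⟩ _ ((hX t).2 ht))
      obtain ⟨ν, hν, hkf⟩ := (C.norm_iff hh.f0 hh.ff k).1 (by
        intro t ht
        rw [← hX1, map_mul, map_mul, map_inv, hk']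
        exact (C.norm_iff hh'.f0 hh'.ff k').2 ⟨ν', hν', hk2⟩ _ ((hX1 t).2 ht))
      have key : ∀ w ∈ Wm B e f, σ μ • C.ρ k w ∈ Wm B e f ∧ A (σ μ • C.ρ k w) = σ μ' • C.ρ k' (A w) := by
        intro w hw
        rw [mem_Wm] at hw
        obtain ⟨d, hd⟩ := ok_exists C.H hw.1 hw.2
        obtain ⟨d', h2⟩ := A6 w d hd
        have h3 := Rl.equi hh hh' h2 hk' hμ hν hμ' hν' hke hkf hk1 hk2
        exact ⟨mem_Wm.2 ⟨h3.1.ew, h3.1.fw⟩, (A5 _ _ _ _ h3).symm⟩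
      show A (c • Ai (σ μ' • C.ρ k' w')) = σ μ' • C.ρ k' (A (c • Ai w'))
      obtain ⟨m1, m2⟩ := key _ (Ai1 _ hw')
      rw [Ai2 _ hw'] at m2
      obtain ⟨m3, m4⟩ := key _ (Submodule.smul_mem _ c (Ai1 _ hw'))
      rw [← m2, Ai3 _ m1, ← m4]
      congr 1
      rw [map_smul, smul_comm])
    refine ⟨l, fun w hw => ?_⟩
    have := hl (A w) (A1 w hw)
    rw [← this]
    show A (c • w) = A (c • Ai (A w))
    rw [Ai3 w hw]
  choose t ht using h1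
  obtain ⟨w, hw, hw0⟩ := E.hW e f hh
  have hAw : A w ≠ 0 := fun h => hw0 (A3 w hw h)
  have hcan : ∀ a b : F, a • A w = b • A w → a = b := by
    intro a b hab
    have : (a - b) • A w = 0 := by rw [sub_smul, hab, sub_self]
    rcases smul_eq_zero.1 this with h | h
    · exact sub_eq_zero.1 h
    · exact absurd h hAw
  refine ⟨{ toFun := t, map_one' := ?_, map_mul' := ?_, map_zero' := ?_, map_add' := ?_ }, fun c w hw => ht c w hw⟩
  · apply hcan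
    rw [← ht 1 w hw, one_smul, one_smul]
  · intro a b
    apply hcan
    rw [← ht _ w hw, mul_smul, ht a _ (Submodule.smul_mem _ _ hw), ht b w hw, smul_smul]
  · apply hcan
    rw [← ht 0 w hw, zero_smul, zero_smul, A0]
  · intro a b
    apply hcan
    rw [← ht _ w hw, add_smul, A2 _ (Submodule.smul_mem _ _ hw) _ (Submodule.smul_mem _ _ hw), ht a w hw, ht b w hw, add_smul]

end Cfg

end Cfsg.Agent.H8.TVA
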