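import Mathlib
import Cfsg.Agent.H8.TVA6

set_option autoImplicit false

namespace Cfsg.Agent.H8.TVA

variable {F : Type*} [Field F] {V : Type*} [AddCommGroup V] [Module F V] {σ : F →+* F}
variable {p : ℕ} {B : V →ₛₗ[σ] V →ₗ[F] F} {ε : F} {G T : Type*} [Group G] [Group T]

namespace Cfg

variable {C : Cfg p B ε G T} [CharP F p] [Fact p.Prime] [Nontrivial V] [Finite V] [Finite G] [Finite F]
variable {α : T ≃* T} {e f e' f' : V}

theorem tau_eps (H : Frm B ε) (τ : F →+* F) : τ ε = ε := by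
  have h1 : (ε - 1) * (ε + 1) = 0 := by linear_combination H.e2
  rcases mul_eq_zero.1 h1 with h | h
  · rw [sub_eq_zero.1 h, map_one]
  · rw [eq_neg_of_add_eq_zero_left h, map_neg, map_one]

/-- the form up to a scalar, and the action on parameters -/
theorem exists_lam (E : Env C) (hh : Hyp B e f) (hh' : Hyp B e' f') (hX : ∀ t, α t ∈ C.X e' ↔ t ∈ C.X e)
    (hX1 : ∀ t, α t ∈ C.X f' ↔ t ∈ C.X f) {A : V → V} (A1 : ∀ w ∈ Wm B e f, A w ∈ Wm B e' f')
    (A2 : ∀ w ∈ Wm B e f, ∀ w2 ∈ Wm B e f, A (w + w2) = A w + A w2) (A3 : ∀ w ∈ Wm B e f, A w = 0 → w = 0)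
    (A4 : ∀ w' ∈ Wm B e' f', ∃ w ∈ Wm B e f, A w = w') (A5 : ∀ w c w' c', C.Rl α e f e' f' w c w' c' → w' = A w)
    (A6 : ∀ w c, Ok B ε e f w c → ∃ c', C.Rl α e f e' f' w c (A w) c')
    (τ : F →+* F) (hτ : ∀ (c : F), ∀ w ∈ Wm B e f, A (c • w) = τ c • A w) :
    ∃ l : F, l ≠ 0 ∧ σ l = l ∧ (∀ w ∈ Wm B e f, ∀ w2 ∈ Wm B e f, B (A w) (A w2) = l * τ (B w w2)) ∧
      ∀ w c, Ok B ε e f w c → C.Rl α e f e' f' w c (A w) (l * τ c) := by
  have hτs : Function.Surjective τ := (Finite.injective_iff_surjective.1 τ.injective)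
  have hex : ∀ w ∈ Wm B e f, ∃ c c', C.Rl α e f e' f' w c (A w) c' := by
    intro w hw
    rw [mem_Wm] at hw
    obtain ⟨c, hc⟩ := ok_exists C.H hw.1 hw.2
    obtain ⟨c', h4⟩ := A6 w c hc
    exact ⟨c, c', h4⟩
  -- commutators
  have key4 : ∀ w ∈ Wm B e f, ∀ w2 ∈ Wm B e f,
      C.Rl α e f e' f' 0 (ε * B w2 w - σ (B w2 w)) 0 (ε * B (A w2) (A w) - σ (B (A w2) (A w))) := by
    intro w hw w2 hw2
    obtain ⟨c, c', h1⟩ := hex w hw
    obtain ⟨c2, c2', h2⟩ := hex w2 hw2
    have h3 := Rl.mul hh hh' h1 h2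
    have h4 := Rl.mul hh hh' h2 h1
    rw [add_comm w2 w] at h4
    have h5 := (Rl.diff E.dich hh hh' hX h3 h4).2
    have e1 : ∀ x y : V, σ (B y x) = ε * B x y := fun x y => C.H.sym y x
    rw [e1, e1]
    have e2 : c + c2 - ε * B w w2 - (c2 + c - ε * B w2 w) = ε * B w2 w - ε * B w w2 := by ring
    have e3 : c' + c2' - ε * B (A w) (A w2) - (c2' + c' - ε * B (A w2) (A w)) = ε * B (A w2) (A w) - ε * B (A w) (A w2) := by ring
    rw [e2, e3] at h5
    exact h5
  have hsm : ∀ (c : F) (x y : V), B x (c • y) = c * B x y := fun c x y => by rw [map_smul, smul_eq_mul]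
  -- zero pairs
  have hzero : ∀ w ∈ Wm B e f, ∀ w2 ∈ Wm B e f, B w2 w = 0 → B (A w2) (A w) = 0 := by
    intro w hw w2 hw2 h0
    apply C.κ
    intro μ
    obtain ⟨t, rfl⟩ := hτs μ
    have h1 := key4 (t • w) (Submodule.smul_mem _ _ hw) w2 hw2
    rw [hτ t w hw, hsm, hsm, h0, mul_zero, mul_zero, map_zero, sub_zero] at h1
    have h2 := (Rl.fn hh hh' h1 (Rl.zero hh hh')).2
    linear_combination ε * h2 - τ t * B (A w2) (A w) * C.H.e2
  have hD : ∀ w ∈ Wm B e f, ∀ w2 ∈ Wm B e f, ∀ u ∈ Wm B e f, ∀ u2 ∈ Wm B e f, B w2 w ≠ 0 → B u2 u ≠ 0 →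
      (τ (B w2 w))⁻¹ * B (A w2) (A w) = (τ (B u2 u))⁻¹ * B (A u2) (A u) := by
    intro w hw w2 hw2 u hu u2 hu2 hb hc
    rw [← sub_eq_zero]
    apply C.κ
    intro μ
    obtain ⟨t, rfl⟩ := hτs μ
    have h1 := key4 ((t * (B w2 w)⁻¹) • w) (Submodule.smul_mem _ _ hw) w2 hw2
    have h2 := key4 ((t * (B u2 u)⁻¹) • u) (Submodule.smul_mem _ _ hu) u2 hu2
    rw [hτ _ w hw, hsm, hsm, mul_assoc t, inv_mul_cancel₀ hb, mul_one, map_mul τ, map_inv₀] at h1
    rw [hτ _ u hu, hsm, hsm, mul_assoc t, inv_mul_cancel₀ hc, mul_one, map_mul τ, map_inv₀] at h2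
    have h3 := (Rl.fn hh hh' h1 h2).2
    rw [mul_sub, map_sub]
    rw [← mul_assoc, ← mul_assoc]
    linear_combination ε * h3 - (τ t * (τ (B w2 w))⁻¹ * B (A w2) (A w) - τ t * (τ (B u2 u))⁻¹ * B (A u2) (A u)) * C.H.e2
  obtain ⟨w1, hw1, hw10⟩ := E.hW e f hh
  obtain ⟨w0, hw0, h10⟩ := exists_W C.H hh hw1 hw10
  set l := B (A w1) (A w0) with hl
  have hform : ∀ w ∈ Wm B e f, ∀ w2 ∈ Wm B e f, B (A w) (A w2) = l * τ (B w w2) := by
    intro w hw w2 hw2
    by_cases hb : B w w2 = 0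
    · rw [hb, map_zero, mul_zero]
      exact hzero w2 hw2 w hw hb
    · have h1 := hD w2 hw2 w hw w0 hw0 w1 hw1 hb (by rw [h10]; exact one_ne_zero)
      rw [h10, map_one, inv_one, one_mul, ← hl] at h1
      have h2 : τ (B w w2) ≠ 0 := fun h => hb (τ.injective (by rw [h, map_zero]))
      rw [← h1]
      field_simp
  have hl0 : l ≠ 0 := by
    intro h0
    have h1 : A w1 ≠ 0 := fun h => hw10 (A3 w1 hw1 h)
    obtain ⟨z, hz, hz1⟩ := exists_W C.H hh' (A1 w1 hw1) h1
    obtain ⟨w, hw, rfl⟩ := A4 z hz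
    rw [hform w1 hw1 w hw, h0, zero_mul] at hz1
    exact zero_ne_one hz1
  have hsl : σ l = l := by
    have h1 := hform w0 hw0 w1 hw1
    have h2 : B w0 w1 = ε := by rw [C.H.sym', h10, map_one, mul_one]
    rw [h2, tau_eps C.H τ, C.H.sym', ← hl] at h1
    linear_combination ε * h1 - (σ l - l) * C.H.e2
  have hcen : ∀ c c', C.Rl α e f e' f' 0 c 0 c' → c' = l * τ c := by
    intro c c' h1
    have h2 := h1.1.eq
    rw [map_zero, add_zero] at h2
    obtain ⟨b, hb⟩ := C.hD c (by linear_combination ε * h2 - c * C.H.e2)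
    have h3 := key4 (b • w0) (Submodule.smul_mem _ _ hw0) w1 hw1
    rw [hform w1 hw1 _ (Submodule.smul_mem _ _ hw0), hsm, h10, mul_one, ← hb] at h3
    rw [(Rl.fn hh hh' h1 h3).2, map_mul, hsl, hb, map_sub, map_mul, tau_eps C.H τ, E.comm]
    ring
  -- the defect
  have hdef : ∀ w, w ∈ Wm B e f → ∃ d, ∀ c c', C.Rl α e f e' f' w c (A w) c' → c' = l * τ c + d := by
    intro w hw
    obtain ⟨c, c', h1⟩ := hex w hw
    refine ⟨c' - l * τ c, fun c2 c2' h2 => ?_⟩
    have h3 := hcen _ _ (Rl.diff E.dich hh hh' hX h2 h1).2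
    rw [map_sub] at h3
    linear_combination h3
  choose! δ hδ using hdef
  have hδ0 : ∀ w ∈ Wm B e f, δ w = 0 := by
    apply E.dl e f hh τ δ
    · intro w hw w2 hw2
      obtain ⟨c, c', h1⟩ := hex w hw
      obtain ⟨c2, c2', h2⟩ := hex w2 hw2
      have h3 := Rl.mul hh hh' h1 h2
      rw [← A2 w hw w2 hw2] at h3
      have e1 := hδ w hw _ _ h1
      have e2 := hδ w2 hw2 _ _ h2
      have e3 := hδ _ (add_mem hw hw2) _ _ h3
      rw [hform w hw w2 hw2, map_sub, map_add, map_mul, tau_eps C.H τ] at e3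
      linear_combination -e3 + e1 + e2
    · intro k μ ν hμ hν hke hkf w hw
      obtain ⟨k', hk'⟩ := C.πs (α (C.π k))
      have hk : α (C.π k) = C.π k' := hk'.symm
      obtain ⟨μ', hμ', hk1⟩ := (C.norm_iff hh'.e0 hh'.ee k').1 (by
        intro t ht
        obtain ⟨s, rfl⟩ := α.surjective t
        rw [← hk, ← map_inv, ← map_mul, ← map_mul, hX]
        exact (C.norm_iff hh.e0 hh.ee k).2 ⟨μ, hμ, hke⟩ _ ((hX s).1 ht))
      obtain ⟨ν', hν', hk2⟩ := (C.norm_iff hh'.f0 hh'.ff k').1 (by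
        intro t ht
        obtain ⟨s, rfl⟩ := α.surjective t
        rw [← hk, ← map_inv, ← map_mul, ← map_mul, hX1]
        exact (C.norm_iff hh.f0 hh.ff k).2 ⟨ν, hν, hkf⟩ _ ((hX1 s).1 ht))
      -- the multiplier
      obtain ⟨a, ha, ha0⟩ := C.H.a0
      have oa : Ok B ε e f 0 a := ⟨map_zero _, map_zero _, by rw [map_zero, add_zero]; linear_combination ε * ha0 - σ a * C.H.e2⟩
      obtain ⟨a', h5⟩ := A6 0 a oa
      have hA0 : A 0 = 0 := (A5 _ _ _ _ (Rl.zero hh hh')).symm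
      rw [hA0] at h5
      have h6 := Rl.equi hh hh' h5 hk hμ hν hμ' hν' hke hkf hk1 hk2
      rw [map_zero, smul_zero, map_zero, smul_zero] at h6
      have h7 := hcen _ _ h5
      have h8 := hcen _ _ h6
      rw [h7, map_mul τ] at h8
      have hmm : μ' * σ μ' = τ (μ * σ μ) := by
        have h9 : l * τ a ≠ 0 := mul_ne_zero hl0 (fun h => ha (τ.injective (by rw [h, map_zero])))
        apply mul_right_cancel₀ h9
        linear_combination h8
      obtain ⟨c, c', h1⟩ := hex w hw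
      have h2 := Rl.equi hh hh' h1 hk hμ hν hμ' hν' hke hkf hk1 hk2
      have h3 := A5 _ _ _ _ h2
      rw [h3] at h2
      have e1 := hδ w hw _ _ h1
      have e2 := hδ _ (mem_Wm.2 ⟨h2.1.ew, h2.1.fw⟩) _ _ h2
      rw [map_mul τ, ← hmm] at e2
      rw [← hmm]
      linear_combination -e2 + μ' * σ μ' * e1
  refine ⟨l, hl0, hsl, hform, fun w c hc => ?_⟩
  obtain ⟨c', h1⟩ := A6 w c hc
  have hw : w ∈ Wm B e f := mem_Wm.2 ⟨hc.ew, hc.fw⟩
  have := hδ w hw _ _ h1
  rw [hδ0 w hw, add_zero] at this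
  rwa [this] at h1

/-- **Automorphisms are induced by semisimilarities** -/
theorem main (E : Env C) (α : T ≃* T) : ∃ (τ : F →+* F) (g : V →ₛₗ[τ] V) (l : F), l ≠ 0 ∧ σ l = l ∧
    (∀ x y, B (g x) (g y) = l * τ (B x y)) ∧ ∀ h h' : G, α (C.π h) = C.π h' → ∃ c : F, c ≠ 0 ∧ ∀ x, g (C.ρ h x) = c • C.ρ h' (g x) := by
  obtain ⟨e, f, e', f', hh, hh', hX, hX1⟩ := C.exists_pairs α
  obtain ⟨A, A1, A2, A3, A4, A5, A6⟩ := exists_A E hh hh' hX
  obtain ⟨τ, hτ⟩ := exists_tau E hh hh' hX hX1 A1 A2 A3 A4 A5 A6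
  obtain ⟨l, hl0, hsl, hform, hRl⟩ := exists_lam E hh hh' hX hX1 A1 A2 A3 A4 A5 A6 τ hτ
  have hτs : Function.Surjective τ := (Finite.injective_iff_surjective.1 τ.injective)
  have hτe := tau_eps C.H τ
  let g : V →ₛₗ[τ] V :=
    { toFun := fun x => (l * τ (ε * B f x)) • e' + τ (B e x) • f' + A (pr B ε e f x)
      map_add' := by
        intro x y
        rw [pr_add, A2 _ (pr_mem C.H hh x) _ (pr_mem C.H hh y)]
        simp only [map_add, mul_add, add_smul]
        abel
      map_smul' := by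
        intro c x
        rw [pr_smul, hτ c _ (pr_mem C.H hh x)]
        simp only [map_smul, smul_eq_mul, map_mul, smul_add, smul_smul]
        congr 2
        congr 1
        ring }
  have hg : ∀ x, g x = (l * τ (ε * B f x)) • e' + τ (B e x) • f' + A (pr B ε e f x) := fun x => rfl
  have hdec : ∀ x, x = (ε * B f x) • e + B e x • f + pr B ε e f x := by
    intro x; rw [pr]; abel
  have hgB : ∀ x y, B (g x) (g y) = l * τ (B x y) := by
    intro x y
    have hx := mem_Wm.1 (pr_mem C.H hh x)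
    have hy := mem_Wm.1 (pr_mem C.H hh y)
    have hx' := mem_Wm.1 (A1 _ (pr_mem C.H hh x))
    have hy' := mem_Wm.1 (A1 _ (pr_mem C.H hh y))
    have e1 : B x y = σ (ε * B f x) * B e y + σ (B e x) * (ε * B f y) * ε + B (pr B ε e f x) (pr B ε e f y) := by
      conv_lhs => rw [hdec x, hdec y]
      simp only [map_add, LinearMap.add_apply, LinearMap.map_smulₛₗ, LinearMap.smul_apply, map_smul, smul_eq_mul, hh.ee, hh.ff, hh.ef, hh.fe C.H, hx.1, hx.2, hy.1, hy.2, C.H.comm0 hx.1, C.H.comm0 hx.2, C.H.comm0 hy.1, C.H.comm0 hy.2]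
      ring
    rw [hg, hg, e1]
    simp only [map_add, LinearMap.add_apply, LinearMap.map_smulₛₗ, LinearMap.smul_apply, map_smul, smul_eq_mul, hh'.ee, hh'.ff, hh'.ef, hh'.fe C.H, hx'.1, hx'.2, hy'.1, hy'.2, C.H.comm0 hx'.1, C.H.comm0 hx'.2, C.H.comm0 hy'.1, C.H.comm0 hy'.2,
      hform _ (pr_mem C.H hh x) _ (pr_mem C.H hh y), map_mul, hsl, hτe, E.comm, C.H.se]
    ring
  have hginj : ∀ x, g x = 0 → x = 0 := by
    intro x hx
    apply C.H.nd
    intro y
    have h1 := hgB x y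
    rw [hx, map_zero, LinearMap.zero_apply] at h1
    have h2 := (mul_eq_zero.1 h1.symm).resolve_left hl0
    exact τ.injective (by rw [h2, map_zero])
  have hgsurj : Function.Surjective g := by
    apply Finite.injective_iff_surjective.1
    intro x y hxy
    have := hginj (x - y) (by rw [map_sub, hxy, sub_self])
    exact sub_eq_zero.1 this
  have hge : g e = l • e' := by
    rw [hg, hh.fe C.H, hh.ee, C.H.e2, map_one, mul_one, map_zero, zero_smul, add_zero]
    have : pr B ε e f e = 0 := by rw [pr, hh.ee, hh.fe C.H, C.H.e2, zero_smul, one_smul, sub_zero, sub_self]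
    rw [this, (A5 _ _ _ _ (Rl.zero hh hh')).symm, add_zero]
  -- points not perpendicular to `e`
  have P0 : ∀ x, B x x = 0 → B e x = 1 → ∀ t, α t ∈ C.X (g x) ↔ t ∈ C.X x := by
    intro x hxx hex t
    have hw := mem_Wm.1 (pr_mem C.H hh x)
    have hx : x = f + (pr B ε e f x + (ε * B f x) • e) := by conv_lhs => rw [hdec x, hex, one_smul]; 
                                                             abel
    have ok : Ok B ε e f (pr B ε e f x) (ε * B f x) := by
      refine ⟨hw.1, hw.2, ?_⟩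
      have h1 : B x x = B (f + (pr B ε e f x + (ε * B f x) • e)) (f + (pr B ε e f x + (ε * B f x) • e)) := by rw [← hx]
      rw [hxx] at h1
      simp only [map_add, LinearMap.add_apply, LinearMap.map_smulₛₗ, LinearMap.smul_apply, map_smul, smul_eq_mul, hh.ee, hh.ff, hh.ef, hh.fe C.H, hw.1, hw.2, C.H.comm0 hw.1, C.H.comm0 hw.2] at h1
      linear_combination -h1
    obtain ⟨-, o2, s, s', hs, hs', hα⟩ := hRl _ _ ok
    have h1 : C.ρ s f = x := by
      rw [hs, sf, hh.ef, one_smul, C.H.comm0 hw.2, mul_zero, zero_smul, sub_zero, ← hx]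
    have h2 : C.ρ s' f' = g x := by
      rw [hs', sf, hh'.ef, one_smul, C.H.comm0 o2.fw, mul_zero, zero_smul, sub_zero, hg, hex, map_one, one_smul]
      abel
    have h3 : α t ∈ C.X (C.ρ s' f') ↔ t ∈ C.X (C.ρ s f) := by
      rw [C.conj_mem, C.conj_mem, ← hα, ← map_inv, ← map_mul, ← map_mul, hX1]
    rw [h1, h2] at h3
    exact h3
  have P1 : ∀ x, B x x = 0 → B e x ≠ 0 → ∀ t, α t ∈ C.X (g x) ↔ t ∈ C.X x := by
    intro x hxx hex t
    have h1 := P0 ((B e x)⁻¹ • x) (by rw [map_smul, LinearMap.map_smulₛₗ, LinearMap.smul_apply, hxx, smul_zero, smul_zero])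
      (by rw [map_smul, smul_eq_mul, inv_mul_cancel₀ hex]) t
    rw [LinearMap.map_smulₛₗ, C.X_smul (inv_ne_zero hex), C.X_smul (fun h => inv_ne_zero hex (τ.injective (by rw [h, map_zero])))] at h1
    exact h1
  have P2 : ∀ x, x ≠ 0 → B x x = 0 → ∀ t, α t ∈ C.X (g x) ↔ t ∈ C.X x := by
    intro x hx0 hxx
    by_cases hex : B e x = 0
    swap
    · exact P1 x hxx hex
    by_cases hxe : ∃ c : F, e = c • x
    · obtain ⟨c, hc⟩ := hxe
      have hc0 : c ≠ 0 := by rintro rfl; exact hh.e0 (by rw [hc, zero_smul])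
      have h1 : x = c⁻¹ • e := by rw [hc, smul_smul, inv_mul_cancel₀ hc0, one_smul]
      intro t
      rw [h1, LinearMap.map_smulₛₗ, hge, smul_smul, C.X_smul (inv_ne_zero hc0), C.X_smul, hX]
      exact mul_ne_zero (fun h => inv_ne_zero hc0 (τ.injective (by rw [h, map_zero]))) hl0
    · obtain ⟨u, hu0, huu, hu⟩ := C.aut_X α hx0 hxx
      let D : Submodule F V :=
        { carrier := {y | B u (g y) = 0}
          zero_mem' := by show B u (g 0) = 0; rw [map_zero, map_zero]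
          add_mem' := by
            intro a b ha hb
            show B u (g (a + b)) = 0
            rw [map_add, map_add, show B u (g a) = 0 from ha, show B u (g b) = 0 from hb, add_zero]
          smul_mem' := by
            intro c a ha
            show B u (g (c • a)) = 0
            rw [LinearMap.map_smulₛₗ, map_smul, show B u (g a) = 0 from ha, smul_zero] }
      -- a vector of `x^⊥` not perpendicular to `e`
      have hw0 : ∃ w0, B x w0 = 0 ∧ B e w0 ≠ 0 := by
        by_contra hcon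
        push Not at hcon
        exact hxe (C.H.dperp hx0 hcon)
      obtain ⟨w0, hxw0, hew0⟩ := hw0
      have h1 := C.H.spanS (LinearMap.ker (B x)) D (e := e) (w0 := w0) (LinearMap.mem_ker.2 (C.H.comm0 hex)) hh.ee (LinearMap.mem_ker.2 hxw0) hew0 (by
        intro y hy hyy hey
        show B u (g y) = 0
        have hy0 : y ≠ 0 := by rintro rfl; exact hey (map_zero _)
        have hgy : B (g y) (g y) = 0 := by rw [hgB, hyy, map_zero, mul_zero]
        rw [← C.comm_iff huu (fun h => hy0 (hginj _ h)) hgy]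
        intro s hs t ht
        obtain ⟨s, rfl⟩ := α.surjective s
        obtain ⟨t, rfl⟩ := α.surjective t
        rw [← map_mul, ← map_mul]
        congr 1
        exact (C.comm_iff hxx hy0 hyy).2 (LinearMap.mem_ker.1 hy) s ((hu s).1 hs) t ((P1 y hyy hey t).1 ht))
      have hgx0 : g x ≠ 0 := fun h => hx0 (hginj _ h)
      obtain ⟨c, hc⟩ := C.H.dperp hgx0 (u := u) (by
        intro z hz
        obtain ⟨y, rfl⟩ := hgsurj z
        rw [hgB] at hz
        have h2 := (mul_eq_zero.1 hz).resolve_left hl0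
        have h3 : B x y = 0 := τ.injective (by rw [h2, map_zero])
        exact h1 (LinearMap.mem_ker.2 h3))
      have hc0 : c ≠ 0 := by rintro rfl; exact hu0 (by rw [hc, zero_smul])
      intro t
      rw [← hu, hc, C.X_smul hc0]
  refine ⟨τ, g, l, hl0, hsl, hgB, ?_⟩
  intro h h' hα
  have P3 : ∀ x, x ≠ 0 → B x x = 0 → ∃ c : F, g (C.ρ h x) = c • C.ρ h' (g x) := by
    intro x hx0 hxx
    have hhx0 : C.ρ h x ≠ 0 := fun h0 => hx0 (by rw [← C.invρ h x, h0, map_zero])
    have hhxx : B (C.ρ h x) (C.ρ h x) = 0 := by rw [C.iso, hxx]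
    have h1 := P2 _ hhx0 hhxx
    have h2 := P2 x hx0 hxx
    apply C.X_inj (fun h0 => hhx0 (hginj _ h0)) (by rw [hgB, hhxx, map_zero, mul_zero]) (by rw [C.iso, hgB, hxx, map_zero, mul_zero])
    intro t ht
    obtain ⟨t, rfl⟩ := α.surjective t
    rw [C.conj_mem, ← hα, ← map_inv, ← map_mul, ← map_mul, h2, ← C.conj_mem, ← h1]
    exact ht
  obtain ⟨ce, hce⟩ := P3 e hh.e0 hh.ee
  have hind : ∀ x, B x x = 0 → B e x ≠ 0 → g (C.ρ h x) = ce • C.ρ h' (g x) := by
    intro x hxx hex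
    have hx0 : x ≠ 0 := by rintro rfl; exact hex (map_zero _)
    obtain ⟨cx, hcx⟩ := P3 x hx0 hxx
    obtain ⟨a, ha, ha0⟩ := C.H.a0
    -- `e + b x` is isotropic
    set b := a * (B e x)⁻¹ with hb
    have hb0 : b ≠ 0 := mul_ne_zero ha (inv_ne_zero hex)
    have e1 : B e (b • x) = a := by rw [map_smul, smul_eq_mul, hb, mul_assoc, inv_mul_cancel₀ hex, mul_one]
    have e2 : B (b • x) e = -a := by rw [C.H.sym', e1]; linear_combination ha0
    have e3 : B (b • x) (b • x) = 0 := by rw [map_smul, LinearMap.map_smulₛₗ, LinearMap.smul_apply, hxx, smul_zero, smul_zero]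
    have hyy : B (e + b • x) (e + b • x) = 0 := by
      rw [map_add (B (e + b • x)), map_add B, LinearMap.add_apply, LinearMap.add_apply, hh.ee, e1, e2, e3]; ring
    have hy0 : e + b • x ≠ 0 := by
      intro h0
      have := congrArg (B e) h0
      rw [map_add, hh.ee, e1, map_zero, zero_add] at this
      exact ha this
    obtain ⟨cy, hcy⟩ := P3 _ hy0 hyy
    have h1 : (ce - cy) • C.ρ h' (g e) + (τ b * (cx - cy)) • C.ρ h' (g x) = 0 := by
      rw [map_add, map_smul, map_add, LinearMap.map_smulₛₗ, hce, hcx, map_add, LinearMap.map_smulₛₗ, map_add, map_smul, smul_add] at hcy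
      rw [sub_smul, mul_smul, sub_smul, smul_sub]
      rw [← sub_eq_zero] at hcy
      rw [← hcy, smul_comm cy (τ b)]
      abel
    have hne : B (g e) (g x) ≠ 0 := by
      rw [hgB]
      exact mul_ne_zero hl0 (fun h => hex (τ.injective (by rw [h, map_zero])))
    have h2 := congrArg (B (C.ρ h' (g e))) h1
    rw [map_add, map_smul, map_smul, map_zero, C.iso, C.iso, hgB e e, hh.ee, map_zero, mul_zero, smul_zero, zero_add, smul_eq_mul] at h2
    have h3 : cx = cy := by
      rcases mul_eq_zero.1 h2 with h4 | h4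
      · rcases mul_eq_zero.1 h4 with h5 | h5
        · exact absurd (τ.injective (by rw [h5, map_zero])) hb0
        · exact sub_eq_zero.1 h5
      · exact absurd h4 hne
    rw [h3, sub_self, mul_zero, zero_smul, add_zero] at h1
    have h4 : ce = cy := by
      rcases smul_eq_zero.1 h1 with h5 | h5
      · exact sub_eq_zero.1 h5
      · exfalso
        apply hh.e0
        apply hginj
        rw [← C.invρ h' (g e), h5, map_zero]
    rw [hcx, h3, ← h4]
  let D : Submodule F V :=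
    { carrier := {y | g (C.ρ h y) = ce • C.ρ h' (g y)}
      zero_mem' := by show g (C.ρ h 0) = ce • C.ρ h' (g 0); simp
      add_mem' := by
        intro a b ha hb
        show g (C.ρ h (a + b)) = ce • C.ρ h' (g (a + b))
        rw [map_add, map_add, map_add, map_add, smul_add, ← show g (C.ρ h a) = ce • C.ρ h' (g a) from ha, ← show g (C.ρ h b) = ce • C.ρ h' (g b) from hb]
      smul_mem' := by
        intro c a ha
        show g (C.ρ h (c • a)) = ce • C.ρ h' (g (c • a))
        rw [map_smul, LinearMap.map_smulₛₗ, LinearMap.map_smulₛₗ, map_smul, smul_comm, ← show g (C.ρ h a) = ce • C.ρ h' (g a) from ha] }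
  have hD : (⊤ : Submodule F V) ≤ D := C.H.spanS ⊤ D (e := e) (w0 := f) trivial hh.ee trivial (by rw [hh.ef]; exact one_ne_zero)
    (fun x _ hxx hex => hind x hxx hex)
  refine ⟨ce, ?_, fun x => hD (show x ∈ ⊤ from trivial)⟩
  rintro rfl
  rw [zero_smul] at hce
  apply hh.e0
  rw [← C.invρ h e, hginj _ hce, map_zero]

end Cfg

end Cfsg.Agent.H8.TVA
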