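import Mathlib
import Cfsg.Agent.H8.TVA7

set_option autoImplicit false

namespace Cfsg.Agent.H8.TVA

variable {F : Type*} [Field F] {V : Type*} [AddCommGroup V] [Module F V] {σ : F →+* F}
variable {p : ℕ} {B : V →ₛₗ[σ] V →ₗ[F] F} {ε : F} {G T : Type*} [Group G] [Group T]

/-- a semisimilarity fixing all isotropic points is scalar -/
theorem rigid (H : Frm B ε) (τ : F →+* F) (g : V →ₛₗ[τ] V) (l : F) (hg : ∀ x y, B (g x) (g y) = l * τ (B x y)) (hl : l ≠ 0)
    (he : ∀ e, B e e = 0 → ∃ a : F, g e = a • e) {e f : V} (hh : Hyp B e f) (hW : ∃ w ∈ Wm B e f, w ≠ 0) :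
    (∀ k, τ k = k) ∧ ∃ a : F, ∀ x, g x = a • x := by
  obtain ⟨a, ha⟩ := he e hh.ee
  obtain ⟨b, hb⟩ := he f hh.ff
  have hε := H.e_ne
  -- relation between a and b
  have ha0 : a ≠ 0 := by
    rintro rfl
    have h1 := hg e f
    rw [ha, zero_smul, map_zero, LinearMap.zero_apply, hh.ef, map_one, mul_one] at h1
    exact hl h1.symm
  have hb0 : b ≠ 0 := by
    rintro rfl
    have h1 := hg e f
    rw [hb, zero_smul, map_zero, hh.ef, map_one, mul_one] at h1
    exact hl h1.symm
  have hWs : ∀ w ∈ Wm B e f, B e (g w) = 0 ∧ B f (g w) = 0 := by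
    intro w hw
    rw [mem_Wm] at hw
    constructor
    · have h1 := hg e w
      rw [ha, hw.1, map_zero, mul_zero, LinearMap.map_smulₛₗ, LinearMap.smul_apply, smul_eq_mul] at h1
      exact (mul_eq_zero.1 h1).resolve_left ((map_ne_zero σ).2 ha0)
    · have h1 := hg f w
      rw [hb, hw.2, map_zero, mul_zero, LinearMap.map_smulₛₗ, LinearMap.smul_apply, smul_eq_mul] at h1
      exact (mul_eq_zero.1 h1).resolve_left ((map_ne_zero σ).2 hb0)
  -- main relation
  have key : ∀ w ∈ Wm B e f, ∀ c : F, σ c + ε * c = - B w w → g w = b • w ∧ τ c * a = b * c := by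
    intro w hw c hc
    have hw' := mem_Wm.1 hw
    have hi : B (f + w + c • e) (f + w + c • e) = 0 := by
      simp only [map_add, LinearMap.add_apply, LinearMap.map_smulₛₗ, LinearMap.smul_apply, map_smul, smul_eq_mul, hh.ee, hh.ff, hh.ef, hh.fe H, hw'.1, hw'.2, H.comm0 hw'.1, H.comm0 hw'.2]
      linear_combination hc
    obtain ⟨d, hd⟩ := he _ hi
    have e1 : g (f + w + c • e) = b • f + g w + (τ c * a) • e := by
      rw [map_add, map_add, LinearMap.map_smulₛₗ, ha, hb, smul_smul]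
    have e2 : d • (f + w + c • e) = d • f + d • w + (d * c) • e := by
      rw [smul_add, smul_add, smul_smul]
    rw [e1, e2] at hd
    have h1 := congrArg (B e) hd
    simp only [map_add, map_smul, smul_eq_mul, hh.ef, hh.ee, (hWs w hw).1, hw'.1] at h1
    have hbd : b = d := by linear_combination h1
    have h2 := congrArg (B f) hd
    simp only [map_add, map_smul, smul_eq_mul, hh.ff, hh.fe H, (hWs w hw).2, hw'.2] at h2
    have hac : τ c * a = b * c := by
      have h3 : (τ c * a - d * c) * ε = 0 := by linear_combination h2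
      have h4 := (mul_eq_zero.1 h3).resolve_right hε
      rw [hbd]; linear_combination h4
    refine ⟨?_, hac⟩
    rw [hbd, ← hbd, hac, hbd, add_assoc, add_assoc, add_right_inj, add_left_inj] at hd
    rw [hbd]; exact hd
  have hgw : ∀ w ∈ Wm B e f, g w = b • w := by
    intro w hw
    obtain ⟨c, hc⟩ := H.tr w
    exact (key w hw c hc).1
  have hτ : ∀ k, τ k = k := by
    obtain ⟨w, hw, hw0⟩ := hW
    intro k
    have h1 := hgw (k • w) ((Wm B e f).smul_mem k hw)
    rw [LinearMap.map_smulₛₗ, hgw w hw, smul_smul, smul_smul, ← sub_eq_zero, ← sub_smul] at h1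
    have h2 := (smul_eq_zero.1 h1).resolve_right hw0
    have h3 : (τ k - k) * b = 0 := by linear_combination h2
    exact sub_eq_zero.1 ((mul_eq_zero.1 h3).resolve_right hb0)
  have hab : a = b := by
    obtain ⟨c, hc0, hc⟩ := H.a0
    have hc' : σ c + ε * c = - B (0 : V) 0 := by
      rw [map_zero, neg_zero]
      have h1 : ε * (c + ε * σ c) = 0 := by rw [hc, mul_zero]
      linear_combination h1 + (-σ c) * H.e2
    have h1 := (key 0 (Submodule.zero_mem _) c hc').2
    rw [hτ] at h1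
    exact mul_left_cancel₀ hc0 (by rw [h1, mul_comm])
  refine ⟨hτ, b, fun x => ?_⟩
  have hx : x = pr B ε e f x + B e x • f + (ε * B f x) • e := by rw [pr]; abel
  have h1 := hgw _ (pr_mem H hh x)
  conv_lhs => rw [hx]
  rw [map_add, map_add, h1, LinearMap.map_smulₛₗ, LinearMap.map_smulₛₗ, ha, hb, hab, hτ, hτ, smul_comm _ b f, smul_comm _ b e, ← smul_add, ← smul_add, ← hx]

namespace Cfg

variable (C : Cfg p B ε G T) [CharP F p] [Fact p.Prime] [Nontrivial V] [Finite V] [Finite G] [Finite F]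

/-- the kernel of the action of semisimilarities -/
theorem rig (hW : ∀ e f, Hyp B e f → ∃ w ∈ Wm B e f, w ≠ 0) (τ : F →+* F) (g : V →ₛₗ[τ] V) (l : F) (hl : l ≠ 0)
    (hg : ∀ x y, B (g x) (g y) = l * τ (B x y)) (hgs : Function.Surjective g)
    (hex : ∀ a : G, ∃ b : G, ∀ x, g (C.ρ a x) = C.ρ b (g x)) (h : ∀ a b : G, (∀ x, g (C.ρ a x) = C.ρ b (g x)) → C.π b = C.π a) :
    (∀ k, τ k = k) ∧ ∃ a : F, ∀ x, g x = a • x := by
  have H := C.H
  have he : ∀ e, B e e = 0 → ∃ a : F, g e = a • e := by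
    intro e hee
    by_cases he0 : e = 0
    · exact ⟨0, by rw [he0, map_zero, smul_zero]⟩
    obtain ⟨c, hc0, hc⟩ := H.a0
    obtain ⟨t, ht⟩ := C.exists_tv hee hc
    obtain ⟨t', ht'⟩ := hex t
    have hp := C.tv_pow hee ht
    have hpw : ∀ k : ℕ, ∀ x, g (C.ρ (t ^ k) x) = C.ρ (t' ^ k) (g x) := by
      intro k
      induction k with
      | zero => intro x; rw [pow_zero, pow_zero, C.oneρ, C.oneρ]
      | succ k ih => intro x; rw [pow_succ, pow_succ, C.mulρ, C.mulρ, ih, ht']
    have hp' : t' ^ p ^ 2 = 1 := by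
      apply C.ext
      intro y
      obtain ⟨x, rfl⟩ := hgs y
      rw [← hpw, hp, C.oneρ, C.oneρ]
    have htt : t' = t := C.eq_of_pi hp' hp (h t t' ht')
    obtain ⟨x, hx⟩ := H.exists_ne he0
    have h1 := ht' x
    rw [htt, ht, ht, hx, mul_one, map_add, LinearMap.map_smulₛₗ] at h1
    have h2 := add_left_cancel h1
    refine ⟨(τ c)⁻¹ * (c * B e (g x)), ?_⟩
    rw [mul_smul, ← h2, smul_smul, inv_mul_cancel₀ ((map_ne_zero τ).2 hc0), one_smul]
  obtain ⟨v, hv, hvv, -⟩ := C.exists_fixed_iso (Classical.choice (inferInstance : Nonempty (Sylow p G)))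
  obtain ⟨f, hef, hff⟩ := H.exists_hyp hv hvv
  have hh : Hyp B v f := ⟨hvv, hff, hef⟩
  exact rigid H τ g l hg hl he hh (hW v f hh)

end Cfg

end Cfsg.Agent.H8.TVA
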