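import Mathlib
import Cfsg.Agent.H8.TVA7
import Cfsg.Agent.H7.GU

set_option autoImplicit false

namespace Cfsg.Agent.H8.TVU

open Cfsg Cfsg.Agent.H8.TVA Cfsg.Agent.H7.Herm Matrix

section sig
variable {F : Type*} [Field F] {σ : F →+* F}

theorem exists_moved (h3 : σ ≠ RingHom.id F) : ∃ x, σ x ≠ x := by
  by_contra hcon
  push Not at hcon
  exact h3 (RingHom.ext hcon)

theorem tr_surj (h2 : ∀ x, σ (σ x) = x) (h3 : σ ≠ RingHom.id F) (c : F) (hc : σ c = c) : ∃ b, σ b + b = c := by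
  have h4 : ∃ x, x + σ x ≠ 0 := by
    by_contra hcon
    push Not at hcon
    have h5 := hcon 1
    rw [map_one] at h5
    apply h3
    apply RingHom.ext
    intro x
    have h6 := hcon x
    rw [RingHom.id_apply]
    linear_combination h6 - x * h5
  obtain ⟨x, hx⟩ := h4
  refine ⟨c * x * (x + σ x)⁻¹, ?_⟩
  rw [map_mul, map_mul, map_inv₀, map_add, h2, hc]
  have hx' : σ x + x ≠ 0 := by rwa [add_comm]
  field_simp
  ring

theorem skew_ne (h2 : ∀ x, σ (σ x) = x) (h3 : σ ≠ RingHom.id F) : ∃ a : F, a ≠ 0 ∧ a + 1 * σ a = 0 := by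
  obtain ⟨x, hx⟩ := exists_moved h3
  refine ⟨x - σ x, sub_ne_zero.2 (Ne.symm hx), ?_⟩
  rw [map_sub, h2]; ring

theorem kap (h3 : σ ≠ RingHom.id F) (k : F) (h : ∀ μ : F, μ * k = 1 * σ (μ * k)) : k = 0 := by
  by_contra hk
  obtain ⟨x, hx⟩ := exists_moved h3
  apply hx
  have h1 := h (x * k⁻¹)
  rw [mul_assoc, inv_mul_cancel₀ hk, mul_one, one_mul] at h1
  exact h1.symm

theorem hD_lem (h2 : ∀ x, σ (σ x) = x) (h3 : σ ≠ RingHom.id F) (c : F) (hc : c + 1 * σ c = 0) : ∃ b, c = 1 * b - σ b := by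
  obtain ⟨t, ht⟩ := tr_surj h2 h3 1 (map_one σ)
  refine ⟨t * c, ?_⟩
  rw [map_mul]
  linear_combination (-c) * ht + σ t * hc
end sig

variable {F : Type*} [Field F] [Fintype F] {q n : ℕ}

theorem frm {σ : F →+* F} (h2 : ∀ x, σ (σ x) = x) (h3 : σ ≠ RingHom.id F) : Frm (hB n σ) (1 : F) where
  sq := h2
  e2 := one_mul 1
  se := map_one σ
  sym x y := by rw [one_mul, hB_symm h2]
  nd x h := hB_nd x h
  tr x := by
    obtain ⟨b, hb⟩ := tr_surj h2 h3 (-(hB n σ x x)) (by rw [map_neg, hB_symm h2])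
    exact ⟨b, by rw [one_mul]; exact hb⟩
  a0 := skew_ne h2 h3

/-- the natural action of `SU` -/
noncomputable def rho (n : ℕ) (F : Type*) [Field F] (q : ℕ) : SU n F q →* ((Fin n → F) ≃ₗ[F] (Fin n → F)) :=
  (Matrix.SpecialLinearGroup.toLin' (n := Fin n) (R := F)).comp (SU n F q).subtype

theorem rho_apply (g : SU n F q) (x : Fin n → F) : rho n F q g x = mat g *ᵥ x := rfl

theorem mat_herm (g : SU n F q) (u v : Fin n → F) : hermForm n F q (mat g *ᵥ u) (mat g *ᵥ v) = hermForm n F q u v := g.2 u v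

theorem rho_inj : Function.Injective (rho n F q) := by
  intro g h hgh
  apply mat_inj
  apply Matrix.mulVec_injective
  funext x
  rw [← rho_apply, ← rho_apply, hgh]

/-- an isometry with determinant one as an element of `SU` -/
theorem exists_SU {σ : F →+* F} (h1 : ∀ x, σ x = x ^ q) (L : (Fin n → F) →ₗ[F] (Fin n → F))
    (hL : ∀ x y, hB n σ (L x) (L y) = hB n σ x y) (hd : (LinearMap.toMatrix' L).det = 1) : ∃ g : SU n F q, ∀ x, rho n F q g x = L x := by
  have e1 : ∀ x, LinearMap.toMatrix' L *ᵥ x = L x := fun x => by rw [← Matrix.toLin'_apply, Matrix.toLin'_toMatrix']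
  refine ⟨mkSU (LinearMap.toMatrix' L) hd (fun u v => ?_), fun x => ?_⟩
  · rw [e1, e1, ← hB_eq h1, ← hB_eq h1, hL]
  · rw [rho_apply, mat_mkSU, e1]

theorem iso_sf {V : Type*} [AddCommGroup V] [Module F V] {σ : F →+* F} {B : V →ₛₗ[σ] V →ₗ[F] F} {ε : F} (H : Frm B ε) {e w : V} {c : F}
    (hee : B e e = 0) (hew : B e w = 0) (hc : ε * c + σ c + B w w = 0) (x y : V) : B (sf B ε e w c x) (sf B ε e w c y) = B x y := by
  have h1 : B x e = ε * σ (B e x) := H.sym' x e
  have h2 : B x w = ε * σ (B w x) := H.sym' x w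
  rw [sf, sf]
  simp only [map_add, map_sub, LinearMap.add_apply, LinearMap.sub_apply, LinearMap.map_smulₛₗ, LinearMap.smul_apply, map_smul, smul_eq_mul,
    hee, hew, H.comm0 hew, h1, h2, map_mul, H.se, RingHom.id_apply]
  have h3 := H.e2
  linear_combination (σ (B e x) * B e y) * hc - σ (B e x) * B w y * h3


theorem det_unip {p : ℕ} [Fact p.Prime] [CharP F p] (L : (Fin n → F) →ₗ[F] (Fin n → F)) (hL : (L - 1) ^ 3 = 0) : (LinearMap.toMatrix' L).det = 1 := by
  have hp : p.Prime := Fact.out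
  rcases Nat.eq_zero_or_pos n with rfl | hn
  · rw [Matrix.det_isEmpty]
  haveI : Nonempty (Fin n) := ⟨⟨0, hn⟩⟩
  haveI : Nontrivial (Fin n → F) := Function.nontrivial
  haveI : CharP (Module.End F (Fin n → F)) p := charP_of_injective_algebraMap (algebraMap F (Module.End F (Fin n → F))).injective p
  have h5 : (L - 1) ^ p ^ 2 = 0 := by
    have : 3 ≤ p ^ 2 := by nlinarith [hp.two_le]
    obtain ⟨d, hd⟩ := Nat.exists_eq_add_of_le this
    rw [hd, pow_add, hL, zero_mul]
  have h6 : L ^ p ^ 2 = 1 := by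
    have h7 : L = (L - 1) + 1 := by rw [sub_add_cancel]
    rw [h7, add_pow_char_pow_of_commute _ _ (Commute.one_right _), h5, one_pow, zero_add]
  apply Cfg.pow_one_of (p := p) (k := 2)
  rw [LinearMap.det_toMatrix', ← map_pow, h6, map_one]

noncomputable def sfL {σ : F →+* F} (B : (Fin n → F) →ₛₗ[σ] (Fin n → F) →ₗ[F] F) (ε : F) (e w : Fin n → F) (c : F) : (Fin n → F) →ₗ[F] (Fin n → F) :=
  LinearMap.id + (B e).smulRight (w + c • e) - (ε • B w).smulRight e

theorem sfL_apply {σ : F →+* F} (B : (Fin n → F) →ₛₗ[σ] (Fin n → F) →ₗ[F] F) (ε : F) (e w : Fin n → F) (c : F) (x : Fin n → F) :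
    sfL B ε e w c x = sf B ε e w c x := by
  rw [sfL, sf]; rfl

theorem sfL_det {p : ℕ} [Fact p.Prime] [CharP F p] {σ : F →+* F} {B : (Fin n → F) →ₛₗ[σ] (Fin n → F) →ₗ[F] F} {ε : F} (H : Frm B ε) {e w : Fin n → F} {c : F}
    (hee : B e e = 0) (hew : B e w = 0) : (LinearMap.toMatrix' (sfL B ε e w c)).det = 1 := by
  apply det_unip (p := p)
  have hN : ∀ x, (sfL B ε e w c - 1) x = B e x • (w + c • e) - (ε * B w x) • e := by
    intro x
    rw [LinearMap.sub_apply, sfL_apply, sf]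
    show x + B e x • (w + c • e) - (ε * B w x) • e - x = _
    abel
  have h1 : ∀ x, B e ((sfL B ε e w c - 1) x) = 0 := by
    intro x
    rw [hN]
    simp only [map_sub, map_smul, map_add, smul_eq_mul, hee, hew]; ring
  have h2 : (sfL B ε e w c - 1) e = 0 := by rw [hN, hee, H.comm0 hew]; simp
  apply LinearMap.ext
  intro x
  have e3 : ((sfL B ε e w c - 1 : Module.End F (Fin n → F)) ^ 3) x = (sfL B ε e w c - 1) ((sfL B ε e w c - 1) ((sfL B ε e w c - 1) x)) := by
    rw [pow_succ, pow_succ, pow_one]; rfl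
  rw [e3, hN ((sfL B ε e w c - 1) x), h1, zero_smul, zero_sub, map_neg, map_smul, h2, smul_zero, neg_zero, LinearMap.zero_apply]

/-- rank-`k` updates -/
theorem det_update {k : ℕ} (u : Fin k → Fin n → F) (φ : Fin k → ((Fin n → F) →ₗ[F] F)) (d : Fin k → F)
    (hd : ∀ i j, φ i (u j) = if i = j then 1 else 0) (L : (Fin n → F) →ₗ[F] (Fin n → F))
    (hL : ∀ x, L x = x + ∑ i, ((d i - 1) * φ i x) • u i) : (LinearMap.toMatrix' L).det = ∏ i, d i := by
  classical
  let A : Matrix (Fin n) (Fin k) F := Matrix.of fun a i => u i a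
  let C : Matrix (Fin k) (Fin n) F := Matrix.of fun i b => (d i - 1) * φ i (Pi.single b 1)
  have h1 : LinearMap.toMatrix' L = 1 + A * C := by
    ext a b
    rw [LinearMap.toMatrix'_apply, Matrix.add_apply, Matrix.mul_apply, hL, Pi.add_apply, Finset.sum_apply, Matrix.one_apply]
    congr 1
    · rw [Pi.single_apply]
    · apply Finset.sum_congr rfl
      intro i _
      rw [Pi.smul_apply, smul_eq_mul, mul_comm]
      rfl
  have h2 : ∀ (i : Fin k) (x : Fin n → F), ∑ b, φ i (Pi.single b 1) * x b = φ i x := by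
    intro i x
    conv_rhs => rw [pi_eq_sum_univ' x]
    rw [map_sum]
    apply Finset.sum_congr rfl
    intro b _
    rw [map_smul, smul_eq_mul, mul_comm]
  have h3 : C * A = Matrix.diagonal (fun i => d i - 1) := by
    ext i j
    rw [Matrix.mul_apply, Matrix.diagonal_apply]
    have : ∀ b, C i b * A b j = (d i - 1) * (φ i (Pi.single b 1) * u j b) := fun b => by
      show (d i - 1) * φ i (Pi.single b 1) * u j b = _
      ring
    simp only [this]
    rw [← Finset.mul_sum, h2, hd]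
    split_ifs <;> simp
  rw [h1, Matrix.det_one_add_mul_comm, h3, ← Matrix.diagonal_one, Matrix.diagonal_add, Matrix.det_diagonal]
  apply Finset.prod_congr rfl
  intro i _
  ring

end Cfsg.Agent.H8.TVU
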