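import Mathlib
import Cfsg.Agent.H8.TVA8
import Cfsg.Agent.H8.TVU1
import Cfsg.Agent.H8.MD2
import Cfsg.Agent.H7.SympSimple

set_option autoImplicit false

namespace Cfsg.Agent.H8.TVS

open Cfsg Cfsg.Agent.H8.TVA Cfsg.Agent.H7.Tv Matrix Module

local notation "SF" => Cfsg.Agent.H7.Tv.sf

/-- an additive map acting by homotheties is uniform -/
theorem uniform {F : Type*} [Field F] {V : Type*} [AddCommGroup V] [Module F V] (M : Submodule F V) (c : V → V)
    (hc : ∀ w ∈ M, ∀ w2 ∈ M, c (w + w2) = c w + c w2) (hs : ∀ u ∈ M, ∀ a : F, c (a • u) = a • c u) (hl : ∀ u ∈ M, ∃ l : F, c u = l • u) :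
    ∃ l : F, ∀ w ∈ M, c w = l • w := by
  by_cases hM : ∃ u ∈ M, u ≠ 0
  · obtain ⟨u, hu, hu0⟩ := hM
    obtain ⟨l, hlu⟩ := hl u hu
    refine ⟨l, ?_⟩
    intro w hw
    by_cases hdep : ∃ a : F, w = a • u
    · obtain ⟨a, rfl⟩ := hdep
      rw [hs u hu, hlu, smul_comm]
    · obtain ⟨k, hk⟩ := hl w hw
      obtain ⟨k2, hk2⟩ := hl (u + w) (M.add_mem hu hw)
      rw [hc u hu w hw, hlu, hk, smul_add] at hk2
      have h1 : (k - k2) • w = (k2 - l) • u := by
        rw [sub_smul, sub_smul, sub_eq_sub_iff_add_eq_add, add_comm, hk2, add_comm]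
      have h2 : k - k2 = 0 := by
        by_contra h
        apply hdep
        refine ⟨(k - k2)⁻¹ * (k2 - l), ?_⟩
        rw [mul_smul, ← h1, smul_smul, inv_mul_cancel₀ h, one_smul]
      rw [h2, zero_smul] at h1
      have h3 := (smul_eq_zero.1 h1.symm).resolve_right hu0
      rw [hk]
      congr 1
      linear_combination h2 + h3
  · push Not at hM
    refine ⟨0, fun w hw => ?_⟩
    rw [hM w hw]
    obtain ⟨l, h⟩ := hl 0 M.zero_mem
    rw [h, smul_zero, smul_zero]

variable {F : Type*} [Field F] {m : ℕ}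

theorem frm : Frm (SF m F) (-1 : F) where
  sq a := rfl
  e2 := by ring
  se := rfl
  sym x y := by
    rw [RingHom.id_apply, neg_one_mul]
    have h := (sf_alt (F := F) m).1 (x + y)
    simp only [map_add, LinearMap.add_apply, (sf_alt (F := F) m).1 x, (sf_alt (F := F) m).1 y] at h
    linear_combination h
  nd x h := (sf_alt (F := F) m).2 x (fun y => by
    have h2 := (sf_alt (F := F) m).1 (x + y)
    simp only [map_add, LinearMap.add_apply, (sf_alt (F := F) m).1 x, (sf_alt (F := F) m).1 y, h y] at h2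
    linear_combination h2)
  tr x := ⟨0, by rw [(sf_alt (F := F) m).1 x, map_zero, mul_zero, neg_zero, add_zero]⟩
  a0 := ⟨1, one_ne_zero, by rw [map_one]; ring⟩

theorem alt (x : Fin m ⊕ Fin m → F) : SF m F x x = 0 := (sf_alt (F := F) m).1 x

/-- the natural action -/
noncomputable def rho (m : ℕ) (F : Type*) [Field F] : symplecticGroup (Fin m) F →* ((Fin m ⊕ Fin m → F) ≃ₗ[F] (Fin m ⊕ Fin m → F)) where
  toFun g := linE (spToGL m F g)
  map_one' := by ext1 x; rw [linE_apply, map_one, ap_one]; rfl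
  map_mul' g h := by ext1 x; rw [linE_apply, map_mul, ap_mul]; rfl

theorem rho_apply (g : symplecticGroup (Fin m) F) (x : Fin m ⊕ Fin m → F) : rho m F g x = ap (spToGL m F g) x := rfl

theorem rho_inj : Function.Injective (rho m F) := by
  intro g h hgh
  apply sp_ext
  intro v
  rw [← rho_apply, ← rho_apply, hgh]

theorem rho_iso (g : symplecticGroup (Fin m) F) (x y : Fin m ⊕ Fin m → F) : SF m F (rho m F g x) (rho m F g y) = SF m F x y :=
  spToGL_iso g x y

/-- isometries are in `Sp` -/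
theorem exists_Sp (L : (Fin m ⊕ Fin m → F) →ₗ[F] (Fin m ⊕ Fin m → F)) (hL : ∀ x y, SF m F (L x) (L y) = SF m F x y) :
    ∃ g : symplecticGroup (Fin m) F, ∀ x, rho m F g x = L x := by
  have hinj : Function.Injective L := by
    rw [← LinearMap.ker_eq_bot, LinearMap.ker_eq_bot']
    intro x hx
    apply frm.nd (B := SF m F)
    intro y
    rw [← hL, hx, map_zero, LinearMap.zero_apply]
  let e := LinearEquiv.ofInjectiveEndo L hinj
  have he : ∀ x, e x = L x := fun x => rfl
  obtain ⟨A, hA⟩ := exists_spToGL (m := m) (g := ofE e) (fun u v => by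
    show sympForm m F (ap (ofE e) u) (ap (ofE e) v) = _
    rw [ap_ofE, ap_ofE, he, he]
    exact hL u v)
  refine ⟨A, fun x => ?_⟩
  rw [rho_apply, hA, ap_ofE, he]

/-- central elements are scalars -/
theorem center_scalar (A : symplecticGroup (Fin m) F) :
    A ∈ Subgroup.center (symplecticGroup (Fin m) F) ↔ ∃ c : F, ∀ x, rho m F A x = c • x := by
  rw [mem_center_iff]
  constructor
  · intro h
    obtain ⟨l, hl⟩ := uniform (⊤ : Submodule F (Fin m ⊕ Fin m → F)) (fun x => rho m F A x) (fun w _ w2 _ => map_add _ _ _)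
      (fun u _ a => map_smul _ _ _) (fun u _ => h u)
    exact ⟨l, fun x => hl x trivial⟩
  · rintro ⟨c, hc⟩ v
    exact ⟨c, hc v⟩

/-- the symplectic configuration, odd characteristic -/
noncomputable def cfgS (p : ℕ) [hp : Fact p.Prime] [CharP F p] [Fintype F] (hp2 : p ≠ 2) (hm : 1 ≤ m) :
    Cfg p (SF m F) (-1 : F) (symplecticGroup (Fin m) F) (PSp m F) where
  H := frm
  ρ := rho m F
  inj := rho_inj
  iso := rho_iso
  hS e w c he hew hc := by
    let L : (Fin m ⊕ Fin m → F) →ₗ[F] (Fin m ⊕ Fin m → F) :=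
      LinearMap.id + (SF m F e).smulRight (w + c • e) - ((-1 : F) • SF m F w).smulRight e
    have hL : ∀ x, L x = TVA.sf (SF m F) (-1) e w c x := fun x => rfl
    obtain ⟨g, hg⟩ := exists_Sp L (fun x y => by rw [hL, hL, TVU.iso_sf frm he hew hc])
    exact ⟨g, fun x => by rw [hg, hL]⟩
  π := QuotientGroup.mk' _
  πs := QuotientGroup.mk'_surjective _
  ker g := by
    rw [QuotientGroup.mk'_apply, QuotientGroup.eq_one_iff]
    exact center_scalar g
  cnt := by
    have e1 : Nat.card {v : Fin m ⊕ Fin m → F // SF m F v v = 0} = Nat.card (Fin m ⊕ Fin m → F) :=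
      Nat.card_congr (Equiv.subtypeUnivEquiv (fun v => alt v))
    rw [e1, Nat.card_eq_fintype_card, Fintype.card_fun]
    have h2 : p ∣ Fintype.card F := by
      obtain ⟨k, hk, hk2⟩ := FiniteField.card F p
      rw [hk2]; exact dvd_pow_self p k.pos.ne'
    exact h2.trans (dvd_pow_self _ (by rw [Fintype.card_sum, Fintype.card_fin]; omega))
  κ k h := by
    have h1 := h 1
    rw [RingHom.id_apply, one_mul] at h1
    have h2 : (2 : F) * k = 0 := by linear_combination h1
    have h3 : (2 : F) ≠ 0 := Ring.two_ne_zero (by rwa [ringChar.eq F p])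
    exact (mul_eq_zero.1 h2).resolve_left h3
  hD c _ := by
    have h3 : (2 : F) ≠ 0 := Ring.two_ne_zero (by rwa [ringChar.eq F p])
    refine ⟨-(c / 2), ?_⟩
    rw [RingHom.id_apply]
    field_simp
    ring

theorem exists_Wm (hm : 2 ≤ m) {e f : Fin m ⊕ Fin m → F} (hh : Hyp (SF m F) e f) : ∃ w ∈ Wm (SF m F) e f, w ≠ 0 := by
  by_contra hcon
  push Not at hcon
  have h1 : Wm (SF m F) e f = ⊥ := (Submodule.eq_bot_iff _).2 hcon
  have h2 : ∀ x, x = SF m F e x • f + ((-1) * SF m F f x) • e := by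
    intro x
    have h3 := hcon _ (pr_mem frm hh x)
    rw [pr, sub_sub, sub_eq_zero] at h3
    exact h3
  have h4 : (⊤ : Submodule F (Fin m ⊕ Fin m → F)) ≤ Submodule.span F {e, f} := by
    intro x _
    rw [h2 x]
    exact Submodule.add_mem _ (Submodule.smul_mem _ _ (Submodule.subset_span (by simp))) (Submodule.smul_mem _ _ (Submodule.subset_span (by simp)))
  have h5 := Submodule.finrank_mono h4
  rw [finrank_top, Module.finrank_fintype_fun_eq_card, Fintype.card_sum, Fintype.card_fin] at h5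
  have h6 : finrank F (Submodule.span F ({e, f} : Set (Fin m ⊕ Fin m → F))) ≤ 2 := by
    classical
    have := finrank_span_finset_le_card (R := F) ({e, f} : Finset (Fin m ⊕ Fin m → F))
    rw [Finset.coe_pair] at this
    exact this.trans Finset.card_le_two
  omega

theorem envS (p : ℕ) [hp : Fact p.Prime] [CharP F p] [Fintype F] (hp2 : p ≠ 2) (hm : 2 ≤ m) : Env (cfgS (m := m) (F := F) p hp2 (by omega)) := by
  have H := frm (F := F) (m := m)
  have tv : ∀ (e f : Fin m ⊕ Fin m → F), Hyp (SF m F) e f → ∀ u ∈ Wm (SF m F) e f, ∀ a : F, ∃ k : symplecticGroup (Fin m) F,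
      rho m F k e = (1 : F) • e ∧ rho m F k f = (1 : F) • f ∧ ∀ x, rho m F k x = x + (a * SF m F u x) • u := by
    intro e f hh u hu a
    have hu' := mem_Wm.1 hu
    obtain ⟨k, hk⟩ := (cfgS (m := m) (F := F) p hp2 (by omega)).exists_tv (alt u) (c := a) (by rw [RingHom.id_apply]; ring)
    have hk' : ∀ x, rho m F k x = x + (a * SF m F u x) • u := hk
    refine ⟨k, ?_, ?_, hk'⟩
    · rw [hk', H.comm0 hu'.1, mul_zero, zero_smul, add_zero, one_smul]
    · rw [hk', H.comm0 hu'.2, mul_zero, zero_smul, add_zero, one_smul]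
  refine ⟨?_, ?_, ?_, ?_, ?_⟩
  · intro e f hee hff hef
    left
    obtain ⟨w, hw, hw0⟩ := exists_Wm hm (⟨hee, hff, hef⟩ : Hyp (SF m F) e f)
    have hw' := mem_Wm.1 hw
    exact ⟨w, hw0, alt w, hw'.1, hw'.2⟩
  · intro e f hh
    exact exists_Wm hm hh
  · intro τ x; rfl
  · intro e f hh c c1 c2 c3
    have ctv : ∀ u ∈ Wm (SF m F) e f, ∀ a : F, ∀ x ∈ Wm (SF m F) e f, c ((a * SF m F u x) • u) = (a * SF m F u (c x)) • u := by
      intro u hu a x hx
      obtain ⟨k, hk1, hk2, hk⟩ := tv e f hh u hu a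
      have h1 : c ((1 : F) • (rho m F k x)) = (1 : F) • rho m F k (c x) := c3 k 1 1 one_ne_zero one_ne_zero hk1 hk2 x hx
      rw [one_smul, one_smul, hk, hk, c2 x hx _ ((Wm (SF m F) e f).smul_mem _ hu)] at h1
      exact add_left_cancel h1
    have hlin : ∀ u ∈ Wm (SF m F) e f, ∃ l : F, ∀ a : F, c (a • u) = (a * l) • u := by
      intro u hu
      by_cases hu0 : u = 0
      · refine ⟨0, fun a => ?_⟩
        have h0 : c 0 = 0 := by
          have := c2 0 (Submodule.zero_mem _) 0 (Submodule.zero_mem _)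
          rw [add_zero] at this
          simpa using this
        rw [hu0, smul_zero, smul_zero, h0]
      obtain ⟨y, hy, hy1⟩ := exists_W H hh hu hu0
      refine ⟨SF m F u (c y), fun a => ?_⟩
      have := ctv u hu a y hy
      rwa [hy1, mul_one] at this
    apply uniform _ c c2
    · intro u hu a
      obtain ⟨l, hl⟩ := hlin u hu
      have h1 := hl 1
      rw [one_smul, one_mul] at h1
      rw [hl, h1, smul_smul]
    · intro u hu
      obtain ⟨l, hl⟩ := hlin u hu
      have h1 := hl 1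
      rw [one_smul, one_mul] at h1
      exact ⟨l, h1⟩
  · intro e f hh τ δ d1 d2 u hu
    by_cases hu0 : u = 0
    · have := d1 0 (Submodule.zero_mem _) 0 (Submodule.zero_mem _)
      rw [add_zero] at this
      rw [hu0]
      simpa using this
    obtain ⟨y, hy, hy1⟩ := exists_W H hh hu hu0
    obtain ⟨k, hk1, hk2, hk⟩ := tv e f hh u hu 1
    have h1 : δ ((1 : F) • (rho m F k y)) = τ (1 * 1) * δ y := d2 k 1 1 one_ne_zero one_ne_zero hk1 hk2 y hy
    rw [one_smul, hk, hy1, mul_one, one_smul, d1 y hy u hu, map_one, one_mul] at h1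
    simpa using h1

end Cfsg.Agent.H8.TVS
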