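import Mathlib
import Cfsg.Agent.H8.TVU1
import Cfsg.Agent.H8.AutL

set_option autoImplicit false

namespace Cfsg.Agent.H8.TVU

open Cfsg Cfsg.Agent.H8.TVA Cfsg.Agent.H7.Herm Matrix Module

/-- decomposition along a hyperbolic pair -/
noncomputable def decE {F : Type*} [Field F] {V : Type*} [AddCommGroup V] [Module F V] {σ : F →+* F} {B : V →ₛₗ[σ] V →ₗ[F] F} {ε : F}
    (H : Frm B ε) {e f : V} (hh : Hyp B e f) : V ≃ₗ[F] (F × F) × ↥(Wm B e f) where
  toFun x := ((B e x, B f x), ⟨pr B ε e f x, pr_mem H hh x⟩)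
  map_add' x y := by
    refine Prod.ext (Prod.ext (map_add _ _ _) (map_add _ _ _)) (Subtype.ext (pr_add x y))
  map_smul' c x := by
    refine Prod.ext (Prod.ext (map_smul _ _ _) (map_smul _ _ _)) (Subtype.ext (pr_smul c x))
  invFun y := y.1.1 • f + (ε * y.1.2) • e + y.2.1
  left_inv x := by
    show B e x • f + (ε * B f x) • e + pr B ε e f x = x
    rw [pr]; abel
  right_inv y := by
    obtain ⟨⟨a, b⟩, w, hw⟩ := y
    have hw' := mem_Wm.1 hw
    have e1 : B e (a • f + (ε * b) • e + w) = a := by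
      simp only [map_add, map_smul, smul_eq_mul, hh.ef, hh.ee, hw'.1]; ring
    have e2 : B f (a • f + (ε * b) • e + w) = b := by
      simp only [map_add, map_smul, smul_eq_mul, hh.ff, hh.fe H, hw'.2]
      linear_combination b * H.e2
    refine Prod.ext (Prod.ext e1 e2) (Subtype.ext ?_)
    show pr B ε e f (a • f + (ε * b) • e + w) = w
    rw [pr, e1, e2]; abel

variable {F : Type*} [Field F] [Fintype F] {q n : ℕ}

theorem finrank_W {σ : F →+* F} {B : (Fin n → F) →ₛₗ[σ] (Fin n → F) →ₗ[F] F} {ε : F} (H : Frm B ε) {e f : Fin n → F} (hh : Hyp B e f) :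
    finrank F (Wm B e f) + 2 = n := by
  have h1 := (decE H hh).finrank_eq
  rw [finrank_fin_fun, finrank_prod, finrank_prod, finrank_self] at h1
  omega

theorem norm_surj (hF : Fintype.card F = q ^ 2) {σ : F →+* F} (h1 : ∀ x, σ x = x ^ q) (c : F) (hc0 : c ≠ 0) (hc : σ c = c) : ∃ x, x * σ x = c := by
  have h2 := Cfsg.Agent.S0754.result hF c hc0 (by rw [← h1, hc])
  have h3 : 0 < Nat.card {x : F // x ^ (q + 1) = c} := by rw [h2]; omega
  obtain ⟨x, hx⟩ := (Nat.card_pos_iff.1 h3).1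
  exact ⟨x, by rw [h1, ← pow_succ', hx]⟩

theorem dichU (hF : Fintype.card F = q ^ 2) (hn : 3 ≤ n) {σ : F →+* F} (h1 : ∀ x, σ x = x ^ q) (h2 : ∀ x, σ (σ x) = x)
    (h3 : σ ≠ RingHom.id F) : Dich (hB n σ) := by
  intro e f hee hff hef
  have H := frm (n := n) h2 h3
  have hh : Hyp (hB n σ) e f := ⟨hee, hff, hef⟩
  have hr := finrank_W H hh
  by_cases h4 : n = 3
  · right
    intro x y hx1 hx2 hy1 hy2 hx0
    have hr1 : finrank F (Wm (hB n σ) e f) = 1 := by omega
    obtain ⟨c, hc⟩ := (finrank_eq_one_iff_of_nonzero' (⟨x, mem_Wm.2 ⟨hx1, hx2⟩⟩ : Wm (hB n σ) e f) (fun h => hx0 (congrArg Subtype.val h))).1 hr1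
      ⟨y, mem_Wm.2 ⟨hy1, hy2⟩⟩
    exact ⟨c, (congrArg Subtype.val hc).symm⟩
  · left
    have hr2 : 2 ≤ finrank F (Wm (hB n σ) e f) := by omega
    obtain ⟨x, hx, hx0⟩ : ∃ x ∈ Wm (hB n σ) e f, x ≠ 0 := by
      by_contra hcon
      push Not at hcon
      have : Wm (hB n σ) e f = ⊥ := (Submodule.eq_bot_iff _).2 hcon
      rw [this, finrank_bot] at hr2
      omega
    by_cases hxx : hB n σ x x = 0
    · exact ⟨x, hx0, hxx, (mem_Wm.1 hx).1, (mem_Wm.1 hx).2⟩
    -- a vector of `W` perpendicular to `x`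
    obtain ⟨y, hy, hy0, hxy⟩ : ∃ y ∈ Wm (hB n σ) e f, y ≠ 0 ∧ hB n σ x y = 0 := by
      by_contra hcon
      push Not at hcon
      have hle : finrank F (Wm (hB n σ) e f) ≤ 1 := by
        have h5 : Function.Injective ((hB n σ x).domRestrict (Wm (hB n σ) e f)) := by
          rw [← LinearMap.ker_eq_bot, Submodule.eq_bot_iff]
          intro z hz
          by_contra hz0
          exact hcon z.1 z.2 (fun h => hz0 (Subtype.ext h)) (LinearMap.mem_ker.1 hz)
        have := LinearMap.finrank_le_finrank_of_injective h5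
        rwa [finrank_self] at this
      omega
    by_cases hyy : hB n σ y y = 0
    · exact ⟨y, hy0, hyy, (mem_Wm.1 hy).1, (mem_Wm.1 hy).2⟩
    have hyx := H.comm0 hxy
    have hsx : σ (hB n σ x x) = hB n σ x x := hB_symm h2 x x
    have hsy : σ (hB n σ y y) = hB n σ y y := hB_symm h2 y y
    obtain ⟨t, ht⟩ := norm_surj hF h1 (-(hB n σ x x) * (hB n σ y y)⁻¹) (mul_ne_zero (neg_ne_zero.2 hxx) (inv_ne_zero hyy))
      (by rw [map_mul, map_neg, map_inv₀, hsx, hsy])
    have hv : x + t • y ∈ Wm (hB n σ) e f := Submodule.add_mem _ hx (Submodule.smul_mem _ _ hy)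
    refine ⟨x + t • y, ?_, ?_, (mem_Wm.1 hv).1, (mem_Wm.1 hv).2⟩
    · intro h0
      have h5 := congrArg (hB n σ x) h0
      rw [map_add, map_smul, hxy, smul_zero, add_zero, map_zero] at h5
      exact hxx h5
    · simp only [map_add, LinearMap.add_apply, LinearMap.map_smulₛₗ, LinearMap.smul_apply, map_smul, smul_eq_mul, hxy, hyx, RingHom.id_apply]
      have h6 : hB n σ y y * (hB n σ y y)⁻¹ = 1 := mul_inv_cancel₀ hyy
      linear_combination hB n σ y y * ht - hB n σ x x * h6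

theorem comm_all (σ τ : F →+* F) (x : F) : τ (σ x) = σ (τ x) := by
  have hb : ∀ τ : F →+* F, Function.Bijective τ := fun τ => Finite.injective_iff_bijective.1 τ.injective
  have h1 := Cfsg.Agent.H8.AutPSL.aut_comm (RingEquiv.ofBijective τ (hb τ)) (RingEquiv.ofBijective σ (hb σ))
  exact congrArg (fun z : F ≃+* F => z x) h1

/-- the configuration -/
noncomputable def cfgU (p : ℕ) [Fact p.Prime] [CharP F p] (hF : Fintype.card F = q ^ 2) (hn : 2 ≤ n) {σ : F →+* F} (h1 : ∀ x, σ x = x ^ q)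
    (h2 : ∀ x, σ (σ x) = x) (h3 : σ ≠ RingHom.id F) : Cfg p (hB n σ) (1 : F) (SU n F q) (PSU n F q) where
  H := frm h2 h3
  ρ := rho n F q
  inj := rho_inj
  iso g x y := by
    rw [rho_apply, rho_apply, hB_eq h1, hB_eq h1, mat_herm]
  hS e w c he hew hc := by
    obtain ⟨g, hg⟩ := exists_SU h1 (sfL (hB n σ) 1 e w c) (fun x y => by rw [sfL_apply, sfL_apply, iso_sf (frm h2 h3) he hew hc])
      (sfL_det (p := p) (frm h2 h3) he hew)
    exact ⟨g, fun x => by rw [hg, sfL_apply]⟩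
  π := QuotientGroup.mk' _
  πs := QuotientGroup.mk'_surjective _
  ker g := by
    rw [QuotientGroup.mk'_apply, QuotientGroup.eq_one_iff]
    constructor
    · intro h
      obtain ⟨a, ha⟩ := center_SU_scalar hF hn g h
      refine ⟨a, fun x => ?_⟩
      rw [rho_apply, ha, Matrix.scalar_apply, ← Matrix.smul_one_eq_diagonal, Matrix.smul_mulVec, Matrix.one_mulVec]
    · rintro ⟨c, hc⟩
      rw [Subgroup.mem_center_iff]
      intro h
      apply rho_inj
      apply LinearEquiv.ext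
      intro x
      have e1 : ∀ a b : SU n F q, rho n F q (a * b) x = rho n F q a (rho n F q b x) := fun a b => by rw [map_mul]; rfl
      rw [e1, e1, hc, hc, map_smul]
  cnt := by
    have hp : p.Prime := Fact.out
    have e1 : Nat.card {v : Fin n → F // hB n σ v v = 0} = Nat.card {v : Fin n → F // hermForm n F q v v = 0} :=
      Nat.card_congr (Equiv.subtypeEquivRight fun v => by rw [hB_eq h1])
    rw [e1, card_norm_zero hF]
    have hpq : p ∣ q := by
      obtain ⟨k, hk, hk2⟩ := FiniteField.card F p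
      have : p ∣ q ^ 2 := by rw [← hF, hk2]; exact dvd_pow_self p k.pos.ne'
      exact hp.dvd_of_dvd_pow this
    have hq := one_lt_q hF
    have h4 : p ∣ q ^ n := hpq.trans (dvd_pow_self q (by omega))
    have h5 : p ∣ q ^ (n - 1) := hpq.trans (dvd_pow_self q (by omega))
    have h6 : 1 ≤ q ^ n := Nat.one_le_pow _ _ (by omega)
    have h7 : 1 ≤ q ^ (n - 1) := Nat.one_le_pow _ _ (by omega)
    obtain ⟨a, ha⟩ := h4
    obtain ⟨b, hb⟩ := h5
    split_ifs
    · have h8 : ((((q ^ n - 1) * (q ^ (n - 1) + 1) + 1 : ℕ)) : ℤ) = p * (a * (p * b) + a - b) := by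
        push_cast [Nat.cast_sub h6]
        have ha' : (q : ℤ) ^ n = p * a := by exact_mod_cast ha
        have hb' : (q : ℤ) ^ (n - 1) = p * b := by exact_mod_cast hb
        rw [ha', hb']; ring
      exact_mod_cast (Dvd.intro _ h8.symm : (p : ℤ) ∣ _)
    · have h8 : ((((q ^ n + 1) * (q ^ (n - 1) - 1) + 1 : ℕ)) : ℤ) = p * (a * (p * b) - a + b) := by
        push_cast [Nat.cast_sub h7]
        have ha' : (q : ℤ) ^ n = p * a := by exact_mod_cast ha
        have hb' : (q : ℤ) ^ (n - 1) = p * b := by exact_mod_cast hb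
        rw [ha', hb']; ring
      exact_mod_cast (Dvd.intro _ h8.symm : (p : ℤ) ∣ _)
  κ := kap h3
  hD := hD_lem h2 h3

end Cfsg.Agent.H8.TVU
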