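import Mathlib
import Cfsg.Agent.H8.TVU2

set_option autoImplicit false

namespace Cfsg.Agent.H8.TVU

open Cfsg Cfsg.Agent.H8.TVA Cfsg.Agent.H7.Herm Matrix Module

variable {F : Type*} [Field F] [Fintype F] {q n : ℕ}

theorem gen_field {σ : F →+* F} (h2 : ∀ x, σ (σ x) = x) (K : Subfield F) (h : ∀ x, σ x = x → x ∈ K) {y : F} (hy : y ∈ K) (hy' : σ y ≠ y) (z : F) : z ∈ K := by
  have hne : σ y - y ≠ 0 := sub_ne_zero.2 hy'
  have hne' : y - σ y ≠ 0 := sub_ne_zero.2 (Ne.symm hy')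
  set v := (σ z - z) * (σ y - y)⁻¹ with hv
  have e1 : v * (σ y - y) = σ z - z := by rw [hv, mul_assoc, inv_mul_cancel₀ hne, mul_one]
  have hv1 : σ v = v := by
    rw [hv, map_mul, map_inv₀, map_sub, map_sub, h2, h2]
    field_simp
    ring
  have hu : σ (z - v * y) = z - v * y := by
    rw [map_sub, map_mul, hv1]
    linear_combination -e1
  have : z = (z - v * y) + v * y := by ring
  rw [this]
  exact K.add_mem (h _ hu) (K.mul_mem (h _ hv1) hy)

theorem h90 {σ : F →+* F} (h2 : ∀ x, σ (σ x) = x) (h3 : σ ≠ RingHom.id F) (y : F) (hy : y * σ y = 1) : ∃ t, t ≠ 0 ∧ σ t = y * t := by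
  have hy0 : y ≠ 0 := left_ne_zero_of_mul_eq_one hy
  have hs : σ y = y⁻¹ := eq_inv_of_mul_eq_one_right hy
  have h4 : ∃ z, z + y⁻¹ * σ z ≠ 0 := by
    by_contra hcon
    push Not at hcon
    have h5 := hcon 1
    rw [map_one, mul_one] at h5
    have h6 : y⁻¹ = -1 := by linear_combination h5
    apply h3
    apply RingHom.ext
    intro x
    have h7 := hcon x
    rw [h6] at h7
    rw [RingHom.id_apply]
    linear_combination -h7
  obtain ⟨z, hz⟩ := h4
  refine ⟨z + y⁻¹ * σ z, hz, ?_⟩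
  rw [map_add, map_mul, map_inv₀, hs, h2, inv_inv]
  field_simp
  ring

/-- torus elements on two hyperbolic planes -/
theorem tor4 {σ : F →+* F} (h1 : ∀ x, σ x = x ^ q) (h2 : ∀ x, σ (σ x) = x) (h3 : σ ≠ RingHom.id F) {e f v w : Fin n → F}
    (hh : Hyp (hB n σ) e f) (hv : v ∈ Wm (hB n σ) e f) (hw : w ∈ Wm (hB n σ) e f) (hh' : Hyp (hB n σ) v w) (t : F) (ht : t ≠ 0) :
    ∃ g : SU n F q, ∀ x, rho n F q g x = x + (((t - 1) * hB n σ f x) • e + (((σ t)⁻¹ - 1) * hB n σ e x) • f +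
      ((t⁻¹ - 1) * hB n σ w x) • v + ((σ t - 1) * hB n σ v x) • w) := by
  have H := frm (n := n) h2 h3
  have hv' := mem_Wm.1 hv
  have hw' := mem_Wm.1 hw
  have hst : σ t ≠ 0 := fun h => ht (by rw [← h2 t, h, map_zero])
  set L : (Fin n → F) →ₗ[F] (Fin n → F) := LinearMap.id + (((t - 1) • hB n σ f).smulRight e + (((σ t)⁻¹ - 1) • hB n σ e).smulRight f +
      ((t⁻¹ - 1) • hB n σ w).smulRight v + ((σ t - 1) • hB n σ v).smulRight w) with hL
  have hLx : ∀ x, L x = x + (((t - 1) * hB n σ f x) • e + (((σ t)⁻¹ - 1) * hB n σ e x) • f +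
      ((t⁻¹ - 1) * hB n σ w x) • v + ((σ t - 1) * hB n σ v x) • w) := fun x => rfl
  have a1 := hh.fe H
  have a2 := hh'.fe H
  have a3 := H.comm0 hv'.1
  have a4 := H.comm0 hv'.2
  have a5 := H.comm0 hw'.1
  have a6 := H.comm0 hw'.2
  obtain ⟨g, hg⟩ := exists_SU h1 L (by
    intro x y
    rw [hLx, hLx]
    have b1 : hB n σ x e = 1 * σ (hB n σ e x) := H.sym' x e
    have b2 : hB n σ x f = 1 * σ (hB n σ f x) := H.sym' x f
    have b3 : hB n σ x v = 1 * σ (hB n σ v x) := H.sym' x v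
    have b4 : hB n σ x w = 1 * σ (hB n σ w x) := H.sym' x w
    simp only [map_add, map_sub, LinearMap.add_apply, LinearMap.sub_apply, LinearMap.map_smulₛₗ, LinearMap.smul_apply, map_smul, smul_eq_mul,
      hh.ee, hh.ff, hh.ef, hh'.ee, hh'.ff, hh'.ef, a1, a2, a3, a4, a5, a6, hv'.1, hv'.2, hw'.1, hw'.2, b1, b2, b3, b4, map_mul, map_inv₀, h2, map_one, RingHom.id_apply]
    field_simp
    ring) (by
    rw [det_update (k := 4) ![e, f, v, w] ![hB n σ f, hB n σ e, hB n σ w, hB n σ v] ![t, (σ t)⁻¹, t⁻¹, σ t]]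
    · simp only [Fin.prod_univ_four, Matrix.cons_val]
      field_simp
    · intro i j
      fin_cases i <;> fin_cases j <;> simp [hh.ee, hh.ff, hh.ef, hh'.ee, hh'.ff, hh'.ef, a1, a2, a3, a4, a5, a6, hv'.1, hv'.2, hw'.1, hw'.2]
    · intro x
      rw [hLx]
      congr 1
      simp only [Fin.sum_univ_four, Matrix.cons_val])
  exact ⟨g, fun x => by rw [hg, hLx]⟩

/-- torus elements moving a line of the complement -/
theorem tor3 {σ : F →+* F} (h1 : ∀ x, σ x = x ^ q) (h2 : ∀ x, σ (σ x) = x) (h3 : σ ≠ RingHom.id F) {e f w : Fin n → F}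
    (hh : Hyp (hB n σ) e f) (hw : w ∈ Wm (hB n σ) e f) (hww : hB n σ w w ≠ 0) (t : F) (ht : t ≠ 0) :
    ∃ g : SU n F q, ∀ x, rho n F q g x = x + (((t - 1) * hB n σ f x) • e + (((σ t)⁻¹ - 1) * hB n σ e x) • f +
      ((σ t * t⁻¹ - 1) * ((hB n σ w w)⁻¹ * hB n σ w x)) • w) := by
  have H := frm (n := n) h2 h3
  have hw' := mem_Wm.1 hw
  have hst : σ t ≠ 0 := fun h => ht (by rw [← h2 t, h, map_zero])
  have hsw : σ (hB n σ w w) = hB n σ w w := hB_symm h2 w w
  set L : (Fin n → F) →ₗ[F] (Fin n → F) := LinearMap.id + (((t - 1) • hB n σ f).smulRight e + (((σ t)⁻¹ - 1) • hB n σ e).smulRight f +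
      ((σ t * t⁻¹ - 1) • ((hB n σ w w)⁻¹ • hB n σ w)).smulRight w) with hL
  have hLx : ∀ x, L x = x + (((t - 1) * hB n σ f x) • e + (((σ t)⁻¹ - 1) * hB n σ e x) • f +
      ((σ t * t⁻¹ - 1) * ((hB n σ w w)⁻¹ * hB n σ w x)) • w) := fun x => rfl
  have a1 := hh.fe H
  have a5 := H.comm0 hw'.1
  have a6 := H.comm0 hw'.2
  obtain ⟨g, hg⟩ := exists_SU h1 L (by
    intro x y
    rw [hLx, hLx]
    have b1 : hB n σ x e = 1 * σ (hB n σ e x) := H.sym' x e
    have b2 : hB n σ x f = 1 * σ (hB n σ f x) := H.sym' x f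
    have b4 : hB n σ x w = 1 * σ (hB n σ w x) := H.sym' x w
    simp only [map_add, map_sub, LinearMap.add_apply, LinearMap.sub_apply, LinearMap.map_smulₛₗ, LinearMap.smul_apply, map_smul, smul_eq_mul,
      hh.ee, hh.ff, hh.ef, a1, a5, a6, hw'.1, hw'.2, b1, b2, b4, map_mul, map_inv₀, h2, map_one, RingHom.id_apply, hsw]
    field_simp
    ring) (by
    rw [det_update (k := 3) ![e, f, w] ![hB n σ f, hB n σ e, (hB n σ w w)⁻¹ • hB n σ w] ![t, (σ t)⁻¹, σ t * t⁻¹]]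
    · simp only [Fin.prod_univ_three, Matrix.cons_val]
      field_simp
    · intro i j
      fin_cases i <;> fin_cases j <;> simp [hh.ee, hh.ff, hh.ef, a1, a5, a6, hw'.1, hw'.2, hww]
    · intro x
      rw [hLx]
      congr 1
      simp only [Fin.sum_univ_three, Matrix.cons_val]
      rfl)
  exact ⟨g, fun x => by rw [hg, hLx]⟩

/-- torus elements of the hyperbolic plane -/
theorem tor2 {σ : F →+* F} (h1 : ∀ x, σ x = x ^ q) (h2 : ∀ x, σ (σ x) = x) (h3 : σ ≠ RingHom.id F) {e f : Fin n → F}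
    (hh : Hyp (hB n σ) e f) (t : F) (ht : t ≠ 0) (hst : σ t = t) :
    ∃ g : SU n F q, ∀ x, rho n F q g x = x + (((t - 1) * hB n σ f x) • e + ((t⁻¹ - 1) * hB n σ e x) • f) := by
  have H := frm (n := n) h2 h3
  set L : (Fin n → F) →ₗ[F] (Fin n → F) := LinearMap.id + (((t - 1) • hB n σ f).smulRight e + ((t⁻¹ - 1) • hB n σ e).smulRight f) with hL
  have hLx : ∀ x, L x = x + (((t - 1) * hB n σ f x) • e + ((t⁻¹ - 1) * hB n σ e x) • f) := fun x => rfl
  have a1 := hh.fe H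
  obtain ⟨g, hg⟩ := exists_SU h1 L (by
    intro x y
    rw [hLx, hLx]
    have b1 : hB n σ x e = 1 * σ (hB n σ e x) := H.sym' x e
    have b2 : hB n σ x f = 1 * σ (hB n σ f x) := H.sym' x f
    simp only [map_add, map_sub, LinearMap.add_apply, LinearMap.sub_apply, LinearMap.map_smulₛₗ, LinearMap.smul_apply, map_smul, smul_eq_mul,
      hh.ee, hh.ff, hh.ef, a1, b1, b2, map_mul, map_inv₀, hst, map_one, RingHom.id_apply]
    field_simp
    ring) (by
    rw [det_update (k := 2) ![e, f] ![hB n σ f, hB n σ e] ![t, t⁻¹]]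
    · simp only [Fin.prod_univ_two, Matrix.cons_val]
      field_simp
    · intro i j
      fin_cases i <;> fin_cases j <;> simp [hh.ee, hh.ff, hh.ef, a1]
    · intro x
      rw [hLx]
      congr 1
      simp only [Fin.sum_univ_two, Matrix.cons_val])
  exact ⟨g, fun x => by rw [hg, hLx]⟩

end Cfsg.Agent.H8.TVU
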