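import Mathlib
import Cfsg.Agent.H8.TVU3

set_option autoImplicit false

namespace Cfsg.Agent.H8.TVU

open Cfsg Cfsg.Agent.H8.TVA Cfsg.Agent.H7.Herm Matrix Module

variable {F : Type*} [Field F] {V : Type*} [AddCommGroup V] [Module F V]

/-- scalars commuting with an additive map along a line -/
def linK (M : Submodule F V) (c : V → V) (hc : ∀ w ∈ M, ∀ w2 ∈ M, c (w + w2) = c w + c w2) (v : V) (hv : v ∈ M) : Subfield F where
  carrier := {s | ∀ r : F, c ((s * r) • v) = s • c (r • v)}
  mul_mem' := by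
    intro a b ha hb r
    rw [mul_assoc, ha, hb, smul_smul]
  one_mem' := fun r => by rw [one_mul, one_smul]
  add_mem' := by
    intro a b ha hb r
    rw [add_mul, add_smul, hc _ (M.smul_mem _ hv) _ (M.smul_mem _ hv), ha, hb, add_smul]
  zero_mem' := by
    intro r
    have h0 : c 0 = 0 := by
      have := hc 0 M.zero_mem 0 M.zero_mem
      rw [add_zero] at this
      simpa using this
    rw [zero_mul, zero_smul, zero_smul, h0]
  neg_mem' := by
    intro a ha r
    have h0 : c 0 = 0 := by
      have := hc 0 M.zero_mem 0 M.zero_mem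
      rw [add_zero] at this
      simpa using this
    have h1 := hc ((a * r) • v) (M.smul_mem _ hv) ((-a * r) • v) (M.smul_mem _ hv)
    rw [← add_smul, neg_mul, add_neg_cancel, zero_smul, h0, ha] at h1
    rw [neg_mul, neg_smul a (c (r • v))]
    exact (neg_eq_of_add_eq_zero_right h1.symm).symm
  inv_mem' := by
    intro a ha r
    by_cases h : a = 0
    · subst h
      have h0 : c 0 = 0 := by
        have := hc 0 M.zero_mem 0 M.zero_mem
        rw [add_zero] at this
        simpa using this
      rw [_root_.inv_zero, zero_mul, zero_smul, zero_smul, h0]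
    · have h1 := ha (a⁻¹ * r)
      rw [← mul_assoc, mul_inv_cancel₀ h, one_mul] at h1
      rw [h1, smul_smul, inv_mul_cancel₀ h, one_smul]

theorem mem_linK {M : Submodule F V} {c : V → V} {hc : ∀ w ∈ M, ∀ w2 ∈ M, c (w + w2) = c w + c w2} {v : V} {hv : v ∈ M} {s : F} :
    s ∈ linK M c hc v hv ↔ ∀ r : F, c ((s * r) • v) = s • c (r • v) := Iff.rfl

variable [Fintype F] {q n : ℕ}

theorem exists_cube_ne (hF : Fintype.card F = q ^ 2) (hq : 3 ≤ q) : ∃ x : F, x ^ (q + 1) = 1 ∧ x ^ 3 ≠ 1 := by
  classical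
  by_contra hcon
  push Not at hcon
  have h1 := Cfsg.Agent.S0754.result hF 1 one_ne_zero (one_pow q)
  have h2 : Nat.card {x : F // x ^ (q + 1) = 1} ≤ 3 := by
    rw [Nat.card_eq_fintype_card, Fintype.card_subtype]
    calc (Finset.univ.filter fun x : F => x ^ (q + 1) = 1).card ≤ (Polynomial.nthRoots 3 (1 : F)).toFinset.card := by
          apply Finset.card_le_card
          intro x hx
          rw [Finset.mem_filter] at hx
          rw [Multiset.mem_toFinset, Polynomial.mem_nthRoots (by norm_num)]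
          exact hcon x hx.2
      _ ≤ Multiset.card (Polynomial.nthRoots 3 (1 : F)) := Multiset.toFinset_card_le _
      _ ≤ 3 := Polynomial.card_nthRoots 3 1
  rw [h1] at h2
  omega

section env
variable {p : ℕ} [Fact p.Prime] [CharP F p]

/-- two-dimensional part of the commutant computation -/
theorem CL_hyp (hF : Fintype.card F = q ^ 2) {σ : F →+* F} (h1 : ∀ x, σ x = x ^ q)
    (h2 : ∀ x, σ (σ x) = x) (h3 : σ ≠ RingHom.id F) {e f : Fin n → F} (hh : Hyp (hB n σ) e f)
    {c : (Fin n → F) → (Fin n → F)} (c1 : ∀ w ∈ Wm (hB n σ) e f, c w ∈ Wm (hB n σ) e f)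
    (c2 : ∀ w ∈ Wm (hB n σ) e f, ∀ w2 ∈ Wm (hB n σ) e f, c (w + w2) = c w + c w2)
    (c3 : ∀ (k : SU n F q) (μ ν : F), μ ≠ 0 → ν ≠ 0 → rho n F q k e = μ • e → rho n F q k f = ν • f → ∀ w ∈ Wm (hB n σ) e f, c (σ μ • rho n F q k w) = σ μ • rho n F q k (c w))
    (ctv : ∀ u ∈ Wm (hB n σ) e f, hB n σ u u = 0 → ∀ a : F, a + 1 * σ a = 0 → ∀ x ∈ Wm (hB n σ) e f, c ((a * hB n σ u x) • u) = (a * hB n σ u (c x)) • u)
    {v w : Fin n → F} (hv : v ∈ Wm (hB n σ) e f) (hw : w ∈ Wm (hB n σ) e f) (hh' : Hyp (hB n σ) v w) :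
    ∃ l : F, (∀ r : F, c (r • v) = (r * l) • v) ∧ ∀ r : F, c (r • w) = (r * l) • w := by
  have H := frm (n := n) h2 h3
  have hv' := mem_Wm.1 hv
  have hw' := mem_Wm.1 hw
  obtain ⟨a0, ha0, ha0'⟩ := H.a0
  have hwv : hB n σ w v = 1 := hh'.fe H
  have hsm : ∀ (x : Fin n → F) (r : F), hB n σ x (r • x) = r * hB n σ x x := fun x r => by rw [map_smul, smul_eq_mul]
  -- lines are preserved
  have line : ∀ {v w : Fin n → F}, v ∈ Wm (hB n σ) e f → w ∈ Wm (hB n σ) e f → Hyp (hB n σ) v w → ∀ r : F, ∃ s : F, c (r • v) = s • v := by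
    intro v w hv hw hh' r
    have := ctv v hv hh'.ee a0 ha0' ((a0⁻¹ * r) • w) (Submodule.smul_mem _ _ hw)
    rw [map_smul, hh'.ef, smul_eq_mul, mul_one, ← mul_assoc, mul_inv_cancel₀ ha0, one_mul] at this
    exact ⟨_, this⟩
  have hh'' : Hyp (hB n σ) w v := ⟨hh'.ff, hh'.ee, hwv⟩
  choose kv hkv using line hv hw hh'
  choose kw hkw using line hw hv hh''
  have E1 : ∀ a : F, a + 1 * σ a = 0 → ∀ r, kv (a * r) = a * kw r := by
    intro a ha r
    have h4 := ctv v hv hh'.ee a ha (r • w) (Submodule.smul_mem _ _ hw)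
    rw [map_smul, hh'.ef, smul_eq_mul, mul_one, hkv, hkw, map_smul, hh'.ef, smul_eq_mul, mul_one] at h4
    have h5 := congrArg (hB n σ w) h4
    rwa [map_smul, map_smul, hwv, smul_eq_mul, smul_eq_mul, mul_one, mul_one] at h5
  have E2 : ∀ a : F, a + 1 * σ a = 0 → ∀ r, kw (a * r) = a * kv r := by
    intro a ha r
    have h4 := ctv w hw hh'.ff a ha (r • v) (Submodule.smul_mem _ _ hv)
    rw [map_smul, hwv, smul_eq_mul, mul_one, hkw, hkv, map_smul, hwv, smul_eq_mul, mul_one] at h4
    have h5 := congrArg (hB n σ v) h4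
    rwa [map_smul, map_smul, hh'.ef, smul_eq_mul, smul_eq_mul, mul_one, mul_one] at h5
  -- scalars along `v`
  set K := linK (Wm (hB n σ) e f) c c2 v hv with hK
  have hKall : ∀ s : F, s ∈ K := by
    obtain ⟨y, hy1, hy2⟩ := exists_lam hF
    have hy3 : (y : F) * σ y = 1 := by
      rw [h1, ← pow_succ']
      exact congrArg Units.val hy1
    obtain ⟨t, ht, ht'⟩ := h90 h2 h3 (y : F) hy3
    have hyK : (y : F) ∈ K := by
      rw [hK, mem_linK]
      intro r
      obtain ⟨g, hg⟩ := tor4 h1 h2 h3 hh hv hw hh' t ht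
      have ge : rho n F q g e = t • e := by
        rw [hg, hh.fe H, hh.ee, H.comm0 hv'.1, H.comm0 hw'.1]
        simp only [mul_one, mul_zero, zero_smul, add_zero, sub_smul, one_smul]
        abel
      have gf : rho n F q g f = (σ t)⁻¹ • f := by
        rw [hg, hh.ff, hh.ef, H.comm0 hv'.2, H.comm0 hw'.2]
        simp only [mul_one, mul_zero, zero_smul, add_zero, zero_add, sub_smul, one_smul]
        abel
      have gv : ∀ r : F, rho n F q g (r • v) = (t⁻¹ * r) • v := by
        intro r
        rw [hg]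
        simp only [map_smul, hv'.1, hv'.2, hwv, hh'.ee, smul_eq_mul, mul_one, mul_zero, zero_smul, add_zero, zero_add, sub_mul, sub_smul, one_mul]
        abel
      have h4 := c3 g t (σ t)⁻¹ ht (inv_ne_zero (fun h => ht (by rw [← h2 t, h, map_zero]))) ge gf (r • v) (Submodule.smul_mem _ _ hv)
      rw [gv, smul_smul, hkv r, gv, smul_smul, ht'] at h4
      have e1 : (y : F) * t * (t⁻¹ * r) = y * r := by field_simp
      have e2 : (y : F) * t * (t⁻¹ * kv r) = y * kv r := by field_simp
      rw [e1, e2] at h4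
      rw [h4, hkv r, smul_smul]
    have hfix : ∀ x, σ x = x → x ∈ K := by
      intro x hx
      rw [hK, mem_linK]
      intro r
      have b1 : x * a0 + 1 * σ (x * a0) = 0 := by rw [map_mul, hx]; linear_combination x * ha0'
      have b2 : a0⁻¹ + 1 * σ a0⁻¹ = 0 := by
        have hs0 : σ a0 ≠ 0 := fun h => ha0 (by rw [← h2 a0, h, map_zero])
        rw [map_inv₀]
        field_simp
        linear_combination ha0'
      have e1 : x * r = (x * a0) * (a0⁻¹ * r) := by field_simp
      rw [e1, hkv, E1 _ b1, E2 _ b2, hkv, smul_smul]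
      congr 1
      field_simp
    intro s
    apply gen_field h2 K hfix hyK
    intro h
    apply hy2
    apply Units.ext
    rw [h] at hy3
    rw [Units.val_inv_eq_inv_val]
    exact eq_inv_of_mul_eq_one_left hy3
  have hv1 : ∀ r : F, c (r • v) = (r * kv 1) • v := by
    intro r
    have := mem_linK.1 (hKall r) 1
    rw [mul_one] at this
    rw [this, hkv, smul_smul]
  refine ⟨kv 1, hv1, fun r => ?_⟩
  rw [hkw]
  congr 1
  have h4 := E1 a0 ha0' r
  have h5 := hv1 (a0 * r)
  rw [hkv, h4] at h5
  have h6 := congrArg (hB n σ w) h5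
  rw [map_smul, map_smul, hwv, smul_eq_mul, smul_eq_mul, mul_one, mul_one, mul_assoc] at h6
  exact mul_left_cancel₀ ha0 h6

theorem env (hF : Fintype.card F = q ^ 2) (hn : 3 ≤ n) (hs : ¬ (n = 3 ∧ q = 2)) {σ : F →+* F} (h1 : ∀ x, σ x = x ^ q)
    (h2 : ∀ x, σ (σ x) = x) (h3 : σ ≠ RingHom.id F) : Env (cfgU p hF (by omega : 2 ≤ n) h1 h2 h3) where
  dich := dichU hF hn h1 h2 h3
  hW e f hh := by
    have h4 := finrank_W (frm (n := n) h2 h3) hh
    by_contra hcon
    push Not at hcon
    have : Wm (hB n σ) e f = ⊥ := (Submodule.eq_bot_iff _).2 hcon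
    rw [this, finrank_bot] at h4
    omega
  comm τ x := comm_all σ τ x
  CL e f hh c c1 c2 c3 := by
    have H := frm (n := n) h2 h3
    have c3' : ∀ (k : SU n F q) (μ ν : F), μ ≠ 0 → ν ≠ 0 → rho n F q k e = μ • e → rho n F q k f = ν • f →
      ∀ w ∈ Wm (hB n σ) e f, c (σ μ • rho n F q k w) = σ μ • rho n F q k (c w) := c3
    have ctv : ∀ u ∈ Wm (hB n σ) e f, hB n σ u u = 0 → ∀ a : F, a + 1 * σ a = 0 → ∀ x ∈ Wm (hB n σ) e f,
        c ((a * hB n σ u x) • u) = (a * hB n σ u (c x)) • u := by
      intro u hu huu a ha x hx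
      obtain ⟨g, hg⟩ := (cfgU p hF (by omega : 2 ≤ n) h1 h2 h3).exists_tv huu ha
      have hg' : ∀ x, rho n F q g x = x + (a * hB n σ u x) • u := hg
      have hu' := mem_Wm.1 hu
      have h4 := c3' g 1 1 one_ne_zero one_ne_zero (by rw [hg', H.comm0 hu'.1, mul_zero, zero_smul, add_zero, one_smul])
        (by rw [hg', H.comm0 hu'.2, mul_zero, zero_smul, add_zero, one_smul]) x hx
      rw [map_one, one_smul, one_smul, hg', hg', c2 x hx _ (Submodule.smul_mem _ _ hu)] at h4
      exact add_left_cancel h4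
    rcases dichU hF hn h1 h2 h3 e f hh.ee hh.ff hh.ef with ⟨v, hv0, hvv, hev, hfv⟩ | hone
    · have hv : v ∈ Wm (hB n σ) e f := mem_Wm.2 ⟨hev, hfv⟩
      obtain ⟨y, hy, hvy⟩ := exists_W H hh hv hv0
      -- isotropic partner in `W`
      obtain ⟨b, hb⟩ := H.tr y
      have hyv : hB n σ y v = 1 := by rw [H.sym', hvy, map_one, mul_one]
      have hw : y + b • v ∈ Wm (hB n σ) e f := Submodule.add_mem _ hy (Submodule.smul_mem _ _ hv)
      have hh' : Hyp (hB n σ) v (y + b • v) := by
        refine ⟨hvv, ?_, by rw [map_add, hvy, map_smul (hB n σ v) b v, hvv, smul_zero, add_zero]⟩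
        simp only [map_add, LinearMap.add_apply, LinearMap.map_smulₛₗ, LinearMap.smul_apply, map_smul, smul_eq_mul, hvy, hyv, hvv, RingHom.id_apply]
        linear_combination hb
      obtain ⟨l, hl1, hl2⟩ := CL_hyp hF h1 h2 h3 hh c1 c2 c3' ctv hv hw hh'
      refine ⟨l, ?_⟩
      let D : Submodule F (Fin n → F) :=
        { carrier := {x | x ∈ Wm (hB n σ) e f ∧ ∀ r : F, c (r • x) = (r * l) • x}
          zero_mem' := ⟨Submodule.zero_mem _, fun r => by
            have := hl1 0
            rw [zero_smul, zero_mul, zero_smul] at this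
            rw [smul_zero, smul_zero, this]⟩
          add_mem' := by
            rintro a b ⟨ha, ha'⟩ ⟨hb, hb'⟩
            refine ⟨Submodule.add_mem _ ha hb, fun r => ?_⟩
            rw [smul_add, c2 _ (Submodule.smul_mem _ _ ha) _ (Submodule.smul_mem _ _ hb), ha', hb', smul_add]
          smul_mem' := by
            rintro s a ⟨ha, ha'⟩
            refine ⟨Submodule.smul_mem _ _ ha, fun r => ?_⟩
            rw [smul_smul, ha', smul_smul]
            congr 1; ring }
      have hD := H.spanS (Wm (hB n σ) e f) D hv hvv hw (by rw [hh'.ef]; exact one_ne_zero) (by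
        intro x hx hxx hvx
        have hx' : (hB n σ v x)⁻¹ • x ∈ Wm (hB n σ) e f := Submodule.smul_mem _ _ hx
        have hhx : Hyp (hB n σ) v ((hB n σ v x)⁻¹ • x) := by
          refine ⟨hvv, ?_, by rw [map_smul, smul_eq_mul, inv_mul_cancel₀ hvx]⟩
          rw [map_smul, LinearMap.map_smulₛₗ, LinearMap.smul_apply, hxx, smul_zero, smul_zero]
        obtain ⟨l', hl1', hl2'⟩ := CL_hyp hF h1 h2 h3 hh c1 c2 c3' ctv hv hx' hhx
        have hll : l' = l := by
          have e1 := hl1 1
          have e2 := hl1' 1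
          rw [e1, one_mul, one_mul] at e2
          have e3 : (l - l') • v = 0 := by rw [sub_smul, e2, sub_self]
          rcases smul_eq_zero.1 e3 with h | h
          · exact (sub_eq_zero.1 h).symm
          · exact absurd h hv0
        refine ⟨hx, fun r => ?_⟩
        have := hl2' (r * hB n σ v x)
        rw [smul_smul, mul_assoc r, mul_inv_cancel₀ hvx, mul_one, smul_smul, hll] at this
        rw [this]
        congr 1
        field_simp)
      intro w hw
      have := (hD hw).2 1
      rwa [one_smul, one_mul] at this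
    · -- one-dimensional complement
      have h4 := finrank_W H hh
      have hW1 : ∃ w ∈ Wm (hB n σ) e f, w ≠ 0 := by
        by_contra hcon
        push Not at hcon
        have : Wm (hB n σ) e f = ⊥ := (Submodule.eq_bot_iff _).2 hcon
        rw [this, finrank_bot] at h4
        omega
      obtain ⟨w, hw, hw0⟩ := hW1
      have hw' := mem_Wm.1 hw
      have hn3 : n = 3 := by
        have : finrank F (Wm (hB n σ) e f) ≤ 1 := by
          apply finrank_le_one (⟨w, hw⟩ : Wm (hB n σ) e f)
          intro y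
          obtain ⟨c, hc⟩ := hone w y.1 hw'.1 hw'.2 (mem_Wm.1 y.2).1 (mem_Wm.1 y.2).2 hw0
          exact ⟨c, Subtype.ext hc.symm⟩
        omega
      have hq3 : 3 ≤ q := by
        have := one_lt_q hF
        by_contra hcon
        exact hs ⟨hn3, by omega⟩
      have hspan : ∀ x ∈ Wm (hB n σ) e f, ∃ c : F, x = c • w := fun x hx => hone w x hw'.1 hw'.2 (mem_Wm.1 hx).1 (mem_Wm.1 hx).2 hw0
      have hww : hB n σ w w ≠ 0 := by
        intro h0
        obtain ⟨y, hy, hwy⟩ := exists_W H hh hw hw0
        obtain ⟨c, rfl⟩ := hspan y hy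
        rw [map_smul, h0, smul_zero] at hwy
        exact zero_ne_one hwy
      set K := linK (Wm (hB n σ) e f) c c2 w hw with hK
      have hmem : ∀ t : F, t ≠ 0 → σ t * σ t * t⁻¹ ∈ K := by
        intro t ht
        rw [hK, mem_linK]
        intro r
        obtain ⟨g, hg⟩ := tor3 h1 h2 h3 hh hw hww t ht
        have ge : rho n F q g e = t • e := by
          rw [hg, hh.fe H, hh.ee, H.comm0 hw'.1]
          simp only [mul_one, mul_zero, zero_smul, add_zero, sub_smul, one_smul]
          abel
        have gf : rho n F q g f = (σ t)⁻¹ • f := by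
          rw [hg, hh.ff, hh.ef, H.comm0 hw'.2]
          simp only [mul_one, mul_zero, zero_smul, add_zero, zero_add, sub_smul, one_smul]
          abel
        have gw : ∀ r : F, rho n F q g (r • w) = (σ t * t⁻¹ * r) • w := by
          intro r
          rw [hg]
          have e5 : (hB n σ w w)⁻¹ * (r * hB n σ w w) = r := by field_simp
          simp only [map_smul, hw'.1, hw'.2, smul_eq_mul, mul_zero, zero_smul, add_zero, zero_add, e5, sub_mul, sub_smul, one_mul]
          abel
        have h4 := c3' g t (σ t)⁻¹ ht (inv_ne_zero (fun h => ht (by rw [← h2 t, h, map_zero]))) ge gf (r • w) (Submodule.smul_mem _ _ hw)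
        obtain ⟨s, hs⟩ := hspan _ (c1 _ (Submodule.smul_mem _ r hw))
        rw [gw, smul_smul, hs, gw, smul_smul] at h4
        rw [hs, smul_smul]
        have e1 : σ t * σ t * t⁻¹ * r = σ t * (σ t * t⁻¹ * r) := by ring
        rw [e1, h4]
        congr 1; ring
      obtain ⟨y, hy, hy3⟩ := exists_cube_ne hF hq3
      obtain ⟨t, ht, ht'⟩ := h90 h2 h3 y (by rw [h1, ← pow_succ', hy])
      have hKall : ∀ s : F, s ∈ K := by
        intro s
        apply gen_field h2 K _ (hmem t ht)
        · intro h5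
          rw [map_mul, map_mul, map_inv₀, h2, ht'] at h5
          apply hy3
          have hy0 : y ≠ 0 := by rintro rfl; rw [zero_pow (by omega)] at hy; exact zero_ne_one hy
          field_simp at h5
          rw [← h5]
        · intro x hx
          by_cases hx0 : x = 0
          · rw [hx0]; exact K.zero_mem
          · have := hmem x hx0
            rw [hx, mul_assoc, mul_inv_cancel₀ hx0, mul_one] at this
            exact this
      obtain ⟨s, hs⟩ := hspan _ (c1 _ (Submodule.smul_mem _ 1 hw))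
      refine ⟨s, fun x hx => ?_⟩
      obtain ⟨r, rfl⟩ := hspan x hx
      have := mem_linK.1 (hKall r) 1
      rw [mul_one] at this
      rw [this, hs, smul_smul, smul_smul, mul_comm]
  dl e f hh τ δ d1 d2 := by
    have H := frm (n := n) h2 h3
    have d2' : ∀ (k : SU n F q) (μ ν : F), μ ≠ 0 → ν ≠ 0 → rho n F q k e = μ • e → rho n F q k f = ν • f →
      ∀ w ∈ Wm (hB n σ) e f, δ (σ μ • rho n F q k w) = τ (μ * σ μ) * δ w := d2
    by_cases h20 : (2 : F) ≠ 0
    · intro w hw
      have hw' := mem_Wm.1 hw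
      have hs2 : σ (2 : F) = 2 := map_ofNat σ 2
      obtain ⟨g, hg⟩ := tor2 h1 h2 h3 hh 2 h20 hs2
      have ge : rho n F q g e = (2 : F) • e := by
        rw [hg, hh.fe H, hh.ee]
        simp only [mul_one, mul_zero, zero_smul, add_zero, sub_smul, one_smul]
        abel
      have gf : rho n F q g f = (2 : F)⁻¹ • f := by
        rw [hg, hh.ff, hh.ef]
        simp only [mul_one, mul_zero, zero_smul, add_zero, zero_add, sub_smul, one_smul]
        abel
      have h4 := d2' g 2 2⁻¹ h20 (inv_ne_zero h20) ge gf w hw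
      rw [hg, hw'.1, hw'.2, mul_zero, mul_zero, zero_smul, zero_smul, add_zero, add_zero, hs2, two_smul, d1 w hw w hw, map_mul, map_ofNat] at h4
      have h5 : (2 : F) * δ w = 0 := by linear_combination -h4
      exact (mul_eq_zero.1 h5).resolve_left h20
    · push Not at h20
      rcases dichU hF hn h1 h2 h3 e f hh.ee hh.ff hh.ef with ⟨v, hv0, hvv, hev, hfv⟩ | hone
      · have hv : v ∈ Wm (hB n σ) e f := mem_Wm.2 ⟨hev, hfv⟩
        obtain ⟨y, hy, hvy⟩ := exists_W H hh hv hv0
        have hz : δ 0 = 0 := by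
          have := d1 0 (Submodule.zero_mem _) 0 (Submodule.zero_mem _)
          rw [add_zero] at this
          simpa using this
        let D : Submodule F (Fin n → F) :=
          { carrier := {x | x ∈ Wm (hB n σ) e f ∧ ∀ r : F, δ (r • x) = 0}
            zero_mem' := ⟨Submodule.zero_mem _, fun r => by rw [smul_zero, hz]⟩
            add_mem' := by
              rintro a b ⟨ha, ha'⟩ ⟨hb, hb'⟩
              refine ⟨Submodule.add_mem _ ha hb, fun r => ?_⟩
              rw [smul_add, d1 _ (Submodule.smul_mem _ _ ha) _ (Submodule.smul_mem _ _ hb), ha', hb', add_zero]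
            smul_mem' := by
              rintro s a ⟨ha, ha'⟩
              exact ⟨Submodule.smul_mem _ _ ha, fun r => by rw [smul_smul, ha']⟩ }
        have hD := H.spanS (Wm (hB n σ) e f) D hv hvv hy (by rw [hvy]; exact one_ne_zero) (by
          intro u hu huu hvu
          refine ⟨hu, fun r => ?_⟩
          obtain ⟨a, ha, ha0⟩ := H.a0
          have hu0 : u ≠ 0 := by rintro rfl; exact hvu (map_zero _)
          obtain ⟨x, hx, hux⟩ := exists_W H hh hu hu0
          obtain ⟨g, hg⟩ := (cfgU p hF (by omega : 2 ≤ n) h1 h2 h3).exists_tv huu ha0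
          have hg' : ∀ x, rho n F q g x = x + (a * hB n σ u x) • u := hg
          have hu' := mem_Wm.1 hu
          have hrx : (a⁻¹ * r) • x ∈ Wm (hB n σ) e f := Submodule.smul_mem _ _ hx
          have h4 := d2' g 1 1 one_ne_zero one_ne_zero (by rw [hg', H.comm0 hu'.1, mul_zero, zero_smul, add_zero, one_smul])
            (by rw [hg', H.comm0 hu'.2, mul_zero, zero_smul, add_zero, one_smul]) _ hrx
          rw [map_one, one_smul, mul_one, map_one, one_mul, hg', map_smul, hux, smul_eq_mul, mul_one, ← mul_assoc, mul_inv_cancel₀ ha, one_mul,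
            d1 _ hrx _ (Submodule.smul_mem _ _ hu)] at h4
          linear_combination h4)
        intro w hw
        have := (hD hw).2 1
        rwa [one_smul] at this
      · have h4 := finrank_W H hh
        have hW1 : ∃ w ∈ Wm (hB n σ) e f, w ≠ 0 := by
          by_contra hcon
          push Not at hcon
          have : Wm (hB n σ) e f = ⊥ := (Submodule.eq_bot_iff _).2 hcon
          rw [this, finrank_bot] at h4
          omega
        obtain ⟨w, hw, hw0⟩ := hW1
        have hw' := mem_Wm.1 hw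
        have hn3 : n = 3 := by
          have : finrank F (Wm (hB n σ) e f) ≤ 1 := by
            apply finrank_le_one (⟨w, hw⟩ : Wm (hB n σ) e f)
            intro y
            obtain ⟨c, hc⟩ := hone w y.1 hw'.1 hw'.2 (mem_Wm.1 y.2).1 (mem_Wm.1 y.2).2 hw0
            exact ⟨c, Subtype.ext hc.symm⟩
          omega
        have hq3 : 3 ≤ q := by
          have := one_lt_q hF
          by_contra hcon
          exact hs ⟨hn3, by omega⟩
        have hspan : ∀ x ∈ Wm (hB n σ) e f, ∃ c : F, x = c • w := fun x hx => hone w x hw'.1 hw'.2 (mem_Wm.1 hx).1 (mem_Wm.1 hx).2 hw0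
        have hww : hB n σ w w ≠ 0 := by
          intro h0
          obtain ⟨y, hy, hwy⟩ := exists_W H hh hw hw0
          obtain ⟨c, rfl⟩ := hspan y hy
          rw [map_smul, h0, smul_zero] at hwy
          exact zero_ne_one hwy
        obtain ⟨t, ht1, ht3⟩ := exists_cube_ne hF hq3
        have ht0 : t ≠ 0 := by rintro rfl; rw [zero_pow (by omega)] at ht1; exact zero_ne_one ht1
        have hst : t * σ t = 1 := by rw [h1, ← pow_succ', ht1]
        have hst' : σ t = t⁻¹ := eq_inv_of_mul_eq_one_right hst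
        obtain ⟨g, hg⟩ := tor3 h1 h2 h3 hh hw hww t ht0
        have ge : rho n F q g e = t • e := by
          rw [hg, hh.fe H, hh.ee, H.comm0 hw'.1]
          simp only [mul_one, mul_zero, zero_smul, add_zero, sub_smul, one_smul]
          abel
        have gf : rho n F q g f = (σ t)⁻¹ • f := by
          rw [hg, hh.ff, hh.ef, H.comm0 hw'.2]
          simp only [mul_one, mul_zero, zero_smul, add_zero, zero_add, sub_smul, one_smul]
          abel
        have gw : ∀ r : F, rho n F q g (r • w) = (σ t * t⁻¹ * r) • w := by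
          intro r
          rw [hg]
          have e5 : (hB n σ w w)⁻¹ * (r * hB n σ w w) = r := by field_simp
          simp only [map_smul, hw'.1, hw'.2, smul_eq_mul, mul_zero, zero_smul, add_zero, zero_add, e5, sub_mul, sub_smul, one_mul]
          abel
        intro x hx
        obtain ⟨r, rfl⟩ := hspan x hx
        -- solve `(t⁻³ - 1) s = r`
        have hne : t⁻¹ * (t⁻¹ * t⁻¹) - 1 ≠ 0 := by
          intro h0
          apply ht3
          have : t ^ 3 * (t⁻¹ * (t⁻¹ * t⁻¹)) = 1 := by field_simp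
          rw [sub_eq_zero.1 h0, mul_one] at this
          exact this
        have h5 := d2' g t (σ t)⁻¹ ht0 (inv_ne_zero (fun h => ht0 (by rw [← h2 t, h, map_zero]))) ge gf ((r * (t⁻¹ * (t⁻¹ * t⁻¹) - 1)⁻¹) • w) (Submodule.smul_mem _ _ hw)
        rw [gw, hst, map_one, one_mul, smul_smul, hst'] at h5
        have e1 : r • w = (t⁻¹ * (t⁻¹ * t⁻¹ * (r * (t⁻¹ * (t⁻¹ * t⁻¹) - 1)⁻¹))) • w + (-(r * (t⁻¹ * (t⁻¹ * t⁻¹) - 1)⁻¹)) • w := by
          rw [← add_smul]
          congr 1
          have e2 : (t⁻¹ * (t⁻¹ * t⁻¹) - 1) * (t⁻¹ * (t⁻¹ * t⁻¹) - 1)⁻¹ = 1 := mul_inv_cancel₀ hne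
          linear_combination (-r) * e2
        have e3 : δ ((-(r * (t⁻¹ * (t⁻¹ * t⁻¹) - 1)⁻¹)) • w) = - δ ((r * (t⁻¹ * (t⁻¹ * t⁻¹) - 1)⁻¹) • w) := by
          have h6 := d1 ((r * (t⁻¹ * (t⁻¹ * t⁻¹) - 1)⁻¹) • w) (Submodule.smul_mem _ _ hw) ((-(r * (t⁻¹ * (t⁻¹ * t⁻¹) - 1)⁻¹)) • w) (Submodule.smul_mem _ _ hw)
          have hz : δ 0 = 0 := by
            have := d1 0 (Submodule.zero_mem _) 0 (Submodule.zero_mem _)
            rw [add_zero] at this
            simpa using this
          rw [← add_smul, add_neg_cancel, zero_smul, hz] at h6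
          linear_combination -h6
        rw [e1, d1 _ (Submodule.smul_mem _ _ hw) _ (Submodule.smul_mem _ _ hw), h5, e3, add_neg_cancel]

end env

end Cfsg.Agent.H8.TVU
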