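import Mathlib
import Cfsg.Agent.H8.TVU4
import Cfsg.Agent.H8.TVA8
import Cfsg.Agent.H8.MD2

set_option autoImplicit false

namespace Cfsg.Agent.H8.TVU

open Cfsg Cfsg.Agent.H8.TVA Cfsg.Agent.H7.Herm Matrix Cfsg.Agent.H8.MDat
open Cfsg.Agent.H8.AutPSL (ind ind_mk)

variable {F : Type*} [Field F] {q n : ℕ}

theorem memU {W : GL (Fin n) F} : W ∈ GU n F q ↔ ∀ u v, hermForm n F q ((W : Matrix (Fin n) (Fin n) F) *ᵥ u) ((W : Matrix (Fin n) (Fin n) F) *ᵥ v) = hermForm n F q u v := Iff.rfl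

theorem map_mulVec (σ : F ≃+* F) (A : Matrix (Fin n) (Fin n) F) (u : Fin n → F) : (A.map σ) *ᵥ (σ ∘ u) = σ ∘ (A *ᵥ u) := by
  funext i
  show ∑ j, A.map σ i j * σ (u j) = σ (∑ j, A i j * u j)
  rw [map_sum]
  apply Finset.sum_congr rfl
  intro j _
  rw [map_mul, Matrix.map_apply]

theorem herm_map (σ : F ≃+* F) (u v : Fin n → F) : hermForm n F q (σ ∘ u) (σ ∘ v) = σ (hermForm n F q u v) := by
  rw [hermForm, hermForm, map_sum]
  apply Finset.sum_congr rfl
  intro i _
  rw [map_mul, map_pow]; rfl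

theorem pres_map (σ : F ≃+* F) (A : Matrix (Fin n) (Fin n) F) (h : ∀ u v, hermForm n F q (A *ᵥ u) (A *ᵥ v) = hermForm n F q u v) (u v : Fin n → F) :
    hermForm n F q (A.map σ *ᵥ u) (A.map σ *ᵥ v) = hermForm n F q u v := by
  have e1 : ∀ u : Fin n → F, u = σ ∘ (σ.symm ∘ u) := fun u => by funext i; exact (σ.apply_symm_apply _).symm
  rw [e1 u, e1 v, map_mulVec, map_mulVec, herm_map, herm_map, h]

variable [Fintype F]

def mU (n : ℕ) (F : Type*) [Field F] (q : ℕ) : SU n F q →* GL (Fin n) F := Matrix.SpecialLinearGroup.toGL.comp (SU n F q).subtype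

theorem mU_val (s : SU n F q) : (mU n F q s : Matrix (Fin n) (Fin n) F) = mat s := rfl

theorem mU_mem (s : SU n F q) : mU n F q s ∈ GU n F q := by
  rw [memU]
  intro u v
  exact mat_herm s u v

theorem exists_mU (W : GL (Fin n) F) (h1 : W ∈ GU n F q) (h2 : (W : Matrix (Fin n) (Fin n) F).det = 1) : ∃ s, mU n F q s = W :=
  ⟨mkSU (W : Matrix (Fin n) (Fin n) F) h2 (memU.1 h1), Units.ext rfl⟩

theorem mU_det (s : SU n F q) : (mU n F q s : Matrix (Fin n) (Fin n) F).det = 1 := (s : SpecialLinearGroup (Fin n) F).2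

/-- semilinear map attached to a pair -/
def slm (W : GL (Fin n) F) (τ : F ≃+* F) : (Fin n → F) →ₛₗ[(τ : F →+* F)] (Fin n → F) where
  toFun x := (W : Matrix (Fin n) (Fin n) F) *ᵥ (τ ∘ x)
  map_add' x y := by
    rw [← Matrix.mulVec_add]; congr 1; funext i; exact map_add τ _ _
  map_smul' c x := by
    show _ = (τ : F →+* F) c • _
    rw [← Matrix.mulVec_smul]; congr 1; funext i; exact map_mul τ _ _

theorem slm_apply (W : GL (Fin n) F) (τ : F ≃+* F) (x : Fin n → F) : slm W τ x = (W : Matrix (Fin n) (Fin n) F) *ᵥ (τ ∘ x) := rfl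

theorem sc_of_smul (W : GL (Fin n) F) (hn : 1 ≤ n) (a : F) (h : ∀ x : Fin n → F, (W : Matrix (Fin n) (Fin n) F) *ᵥ x = a • x) : ∃ c : Fˣ, W = sc c := by
  have h1 : (W : Matrix (Fin n) (Fin n) F) = a • 1 := by
    apply Matrix.mulVec_injective
    funext x
    rw [h, Matrix.smul_mulVec, Matrix.one_mulVec]
  have ha : a ≠ 0 := by
    rintro rfl
    haveI : Nonempty (Fin n) := ⟨⟨0, hn⟩⟩
    exact W_ne_zero W (by rw [h1, zero_smul])
  exact ⟨Units.mk0 a ha, Units.ext (by rw [h1, sc_val]; rfl)⟩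

/-- the unitary datum -/
noncomputable def mdU (p : ℕ) [Fact p.Prime] [CharP F p] (hF : Fintype.card F = q ^ 2) (hn : 3 ≤ n) (hs : ¬ (n = 3 ∧ q = 2)) : MD (Fin n) F (SU n F q) where
  m := mU n F q
  minj s t h := mat_inj (congrArg Units.val h)
  D := GU n F q
  cjm W hW s := by
    apply exists_mU
    · exact (GU n F q).mul_mem ((GU n F q).mul_mem hW (mU_mem s)) ((GU n F q).inv_mem hW)
    · rw [Units.val_mul, Units.val_mul, Matrix.det_mul, Matrix.det_mul, mU_det, mul_one, ← Matrix.det_mul, ← Units.val_mul, mul_inv_cancel, Units.val_one, Matrix.det_one]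
  fdm σ s := by
    apply exists_mU
    · rw [memU]
      intro u v
      exact pres_map σ _ (mat_herm s) u v
    · rw [fW_val]
      have : ((mU n F q s : Matrix (Fin n) (Fin n) F).map σ).det = σ (mU n F q s : Matrix (Fin n) (Fin n) F).det := (RingHom.map_det (σ : F →+* F) _).symm
      rw [this, mU_det, map_one]
  fD σ W hW := by
    rw [memU]
    intro u v
    exact pres_map σ _ (memU.1 hW) u v
  SD := mU_mem
  rig W hW σ h := by
    obtain ⟨τ, h1, h2, h3⟩ := exists_frob hF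
    let C := cfgU p hF (by omega : 2 ≤ n) h1 h2 h3
    have E := env (p := p) hF hn hs h1 h2 h3
    haveI : Nontrivial (Fin n → F) := by
      haveI : Nonempty (Fin n) := ⟨⟨0, by omega⟩⟩
      exact Function.nontrivial
    haveI : Finite (SU n F q) := inferInstance
    have hform : ∀ x y, hB n τ (slm W σ x) (slm W σ y) = 1 * (σ : F →+* F) (hB n τ x y) := by
      intro x y
      rw [hB_eq h1, hB_eq h1, slm_apply, slm_apply, memU.1 hW, herm_map, one_mul]; rfl
    have hsurj : Function.Surjective (slm W σ) := by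
      intro y
      refine ⟨σ.symm ∘ (((W⁻¹ : GL (Fin n) F) : Matrix (Fin n) (Fin n) F) *ᵥ y), ?_⟩
      rw [slm_apply]
      have : σ ∘ (σ.symm ∘ (((W⁻¹ : GL (Fin n) F) : Matrix (Fin n) (Fin n) F) *ᵥ y)) = ((W⁻¹ : GL (Fin n) F) : Matrix (Fin n) (Fin n) F) *ᵥ y := by
        funext i; exact σ.apply_symm_apply _
      rw [this, Matrix.mulVec_mulVec, ← Units.val_mul, mul_inv_cancel, Units.val_one, Matrix.one_mulVec]
    have key : ∀ s s' : SU n F q, (mU n F q s' = W * fW σ (mU n F q s) * W⁻¹) ↔ (∀ x, slm W σ (rho n F q s x) = rho n F q s' (slm W σ x)) := by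
      intro s s'
      have e1 : ∀ x, slm W σ (rho n F q s x) = ((W : Matrix (Fin n) (Fin n) F) * (mat s).map σ) *ᵥ (σ ∘ x) := by
        intro x
        rw [slm_apply, rho_apply, ← map_mulVec, Matrix.mulVec_mulVec]
      have e2 : ∀ x, rho n F q s' (slm W σ x) = (mat s' * (W : Matrix (Fin n) (Fin n) F)) *ᵥ (σ ∘ x) := by
        intro x
        rw [slm_apply, rho_apply, Matrix.mulVec_mulVec]
      constructor
      · intro h x
        have h' : mU n F q s' * W = W * fW σ (mU n F q s) := by rw [h]; group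
        have h'' : mat s' * (W : Matrix (Fin n) (Fin n) F) = (W : Matrix (Fin n) (Fin n) F) * (mat s).map σ := congrArg Units.val h'
        rw [e1, e2, h'']
      · intro h
        rw [eq_mul_inv_iff_mul_eq]
        apply Units.ext
        show mat s' * (W : Matrix (Fin n) (Fin n) F) = (W : Matrix (Fin n) (Fin n) F) * (mat s).map σ
        apply Matrix.mulVec_injective
        funext x
        have h1 := h (σ.symm ∘ x)
        rw [e1, e2] at h1
        have h2 : σ ∘ (σ.symm ∘ x) = x := by funext i; exact σ.apply_symm_apply _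
        rw [h2] at h1
        exact h1.symm
    obtain ⟨hτ, a, ha⟩ := C.rig E.hW (σ : F →+* F) (slm W σ) 1 one_ne_zero hform hsurj (by
      intro s
      obtain ⟨s', hs'⟩ := exists_mU (q := q) (W * fW σ (mU n F q s) * W⁻¹) (by
        apply (GU n F q).mul_mem ((GU n F q).mul_mem hW _) ((GU n F q).inv_mem hW)
        rw [memU]
        intro u v
        exact pres_map σ _ (mat_herm s) u v) (by
        rw [Units.val_mul, Units.val_mul, Matrix.det_mul, Matrix.det_mul, fW_val]
        have : ((mU n F q s : Matrix (Fin n) (Fin n) F).map σ).det = σ (mU n F q s : Matrix (Fin n) (Fin n) F).det := (RingHom.map_det (σ : F →+* F) _).symm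
        rw [this, mU_det, map_one, mul_one, ← Matrix.det_mul, ← Units.val_mul, mul_inv_cancel, Units.val_one, Matrix.det_one])
      exact ⟨s', (key s s').1 hs'⟩) (by
      intro s s' hss
      exact h s s' ((key s s').2 hss))
    have hσ : σ = 1 := by ext x; exact hτ x
    refine ⟨hσ, ?_⟩
    apply sc_of_smul W (by omega) a
    intro x
    have := ha x
    rw [slm_apply, hσ] at this
    exact this

/-- every automorphism of `PSU` is semilinear -/
theorem fullU (p : ℕ) [Fact p.Prime] [CharP F p] (hF : Fintype.card F = q ^ 2) (hn : 3 ≤ n) (hs : ¬ (n = 3 ∧ q = 2)) : (mdU p hF hn hs).Full := by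
  intro α
  obtain ⟨σ, h1, h2, h3⟩ := exists_frob hF
  have E := env (p := p) hF hn hs h1 h2 h3
  haveI : Nontrivial (Fin n → F) := by
    haveI : Nonempty (Fin n) := ⟨⟨0, by omega⟩⟩
    exact Function.nontrivial
  obtain ⟨τ, g, l, hl0, hsl, hg, hα⟩ := Cfg.main E α
  have hτb : Function.Bijective τ := Finite.injective_iff_bijective.1 τ.injective
  set τ' : F ≃+* F := RingEquiv.ofBijective τ hτb with hτ'
  have hττ : ∀ x, τ' x = τ x := fun x => rfl
  obtain ⟨ν, hν⟩ := norm_surj hF h1 l⁻¹ (inv_ne_zero hl0) (by rw [map_inv₀, hsl])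
  have hν0 : ν ≠ 0 := by
    rintro rfl
    rw [zero_mul] at hν
    exact inv_ne_zero hl0 hν.symm
  -- matrix
  let M : Matrix (Fin n) (Fin n) F := Matrix.of fun i j => ν * g (Pi.single j 1) i
  have hM : ∀ x, M *ᵥ (τ' ∘ x) = ν • g x := by
    intro x
    conv_rhs => rw [pi_eq_sum_univ' x]
    rw [map_sum]
    funext i
    rw [Pi.smul_apply, Finset.sum_apply, smul_eq_mul, Finset.mul_sum]
    show ∑ j, M i j * τ' (x j) = _
    apply Finset.sum_congr rfl
    intro j _
    rw [LinearMap.map_smulₛₗ, Pi.smul_apply, smul_eq_mul, hττ]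
    show ν * g (Pi.single j 1) i * τ (x j) = _
    ring
  have hform : ∀ x y, hermForm n F q (M *ᵥ x) (M *ᵥ y) = hermForm n F q x y := by
    intro x y
    have e1 : ∀ u : Fin n → F, u = τ' ∘ (τ'.symm ∘ u) := fun u => by funext i; exact (τ'.apply_symm_apply _).symm
    rw [e1 x, e1 y, hM, hM, herm_map, ← hB_eq h1, ← hB_eq h1]
    simp only [LinearMap.map_smulₛₗ, LinearMap.smul_apply, smul_eq_mul, hg, RingHom.id_apply]
    rw [hττ]
    have : ν * σ ν * l = 1 := by rw [hν, inv_mul_cancel₀ hl0]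
    linear_combination (τ (hB n σ (τ'.symm ∘ y) (τ'.symm ∘ x))) * this
  have hdet : M.det ^ (q + 1) = 1 := det_pow hF hform
  have hdet0 : M.det ≠ 0 := by
    intro h
    rw [h, zero_pow (by omega)] at hdet
    exact zero_ne_one hdet
  let W : GL (Fin n) F := Matrix.GeneralLinearGroup.mkOfDetNeZero M hdet0
  have hWD : W ∈ GU n F q := memU.2 hform
  refine ⟨⟨W, hWD⟩, τ', ?_⟩
  apply MD.T_ext
  intro s
  rw [ind_mk]
  obtain ⟨h', hh'⟩ := QuotientGroup.mk_surjective (α (QuotientGroup.mk s))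
  rw [← hh', QuotientGroup.eq, (mdU p hF hn hs).mem_center_iff]
  obtain ⟨c, hc0, hc⟩ := hα s h' hh'.symm
  set s' := ((mdU p hF hn hs).cj ⟨W, hWD⟩ * (mdU p hF hn hs).fd τ') s with hs'
  have e2 : (mU n F q s') * W = W * fW τ' (mU n F q s) := by
    have : mU n F q s' = W * fW τ' (mU n F q s) * W⁻¹ := by
      have e3 := (mdU p hF hn hs).m_cj ⟨W, hWD⟩ ((mdU p hF hn hs).fd τ' s)
      rw [(mdU p hF hn hs).m_fd] at e3
      exact e3
    rw [this]; group
  have e3 : mat s' * M = M * (mat s).map τ' := congrArg Units.val e2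
  have e4 : ∀ x, mat s' *ᵥ x = c • (mat h' *ᵥ x) := by
    intro x
    obtain ⟨y, rfl⟩ : ∃ y, M *ᵥ (τ' ∘ y) = x := by
      refine ⟨τ'.symm ∘ (((W⁻¹ : GL (Fin n) F) : Matrix (Fin n) (Fin n) F) *ᵥ x), ?_⟩
      have : τ' ∘ (τ'.symm ∘ (((W⁻¹ : GL (Fin n) F) : Matrix (Fin n) (Fin n) F) *ᵥ x)) = ((W⁻¹ : GL (Fin n) F) : Matrix (Fin n) (Fin n) F) *ᵥ x := by
        funext i; exact τ'.apply_symm_apply _
      rw [this, Matrix.mulVec_mulVec]
      have h5 : M * ((W⁻¹ : GL (Fin n) F) : Matrix (Fin n) (Fin n) F) = 1 := by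
        have : ((W * W⁻¹ : GL (Fin n) F) : Matrix (Fin n) (Fin n) F) = 1 := by rw [mul_inv_cancel]; rfl
        exact this
      rw [h5, Matrix.one_mulVec]
    rw [Matrix.mulVec_mulVec, e3, ← Matrix.mulVec_mulVec, map_mulVec, hM, hM, Matrix.mulVec_smul]
    have h6 := hc y
    have h7 : (cfgU p hF (by omega : 2 ≤ n) h1 h2 h3).ρ s y = mat s *ᵥ y := rfl
    have h8 : (cfgU p hF (by omega : 2 ≤ n) h1 h2 h3).ρ h' (g y) = mat h' *ᵥ g y := rfl
    rw [h7, h8] at h6
    rw [h6, smul_comm]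
  refine ⟨(Units.mk0 c hc0), ?_⟩
  have e5 : mU n F q s' = sc (Units.mk0 c hc0) * mU n F q h' := by
    apply Units.ext
    rw [sc_mul_val]
    apply Matrix.mulVec_injective
    funext x
    rw [Matrix.smul_mulVec]
    exact e4 x
  show mU n F q (h'⁻¹ * s') = _
  rw [map_mul, e5, map_inv, sc_comm, ← mul_assoc, inv_mul_cancel, one_mul]

end Cfsg.Agent.H8.TVU
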