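import Mathlib
import Cfsg.Agent.H8.TVU5

set_option autoImplicit false

namespace Cfsg.Agent.H8.TVU

open Cfsg Cfsg.Agent.H8.TVA Cfsg.Agent.H7.Herm Matrix Cfsg.Agent.H8.MDat
open Cfsg.Agent.H8.AutPSL (ind ind_mk)

variable {F : Type*} [Field F] [Fintype F] {q n : ℕ}
variable (p : ℕ) [Fact p.Prime] [CharP F p] (hF : Fintype.card F = q ^ 2) (hn : 3 ≤ n) (hs : ¬ (n = 3 ∧ q = 2))

theorem semi_ind (W : (mdU p hF hn hs).D) (σ : F ≃+* F) : IsInducedBySemilinearPSU W.1 σ (ind ((mdU p hF hn hs).cj W * (mdU p hF hn hs).fd σ)) := by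
  intro s s' h
  rw [ind_mk]
  congr 1
  apply (mdU p hF hn hs).minj
  rw [MulAut.mul_apply, (mdU p hF hn hs).m_cj, (mdU p hF hn hs).m_fd]
  apply Units.ext
  exact h.symm

theorem diag_ind (W : (mdU p hF hn hs).D) : IsInnerDiagonalAutPSU (ind ((mdU p hF hn hs).cj W)) := by
  refine ⟨W.1, W.2, ?_⟩
  intro s s' h
  rw [ind_mk]
  congr 1
  apply (mdU p hF hn hs).minj
  rw [(mdU p hF hn hs).m_cj]
  apply Units.ext
  exact h.symm

theorem fld_ind (σ : F ≃+* F) : IsFieldAutPSUOf σ (ind ((mdU p hF hn hs).fd σ)) := by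
  intro s s' h
  rw [ind_mk]
  congr 1
  apply (mdU p hF hn hs).minj
  rw [(mdU p hF hn hs).m_fd]
  apply Units.ext
  exact h.symm

theorem fld_eq {σ : F ≃+* F} {β : MulAut (PSU n F q)} (h : IsFieldAutPSUOf σ β) : β = ind ((mdU p hF hn hs).fd σ) := by
  apply MD.T_ext
  intro s
  rw [ind_mk]
  apply h
  have := congrArg Units.val ((mdU p hF hn hs).m_fd σ s)
  exact this

theorem inndiag_eq : inndiagPSU n F q = (mdU p hF hn hs).N := by
  apply le_antisymm
  · apply (Subgroup.closure_le _).2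
    rintro β ⟨g, hg, hβ⟩
    refine ⟨⟨g, hg⟩, ?_⟩
    apply MD.T_ext
    intro s
    show ind ((mdU p hF hn hs).cj ⟨g, hg⟩) _ = _
    rw [ind_mk]
    symm
    apply hβ
    exact congrArg Units.val ((mdU p hF hn hs).m_cj ⟨g, hg⟩ s)
  · rintro _ ⟨g, rfl⟩
    apply Subgroup.subset_closure
    exact diag_ind p hF hn hs g

include p hF hn hs in
theorem gamma_top : gammaPSU n F q = ⊤ := by
  rw [eq_top_iff]
  intro α _
  apply Subgroup.subset_closure
  obtain ⟨W, σ, rfl⟩ := fullU p hF hn hs α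
  exact ⟨W.1, σ, W.2, semi_ind p hF hn hs W σ⟩

include p hF hn hs in
theorem decomp (β : MulAut (PSU n F q)) : ∃ (δ φ : MulAut (PSU n F q)) (σ : F ≃+* F), IsInnerDiagonalAutPSU δ ∧ IsFieldAutPSUOf σ φ ∧ β = δ * φ := by
  obtain ⟨W, σ, h⟩ := fullU p hF hn hs β
  exact ⟨_, _, σ, diag_ind p hF hn hs W, fld_ind p hF hn hs σ, by rw [h, map_mul]⟩

/-- norm-one group -/
abbrev NA (F : Type*) [Field F] (q : ℕ) : Subgroup Fˣ := (powMonoidHom (q + 1) : Fˣ →* Fˣ).ker

include hF in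
theorem card_NA : Nat.card (NA F q) = q + 1 := by
  have hq := one_lt_q hF
  rw [IsCyclic.card_powMonoidHom_ker, Nat.card_units, Nat.card_eq_fintype_card, hF]
  have : q ^ 2 - 1 = (q + 1) * (q - 1) := by
    obtain ⟨r, rfl⟩ : ∃ r, q = r + 1 := ⟨q - 1, by omega⟩
    rw [Nat.add_sub_cancel]
    have : (r + 1) ^ 2 = (r + 1 + 1) * r + 1 := by ring
    omega
  rw [this]
  exact Nat.gcd_eq_right (Dvd.intro _ rfl)

/-- determinant -/
noncomputable def dtU : (mdU p hF hn hs).D →* NA F q :=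
  (Matrix.GeneralLinearGroup.det.comp (GU n F q).subtype).codRestrict (NA F q) (fun g => by
    rw [MonoidHom.mem_ker]
    apply Units.ext
    exact det_pow hF (memU.1 g.2))

theorem dtU_val (W : (mdU p hF hn hs).D) : (((dtU p hF hn hs W).1 : Fˣ) : F) = (W.1 : Matrix (Fin n) (Fin n) F).det := rfl

theorem dtU_surj : Function.Surjective (dtU p hF hn hs) := by
  intro a
  have hn1 : 0 < n := by omega
  refine ⟨⟨dg (Function.update (fun _ => (1 : Fˣ)) ⟨0, hn1⟩ a.1), dg_mem _ ?_⟩, ?_⟩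
  · intro i
    by_cases hi : i = ⟨0, hn1⟩
    · rw [hi, Function.update_self]
      have : a.1 ^ (q + 1) = 1 := a.2
      rw [← Units.val_pow_eq_pow_val, this]; rfl
    · rw [Function.update_of_ne hi]; simp
  · apply Subtype.ext
    apply Units.ext
    rw [dtU_val]
    show (diagonal _).det = _
    rw [Matrix.det_diagonal]
    have : ∀ i, ((Function.update (fun _ => (1 : Fˣ)) (⟨0, hn1⟩ : Fin n) a.1 i : Fˣ) : F) = Function.update (fun _ => (1 : F)) (⟨0, hn1⟩ : Fin n) (a.1 : F) i := by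
      intro i
      by_cases hi : i = ⟨0, hn1⟩
      · rw [hi, Function.update_self, Function.update_self]
      · rw [Function.update_of_ne hi, Function.update_of_ne hi]; rfl
    rw [Finset.prod_congr rfl (fun i _ => this i), Finset.prod_update_of_mem (Finset.mem_univ _)]
    simp

theorem dtU_ker (W : (mdU p hF hn hs).D) : dtU p hF hn hs W = 1 ↔ ∃ s, W.1 = (mdU p hF hn hs).m s := by
  constructor
  · intro h
    have h1 : (W.1 : Matrix (Fin n) (Fin n) F).det = 1 := by rw [← dtU_val p hF hn hs, h]; rfl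
    obtain ⟨s, hs⟩ := exists_mU W.1 W.2 h1
    exact ⟨s, hs.symm⟩
  · rintro ⟨s, h⟩
    apply Subtype.ext
    apply Units.ext
    rw [dtU_val, h]
    exact mU_det s

include hF in
theorem sc_memU (hn1 : 1 ≤ n) (c : Fˣ) : (sc c : GL (Fin n) F) ∈ GU n F q ↔ c ^ (q + 1) = 1 := by
  rw [memU]
  have key : ∀ u v : Fin n → F, hermForm n F q (((sc c : GL (Fin n) F) : Matrix (Fin n) (Fin n) F) *ᵥ u) (((sc c : GL (Fin n) F) : Matrix (Fin n) (Fin n) F) *ᵥ v) = (c : F) ^ (q + 1) * hermForm n F q u v := by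
    intro u v
    rw [sc_val, Matrix.smul_mulVec, Matrix.smul_mulVec, Matrix.one_mulVec, Matrix.one_mulVec, hermForm, hermForm, Finset.mul_sum]
    apply Finset.sum_congr rfl
    intro i _
    rw [Pi.smul_apply, Pi.smul_apply, smul_eq_mul, smul_eq_mul, mul_pow]
    ring
  constructor
  · intro h
    have h1 := h (Pi.single ⟨0, hn1⟩ 1) (Pi.single ⟨0, hn1⟩ 1)
    rw [key] at h1
    have h2 : hermForm n F q (Pi.single ⟨0, hn1⟩ 1) (Pi.single ⟨0, hn1⟩ 1) = 1 := by
      rw [hermForm, Finset.sum_eq_single (⟨0, hn1⟩ : Fin n)]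
      · simp
      · intro b _ hb
        rw [Pi.single_eq_of_ne hb, zero_mul]
      · intro h; exact absurd (Finset.mem_univ _) h
    rw [h2, mul_one] at h1
    apply Units.ext
    rw [Units.val_pow_eq_pow_val, h1]; rfl
  · intro h u v
    rw [key]
    have : (c : F) ^ (q + 1) = 1 := by rw [← Units.val_pow_eq_pow_val, h]; rfl
    rw [this, one_mul]

theorem dtU_Z (a : NA F q) : a ∈ (powMonoidHom n : NA F q →* NA F q).range ↔ ∃ (W : (mdU p hF hn hs).D) (c : Fˣ), W.1 = sc c ∧ dtU p hF hn hs W = a := by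
  have hd : ∀ c : Fˣ, ((sc c : GL (Fin n) F) : Matrix (Fin n) (Fin n) F).det = (c : F) ^ n := by
    intro c
    rw [sc_val, Matrix.det_smul, Matrix.det_one, mul_one, Fintype.card_fin]
  constructor
  · rintro ⟨c, rfl⟩
    refine ⟨⟨sc c.1, (sc_memU hF (by omega) c.1).2 c.2⟩, c.1, rfl, ?_⟩
    apply Subtype.ext
    apply Units.ext
    rw [dtU_val]
    exact hd c.1
  · rintro ⟨W, c, h1, rfl⟩
    have hc : c ^ (q + 1) = 1 := by
      apply (sc_memU hF (by omega : 1 ≤ n) c).1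
      rw [← h1]; exact W.2
    refine ⟨⟨c, hc⟩, ?_⟩
    apply Subtype.ext
    apply Units.ext
    rw [dtU_val, h1, hd]; rfl

include hF in
theorem Z_index : ((powMonoidHom n : NA F q →* NA F q).range).index = Nat.gcd n (q + 1) := by
  rw [IsCyclic.index_powMonoidHom_range, card_NA hF, Nat.gcd_comm]

theorem charP_of_card (F : Type*) [Field F] [Fintype F] {p k : ℕ} [Fact p.Prime] (h : Fintype.card F = p ^ k) (hk : 1 ≤ k) : CharP F p := by
  obtain ⟨r, hr⟩ := CharP.exists F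
  haveI : Fact r.Prime := ⟨CharP.char_is_prime F r⟩
  obtain ⟨k', hk1, hk2⟩ := FiniteField.card F r
  have h1 : p = r := by
    have h2 : p ∣ r ^ (k' : ℕ) := by
      rw [← hk2, h]
      exact dvd_pow_self p (by omega)
    exact (Nat.prime_dvd_prime_iff_eq Fact.out hk1).1 ((Fact.out : p.Prime).dvd_of_dvd_pow h2)
  rw [h1]; exact hr

end Cfsg.Agent.H8.TVU
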