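import Mathlib
import Cfsg.Agent.H8.TVU6
import Cfsg.Agent.H8.TVS1
import Cfsg.Agent.H7.IsoStab

set_option autoImplicit false

namespace Cfsg.Agent.H8.EMB

open Cfsg Cfsg.Agent.H7.Herm Cfsg.Agent.H7.Tv Matrix Module

/-- subfield of index two -/
theorem exists_sub {K F : Type*} [Field K] [Fintype K] [Field F] [Fintype F] {q : ℕ} (hK : Fintype.card K = q ^ 2) (hF : Fintype.card F = q) :
    ∃ i : F →+* K, (∀ x, (i x) ^ q = i x) ∧ (∀ y, y ^ q = y → ∃ x, i x = y) := by
  classical
  obtain ⟨p, hp⟩ := CharP.exists F
  haveI : Fact p.Prime := ⟨CharP.char_is_prime F p⟩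
  obtain ⟨f, hf, hf2⟩ := FiniteField.card F p
  haveI : CharP K p := TVU.charP_of_card K (k := f * 2) (by rw [hK, ← hF, hf2, ← pow_mul]) (by have := f.pos; omega)
  letI : Algebra (ZMod p) F := ZMod.algebra F p
  letI : Algebra (ZMod p) K := ZMod.algebra K p
  have h1 : finrank (ZMod p) F = f := by
    have := Module.card_eq_pow_finrank (K := ZMod p) (V := F)
    rw [hf2, ZMod.card] at this
    exact (Nat.pow_right_injective (Fact.out : p.Prime).two_le this).symm
  have h2 : finrank (ZMod p) K = f * 2 := by
    have := Module.card_eq_pow_finrank (K := ZMod p) (V := K)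
    rw [hK, ← hF, hf2, ← pow_mul, ZMod.card] at this
    exact (Nat.pow_right_injective (Fact.out : p.Prime).two_le this).symm
  obtain ⟨i⟩ := FiniteField.nonempty_algHom_of_finrank_dvd (F := ZMod p) (K := F) (L := K) (by rw [h1, h2]; exact Dvd.intro _ rfl)
  refine ⟨i.toRingHom, ?_, ?_⟩
  · intro x
    rw [← map_pow, ← hF, FiniteField.pow_card]
  · intro y hy
    have hq : 1 < q := one_lt_q hK
    let P : Polynomial K := Polynomial.X ^ q - Polynomial.X
    have hP : P ≠ 0 := FiniteField.X_pow_card_sub_X_ne_zero K hq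
    have hdeg : P.natDegree = q := FiniteField.X_pow_card_sub_X_natDegree_eq K hq
    let S : Finset K := Finset.univ.image i.toRingHom
    have hS : S.card = q := by
      rw [Finset.card_image_of_injective _ i.toRingHom.injective, Finset.card_univ, hF]
    have hsub : S ⊆ P.roots.toFinset := by
      intro y hy
      obtain ⟨x, -, rfl⟩ := Finset.mem_image.1 hy
      rw [Multiset.mem_toFinset, Polynomial.mem_roots hP, Polynomial.IsRoot.def]
      simp only [P, Polynomial.eval_sub, Polynomial.eval_pow, Polynomial.eval_X]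
      rw [← map_pow, ← hF, FiniteField.pow_card, sub_self]
    have hcard : P.roots.toFinset.card ≤ S.card := by
      rw [hS]
      conv_rhs => rw [← hdeg]
      exact (Multiset.toFinset_card_le _).trans (Polynomial.card_roots' P)
    have heq := Finset.eq_of_subset_of_card_le hsub hcard
    have hx2 : y ∈ P.roots.toFinset := by
      rw [Multiset.mem_toFinset, Polynomial.mem_roots hP, Polynomial.IsRoot.def]
      simp only [P, Polynomial.eval_sub, Polynomial.eval_pow, Polynomial.eval_X]
      rw [hy, sub_self]
    rw [← heq] at hx2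
    obtain ⟨x, -, hx⟩ := Finset.mem_image.1 hx2
    exact ⟨x, hx⟩

/-- embedding into the symplectic group from an alternating form -/
theorem embed_sp {F V G : Type*} [Field F] [AddCommGroup V] [Module F V] [FiniteDimensional F V] [Group G] {k : ℕ} (hV : finrank F V = 2 * k)
    (B : V →ₗ[F] V →ₗ[F] F) (hA : ∀ x, B x x = 0) (hnd : ∀ u, (∀ v, B u v = 0) → u = 0)
    (ρ : G →* (V ≃ₗ[F] V)) (hρ : Function.Injective ρ) (hB : ∀ g u v, B (ρ g u) (ρ g v) = B u v) :
    ∃ φ : G →* symplecticGroup (Fin k) F, Function.Injective φ := by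
  obtain ⟨φ, hφ⟩ := Cfsg.Agent.H7.Witt.symp_iso hA hnd hV
  have hφs : ∀ x y, B (φ.symm x) (φ.symm y) = sf k F x y := fun x y => by
    rw [← hφ, LinearEquiv.apply_symm_apply, LinearEquiv.apply_symm_apply]
  let ψ : G →* spGL k F :=
    { toFun := fun g => ⟨ofE (φ.symm.trans ((ρ g).trans φ)), fun u v => by
        show sympForm k F (ap _ u) (ap _ v) = _
        rw [ap_ofE, ap_ofE]
        show sf k F (φ (ρ g (φ.symm u))) (φ (ρ g (φ.symm v))) = sf k F u v
        rw [hφ, hB, hφs]⟩
      map_one' := by
        apply Subtype.ext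
        apply ap_ext
        intro v
        show ap (ofE _) v = ap 1 v
        rw [ap_ofE, ap_one]
        show φ (ρ 1 (φ.symm v)) = v
        rw [map_one]
        exact φ.apply_symm_apply v
      map_mul' := fun g h => by
        apply Subtype.ext
        apply ap_ext
        intro v
        show ap (ofE _) v = ap (ofE _ * ofE _) v
        rw [ap_mul, ap_ofE, ap_ofE, ap_ofE]
        show φ (ρ (g * h) (φ.symm v)) = φ (ρ g (φ.symm (φ (ρ h (φ.symm v)))))
        rw [φ.symm_apply_apply, map_mul]
        rfl }
  refine ⟨(spEquiv k F).symm.toMonoidHom.comp ψ, (spEquiv k F).symm.injective.comp ?_⟩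
  intro g h hgh
  apply hρ
  apply LinearEquiv.ext
  intro x
  have h1 : ofE (φ.symm.trans ((ρ g).trans φ)) = ofE (φ.symm.trans ((ρ h).trans φ)) := congrArg Subtype.val hgh
  have h2 := congrArg (fun a => ap a (φ x)) h1
  simp only [ap_ofE] at h2
  have h3 : φ (ρ g (φ.symm (φ x))) = φ (ρ h (φ.symm (φ x))) := h2
  rw [φ.symm_apply_apply] at h3
  exact φ.injective h3

/-- restriction of scalars of the natural action of a matrix group -/
noncomputable def resAct {ι : Type} [Fintype ι] [DecidableEq ι] (F K : Type*) [Field F] [Field K] [Algebra F K] : GL ι K →* ((ι → K) ≃ₗ[F] (ι → K)) where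
  toFun g := (linE g).restrictScalars F
  map_one' := by apply LinearEquiv.ext; intro x; exact ap_one x
  map_mul' g h := by apply LinearEquiv.ext; intro x; exact ap_mul g h x

theorem resAct_apply {ι : Type} [Fintype ι] [DecidableEq ι] (F K : Type*) [Field F] [Field K] [Algebra F K] (g : GL ι K) (x : ι → K) : resAct F K g x = ap g x := rfl

theorem resAct_inj {ι : Type} [Fintype ι] [DecidableEq ι] (F K : Type*) [Field F] [Field K] [Algebra F K] : Function.Injective (resAct (ι := ι) F K) := by
  intro g h hgh
  apply ap_ext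
  intro v
  rw [← resAct_apply F K, ← resAct_apply F K, hgh]

theorem finrank_two {K F : Type*} [Field K] [Fintype K] [Field F] [Fintype F] [Algebra F K] {q : ℕ} (hK : Fintype.card K = q ^ 2) (hF : Fintype.card F = q) :
    finrank F K = 2 := by
  have := Module.card_eq_pow_finrank (K := F) (V := K)
  rw [hK, hF] at this
  exact (Nat.pow_right_injective (one_lt_q hK) this).symm

theorem sp_field_ext {K F : Type*} [Field K] [Fintype K] [Field F] [Fintype F] {q : ℕ} (hK : Fintype.card K = q ^ 2) (hF : Fintype.card F = q) (a : ℕ) :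
    ∃ φ : ↥(Matrix.symplecticGroup (Fin a) K) →* ↥(Matrix.symplecticGroup (Fin (2 * a)) F), Function.Injective φ := by
  obtain ⟨i, -, -⟩ := exists_sub hK hF
  letI : Algebra F K := i.toAlgebra
  haveI : FiniteDimensional F K := Module.Finite.of_finite
  have h2 := finrank_two hK hF
  -- a nonzero functional
  obtain ⟨l, hl⟩ : ∃ l : K →ₗ[F] F, l 1 ≠ 0 := by
    by_contra hcon
    push Not at hcon
    exact one_ne_zero ((Module.forall_dual_apply_eq_zero_iff F (1 : K)).1 hcon)
  let B : (Fin a ⊕ Fin a → K) →ₗ[F] (Fin a ⊕ Fin a → K) →ₗ[F] F :=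
    LinearMap.mk₂ F (fun u v => l (sf a K u v))
      (fun u v w => by rw [map_add, LinearMap.add_apply, map_add])
      (fun c u v => by
        have : c • u = (algebraMap F K c) • u := by funext j; exact Algebra.smul_def c (u j)
        rw [this, map_smul, LinearMap.smul_apply, smul_eq_mul, ← Algebra.smul_def, map_smul])
      (fun u v w => by rw [map_add, map_add])
      (fun c u v => by
        have : c • v = (algebraMap F K c) • v := by funext j; exact Algebra.smul_def c (v j)
        rw [this, map_smul, smul_eq_mul, ← Algebra.smul_def, map_smul])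
  have hBa : ∀ u v, B u v = l (sf a K u v) := fun u v => rfl
  refine embed_sp (V := Fin a ⊕ Fin a → K) (k := 2 * a) ?_ B ?_ ?_ ((resAct F K).comp (spToGL a K)) ((resAct_inj F K).comp (spToGL_injective a)) ?_
  · rw [Module.finrank_pi_fintype]
    simp only [h2, Finset.sum_const, Finset.card_univ, Fintype.card_sum, Fintype.card_fin, smul_eq_mul]
    ring
  · intro x
    rw [hBa, (sf_alt a).1 x, map_zero]
  · intro u hu
    apply (TVS.frm (F := K) (m := a)).nd u
    intro v
    by_contra h
    have h3 := hu ((sf a K u v)⁻¹ • v)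
    rw [hBa, map_smul, smul_eq_mul, inv_mul_cancel₀ h] at h3
    exact hl h3
  · intro g u v
    rw [hBa, hBa]
    congr 1
    exact spToGL_iso g u v

/-- the trace of a quadratic extension, as a functional -/
theorem exists_tr {K F : Type*} [Field K] [Fintype K] [Field F] [Fintype F] {q : ℕ} [Algebra F K] (s : K →+* K) (h1 : ∀ x, s x = x ^ q) (h2 : ∀ x, s (s x) = x)
    (h3 : s ≠ RingHom.id K) (hi : ∀ x : F, (algebraMap F K x) ^ q = algebraMap F K x) (hi2 : ∀ y : K, y ^ q = y → ∃ x : F, algebraMap F K x = y) :
    ∃ tr : K →ₗ[F] F, (∀ x, algebraMap F K (tr x) = x + s x) ∧ (∀ x, (∀ c, tr (c * x) = 0) → x = 0) := by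
  have hex : ∀ x : K, ∃ t : F, algebraMap F K t = x + s x := by
    intro x
    apply hi2
    rw [← h1, map_add, h2, add_comm]
  choose t ht using hex
  have hinj : Function.Injective (algebraMap F K) := (algebraMap F K).injective
  refine ⟨{ toFun := t, map_add' := ?_, map_smul' := ?_ }, ht, ?_⟩
  · intro x y
    apply hinj
    rw [map_add, ht, ht, ht, map_add]; ring
  · intro c x
    apply hinj
    rw [RingHom.id_apply, smul_eq_mul, map_mul, ht, ht, Algebra.smul_def, map_mul, h1 (algebraMap F K c), hi]; ring
  · intro x hx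
    by_contra hx0
    apply h3
    apply RingHom.ext
    intro z
    have h4 : ∀ c : K, c + s c = 0 := by
      intro c
      have := hx (c * x⁻¹)
      rw [mul_assoc, inv_mul_cancel₀ hx0, mul_one] at this
      have h5 : t c = 0 := this
      rw [← ht, h5, map_zero]
    have h5 := h4 1
    have h6 := h4 z
    rw [map_one] at h5
    rw [RingHom.id_apply]
    linear_combination h6 - z * h5

theorem gu_sp {K F : Type*} [Field K] [Fintype K] [Field F] [Fintype F] {q : ℕ} (hK : Fintype.card K = q ^ 2) (hF : Fintype.card F = q) (m : ℕ) :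
    ∃ φ : ↥(Cfsg.GU m K q) →* ↥(Matrix.symplecticGroup (Fin m) F), Function.Injective φ := by
  obtain ⟨i, hi1, hi2⟩ := exists_sub hK hF
  letI : Algebra F K := i.toAlgebra
  haveI : FiniteDimensional F K := Module.Finite.of_finite
  have hf2 := finrank_two hK hF
  obtain ⟨s, h1, h2, h3⟩ := exists_frob hK
  obtain ⟨tr, htr, htr2⟩ := exists_tr s h1 h2 h3 hi1 hi2
  obtain ⟨ξ, hξ0, hξ⟩ := TVU.skew_ne h2 h3
  rw [one_mul] at hξ
  have hsF : ∀ c : F, s (algebraMap F K c) = algebraMap F K c := fun c => by rw [h1]; exact hi1 c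
  have hsm : ∀ (c : F) (u : Fin m → K), c • u = (algebraMap F K c) • u := fun c u => by funext j; exact Algebra.smul_def c (u j)
  let B : (Fin m → K) →ₗ[F] (Fin m → K) →ₗ[F] F :=
    LinearMap.mk₂ F (fun u v => tr (ξ * hB m s u v))
      (fun u v w => by rw [map_add, LinearMap.add_apply, mul_add, map_add])
      (fun c u v => by
        rw [hsm, LinearMap.map_smulₛₗ, LinearMap.smul_apply, smul_eq_mul, hsF, mul_left_comm, ← Algebra.smul_def, map_smul])
      (fun u v w => by rw [map_add, mul_add, map_add])
      (fun c u v => by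
        rw [hsm, map_smul, smul_eq_mul, mul_left_comm, ← Algebra.smul_def, map_smul])
  have hBa : ∀ u v, B u v = tr (ξ * hB m s u v) := fun u v => rfl
  refine embed_sp (V := Fin m → K) (k := m) ?_ B ?_ ?_ ((resAct F K).comp (GU m K q).subtype) ((resAct_inj F K).comp (Subgroup.subtype_injective _)) ?_
  · rw [Module.finrank_pi_fintype]
    simp only [hf2, Finset.sum_const, Finset.card_univ, Fintype.card_fin, smul_eq_mul]
    ring
  · intro x
    rw [hBa]
    apply (algebraMap F K).injective
    rw [htr, map_mul, hB_symm h2, map_zero]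
    linear_combination hB m s x x * hξ
  · intro u hu
    apply hB_nd (σ := s)
    intro v
    have h4 : ξ * hB m s u v = 0 := by
      apply htr2
      intro c
      have := hu (c • v)
      rw [hBa, map_smul, smul_eq_mul, mul_left_comm] at this
      exact this
    exact (mul_eq_zero.1 h4).resolve_left hξ0
  · intro g u v
    rw [hBa, hBa]
    congr 2
    show hB m s (ap g.1 u) (ap g.1 v) = _
    rw [hB_eq h1, hB_eq h1]
    exact g.2 v u

end Cfsg.Agent.H8.EMB
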