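import Mathlib
import Cfsg.Agent.H8.EMB1

set_option autoImplicit false

namespace Cfsg.Agent.H8.EMB

open Cfsg Cfsg.Agent.H7.Herm Cfsg.Agent.H7.Tv Matrix Module

/-- transport into an isometry group -/
theorem embed_iso {F V G : Type*} [Field F] [AddCommGroup V] [Module F V] [Group G] {ι : Type} [Fintype ι] [DecidableEq ι] (Q : (ι → F) → F)
    (QV : V → F) (φ : V ≃ₗ[F] (ι → F)) (hφ : ∀ v, Q (φ v) = QV v)
    (ρ : G →* (V ≃ₗ[F] V)) (hρ : Function.Injective ρ) (hB : ∀ g v, QV (ρ g v) = QV v) :
    ∃ φ : G →* isometryGroup F Q, Function.Injective φ := by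
  have hφs : ∀ x, QV (φ.symm x) = Q x := fun x => by rw [← hφ, LinearEquiv.apply_symm_apply]
  let ψ : G →* isometryGroup F Q :=
    { toFun := fun g => ⟨ofE (φ.symm.trans ((ρ g).trans φ)), fun u v => by
        show Q (ap _ u) = Q u
        rw [ap_ofE]
        show Q (φ (ρ g (φ.symm u))) = Q u
        rw [hφ, hB, hφs]⟩
      map_one' := by
        apply Subtype.ext
        apply ap_ext
        intro v
        show ap (ofE _) v = ap 1 v
        rw [ap_ofE, ap_one]
        show φ (ρ 1 (φ.symm v)) = v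
        rw [map_one]
        exact φ.apply_symm_apply v
      map_mul' := fun g h => by
        apply Subtype.ext
        apply ap_ext
        intro v
        show ap (ofE _) v = ap (ofE _ * ofE _) v
        rw [ap_mul, ap_ofE, ap_ofE, ap_ofE]
        show φ (ρ (g * h) (φ.symm v)) = φ (ρ g (φ.symm (φ (ρ h (φ.symm v)))))
        rw [φ.symm_apply_apply, map_mul]
        rfl }
  refine ⟨ψ, ?_⟩
  intro g h hgh
  apply hρ
  apply LinearEquiv.ext
  intro x
  have h1 : ofE (φ.symm.trans ((ρ g).trans φ)) = ofE (φ.symm.trans ((ρ h).trans φ)) := congrArg Subtype.val hgh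
  have h2 := congrArg (fun a => ap a (φ x)) h1
  simp only [ap_ofE] at h2
  have h3 : φ (ρ g (φ.symm (φ x))) = φ (ρ h (φ.symm (φ x))) := h2
  rw [φ.symm_apply_apply] at h3
  exact φ.injective h3

/-- a space `A × A` with a symmetric non-degenerate pairing -/
theorem hyp_equiv {F A : Type*} [Field F] [AddCommGroup A] [Module F A] [FiniteDimensional F A] {n : ℕ} (hA : finrank F A = n)
    (P : LinearMap.BilinForm F A) (hP : P.Nondegenerate) :
    ∃ φ : (A × A) ≃ₗ[F] (Fin n ⊕ Fin n → F), ∀ v, ∑ i : Fin n, φ v (.inl i) * φ v (.inr i) = P v.1 v.2 := by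
  subst hA
  let b : Basis (Fin (finrank F A)) F A := finBasis F A
  let d : Basis (Fin (finrank F A)) F A := P.dualBasis hP b
  refine ⟨(d.equivFun.prodCongr b.equivFun).trans (LinearEquiv.sumArrowLequivProdArrow _ _ F F).symm, ?_⟩
  intro v
  have e1 : v.1 = ∑ i, d.equivFun v.1 i • d i := (d.sum_equivFun v.1).symm
  have e2 : v.2 = ∑ i, b.equivFun v.2 i • b i := (b.sum_equivFun v.2).symm
  conv_rhs => rw [e1, e2]
  simp only [map_sum, LinearMap.sum_apply, map_smul, LinearMap.smul_apply, smul_eq_mul]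
  have e3 : ∀ i j, P (d i) (b j) = if j = i then 1 else 0 := fun i j => LinearMap.BilinForm.apply_dualBasis_left hP b i j
  simp only [e3]
  apply Finset.sum_congr rfl
  intro i _
  show d.equivFun v.1 i * b.equivFun v.2 i = _
  rw [Finset.sum_eq_single i]
  · rw [if_pos rfl, mul_one, mul_comm]
  · intro j _ hj
    simp [hj.symm]
  · intro h; exact absurd (Finset.mem_univ _) h


section herm
variable {K F : Type*} [Field K] [Fintype K] [Field F] [Fintype F] {q : ℕ} [Algebra F K]

theorem smK (n : ℕ) (c : F) (u : Fin n → K) : c • u = (algebraMap F K c) • u := by funext j; exact Algebra.smul_def c (u j)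

/-- the pairing on `K^r` -/
theorem exists_pair (s : K →+* K) (h1 : ∀ x, s x = x ^ q)
    (hi : ∀ x : F, (algebraMap F K x) ^ q = algebraMap F K x)
    (tr : K →ₗ[F] F) (htr2 : ∀ x, (∀ c, tr (c * x) = 0) → x = 0) (r : ℕ) :
    ∃ P : LinearMap.BilinForm F (Fin r → K), P.Nondegenerate ∧ ∀ a b, P a b = tr (hB r s a b) := by
  have hsF : ∀ c : F, s (algebraMap F K c) = algebraMap F K c := fun c => by rw [h1]; exact hi c
  let P : LinearMap.BilinForm F (Fin r → K) :=
    LinearMap.mk₂ F (fun u v => tr (hB r s u v))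
      (fun u v w => by rw [map_add, LinearMap.add_apply, map_add])
      (fun c u v => by
        rw [smK, LinearMap.map_smulₛₗ, LinearMap.smul_apply, smul_eq_mul, hsF, ← Algebra.smul_def, map_smul])
      (fun u v w => by rw [map_add, map_add])
      (fun c u v => by
        rw [smK, map_smul, smul_eq_mul, ← Algebra.smul_def, map_smul])
  have hPa : ∀ u v, P u v = tr (hB r s u v) := fun u v => rfl
  refine ⟨P, ?_, hPa⟩
  have hl : ∀ u, (∀ v, P u v = 0) → u = 0 := by
    intro u hu
    apply hB_nd (σ := s)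
    intro v
    apply htr2
    intro c
    have := hu (c • v)
    rwa [hPa, map_smul, smul_eq_mul] at this
  rw [LinearMap.BilinForm.nondegenerate_iff_ker_eq_bot, LinearMap.ker_eq_bot']
  intro u hu
  apply hl
  intro v
  rw [hu, LinearMap.zero_apply]

/-- hyperbolic Hermitian space `K^r × K^r` -/
noncomputable def hh (r : ℕ) (s : K →+* K) : ((Fin r → K) × (Fin r → K)) →ₛₗ[s] ((Fin r → K) × (Fin r → K)) →ₗ[K] K :=
  LinearMap.mk₂'ₛₗ s (RingHom.id K) (fun u v => hB r s u.1 v.2 + hB r s u.2 v.1)
    (fun u v w => by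
      show hB r s (u.1 + v.1) w.2 + hB r s (u.2 + v.2) w.1 = _
      rw [map_add, map_add, LinearMap.add_apply, LinearMap.add_apply]; ring)
    (fun c u v => by
      show hB r s (c • u.1) v.2 + hB r s (c • u.2) v.1 = _
      rw [LinearMap.map_smulₛₗ, LinearMap.map_smulₛₗ, LinearMap.smul_apply, LinearMap.smul_apply, smul_eq_mul, smul_eq_mul, smul_eq_mul]; ring)
    (fun u v w => by
      show hB r s u.1 (v.2 + w.2) + hB r s u.2 (v.1 + w.1) = _
      rw [map_add, map_add]; ring)
    (fun c u v => by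
      show hB r s u.1 (c • v.2) + hB r s u.2 (c • v.1) = _
      rw [map_smul, map_smul, smul_eq_mul, smul_eq_mul, RingHom.id_apply, smul_eq_mul]; ring)

theorem hh_apply (r : ℕ) (s : K →+* K) (u v : (Fin r → K) × (Fin r → K)) : hh r s u v = hB r s u.1 v.2 + hB r s u.2 v.1 := rfl

theorem hh_symm (r : ℕ) (s : K →+* K) (h2 : ∀ x, s (s x) = x) (u v : (Fin r → K) × (Fin r → K)) : s (hh r s u v) = hh r s v u := by
  rw [hh_apply, hh_apply, map_add, hB_symm h2, hB_symm h2]; ring

theorem hh_nd (r : ℕ) (s : K →+* K) (v : (Fin r → K) × (Fin r → K)) (h : ∀ u, hh r s v u = 0) : v = 0 := by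
  apply Prod.ext
  · apply hB_nd (σ := s)
    intro u
    have := h (0, u)
    rwa [hh_apply, map_zero, add_zero] at this
  · apply hB_nd (σ := s)
    intro u
    have := h (u, 0)
    rwa [hh_apply, map_zero, zero_add] at this

end herm

theorem gu_plus {K F : Type*} [Field K] [Fintype K] [Field F] [Fintype F] {q : ℕ} (hK : Fintype.card K = q ^ 2) (hF : Fintype.card F = q) (m : ℕ) (hm : Even m) :
    ∃ φ : ↥(Cfsg.GU m K q) →* ↥(Cfsg.isometryGroup F (Cfsg.quadFormPlus m F)), Function.Injective φ := by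
  obtain ⟨r, hr⟩ := hm
  obtain ⟨i, hi1, hi2⟩ := exists_sub hK hF
  letI : Algebra F K := i.toAlgebra
  haveI : FiniteDimensional F K := Module.Finite.of_finite
  have hf2 := finrank_two hK hF
  obtain ⟨s, h1, h2, h3⟩ := exists_frob hK
  obtain ⟨tr, htr, htr2⟩ := exists_tr s h1 h2 h3 hi1 hi2
  obtain ⟨P, hP, hPa⟩ := exists_pair s h1 hi1 tr htr2 r
  obtain ⟨φ₀, hφ₀⟩ := herm_iso (k := m) h3 h2 (B := hh r s) (by
    rw [Module.finrank_prod, Module.finrank_fintype_fun_eq_card, Fintype.card_fin, hr]) (hh_symm r s h2) (hh_nd r s)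
  obtain ⟨φ₁, hφ₁⟩ := hyp_equiv (n := m) (by
    rw [Module.finrank_pi_fintype]
    simp only [hf2, Finset.sum_const, Finset.card_univ, Fintype.card_fin, smul_eq_mul]
    omega) P hP
  -- the quadratic form
  have hex : ∀ x : Fin m → K, ∃ t : F, algebraMap F K t = hB m s x x := by
    intro x
    apply hi2
    rw [← h1, hB_symm h2]
  choose QV hQV using hex
  let φ : (Fin m → K) ≃ₗ[F] (Fin m ⊕ Fin m → F) := (φ₀.symm.restrictScalars F).trans φ₁
  refine embed_iso (quadFormPlus m F) QV φ ?_ ((resAct F K).comp (GU m K q).subtype) ((resAct_inj F K).comp (Subgroup.subtype_injective _)) ?_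
  · intro x
    obtain ⟨v, rfl⟩ := φ₀.surjective x
    have e1 : φ (φ₀ v) = φ₁ v := by
      show φ₁ (φ₀.symm (φ₀ v)) = φ₁ v
      rw [φ₀.symm_apply_apply]
    rw [e1]
    apply (algebraMap F K).injective
    rw [hQV, hφ₀, hh_apply]
    show algebraMap F K (∑ i : Fin m, φ₁ v (.inl i) * φ₁ v (.inr i)) = _
    rw [hφ₁, hPa, htr, hB_symm h2]
  · intro g x
    apply (algebraMap F K).injective
    rw [hQV, hQV]
    show hB m s (ap g.1 x) (ap g.1 x) = _
    rw [hB_eq h1, hB_eq h1]
    exact g.2 x x

theorem gu_minus {K F : Type*} [Field K] [Fintype K] [Field F] [Fintype F] {q : ℕ} (hK : Fintype.card K = q ^ 2) (hF : Fintype.card F = q) (m : ℕ) (hm : Odd m)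
    (a b : F) (hab : ∀ z₁ z₂ : F, z₁ ^ 2 + a * z₁ * z₂ + b * z₂ ^ 2 = 0 → z₁ = 0 ∧ z₂ = 0) :
    ∃ φ : ↥(Cfsg.GU m K q) →* ↥(Cfsg.isometryGroup F (Cfsg.quadFormMinus (m - 1) F a b)), Function.Injective φ := by
  obtain ⟨r, hr⟩ := hm
  obtain ⟨i, hi1, hi2⟩ := exists_sub hK hF
  letI : Algebra F K := i.toAlgebra
  haveI : FiniteDimensional F K := Module.Finite.of_finite
  have hf2 := finrank_two hK hF
  obtain ⟨s, h1, h2, h3⟩ := exists_frob hK
  obtain ⟨tr, htr, htr2⟩ := exists_tr s h1 h2 h3 hi1 hi2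
  obtain ⟨P, hP, hPa⟩ := exists_pair s h1 hi1 tr htr2 r
  have hsF : ∀ c : F, s (algebraMap F K c) = algebraMap F K c := fun c => by rw [h1]; exact hi1 c
  -- the root
  obtain ⟨α, hα⟩ : ∃ α : K, α ^ 2 + algebraMap F K a * α + algebraMap F K b = 0 := by
    let f : Polynomial F := Polynomial.X ^ 2 + Polynomial.C a * Polynomial.X + Polynomial.C b
    have hdeg : f.natDegree = 2 := by
      have := Polynomial.natDegree_quadratic (R := F) (a := 1) (b := a) (c := b) one_ne_zero
      rwa [map_one, one_mul] at this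
    have hmon : f.Monic := by
      have h5 : f = Polynomial.C 1 * Polynomial.X ^ 2 + Polynomial.C a * Polynomial.X + Polynomial.C b := by
        rw [map_one, one_mul]
      rw [Polynomial.Monic, h5, Polynomial.leadingCoeff_quadratic one_ne_zero]
    have hirr : Irreducible f := by
      rw [hmon.irreducible_iff_roots_eq_zero_of_degree_le_three (by omega) (by omega)]
      rw [Multiset.eq_zero_iff_forall_notMem]
      intro t ht
      rw [Polynomial.mem_roots hmon.ne_zero, Polynomial.IsRoot.def] at ht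
      simp only [f, Polynomial.eval_add, Polynomial.eval_mul, Polynomial.eval_pow, Polynomial.eval_X, Polynomial.eval_C] at ht
      have := (hab t 1 (by linear_combination ht)).2
      exact one_ne_zero this
    haveI : Fact (Irreducible f) := ⟨hirr⟩
    haveI : FiniteDimensional F (AdjoinRoot f) := hmon.finite_adjoinRoot
    obtain ⟨j⟩ := FiniteField.nonempty_algHom_of_finrank_dvd (F := F) (K := AdjoinRoot f) (L := K) (by
      rw [hf2, (AdjoinRoot.powerBasis hmon.ne_zero).finrank, AdjoinRoot.powerBasis_dim, hdeg])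
    refine ⟨j (AdjoinRoot.root f), ?_⟩
    have h5 : Polynomial.aeval (AdjoinRoot.root f) f = 0 := by
      rw [AdjoinRoot.aeval_eq, AdjoinRoot.mk_self]
    have h6 := congrArg j h5
    rw [← Polynomial.aeval_algHom_apply, map_zero] at h6
    simpa [f, Polynomial.aeval_def, Polynomial.eval₂_add, Polynomial.eval₂_mul] using h6
  have hαF : ∀ t : F, α ≠ algebraMap F K t := by
    rintro t rfl
    have h5 : t ^ 2 + a * t + b = 0 := by
      apply (algebraMap F K).injective
      rw [map_add, map_add, map_mul, map_pow, map_zero]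
      exact hα
    exact one_ne_zero (hab t 1 (by linear_combination h5)).2
  have hsα : s α ≠ α := by
    intro h
    obtain ⟨t, ht⟩ := hi2 α (by rw [← h1, h])
    exact hαF t ht.symm
  have hα2 := congrArg s hα
  rw [map_add, map_add, map_mul, map_pow, hsF, hsF, map_zero] at hα2
  have hsum : α + s α = - algebraMap F K a := by
    have h5 : (α - s α) * (α + s α + algebraMap F K a) = 0 := by linear_combination hα - hα2
    rcases mul_eq_zero.1 h5 with h6 | h6
    · exact absurd (sub_eq_zero.1 h6).symm hsα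
    · linear_combination h6
  have hprod : α * s α = algebraMap F K b := by linear_combination α * hsum - hα
  -- K ≃ F²
  let L : (Fin 2 → F) →ₗ[F] K :=
    { toFun := fun z => algebraMap F K (z 0) - α * algebraMap F K (z 1)
      map_add' := fun x y => by rw [Pi.add_apply, Pi.add_apply, map_add, map_add]; ring
      map_smul' := fun c x => by rw [Pi.smul_apply, Pi.smul_apply, smul_eq_mul, smul_eq_mul, map_mul, map_mul, RingHom.id_apply, Algebra.smul_def]; ring }
  have hL : ∀ z, L z = algebraMap F K (z 0) - α * algebraMap F K (z 1) := fun z => rfl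
  have hLinj : Function.Injective L := by
    rw [← LinearMap.ker_eq_bot, LinearMap.ker_eq_bot']
    intro z hz
    rw [hL] at hz
    have hz1 : z 1 = 0 := by
      by_contra hne
      apply hαF (z 0 / z 1)
      rw [map_div₀]
      have : algebraMap F K (z 1) ≠ 0 := (map_ne_zero _).2 hne
      field_simp
      linear_combination -hz
    rw [hz1, map_zero, mul_zero, sub_zero] at hz
    have hz0 := (map_eq_zero (algebraMap F K)).1 hz
    funext j
    fin_cases j
    · exact hz0
    · exact hz1
  let Le : (Fin 2 → F) ≃ₗ[F] K := LinearEquiv.ofInjectiveOfFinrankEq L hLinj (by rw [hf2, Module.finrank_fintype_fun_eq_card, Fintype.card_fin])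
  have hLe : ∀ z, Le z = L z := fun z => rfl
  have hLN : ∀ z : Fin 2 → F, Le z * s (Le z) = algebraMap F K (z 0 ^ 2 + a * z 0 * z 1 + b * z 1 ^ 2) := by
    intro z
    rw [hLe, hL, map_sub, map_mul, hsF, hsF, map_add, map_add, map_mul, map_mul, map_mul, map_pow, map_pow]
    linear_combination (-(algebraMap F K (z 0)) * algebraMap F K (z 1)) * hsum + (algebraMap F K (z 1)) ^ 2 * hprod
  -- hermitian form on (K^r × K^r) × K
  let B : (((Fin r → K) × (Fin r → K)) × K) →ₛₗ[s] (((Fin r → K) × (Fin r → K)) × K) →ₗ[K] K :=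
    LinearMap.mk₂'ₛₗ s (RingHom.id K) (fun u v => hh r s u.1 v.1 + v.2 * s u.2)
      (fun u v w => by
        show hh r s (u.1 + v.1) w.1 + w.2 * s (u.2 + v.2) = _
        rw [map_add, LinearMap.add_apply, map_add]; ring)
      (fun c u v => by
        show hh r s (c • u.1) v.1 + v.2 * s (c * u.2) = _
        rw [LinearMap.map_smulₛₗ, LinearMap.smul_apply, smul_eq_mul, smul_eq_mul, map_mul]; ring)
      (fun u v w => by
        show hh r s u.1 (v.1 + w.1) + (v.2 + w.2) * s u.2 = _
        rw [map_add]; ring)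
      (fun c u v => by
        show hh r s u.1 (c • v.1) + (c * v.2) * s u.2 = _
        rw [map_smul, smul_eq_mul, RingHom.id_apply, smul_eq_mul]; ring)
  have hBa : ∀ u v, B u v = hh r s u.1 v.1 + v.2 * s u.2 := fun u v => rfl
  obtain ⟨φ₀, hφ₀⟩ := herm_iso (k := m) h3 h2 (B := B) (by
    rw [Module.finrank_prod, Module.finrank_prod, Module.finrank_fintype_fun_eq_card, Fintype.card_fin, Module.finrank_self, hr]; ring) (by
    intro u v
    rw [hBa, hBa, map_add, hh_symm r s h2, map_mul, h2]; ring) (by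
    intro v hv
    apply Prod.ext
    · apply hh_nd r s
      intro u
      have := hv (u, 0)
      rw [hBa] at this
      simpa using this
    · have := hv (0, 1)
      rw [hBa] at this
      rw [map_zero, zero_add, one_mul] at this
      exact (map_eq_zero s).1 this)
  obtain ⟨φ₁, hφ₁⟩ := hyp_equiv (n := m - 1) (by
    rw [Module.finrank_pi_fintype]
    simp only [hf2, Finset.sum_const, Finset.card_univ, Fintype.card_fin, smul_eq_mul]
    omega) P hP
  have hex : ∀ x : Fin m → K, ∃ t : F, algebraMap F K t = hB m s x x := by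
    intro x
    apply hi2
    rw [← h1, hB_symm h2]
  choose QV hQV using hex
  let φ : (Fin m → K) ≃ₗ[F] ((Fin (m - 1) ⊕ Fin (m - 1)) ⊕ Fin 2 → F) :=
    (φ₀.symm.restrictScalars F).trans ((φ₁.prodCongr Le.symm).trans (LinearEquiv.sumArrowLequivProdArrow _ _ F F).symm)
  refine embed_iso (quadFormMinus (m - 1) F a b) QV φ ?_ ((resAct F K).comp (GU m K q).subtype) ((resAct_inj F K).comp (Subgroup.subtype_injective _)) ?_
  · intro x
    obtain ⟨v, rfl⟩ := φ₀.surjective x
    have e1 : φ (φ₀ v) = (LinearEquiv.sumArrowLequivProdArrow _ _ F F).symm (φ₁ v.1, Le.symm v.2) := by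
      show (LinearEquiv.sumArrowLequivProdArrow _ _ F F).symm (φ₁ (φ₀.symm (φ₀ v)).1, Le.symm (φ₀.symm (φ₀ v)).2) = _
      rw [φ₀.symm_apply_apply]
    rw [e1]
    apply (algebraMap F K).injective
    rw [hQV, hφ₀, hBa]
    show algebraMap F K ((∑ i : Fin (m - 1), φ₁ v.1 (.inl i) * φ₁ v.1 (.inr i)) + ((Le.symm v.2) 0 ^ 2 + a * (Le.symm v.2) 0 * (Le.symm v.2) 1 + b * (Le.symm v.2) 1 ^ 2)) = _
    rw [map_add, ← hLN, Le.apply_symm_apply, hφ₁, hPa, htr, hB_symm h2, hh_apply]
  · intro g x
    apply (algebraMap F K).injective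
    rw [hQV, hQV]
    show hB m s (ap g.1 x) (ap g.1 x) = _
    rw [hB_eq h1, hB_eq h1]
    exact g.2 x x

end Cfsg.Agent.H8.EMB
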