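import Mathlib
import Cfsg.Agent.H8.EMB2

set_option autoImplicit false

namespace Cfsg.Agent.H8.EMB

open Cfsg Cfsg.Agent.H7.Herm Cfsg.Agent.H7.Tv Matrix Module

theorem exists_root {K F : Type*} [Field K] [Fintype K] [Field F] [Fintype F] [Algebra F K] (hf2 : finrank F K = 2) (a b : F)
    (hab : ∀ z₁ z₂ : F, z₁ ^ 2 + a * z₁ * z₂ + b * z₂ ^ 2 = 0 → z₁ = 0 ∧ z₂ = 0) :
    ∃ α : K, α ^ 2 + algebraMap F K a * α + algebraMap F K b = 0 := by
  let f : Polynomial F := Polynomial.X ^ 2 + Polynomial.C a * Polynomial.X + Polynomial.C b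
  have hdeg : f.natDegree = 2 := by
    have := Polynomial.natDegree_quadratic (R := F) (a := 1) (b := a) (c := b) one_ne_zero
    rwa [map_one, one_mul] at this
  have hmon : f.Monic := by
    have h5 : f = Polynomial.C 1 * Polynomial.X ^ 2 + Polynomial.C a * Polynomial.X + Polynomial.C b := by
      rw [map_one, one_mul]
    rw [Polynomial.Monic, h5, Polynomial.leadingCoeff_quadratic one_ne_zero]
  have hirr : Irreducible f := by
    rw [hmon.irreducible_iff_roots_eq_zero_of_degree_le_three (by omega) (by omega)]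
    rw [Multiset.eq_zero_iff_forall_notMem]
    intro t ht
    rw [Polynomial.mem_roots hmon.ne_zero, Polynomial.IsRoot.def] at ht
    simp only [f, Polynomial.eval_add, Polynomial.eval_mul, Polynomial.eval_pow, Polynomial.eval_X, Polynomial.eval_C] at ht
    have := (hab t 1 (by linear_combination ht)).2
    exact one_ne_zero this
  haveI : Fact (Irreducible f) := ⟨hirr⟩
  haveI : FiniteDimensional F (AdjoinRoot f) := hmon.finite_adjoinRoot
  haveI : FiniteDimensional F K := Module.Finite.of_finite
  obtain ⟨j⟩ := FiniteField.nonempty_algHom_of_finrank_dvd (F := F) (K := AdjoinRoot f) (L := K) (by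
    rw [hf2, (AdjoinRoot.powerBasis hmon.ne_zero).finrank, AdjoinRoot.powerBasis_dim, hdeg])
  refine ⟨j (AdjoinRoot.root f), ?_⟩
  have h5 : Polynomial.aeval (AdjoinRoot.root f) f = 0 := by
    rw [AdjoinRoot.aeval_eq, AdjoinRoot.mk_self]
  have h6 := congrArg j h5
  rw [← Polynomial.aeval_algHom_apply, map_zero] at h6
  simpa [f, Polynomial.aeval_def, Polynomial.eval₂_add, Polynomial.eval₂_mul] using h6

theorem minus_plus {F K : Type*} [Field F] [Fintype F] [Field K] [Fintype K] {q : ℕ} (hF : Fintype.card F = q) (hK : Fintype.card K = q ^ 2) (m : ℕ)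
    (a b : F) (hab : ∀ z₁ z₂ : F, z₁ ^ 2 + a * z₁ * z₂ + b * z₂ ^ 2 = 0 → z₁ = 0 ∧ z₂ = 0) :
    ∃ φ : ↥(Cfsg.isometryGroup F (Cfsg.quadFormMinus m F a b)) →* ↥(Cfsg.isometryGroup K (Cfsg.quadFormPlus (m + 1) K)), Function.Injective φ := by
  obtain ⟨i, hi1, hi2⟩ := exists_sub hK hF
  letI : Algebra F K := i.toAlgebra
  haveI : FiniteDimensional F K := Module.Finite.of_finite
  have hf2 := finrank_two hK hF
  obtain ⟨s, h1, h2, h3⟩ := exists_frob hK
  have hsF : ∀ c : F, s (i c) = i c := fun c => by rw [h1]; exact hi1 c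
  obtain ⟨α, hα⟩ := exists_root (K := K) hf2 a b hab
  have hα : α ^ 2 + i a * α + i b = 0 := hα
  have hαF : ∀ t : F, α ≠ i t := by
    rintro t rfl
    have h5 : t ^ 2 + a * t + b = 0 := by
      apply i.injective
      rw [map_add, map_add, map_mul, map_pow, map_zero]
      exact hα
    exact one_ne_zero (hab t 1 (by linear_combination h5)).2
  have hsα : s α ≠ α := by
    intro h
    obtain ⟨t, ht⟩ := hi2 α (by rw [← h1, h])
    exact hαF t ht.symm
  have hα2 := congrArg s hα
  rw [map_add, map_add, map_mul, map_pow, hsF, hsF, map_zero] at hα2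
  have hsum : α + s α = - i a := by
    have h5 : (α - s α) * (α + s α + i a) = 0 := by linear_combination hα - hα2
    rcases mul_eq_zero.1 h5 with h6 | h6
    · exact absurd (sub_eq_zero.1 h6).symm hsα
    · linear_combination h6
  have hprod : α * s α = i b := by linear_combination α * hsum - hα
  -- decomposition of K
  have hdec : ∀ z : K, ∃ x y : F, z = i x + α * i y := by
    let L : (Fin 2 → F) →ₗ[F] K :=
      { toFun := fun z => i (z 0) + α * i (z 1)
        map_add' := fun x y => by rw [Pi.add_apply, Pi.add_apply, map_add, map_add]; ring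
        map_smul' := fun c x => by
          rw [Pi.smul_apply, Pi.smul_apply, smul_eq_mul, smul_eq_mul, map_mul, map_mul, RingHom.id_apply, Algebra.smul_def]
          show _ = i c * _
          ring }
    have hL : ∀ z, L z = i (z 0) + α * i (z 1) := fun z => rfl
    have hLinj : Function.Injective L := by
      rw [← LinearMap.ker_eq_bot, LinearMap.ker_eq_bot']
      intro z hz
      rw [hL] at hz
      have hz1 : z 1 = 0 := by
        by_contra hne
        apply hαF (-(z 0) / z 1)
        rw [map_div₀, map_neg]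
        have : i (z 1) ≠ 0 := (map_ne_zero _).2 hne
        field_simp
        linear_combination hz
      rw [hz1, map_zero, mul_zero, add_zero] at hz
      have hz0 := (map_eq_zero i).1 hz
      funext j
      fin_cases j
      · exact hz0
      · exact hz1
    let Le : (Fin 2 → F) ≃ₗ[F] K := LinearEquiv.ofInjectiveOfFinrankEq L hLinj (by rw [hf2, Module.finrank_fintype_fun_eq_card, Fintype.card_fin])
    intro z
    obtain ⟨w, hw⟩ := Le.surjective z
    exact ⟨w 0, w 1, hw.symm⟩
  let QK := quadFormMinus m K (i a) (i b)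
  have hQK : ∀ x y : (Fin m ⊕ Fin m) ⊕ Fin 2 → F, QK (i ∘ x + α • (i ∘ y)) = i (quadFormMinus m F a b x) +
      α * i (quadFormMinus m F a b (x + y) - quadFormMinus m F a b x - quadFormMinus m F a b y) + α ^ 2 * i (quadFormMinus m F a b y) := by
    intro x y
    simp only [QK, quadFormMinus, Pi.add_apply, Pi.smul_apply, Function.comp, smul_eq_mul, map_add, map_sub, map_mul, map_pow, map_sum]
    have e1 : ∑ j : Fin m, (i (x (.inl (.inl j))) + α * i (y (.inl (.inl j)))) * (i (x (.inl (.inr j))) + α * i (y (.inl (.inr j)))) =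
        (∑ j : Fin m, i (x (.inl (.inl j))) * i (x (.inl (.inr j)))) +
        α * ((∑ j : Fin m, (i (x (.inl (.inl j))) + i (y (.inl (.inl j)))) * (i (x (.inl (.inr j))) + i (y (.inl (.inr j))))) -
          (∑ j : Fin m, i (x (.inl (.inl j))) * i (x (.inl (.inr j)))) - (∑ j : Fin m, i (y (.inl (.inl j))) * i (y (.inl (.inr j))))) +
        α ^ 2 * (∑ j : Fin m, i (y (.inl (.inl j))) * i (y (.inl (.inr j)))) := by
      rw [← Finset.sum_sub_distrib, ← Finset.sum_sub_distrib, Finset.mul_sum, Finset.mul_sum, ← Finset.sum_add_distrib, ← Finset.sum_add_distrib]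
      apply Finset.sum_congr rfl
      intro j _
      ring
    rw [e1]
    ring
  let ρ : GL ((Fin m ⊕ Fin m) ⊕ Fin 2) K →* (((Fin m ⊕ Fin m) ⊕ Fin 2 → K) ≃ₗ[K] ((Fin m ⊕ Fin m) ⊕ Fin 2 → K)) :=
    { toFun := fun g => linE g
      map_one' := by apply LinearEquiv.ext; intro x; exact ap_one x
      map_mul' := fun g h => by apply LinearEquiv.ext; intro x; exact ap_mul g h x }
  have hρ : ∀ g x, ρ g x = ap g x := fun g x => rfl
  have hmapi : ∀ (g : GL ((Fin m ⊕ Fin m) ⊕ Fin 2) F) (x : (Fin m ⊕ Fin m) ⊕ Fin 2 → F), ap (Matrix.GeneralLinearGroup.map i g) (i ∘ x) = i ∘ (ap g x) := by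
    intro g x
    funext k
    show ∑ j, i ((g : Matrix _ _ F) k j) * i (x j) = i (∑ j, (g : Matrix _ _ F) k j * x j)
    rw [map_sum]
    apply Finset.sum_congr rfl
    intro j _
    rw [map_mul]
  -- the linear equivalence
  let L : ((Fin m ⊕ Fin m) ⊕ Fin 2 → K) →ₗ[K] (Fin (m + 1) ⊕ Fin (m + 1) → K) :=
    { toFun := fun v => Sum.elim (Fin.cons (v (.inr 0) - α * v (.inr 1)) (fun j => v (.inl (.inl j)))) (Fin.cons (v (.inr 0) - s α * v (.inr 1)) (fun j => v (.inl (.inr j))))
      map_add' := fun x y => by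
        funext k
        rcases k with k | k
        · refine Fin.cases ?_ (fun j => ?_) k
          · simp only [Sum.elim_inl, Fin.cons_zero, Pi.add_apply]; ring
          · simp only [Sum.elim_inl, Fin.cons_succ, Pi.add_apply]
        · refine Fin.cases ?_ (fun j => ?_) k
          · simp only [Sum.elim_inr, Fin.cons_zero, Pi.add_apply]; ring
          · simp only [Sum.elim_inr, Fin.cons_succ, Pi.add_apply]
      map_smul' := fun c x => by
        funext k
        rcases k with k | k
        · refine Fin.cases ?_ (fun j => ?_) k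
          · simp only [Sum.elim_inl, Fin.cons_zero, Pi.smul_apply, smul_eq_mul, RingHom.id_apply]; ring
          · simp only [Sum.elim_inl, Fin.cons_succ, Pi.smul_apply, smul_eq_mul, RingHom.id_apply]
        · refine Fin.cases ?_ (fun j => ?_) k
          · simp only [Sum.elim_inr, Fin.cons_zero, Pi.smul_apply, smul_eq_mul, RingHom.id_apply]; ring
          · simp only [Sum.elim_inr, Fin.cons_succ, Pi.smul_apply, smul_eq_mul, RingHom.id_apply] }
  have hL : ∀ v, L v = Sum.elim (Fin.cons (v (.inr 0) - α * v (.inr 1)) (fun j => v (.inl (.inl j)))) (Fin.cons (v (.inr 0) - s α * v (.inr 1)) (fun j => v (.inl (.inr j)))) := fun v => rfl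
  have hLinj : Function.Injective L := by
    rw [← LinearMap.ker_eq_bot, LinearMap.ker_eq_bot']
    intro v hv
    have e1 : ∀ j, v (.inl (.inl j)) = 0 := fun j => by
      have := congrFun hv (.inl (Fin.succ j))
      rw [hL] at this
      simpa using this
    have e2 : ∀ j, v (.inl (.inr j)) = 0 := fun j => by
      have := congrFun hv (.inr (Fin.succ j))
      rw [hL] at this
      simpa using this
    have e3 : v (.inr 0) - α * v (.inr 1) = 0 := by
      have := congrFun hv (.inl 0)
      rw [hL] at this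
      simpa using this
    have e4 : v (.inr 0) - s α * v (.inr 1) = 0 := by
      have := congrFun hv (.inr 0)
      rw [hL] at this
      simpa using this
    have e5 : v (.inr 1) = 0 := by
      have : (s α - α) * v (.inr 1) = 0 := by linear_combination e3 - e4
      exact (mul_eq_zero.1 this).resolve_left (sub_ne_zero.2 hsα)
    have e6 : v (.inr 0) = 0 := by rw [e5, mul_zero, sub_zero] at e3; exact e3
    funext k
    rcases k with (k | k) | k
    · exact e1 k
    · exact e2 k
    · fin_cases k
      · exact e6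
      · exact e5
  let Le : ((Fin m ⊕ Fin m) ⊕ Fin 2 → K) ≃ₗ[K] (Fin (m + 1) ⊕ Fin (m + 1) → K) := LinearEquiv.ofInjectiveOfFinrankEq L hLinj (by
    rw [Module.finrank_fintype_fun_eq_card, Module.finrank_fintype_fun_eq_card]
    simp only [Fintype.card_sum, Fintype.card_fin]; omega)
  have hLe : ∀ v, Le v = L v := fun v => rfl
  refine embed_iso (quadFormPlus (m + 1) K) QK Le ?_ ((ρ.comp (Matrix.GeneralLinearGroup.map i)).comp (isometryGroup F (quadFormMinus m F a b)).subtype) ?_ ?_
  · intro v
    rw [hLe, hL, quadFormPlus, Fin.sum_univ_succ]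
    simp only [Sum.elim_inl, Sum.elim_inr, Fin.cons_zero, Fin.cons_succ, QK, quadFormMinus]
    linear_combination (-(v (.inr 0)) * v (.inr 1)) * hsum + (v (.inr 1)) ^ 2 * hprod
  · intro g h hgh
    apply Subtype.ext
    apply ap_ext
    intro x
    have h5 : ap (Matrix.GeneralLinearGroup.map i g.1) (i ∘ x) = ap (Matrix.GeneralLinearGroup.map i h.1) (i ∘ x) := by
      rw [← hρ, ← hρ]
      exact congrArg (fun e : ((Fin m ⊕ Fin m) ⊕ Fin 2 → K) ≃ₗ[K] ((Fin m ⊕ Fin m) ⊕ Fin 2 → K) => e (i ∘ x)) hgh
    rw [hmapi, hmapi] at h5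
    funext k
    exact i.injective (congrFun h5 k)
  · intro g v
    choose x y hxy using fun k => hdec (v k)
    have hv : v = i ∘ x + α • (i ∘ y) := by funext k; exact hxy k
    have hgv : ap (Matrix.GeneralLinearGroup.map i g.1) v = i ∘ (ap g.1 x) + α • (i ∘ (ap g.1 y)) := by
      rw [hv, ap_add, ap_smul, hmapi, hmapi]
    show QK (ap (Matrix.GeneralLinearGroup.map i g.1) v) = QK v
    rw [hgv, hQK, ← ap_add]
    have hg : ∀ x, quadFormMinus m F a b (ap g.1 x) = quadFormMinus m F a b x := fun x => g.2 x x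
    rw [hg, hg, hg, ← hQK, ← hv]

end Cfsg.Agent.H8.EMB
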