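import Mathlib
import Cfsg.Agent.H7.OrthStd
import Cfsg.Agent.H7.FormBasis

set_option autoImplicit false

namespace Cfsg.Agent.H8.QPeel

open Module
open Cfsg Cfsg.Agent.H7 Cfsg.Agent.H7.Tv Cfsg.Agent.H7.Orth Cfsg.Agent.H7.Orth.Qf Cfsg.Agent.H7.Witt

variable {ι : Type} [Fintype ι] [DecidableEq ι] {F : Type*} [Field F] [Finite F]
  {Q : (ι → F) → F} {B : (ι → F) →ₗ[F] (ι → F) →ₗ[F] F}

structure HF (Q : (ι → F) → F) (B : (ι → F) →ₗ[F] (ι → F) →ₗ[F] F) (W : Submodule F (ι → F)) {k : ℕ} (e f : Fin k → (ι → F)) : Prop where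
  me : ∀ i, e i ∈ W
  mf : ∀ i, f i ∈ W
  qe : ∀ i, Q (e i) = 0
  qf : ∀ i, Q (f i) = 0
  ef : ∀ i j, B (e i) (f j) = if i = j then 1 else 0
  ee : ∀ i j, B (e i) (e j) = 0
  ff : ∀ i j, B (f i) (f j) = 0

theorem pair (hQ : Qf Q B) {W : Submodule F (ι → F)} (hW : NdS B W) {a : ι → F} (ha : a ∈ W) (ha0 : a ≠ 0) (hqa : Q a = 0) :
    ∃ f ∈ W, Q f = 0 ∧ B a f = 1 := by
  obtain ⟨w, hw, haw⟩ : ∃ w ∈ W, B a w ≠ 0 := by
    by_contra hcon
    push Not at hcon
    exact ha0 (hW a ha hcon)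
  obtain ⟨w', hw'def⟩ : ∃ w', w' = (B a w)⁻¹ • w := ⟨_, rfl⟩
  have hw' : w' ∈ W := by rw [hw'def]; exact W.smul_mem _ hw
  have h1 : B a w' = 1 := by rw [hw'def, map_smul, smul_eq_mul, inv_mul_cancel₀ haw]
  refine ⟨w' - Q w' • a, W.sub_mem hw' (W.smul_mem _ ha), ?_, ?_⟩
  · rw [hQ.sub, hQ.smul, hqa, map_smul, smul_eq_mul, hQ.symm w' a, h1]; ring
  · rw [map_sub, map_smul, hQ.self, hqa, h1]; simp

theorem cut (hQ : Qf Q B) {W : Submodule F (ι → F)} (hW : NdS B W) {a f : ι → F} (ha : a ∈ W) (hf : f ∈ W) (hqa : Q a = 0) (hqf : Q f = 0)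
    (haf : B a f = 1) : NdS B (W ⊓ prp B (Submodule.span F {a, f})) ∧
    finrank F (W ⊓ prp B (Submodule.span F {a, f}) : Submodule F (ι → F)) + 2 = finrank F W := by
  have hfa : B f a = 1 := by rw [hQ.symm]; exact haf
  have haa : B a a = 0 := by rw [hQ.self, hqa, mul_zero]
  have hff : B f f = 0 := by rw [hQ.self, hqf, mul_zero]
  have hdec : ∀ x ∈ W, x - (B f x • a + B a x • f) ∈ (W ⊓ prp B (Submodule.span F {a, f}) : Submodule F (ι → F)) := by
    intro x hx
    refine ⟨W.sub_mem hx (W.add_mem (W.smul_mem _ ha) (W.smul_mem _ hf)), ?_⟩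
    refine mem_prp_two.2 ⟨?_, ?_⟩
    · simp only [map_sub, map_add, map_smul, smul_eq_mul, haa, haf, mul_zero, mul_one, zero_add, sub_self]
    · simp only [map_sub, map_add, map_smul, smul_eq_mul, hff, hfa, mul_zero, mul_one, add_zero, sub_self]
  constructor
  · intro v hv hu
    refine hW v hv.1 (fun x hx => ?_)
    have h1 := hu _ (hdec x hx)
    obtain ⟨h2, h3⟩ := mem_prp_two.1 hv.2
    rw [hQ.symm] at h2 h3
    rw [map_sub, map_add, map_smul, map_smul, h2, h3, smul_zero, smul_zero, add_zero, sub_zero] at h1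
    exact h1
  · have hli : LinearIndependent F ![a, f] := by
      rw [LinearIndependent.pair_iff]
      intro s t hst
      have h1 := congrArg (B a) hst
      have h2 := congrArg (B f) hst
      simp only [map_add, map_smul, smul_eq_mul, haa, haf, hff, hfa, mul_zero, mul_one, zero_add, add_zero, map_zero] at h1 h2
      exact ⟨h2, h1⟩
    have hs2 : finrank F (Submodule.span F {a, f}) = 2 := by
      have := finrank_span_eq_card hli
      rw [Matrix.range_cons_cons_empty, Fintype.card_fin] at this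
      exact this
    have h1 := Submodule.finrank_sup_add_finrank_inf_eq (Submodule.span F {a, f}) (W ⊓ prp B (Submodule.span F {a, f}))
    have h2 : Submodule.span F {a, f} ⊔ (W ⊓ prp B (Submodule.span F {a, f})) = W := by
      apply le_antisymm
      · refine sup_le ?_ inf_le_left
        rw [Submodule.span_le]
        rintro x (rfl | rfl)
        · exact ha
        · exact hf
      · intro x hx
        have : x = (B f x • a + B a x • f) + (x - (B f x • a + B a x • f)) := by abel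
        rw [this]
        exact Submodule.add_mem_sup (Submodule.mem_span_pair.2 ⟨_, _, rfl⟩) (hdec x hx)
    have h3 : Submodule.span F {a, f} ⊓ (W ⊓ prp B (Submodule.span F {a, f})) = ⊥ := by
      rw [eq_bot_iff]
      rintro x ⟨hx1, -, hx2⟩
      obtain ⟨s, t, rfl⟩ := Submodule.mem_span_pair.1 hx1
      obtain ⟨e1, e2⟩ := mem_prp_two.1 hx2
      simp only [map_add, map_smul, smul_eq_mul, haa, haf, hff, hfa, mul_zero, mul_one, zero_add, add_zero] at e1 e2
      rw [e1, e2]; simp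
    rw [h2, h3, finrank_bot, hs2] at h1
    omega

theorem peel (hQ : Qf Q B) (d : ℕ) : ∀ W : Submodule F (ι → F), finrank F W ≤ d → NdS B W →
    ∃ (k : ℕ) (e f : Fin k → (ι → F)) (U : Submodule F (ι → F)), HF Q B W e f ∧ U ≤ W ∧ (∀ u ∈ U, ∀ i, B (e i) u = 0 ∧ B (f i) u = 0) ∧
      NdS B U ∧ (∀ u ∈ U, Q u = 0 → u = 0) ∧ finrank F U + 2 * k = finrank F W := by
  have base : ∀ W : Submodule F (ι → F), NdS B W → (∀ u ∈ W, Q u = 0 → u = 0) →
    ∃ (k : ℕ) (e f : Fin k → (ι → F)) (U : Submodule F (ι → F)), HF Q B W e f ∧ U ≤ W ∧ (∀ u ∈ U, ∀ i, B (e i) u = 0 ∧ B (f i) u = 0) ∧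
      NdS B U ∧ (∀ u ∈ U, Q u = 0 → u = 0) ∧ finrank F U + 2 * k = finrank F W := by
    intro W hW han
    exact ⟨0, Fin.elim0, Fin.elim0, W, ⟨fun i => i.elim0, fun i => i.elim0, fun i => i.elim0, fun i => i.elim0, fun i => i.elim0, fun i => i.elim0, fun i => i.elim0⟩,
      le_rfl, fun _ _ i => i.elim0, hW, han, by omega⟩
  induction d with
  | zero =>
    intro W hd hW
    refine base W hW (fun u hu _ => ?_)
    have h1 : W = ⊥ := Submodule.finrank_eq_zero.1 (by omega)
    rw [h1] at hu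
    exact hu
  | succ d ih =>
    intro W hd hW
    by_cases han : ∀ u ∈ W, Q u = 0 → u = 0
    · exact base W hW han
    · push Not at han
      obtain ⟨a, ha, hqa, ha0⟩ := han
      obtain ⟨f0, hf0, hqf, haf⟩ := pair hQ hW ha ha0 hqa
      obtain ⟨hW', hdim⟩ := cut hQ hW ha hf0 hqa hqf haf
      obtain ⟨k, e, f, U, H, hU, hperp, hnd, han', hd'⟩ := ih _ (by omega) hW'
      have hme : ∀ i, B a (e i) = 0 ∧ B f0 (e i) = 0 := fun i => mem_prp_two.1 (H.me i).2
      have hmf : ∀ i, B a (f i) = 0 ∧ B f0 (f i) = 0 := fun i => mem_prp_two.1 (H.mf i).2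
      refine ⟨k + 1, Fin.cons a e, Fin.cons f0 f, U, ⟨?_, ?_, ?_, ?_, ?_, ?_, ?_⟩, hU.trans inf_le_left, ?_, hnd, han', by omega⟩
      · intro i
        refine Fin.cases ?_ (fun i => ?_) i
        · rw [Fin.cons_zero]; exact ha
        · rw [Fin.cons_succ]; exact (H.me i).1
      · intro i
        refine Fin.cases ?_ (fun i => ?_) i
        · rw [Fin.cons_zero]; exact hf0
        · rw [Fin.cons_succ]; exact (H.mf i).1
      · intro i
        refine Fin.cases ?_ (fun i => ?_) i
        · rw [Fin.cons_zero]; exact hqa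
        · rw [Fin.cons_succ]; exact H.qe i
      · intro i
        refine Fin.cases ?_ (fun i => ?_) i
        · rw [Fin.cons_zero]; exact hqf
        · rw [Fin.cons_succ]; exact H.qf i
      · intro i j
        refine Fin.cases ?_ (fun i => ?_) i <;> refine Fin.cases ?_ (fun j => ?_) j
        · rw [Fin.cons_zero, Fin.cons_zero, if_pos rfl]; exact haf
        · rw [Fin.cons_zero, Fin.cons_succ, if_neg (Fin.succ_ne_zero j).symm]; exact (hmf j).1
        · rw [Fin.cons_zero, Fin.cons_succ, if_neg (Fin.succ_ne_zero i), hQ.symm]; exact (hme i).2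
        · rw [Fin.cons_succ, Fin.cons_succ, H.ef]
          simp only [Fin.succ_inj]
      · intro i j
        refine Fin.cases ?_ (fun i => ?_) i <;> refine Fin.cases ?_ (fun j => ?_) j
        · rw [Fin.cons_zero, hQ.self, hqa, mul_zero]
        · rw [Fin.cons_zero, Fin.cons_succ]; exact (hme j).1
        · rw [Fin.cons_zero, Fin.cons_succ, hQ.symm]; exact (hme i).1
        · rw [Fin.cons_succ, Fin.cons_succ]; exact H.ee i j
      · intro i j
        refine Fin.cases ?_ (fun i => ?_) i <;> refine Fin.cases ?_ (fun j => ?_) j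
        · rw [Fin.cons_zero, hQ.self, hqf, mul_zero]
        · rw [Fin.cons_zero, Fin.cons_succ]; exact (hmf j).2
        · rw [Fin.cons_zero, Fin.cons_succ, hQ.symm]; exact (hmf i).2
        · rw [Fin.cons_succ, Fin.cons_succ]; exact H.ff i j
      · intro u hu i
        have hu2 := mem_prp_two.1 (hU hu).2
        refine Fin.cases ?_ (fun i => ?_) i
        · rw [Fin.cons_zero, Fin.cons_zero]; exact hu2
        · rw [Fin.cons_succ, Fin.cons_succ]; exact hperp u hu i

theorem li (hQ : Qf Q B) {W U : Submodule F (ι → F)} {k : ℕ} {e f : Fin k → (ι → F)} (H : HF Q B W e f)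
    (hperp : ∀ u ∈ U, ∀ i, B (e i) u = 0 ∧ B (f i) u = 0) {κ : Type} [Fintype κ] {u : κ → (ι → F)} (hu : ∀ j, u j ∈ U) (hli : LinearIndependent F u) :
    LinearIndependent F (Sum.elim u (Sum.elim e f)) := by
  classical
  rw [Fintype.linearIndependent_iff] at hli ⊢
  intro c hc
  rw [Fintype.sum_sum_type, Fintype.sum_sum_type] at hc
  simp only [Sum.elim_inl, Sum.elim_inr] at hc
  have h1 : ∀ j, c (Sum.inr (Sum.inl j)) = 0 := by
    intro j
    have := congrArg (B (f j)) hc
    simp only [map_add, map_sum, map_smul, smul_eq_mul, (hperp _ (hu _) _).2, mul_zero, Finset.sum_const_zero, zero_add, H.ff, add_zero, map_zero] at this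
    rw [← this, Finset.sum_eq_single j]
    · rw [hQ.symm, H.ef, if_pos rfl, mul_one]
    · intro i _ hij
      rw [hQ.symm, H.ef, if_neg hij, mul_zero]
    · intro h; exact absurd (Finset.mem_univ _) h
  have h2 : ∀ j, c (Sum.inr (Sum.inr j)) = 0 := by
    intro j
    have := congrArg (B (e j)) hc
    simp only [map_add, map_sum, map_smul, smul_eq_mul, (hperp _ (hu _) _).1, mul_zero, Finset.sum_const_zero, zero_add, H.ee, add_zero, map_zero] at this
    rw [← this, Finset.sum_eq_single j]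
    · rw [H.ef, if_pos rfl, mul_one]
    · intro i _ hij
      rw [H.ef, if_neg (Ne.symm hij), mul_zero]
    · intro h; exact absurd (Finset.mem_univ _) h
  simp only [h1, h2, zero_smul, Finset.sum_const_zero, add_zero] at hc
  have h3 := hli _ hc
  rintro (j | j | j)
  · exact h3 j
  · exact h1 j
  · exact h2 j

theorem two (hQ : Qf Q B) {U : Submodule F (ι → F)} (hU : NdS B U) (han : ∀ u ∈ U, Q u = 0 → u = 0) (hd : finrank F U = 2) :
    ∃ u0 ∈ U, ∃ u1 ∈ U, Q u0 = 1 ∧ B u0 u1 = 1 ∧ LinearIndependent F ![u0, u1] ∧ ∀ t : F, t ^ 2 + t + Q u1 ≠ 0 := by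
  obtain ⟨u, hu, hu0⟩ := exists_ne_zero_of_finrank (M := U) (by omega)
  have hqu : Q u ≠ 0 := fun h => hu0 (han u hu h)
  obtain ⟨u0, hu0m, hqu0⟩ : ∃ u0 ∈ U, Q u0 = 1 := by
    by_cases h2 : (2 : F) = 0
    · have hr : ringChar F = 2 := CharP.ringChar_of_prime_eq_zero Nat.prime_two (by exact_mod_cast h2)
      obtain ⟨s, hs⟩ := FiniteField.isSquare_of_char_two hr (Q u)⁻¹
      refine ⟨s • u, U.smul_mem _ hu, ?_⟩
      rw [hQ.smul, ← hs, inv_mul_cancel₀ hqu]
    · have h1 := finrank_inf_prp_one hQ U u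
      obtain ⟨v, hv, hv0⟩ := exists_ne_zero_of_finrank (M := (U ⊓ prp B (Submodule.span F {u}) : Submodule F (ι → F))) (by omega)
      have huv := mem_prp_one.1 hv.2
      obtain ⟨x, y, hxy⟩ := FormBasis.exists_repr_one h2 hqu (fun h => hv0 (han v hv.1 h))
      refine ⟨x • u + y • v, U.add_mem (U.smul_mem _ hu) (U.smul_mem _ hv.1), ?_⟩
      rw [hQ.add, hQ.smul, hQ.smul, map_smul, map_smul, LinearMap.smul_apply, huv, smul_zero, smul_zero, add_zero, ← hxy]
      ring
  have hu00 : u0 ≠ 0 := by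
    rintro rfl
    rw [hQ.zero] at hqu0
    exact zero_ne_one hqu0
  obtain ⟨w, hw, hwn, hbw⟩ : ∃ w ∈ U, w ∉ Submodule.span F {u0} ∧ B u0 w ≠ 0 := by
    obtain ⟨w, hw, hwn⟩ : ∃ w ∈ U, w ∉ Submodule.span F {u0} := by
      by_contra hcon
      push Not at hcon
      have h1 := Submodule.finrank_mono (show U ≤ Submodule.span F {u0} from hcon)
      have h2 := UTv.finrank_span_one (F := F) u0
      omega
    obtain ⟨z, hz, hbz⟩ : ∃ z ∈ U, B u0 z ≠ 0 := by
      by_contra hcon
      push Not at hcon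
      exact hu00 (hU u0 hu0m hcon)
    by_cases h1 : B u0 w = 0
    · by_cases h2 : z ∈ Submodule.span F {u0}
      · refine ⟨w + z, U.add_mem hw hz, ?_, by rw [map_add, h1, zero_add]; exact hbz⟩
        intro h3
        exact hwn ((Submodule.add_mem_iff_left _ h2).1 h3)
      · exact ⟨z, hz, h2, hbz⟩
    · exact ⟨w, hw, hwn, h1⟩
  have hli : LinearIndependent F ![u0, (B u0 w)⁻¹ • w] := by
    rw [LinearIndependent.pair_iff]
    intro s t hst
    have ht : t = 0 := by
      by_contra ht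
      apply hwn
      rw [Submodule.mem_span_singleton]
      refine ⟨-((t * (B u0 w)⁻¹)⁻¹ * s), ?_⟩
      have h3 : (t * (B u0 w)⁻¹) • w = -(s • u0) := by
        rw [mul_smul]
        exact (neg_eq_of_add_eq_zero_right hst).symm
      rw [neg_smul, mul_smul, ← smul_neg, ← h3, smul_smul, inv_mul_cancel₀ (mul_ne_zero ht (inv_ne_zero hbw)), one_smul]
    rw [ht, zero_smul, add_zero] at hst
    exact ⟨(smul_eq_zero.1 hst).resolve_right hu00, ht⟩
  refine ⟨u0, hu0m, (B u0 w)⁻¹ • w, U.smul_mem _ hw, hqu0, ?_, hli, ?_⟩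
  · rw [map_smul, smul_eq_mul, inv_mul_cancel₀ hbw]
  · intro t ht
    have h1 : Q (t • u0 + (B u0 w)⁻¹ • w) = 0 := by
      have hb : (B u0 w)⁻¹ * B u0 w = 1 := inv_mul_cancel₀ hbw
      rw [hQ.add, hQ.smul t, hqu0]
      simp only [map_smul, LinearMap.smul_apply, smul_eq_mul]
      linear_combination ht + t * hb
    have h2 := han _ (U.add_mem (U.smul_mem _ hu0m) (U.smul_mem _ hw)) h1
    have h3 := (LinearIndependent.pair_iff.1 hli) t 1 (by rw [one_smul]; exact h2)
    exact one_ne_zero h3.2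

theorem qf_of {V : Type*} [AddCommGroup V] [Module F V] [FiniteDimensional F V] {n : ℕ} (φ : V ≃ₗ[F] (Fin n → F)) (Q : QuadraticForm F V)
    (hQ : (QuadraticMap.polarBilin Q).Nondegenerate) : Qf (fun v => Q (φ.symm v)) ((QuadraticMap.polarBilin Q).compl₁₂ (φ.symm : (Fin n → F) →ₗ[F] V) (φ.symm : (Fin n → F) →ₗ[F] V)) where
  add x y := by
    show Q (φ.symm (x + y)) = Q (φ.symm x) + Q (φ.symm y) + QuadraticMap.polar ⇑Q (φ.symm x) (φ.symm y)
    rw [map_add, QuadraticMap.polar]
    ring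
  smul a x := by
    show Q (φ.symm (a • x)) = a * a * Q (φ.symm x)
    rw [map_smul, QuadraticMap.map_smul, smul_eq_mul]
  nd x h := by
    have h1 : φ.symm x = 0 := by
      apply hQ.1
      intro y
      have := h (φ y)
      rw [LinearMap.compl₁₂_apply] at this
      simpa using this
    simpa using h1

end Cfsg.Agent.H8.QPeel
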