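import Mathlib
import Cfsg.Agent.H7.OrthStd
import Cfsg.Agent.H7.OrthStd3
import Cfsg.Agent.H7.OrthCount
import Cfsg.Agent.S2616

set_option autoImplicit false

namespace Cfsg.Agent.H8.F2F

open Module
open Cfsg Cfsg.Agent.H7 Cfsg.Agent.H7.Tv Cfsg.Agent.H7.Orth Cfsg.Agent.H7.Orth.Qf Cfsg.Agent.H7.Witt

section compare
variable {ι κ : Type} [Fintype ι] [DecidableEq ι] [Fintype κ] [DecidableEq κ] {F : Type*} [Field F]
  {q : (ι → F) → F} {B : (ι → F) →ₗ[F] (ι → F) →ₗ[F] F}
  {q' : (κ → F) → F} {B' : (κ → F) →ₗ[F] (κ → F) →ₗ[F] F}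

theorem compare (hq : Qf q B) (hq' : Qf q' B') (b : Basis κ F (ι → F)) (h1 : ∀ i, q (b i) = q' (Pi.single i 1))
    (h2 : ∀ i j, B (b i) (b j) = B' (Pi.single i 1) (Pi.single j 1)) (v : ι → F) : q v = q' (b.equivFun v) := by
  have hg : ∀ i, b.equivFun (b i) = Pi.single i 1 := by
    intro i
    ext j
    rw [Basis.equivFun_self, Pi.single_apply]
    simp only [eq_comm]
  have hB : B = B'.compl₁₂ (b.equivFun : (ι → F) →ₗ[F] (κ → F)) (b.equivFun : (ι → F) →ₗ[F] (κ → F)) := by
    refine LinearMap.ext_basis b b (fun i j => ?_)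
    rw [h2]
    show _ = B' (b.equivFun (b i)) (b.equivFun (b j))
    rw [hg, hg]
  have hadd : ∀ x y, q (x + y) - q' (b.equivFun (x + y)) = (q x - q' (b.equivFun x)) + (q y - q' (b.equivFun y)) := by
    intro x y
    rw [map_add, hq.add, hq'.add]
    have : B x y = B' (b.equivFun x) (b.equivFun y) := by
      conv_lhs => rw [hB]
      rfl
    rw [this]; ring
  have hs : ∀ s : Finset κ, ∀ c : κ → F, q (∑ i ∈ s, c i • b i) - q' (b.equivFun (∑ i ∈ s, c i • b i)) = 0 := by
    intro s c
    induction s using Finset.induction_on with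
    | empty => rw [Finset.sum_empty, map_zero, hq.zero, hq'.zero, sub_zero]
    | insert a s ha ih =>
      rw [Finset.sum_insert ha, hadd, ih, map_smul, hq.smul, hq'.smul, h1, hg]; ring
  have := hs Finset.univ (b.equivFun v)
  rw [Basis.sum_equivFun] at this
  exact sub_eq_zero.1 this
end compare

variable {ι : Type} [Fintype ι] [DecidableEq ι] {q : (ι → ZMod 2) → ZMod 2}
  {B : (ι → ZMod 2) →ₗ[ZMod 2] (ι → ZMod 2) →ₗ[ZMod 2] ZMod 2}

theorem qf_of_add (hadd : ∀ x y, q (x + y) = q x + q y + B x y) (hnd : ∀ x, (∀ y, B x y = 0) → x = 0) : Qf q B where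
  add := hadd
  smul := by
    intro a x
    have h0 : q 0 = 0 := by
      have := hadd 0 0
      rw [add_zero, map_zero, add_zero] at this
      linear_combination -this
    obtain rfl | rfl : a = 0 ∨ a = 1 := by revert a; decide
    · rw [zero_smul, h0]; ring
    · rw [one_smul]; ring
  nd := hnd

def chi (a : ZMod 2) : ℤ := if a = 0 then 1 else -1

theorem chi_add (a b : ZMod 2) : chi (a + b) = chi a * chi b := by
  revert a b; decide

theorem chi_one {a : ZMod 2} (h : chi a = 1) : a = 0 := by
  revert a; decide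

theorem sum_chi (hQ : Qf q B) {w : ι → ZMod 2} (hw : w ≠ 0) : ∑ u, chi (B u w) = 0 := by
  obtain ⟨u0, hu0⟩ : ∃ u0, B u0 w = 1 := by
    by_contra hcon
    push Not at hcon
    apply hw
    apply hQ.nd
    intro y
    have := hcon y
    rw [hQ.symm]
    generalize B y w = c at this
    revert c; decide
  have h1 : ∑ u, chi (B (u + u0) w) = ∑ u, chi (B u w) :=
    Fintype.sum_equiv (Equiv.addRight u0) _ _ (fun _ => rfl)
  simp only [map_add, LinearMap.add_apply, hu0, chi_add] at h1
  rw [← Finset.sum_mul] at h1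
  have : chi 1 = -1 := by decide
  rw [this] at h1
  linarith

theorem gauss_sq (hQ : Qf q B) : (∑ v, chi (q v)) ^ 2 = 2 ^ Fintype.card ι := by
  have h1 : (∑ v, chi (q v)) ^ 2 = ∑ u, ∑ v, chi (q u) * chi (q v) := by
    rw [sq, Finset.sum_mul_sum]
  have h2 : ∀ u, ∑ v, chi (q u) * chi (q v) = ∑ w, chi (q w) * chi (B u w) := by
    intro u
    rw [← Fintype.sum_equiv (Equiv.addRight u) (fun w => chi (q u) * chi (q (w + u))) _ (fun _ => rfl)]
    refine Finset.sum_congr rfl (fun w _ => ?_)
    rw [hQ.add, chi_add, chi_add, hQ.symm w u]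
    have : ∀ a : ZMod 2, chi a * chi a = 1 := by decide
    linear_combination (chi (q w) * chi (B u w)) * this (q u)
  rw [h1, Finset.sum_congr rfl (fun u _ => h2 u), Finset.sum_comm, Finset.sum_eq_single 0]
  · rw [hQ.zero]
    have : chi 0 = 1 := by decide
    simp only [this, map_zero, mul_one, Finset.sum_const, Finset.card_univ, nsmul_eq_mul]
    simp [ZMod.card]
  · intro w _ hw
    rw [← Finset.mul_sum, sum_chi hQ hw, mul_zero]
  · intro h; exact absurd (Finset.mem_univ _) h

theorem gauss_ne (hQ : Qf q B) : (∑ v, chi (q v)) ≠ 0 := by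
  intro h
  have := gauss_sq hQ
  rw [h] at this
  have h2 : (0 : ℤ) < 2 ^ Fintype.card ι := by positivity
  rw [← this] at h2
  simp at h2

theorem twist (hQ : Qf q B) (w : ι → ZMod 2) :
    (∃ g : (ι → ZMod 2) ≃ₗ[ZMod 2] (ι → ZMod 2), ∀ v, q v + B v w = q (g v)) ↔ q w = 0 := by
  constructor
  · rintro ⟨g, hg⟩
    have h1 : ∑ v, chi (q v + B v w) = ∑ v, chi (q v) := by
      simp only [hg]
      exact Fintype.sum_equiv g.toEquiv _ _ (fun _ => rfl)
    have h2 : ∑ v, chi (q v + B v w) = chi (q w) * ∑ v, chi (q v) := by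
      have : ∀ v, q v + B v w = q w + q (v + w) := by
        intro v
        rw [hQ.add]
        have : q w + q w = 0 := CharTwo.add_self_eq_zero _
        linear_combination -this
      simp only [this, chi_add]
      rw [← Finset.mul_sum]
      congr 1
      exact Fintype.sum_equiv (Equiv.addRight w) _ _ (fun _ => rfl)
    have h3 := gauss_ne hQ
    rw [h1] at h2
    have h4 : (chi (q w) - 1) * ∑ v, chi (q v) = 0 := by linear_combination -h2
    rcases mul_eq_zero.1 h4 with h | h
    · exact chi_one (by linarith)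
    · exact absurd h h3
  · intro hw
    have hww : B w w = 0 := by rw [hQ.self, hw, mul_zero]
    let t : (ι → ZMod 2) →ₗ[ZMod 2] (ι → ZMod 2) := LinearMap.id + (LinearMap.toSpanSingleton (ZMod 2) _ w).comp (B w)
    have ht : ∀ v, t v = v + B w v • w := fun v => rfl
    have htt : ∀ v, t (t v) = v := by
      intro v
      rw [ht, ht, map_add, map_smul, hww, smul_zero, add_zero, add_assoc, ← add_smul, CharTwo.add_self_eq_zero, zero_smul, add_zero]
    refine ⟨LinearEquiv.ofLinear t t (LinearMap.ext htt) (LinearMap.ext htt), fun v => ?_⟩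
    show q v + B v w = q (t v)
    rw [ht, hQ.add, hQ.smul, hw, map_smul, smul_eq_mul, hQ.symm w v]
    have : ∀ a : ZMod 2, a = a * a := by decide
    linear_combination this (B v w)

theorem pol_equiv (hQ : Qf q B) :
    Function.Bijective (fun w : ι → ZMod 2 => (⟨fun v => q v + B v w, fun u v => by
      beta_reduce
      rw [hQ.add, map_add, LinearMap.add_apply]; ring⟩ : {r : (ι → ZMod 2) → ZMod 2 // ∀ u v, r (u + v) = r u + r v + B u v})) := by
  constructor
  · intro w w' h
    have h1 : ∀ v, q v + B v w = q v + B v w' := fun v => congrFun (congrArg Subtype.val h) v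
    have h2 : w - w' = 0 := by
      apply hQ.nd
      intro y
      rw [hQ.symm, map_sub, sub_eq_zero]
      exact add_left_cancel (h1 y)
    exact sub_eq_zero.1 h2
  · rintro ⟨r, hr⟩
    let a : (ι → ZMod 2) →+ ZMod 2 := AddMonoidHom.mk' (fun v => r v - q v) (by
      intro u v
      show r (u + v) - q (u + v) = (r u - q u) + (r v - q v)
      rw [hr, hQ.add]; ring)
    let l : (ι → ZMod 2) →ₗ[ZMod 2] ZMod 2 := a.toZModLinearMap 2
    have hl : ∀ v, l v = r v - q v := fun v => rfl
    have hinj : Function.Injective B := by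
      rw [← LinearMap.ker_eq_bot, LinearMap.ker_eq_bot']
      intro x hx
      exact hQ.nd x (fun y => by rw [hx]; rfl)
    have hsurj : Function.Surjective B :=
      (LinearMap.injective_iff_surjective_of_finrank_eq_finrank (f := B) (Subspace.dual_finrank_eq (K := ZMod 2) (V := ι → ZMod 2)).symm).1 hinj
    obtain ⟨w, hw⟩ := hsurj l
    refine ⟨w, Subtype.ext (funext fun v => ?_)⟩
    show q v + B v w = r v
    rw [hQ.symm, hw, hl]; ring

end Cfsg.Agent.H8.F2F
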