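import Mathlib
import Cfsg.Agent.H8.GP1

/-! Counting orbits on pairs of cosets. -/

set_option autoImplicit false

namespace Cfsg.Agent.H8.GLP

open scoped MatrixGroups
open Matrix

section inv

variable {n : ℕ} {F : Type*} [Field F] [Fintype F]

/-- subspace of vectors supported on a set -/
theorem card_supp (S : Finset (Fin n)) :
    Nat.card {v : Fin n → F // ∀ i, i ∉ S → v i = 0} = Fintype.card F ^ S.card := by
  classical
  have e : {v : Fin n → F // ∀ i, i ∉ S → v i = 0} ≃ (S → F) :=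
    { toFun := fun v i => v.1 i
      invFun := fun u => ⟨fun i => if h : i ∈ S then u ⟨i, h⟩ else 0, fun i hi => dif_neg hi⟩
      left_inv := fun v => by
        ext i
        by_cases h : i ∈ S
        · simp [h]
        · simp [h, v.2 i h]
      right_inv := fun u => by
        ext i
        simp }
  rw [Nat.card_congr e, Nat.card_eq_fintype_card, Fintype.card_fun, Fintype.card_coe]

theorem cum_le {a b : Fin n → ℕ} {w w' : Equiv.Perm (Fin n)} {p p' : GL (Fin n) F}
    (hp : p ∈ PG F a) (hp' : p' ∈ PG F b) (h : pm F w' = p * pm F w * p') (s t : ℕ) :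
    cum a b w s t ≤ cum a b w' s t := by
  classical
  let S : Equiv.Perm (Fin n) → Finset (Fin n) := fun w => Finset.univ.filter fun i : Fin n => a i < s ∧ b (w⁻¹ i) < t
  have hS : ∀ w, cum a b w s t = (S w).card := fun w => rfl
  rw [hS, hS]
  have hq : 1 < Fintype.card F := Fintype.one_lt_card
  rw [← Nat.pow_le_pow_iff_right hq, ← card_supp, ← card_supp]
  have hmem : ∀ v : Fin n → F, (∀ i, i ∉ S w → v i = 0) →
      ∀ i, i ∉ S w' → ((p : Matrix (Fin n) (Fin n) F) *ᵥ v) i = 0 := by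
    intro v hv i hi
    by_cases hai : a i < s
    · -- then b (w'⁻¹ i) ≥ t
      have hb : t ≤ b (w'⁻¹ i) := by
        by_contra hlt
        apply hi
        simp only [S, Finset.mem_filter, Finset.mem_univ, true_and]
        exact ⟨hai, by omega⟩
      -- p v = pm w' (p'⁻¹ (pm w⁻¹ v))
      have e1 : (p : Matrix (Fin n) (Fin n) F) *ᵥ v =
          ((pm F w' : GL (Fin n) F) : Matrix (Fin n) (Fin n) F) *ᵥ
            (((p'⁻¹ : GL (Fin n) F) : Matrix (Fin n) (Fin n) F) *ᵥ
              (((pm F w⁻¹ : GL (Fin n) F) : Matrix (Fin n) (Fin n) F) *ᵥ v)) := by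
        rw [Matrix.mulVec_mulVec, Matrix.mulVec_mulVec, ← Units.val_mul, ← Units.val_mul]
        have : p = pm F w' * p'⁻¹ * pm F w⁻¹ := by
          rw [h, map_inv]; group
        conv_lhs => rw [this]
      rw [e1, pm_mulVec]
      rw [Matrix.mulVec, dotProduct]
      apply Finset.sum_eq_zero
      intro j _
      by_cases hbj : b j < t
      · have := (mem_PG.mp (Subgroup.inv_mem _ hp')) (w'⁻¹ i) j (by omega)
        rw [this, zero_mul]
      · rw [pm_mulVec, inv_inv, hv, mul_zero]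
        simp only [S, Finset.mem_filter, Finset.mem_univ, true_and]
        rintro ⟨-, h2⟩
        rw [show w⁻¹ (w j) = j by simp] at h2
        exact hbj h2
    · rw [Matrix.mulVec, dotProduct]
      apply Finset.sum_eq_zero
      intro j _
      by_cases haj : a j < s
      · rw [(mem_PG.mp hp) i j (by omega), zero_mul]
      · rw [hv, mul_zero]
        simp only [S, Finset.mem_filter, Finset.mem_univ, true_and]
        rintro ⟨h2, -⟩
        exact haj h2
  apply Nat.card_le_card_of_injective (fun v : {v : Fin n → F // ∀ i, i ∉ S w → v i = 0} =>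
    (⟨(p : Matrix (Fin n) (Fin n) F) *ᵥ v.1, hmem v.1 v.2⟩ : {v : Fin n → F // ∀ i, i ∉ S w' → v i = 0}))
  intro u v huv
  have h1 : (p : Matrix (Fin n) (Fin n) F) *ᵥ u.1 = (p : Matrix (Fin n) (Fin n) F) *ᵥ v.1 := congrArg Subtype.val huv
  have h2 : ((p⁻¹ : GL (Fin n) F) : Matrix (Fin n) (Fin n) F) *ᵥ ((p : Matrix (Fin n) (Fin n) F) *ᵥ u.1) =
    ((p⁻¹ : GL (Fin n) F) : Matrix (Fin n) (Fin n) F) *ᵥ ((p : Matrix (Fin n) (Fin n) F) *ᵥ v.1) := by rw [h1]
  rw [Matrix.mulVec_mulVec, Matrix.mulVec_mulVec, ← Units.val_mul, inv_mul_cancel, Units.val_one, Matrix.one_mulVec,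
    Matrix.one_mulVec] at h2
  exact Subtype.ext h2

theorem cnt_of_gl {a b : Fin n → ℕ} {w w' : Equiv.Perm (Fin n)} {p p' : GL (Fin n) F}
    (hp : p ∈ PG F a) (hp' : p' ∈ PG F b) (h : pm F w' = p * pm F w * p') :
    cnt a b w = cnt a b w' := by
  apply cnt_of_cum
  intro s t
  apply le_antisymm (cum_le hp hp' h s t)
  refine cum_le (Subgroup.inv_mem _ hp) (Subgroup.inv_mem _ hp') (?_ : _ = p⁻¹ * _ * p'⁻¹) s t
  rw [h]; group

end inv

section orb

theorem orb_count {G W M : Type*} [Group G] (H K : Subgroup G) (φ : W → G) (m : W → M)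
    (h1 : ∀ g : G, ∃ h ∈ H, ∃ k ∈ K, ∃ w, g = h * φ w * k)
    (h2 : ∀ w w', (∃ h ∈ H, ∃ k ∈ K, φ w' = h * φ w * k) ↔ m w = m w') :
    Nat.card (Quotient (MulAction.orbitRel G ((G ⧸ H) × (G ⧸ K)))) = Nat.card (Set.range m) := by
  let Φ : W → Quotient (MulAction.orbitRel G ((G ⧸ H) × (G ⧸ K))) := fun w =>
    Quotient.mk _ (((1 : G) : G ⧸ H), ((φ w : G) : G ⧸ K))
  have key : ∀ x y x' y' : G, (Quotient.mk (MulAction.orbitRel G ((G ⧸ H) × (G ⧸ K))) ((x : G ⧸ H), (y : G ⧸ K)) =
      Quotient.mk _ ((x' : G ⧸ H), (y' : G ⧸ K))) ↔ ∃ h ∈ H, ∃ k ∈ K, x⁻¹ * y = h * (x'⁻¹ * y') * k := by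
    intro x y x' y'
    rw [Quotient.eq]
    constructor
    · intro h
      rw [MulAction.orbitRel_apply] at h
      obtain ⟨g, hg⟩ := h
      have hg1 : ((g * x' : G) : G ⧸ H) = (x : G ⧸ H) := congrArg Prod.fst hg
      have hg2 : ((g * y' : G) : G ⧸ K) = (y : G ⧸ K) := congrArg Prod.snd hg
      rw [QuotientGroup.eq] at hg1 hg2
      refine ⟨((g * x')⁻¹ * x)⁻¹, Subgroup.inv_mem _ hg1, (g * y')⁻¹ * y, hg2, by group⟩
    · rintro ⟨h, hh, k, hk, e⟩
      rw [MulAction.orbitRel_apply]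
      refine ⟨x * h * x'⁻¹, ?_⟩
      have e1 : ((x * h * x'⁻¹ * x' : G) : G ⧸ H) = (x : G ⧸ H) := by
        rw [QuotientGroup.eq]
        have : (x * h * x'⁻¹ * x')⁻¹ * x = h⁻¹ := by group
        rw [this]; exact Subgroup.inv_mem _ hh
      have e2 : ((x * h * x'⁻¹ * y' : G) : G ⧸ K) = (y : G ⧸ K) := by
        rw [QuotientGroup.eq]
        have : (x * h * x'⁻¹ * y')⁻¹ * y = k := by
          have : y = x * (h * (x'⁻¹ * y') * k) := by rw [← e]; group
          rw [this]; group
        rw [this]; exact hk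
      exact Prod.ext e1 e2
  have hsurj : Function.Surjective Φ := by
    intro q
    induction q using Quotient.inductionOn with
    | h xy =>
      obtain ⟨x, y⟩ := xy
      induction x using QuotientGroup.induction_on with
      | H x =>
        induction y using QuotientGroup.induction_on with
        | H y =>
          obtain ⟨h, hh, k, hk, w, hw⟩ := h1 (x⁻¹ * y)
          refine ⟨w, ?_⟩
          apply Eq.symm
          apply (key x y 1 (φ w)).mpr
          refine ⟨h, hh, k, hk, ?_⟩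
          rw [hw, inv_one, one_mul]
  have hker : Setoid.ker m = Setoid.ker Φ := by
    ext w w'
    rw [Setoid.ker_def, Setoid.ker_def, ← h2]
    have := key 1 (φ w') 1 (φ w)
    rw [inv_one, one_mul, one_mul] at this
    rw [← this]
    exact eq_comm
  rw [← Nat.card_congr (Setoid.quotientKerEquivRange m), hker,
    Nat.card_congr (Setoid.quotientKerEquivOfSurjective Φ hsurj)]

theorem burnside {G : Type*} [Group G] [Fintype G] (H K : Subgroup G) :
    (Nat.card G : ℂ)⁻¹ * ∑ g : G, fixedPointCharacter H g * fixedPointCharacter K g =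
      (Nat.card (Quotient (MulAction.orbitRel G ((G ⧸ H) × (G ⧸ K)))) : ℂ) := by
  classical
  haveI : Fintype (G ⧸ H) := Fintype.ofFinite _
  haveI : Fintype (G ⧸ K) := Fintype.ofFinite _
  haveI : Fintype (Quotient (MulAction.orbitRel G ((G ⧸ H) × (G ⧸ K)))) := Fintype.ofFinite _
  haveI : ∀ g : G, Fintype (MulAction.fixedBy ((G ⧸ H) × (G ⧸ K)) g) := fun g => Fintype.ofFinite _
  have h := MulAction.sum_card_fixedBy_eq_card_orbits_mul_card_group G ((G ⧸ H) × (G ⧸ K))
  have h2 : ∀ g : G, Fintype.card (MulAction.fixedBy ((G ⧸ H) × (G ⧸ K)) g) =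
      Nat.card (MulAction.fixedBy (G ⧸ H) g) * Nat.card (MulAction.fixedBy (G ⧸ K) g) := by
    intro g
    rw [← Nat.card_eq_fintype_card, ← Nat.card_prod]
    apply Nat.card_congr
    exact
      { toFun := fun x => (⟨x.1.1, congrArg Prod.fst x.2⟩, ⟨x.1.2, congrArg Prod.snd x.2⟩)
        invFun := fun x => ⟨(x.1.1, x.2.1), Prod.ext x.1.2 x.2.2⟩
        left_inv := fun x => rfl
        right_inv := fun x => rfl }
  simp only [h2] at h
  have h3 : (∑ g : G, fixedPointCharacter H g * fixedPointCharacter K g : ℂ) =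
      (Nat.card (Quotient (MulAction.orbitRel G ((G ⧸ H) × (G ⧸ K)))) : ℂ) * (Nat.card G : ℂ) := by
    rw [Nat.card_eq_fintype_card, Nat.card_eq_fintype_card (α := G)]
    rw [← Nat.cast_mul, ← h]
    push_cast
    rfl
  rw [h3]
  have : (Nat.card G : ℂ) ≠ 0 := by exact_mod_cast Nat.card_pos.ne'
  field_simp

end orb

section main

variable {n : ℕ} {F : Type*} [Field F] [Fintype F]

theorem inner_GL [Fintype (GL (Fin n) F)] {a b : Fin n → ℕ} (ha : Monotone a) (hb : Monotone b) :
    (Nat.card (GL (Fin n) F) : ℂ)⁻¹ * ∑ g : GL (Fin n) F, fixedPointCharacter (PG F a) g * fixedPointCharacter (PG F b) g =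
      (Nat.card (Set.range (cnt a b)) : ℂ) := by
  rw [burnside, orb_count (PG F a) (PG F b) (pm F) (cnt a b)]
  · intro g
    obtain ⟨x, hx, y, hy, w, e⟩ := bruhat g
    exact ⟨x, upper_le ha hx, y, upper_le hb hy, w, e⟩
  · intro w w'
    constructor
    · rintro ⟨h, hh, k, hk, e⟩
      exact cnt_of_gl hh hk e
    · intro h
      obtain ⟨σ, hσ, τ, hτ, e⟩ := exists_of_cnt h
      refine ⟨pm F σ, pm_mem_PG hσ, pm F τ, pm_mem_PG hτ, ?_⟩
      rw [e, map_mul, map_mul]

theorem inner_Sym (a b : Fin n → ℕ) :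
    (Nat.card (Equiv.Perm (Fin n)) : ℂ)⁻¹ * ∑ g : Equiv.Perm (Fin n), fixedPointCharacter (YG a) g * fixedPointCharacter (YG b) g =
      (Nat.card (Set.range (cnt a b)) : ℂ) := by
  rw [burnside, orb_count (YG a) (YG b) id (cnt a b)]
  · intro g
    exact ⟨1, Subgroup.one_mem _, 1, Subgroup.one_mem _, g, by simp⟩
  · intro w w'
    constructor
    · rintro ⟨h, hh, k, hk, e⟩
      exact cnt_of_exists hh hk e
    · intro h
      obtain ⟨σ, hσ, τ, hτ, e⟩ := exists_of_cnt h
      exact ⟨σ, hσ, τ, hτ, e⟩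

theorem compLabel_mono (μ : Fin n → ℕ) : Monotone (compLabel μ) := by
  intro i j hij
  apply Finset.card_le_card
  intro k hk
  simp only [Finset.mem_filter, Finset.mem_univ, true_and] at hk ⊢
  exact le_trans hk hij

end main

end Cfsg.Agent.H8.GLP
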