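import Mathlib

/-! Jacobi-Trudi identity and coefficient extraction. -/

set_option autoImplicit false

namespace Cfsg.Agent.H8.GLP

open Finset

section jt

variable {n : ℕ}

abbrev RR (n : ℕ) := MvPolynomial (Fin n) ℤ

noncomputable def geo (r : RR n) : PowerSeries (RR n) := PowerSeries.mk (fun k => r ^ k)

theorem geo_mul (r : RR n) : geo r * (1 - PowerSeries.C r * PowerSeries.X) = 1 := by
  ext1 k
  rw [mul_sub, mul_one, mul_comm (geo r), mul_assoc, map_sub, PowerSeries.coeff_C_mul]
  cases k with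
  | zero => simp [geo, PowerSeries.coeff_zero_X_mul]
  | succ k =>
    rw [PowerSeries.coeff_succ_X_mul, geo, PowerSeries.coeff_mk, PowerSeries.coeff_mk, PowerSeries.coeff_one,
      if_neg (Nat.succ_ne_zero k)]
    ring

noncomputable def HH (n : ℕ) : PowerSeries (RR n) := ∏ m : Fin n, geo (MvPolynomial.X m)

noncomputable def hh (n : ℕ) (k : ℕ) : RR n := PowerSeries.coeff k (HH n)

noncomputable def EE (l : Fin n) : PowerSeries (RR n) :=
  ∏ m ∈ univ.erase l, (1 - PowerSeries.C (MvPolynomial.X m) * PowerSeries.X)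

theorem HH_EE (l : Fin n) : HH n * EE l = geo (MvPolynomial.X l) := by
  rw [HH, EE, ← Finset.mul_prod_erase univ _ (Finset.mem_univ l), mul_assoc, ← Finset.prod_mul_distrib]
  rw [Finset.prod_eq_one (fun m _ => geo_mul _), mul_one]

theorem coeff_prod_zero (s : Finset (Fin n)) (b : ℕ) (hb : s.card < b) :
    PowerSeries.coeff b (∏ m ∈ s, ((1 : PowerSeries (RR n)) - PowerSeries.C (MvPolynomial.X m) * PowerSeries.X)) = 0 := by
  induction s using Finset.induction_on generalizing b with
  | empty =>
    rw [Finset.prod_empty, PowerSeries.coeff_one, if_neg]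
    intro h; rw [h] at hb; simp at hb
  | insert x s hx ih =>
    rw [Finset.prod_insert hx, sub_mul, one_mul, map_sub, mul_assoc, PowerSeries.coeff_C_mul]
    rw [Finset.card_insert_of_notMem hx] at hb
    obtain ⟨b', rfl⟩ : ∃ b', b = b' + 1 := ⟨b - 1, by omega⟩
    rw [PowerSeries.coeff_succ_X_mul, ih _ (by omega), ih _ (by omega)]
    simp

noncomputable def cc (j : ℕ) (l : Fin n) : RR n := PowerSeries.coeff j (EE l)

theorem cc_zero (j : ℕ) (hj : n ≤ j) (l : Fin n) : cc j l = 0 := by
  apply coeff_prod_zero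
  rw [Finset.card_erase_of_mem (Finset.mem_univ l), Finset.card_univ, Fintype.card_fin]
  have := l.isLt
  omega

noncomputable def Amat (la : Fin n → ℕ) : Matrix (Fin n) (Fin n) (RR n) :=
  Matrix.of fun i j => if j.val ≤ la i then hh n (la i - j.val) else 0

noncomputable def Cmat (n : ℕ) : Matrix (Fin n) (Fin n) (RR n) :=
  Matrix.of fun j l => cc j.val l

noncomputable def Ymat (la : Fin n → ℕ) : Matrix (Fin n) (Fin n) (RR n) :=
  Matrix.of fun i l => (MvPolynomial.X l) ^ (la i)

theorem A_mul_C (la : Fin n → ℕ) : Amat la * Cmat n = Ymat la := by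
  ext1 i l
  rw [Matrix.mul_apply]
  simp only [Amat, Cmat, Ymat, Matrix.of_apply]
  have h1 : PowerSeries.coeff (la i) (HH n * EE l) = (MvPolynomial.X l) ^ (la i) := by
    rw [HH_EE, geo, PowerSeries.coeff_mk]
  rw [← h1, mul_comm (HH n), PowerSeries.coeff_mul, Finset.Nat.sum_antidiagonal_eq_sum_range_succ_mk]
  rw [Finset.sum_fin_eq_sum_range (fun j : Fin n => (if j.val ≤ la i then hh n (la i - j.val) else 0) * cc j.val l)]
  have e1 : ∑ j ∈ range n, (if h : j < n then
      (fun j : Fin n => (if j.val ≤ la i then hh n (la i - j.val) else 0) * cc j.val l) ⟨j, h⟩ else 0) =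
      ∑ j ∈ range n, (if j ≤ la i then hh n (la i - j) else 0) * cc j l := by
    apply Finset.sum_congr rfl
    intro j hj
    rw [dif_pos (Finset.mem_range.mp hj)]
  rw [e1]
  have e2 : ∑ j ∈ range n, (if j ≤ la i then hh n (la i - j) else 0) * cc j l =
      ∑ j ∈ range (n + (la i + 1)), (if j ≤ la i then hh n (la i - j) else 0) * cc j l := by
    apply Finset.sum_subset
    · intro j hj; simp only [Finset.mem_range] at hj ⊢; omega
    · intro j _ hj
      rw [Finset.mem_range, not_lt] at hj
      rw [cc_zero j hj, mul_zero]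
  rw [e2]
  symm
  have e3 : ∑ k ∈ range (la i).succ, PowerSeries.coeff k (EE l) * PowerSeries.coeff (la i - k) (HH n) =
      ∑ k ∈ range (la i).succ, (if k ≤ la i then hh n (la i - k) else 0) * cc k l := by
    apply Finset.sum_congr rfl
    intro k hk
    rw [Finset.mem_range] at hk
    rw [if_pos (by omega), hh, cc, mul_comm]
  rw [e3]
  apply Finset.sum_subset
  · intro j hj; simp only [Finset.mem_range] at hj ⊢; omega
  · intro j _ hj
    rw [Finset.mem_range, not_lt] at hj
    rw [if_neg (by omega), zero_mul]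

theorem hh_zero (n : ℕ) : hh n 0 = 1 := by
  rw [hh, HH, PowerSeries.coeff_zero_eq_constantCoeff_apply, map_prod]
  apply Finset.prod_eq_one
  intro m _
  rw [← PowerSeries.coeff_zero_eq_constantCoeff_apply, geo, PowerSeries.coeff_mk, pow_zero]

theorem det_A_delta (n : ℕ) : (Amat (fun i : Fin n => i.val)).det = 1 := by
  rw [Matrix.det_of_lowerTriangular]
  · apply Finset.prod_eq_one
    intro i _
    simp only [Amat, Matrix.of_apply, le_refl, if_true, Nat.sub_self, hh_zero]
  · intro i j hij
    simp only [Amat, Matrix.of_apply]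
    rw [if_neg]
    have : i < j := hij
    intro h
    exact absurd this (not_lt.mpr h)

theorem det_C (n : ℕ) : (Cmat n).det = (Ymat (fun i : Fin n => i.val)).det := by
  rw [← A_mul_C, Matrix.det_mul, det_A_delta, one_mul]

theorem jacobi_trudi (la : Fin n → ℕ) :
    (Amat la).det * (Ymat (fun i : Fin n => i.val)).det = (Ymat la).det := by
  rw [← det_C, ← Matrix.det_mul, A_mul_C]

/-- function to finsupp -/
noncomputable def fs (f : Fin n → ℕ) : Fin n →₀ ℕ := Finsupp.equivFunOnFinite.symm f

@[simp] theorem fs_apply (f : Fin n → ℕ) (i : Fin n) : fs f i = f i := rfl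

theorem fs_inj {f g : Fin n → ℕ} (h : fs f = fs g) : f = g := by
  funext i
  have := DFunLike.congr_fun h i
  exact this

theorem prod_X_pow (f : Fin n → ℕ) : ∏ i : Fin n, (MvPolynomial.X i : RR n) ^ (f i) = MvPolynomial.monomial (fs f) 1 := by
  rw [MvPolynomial.monomial_eq, Finsupp.prod_fintype _ _ (fun i => pow_zero _), map_one, one_mul]
  rfl

theorem det_Y (la : Fin n → ℕ) : (Ymat la).det =
    ∑ σ : Equiv.Perm (Fin n), ((Equiv.Perm.sign σ : ℤ) : RR n) * MvPolynomial.monomial (fs (fun i => la (σ i))) 1 := by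
  rw [Matrix.det_apply']
  apply Finset.sum_congr rfl
  intro σ _
  rw [← prod_X_pow]
  rfl

theorem det_A (la : Fin n → ℕ) : (Amat la).det =
    ∑ κ : Equiv.Perm (Fin n), if ∀ i, (κ i).val ≤ la i then
      ((Equiv.Perm.sign κ : ℤ) : RR n) * ∏ i, hh n (la i - (κ i).val) else 0 := by
  rw [← Matrix.det_transpose, Matrix.det_apply']
  apply Finset.sum_congr rfl
  intro κ _
  split_ifs with h
  · congr 1
    apply Finset.prod_congr rfl
    intro i _
    simp only [Amat, Matrix.transpose_apply, Matrix.of_apply]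
    rw [if_pos (h i)]
  · push Not at h
    obtain ⟨i, hi⟩ := h
    rw [Finset.prod_eq_zero (Finset.mem_univ i), mul_zero]
    simp only [Amat, Matrix.transpose_apply, Matrix.of_apply]
    rw [if_neg (not_le.mpr hi)]

noncomputable def NN (al be : Fin n → ℕ) : ℤ := MvPolynomial.coeff (fs be) (∏ i, hh n (al i))

theorem strictMono_perm {la la' : Fin n → ℕ} (h : StrictMono la) (h' : StrictMono la') (σ : Equiv.Perm (Fin n))
    (e : ∀ i, la (σ i) = la' i) : la = la' ∧ σ = 1 := by
  have h1 : la = la' := by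
    rw [← StrictMono.range_inj h h']
    have : la' = la ∘ σ := by funext i; exact (e i).symm
    rw [this, σ.surjective.range_comp]
  refine ⟨h1, ?_⟩
  ext1 i
  have := e i
  rw [← h1] at this
  exact h.injective this

theorem ortho {la la' : Fin n → ℕ} (h : StrictMono la) (h' : StrictMono la') :
    ∑ κ' : Equiv.Perm (Fin n), ∑ κ : Equiv.Perm (Fin n),
      (if (∀ i, (κ' i).val ≤ la' i) ∧ (∀ i, (κ i).val ≤ la i) then
        (Equiv.Perm.sign κ' : ℤ) * (Equiv.Perm.sign κ : ℤ) * NN (fun i => la i - (κ i).val) (fun i => la' i - (κ' i).val)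
      else 0) = if la = la' then 1 else 0 := by
  have hjt := congrArg (MvPolynomial.coeff (fs la')) (jacobi_trudi la)
  rw [mul_comm, det_Y, det_Y, det_A, Finset.sum_mul, MvPolynomial.coeff_sum, MvPolynomial.coeff_sum] at hjt
  have hL : ∀ κ' : Equiv.Perm (Fin n), MvPolynomial.coeff (fs la') (((Equiv.Perm.sign κ' : ℤ) : RR n) *
      MvPolynomial.monomial (fs (fun i => ((κ' i) : Fin n).val)) 1 *
      ∑ κ : Equiv.Perm (Fin n), if ∀ i, (κ i).val ≤ la i then
      ((Equiv.Perm.sign κ : ℤ) : RR n) * ∏ i, hh n (la i - (κ i).val) else 0) =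
      ∑ κ : Equiv.Perm (Fin n),
      (if (∀ i, (κ' i).val ≤ la' i) ∧ (∀ i, (κ i).val ≤ la i) then
        (Equiv.Perm.sign κ' : ℤ) * (Equiv.Perm.sign κ : ℤ) * NN (fun i => la i - (κ i).val) (fun i => la' i - (κ' i).val)
      else 0) := by
    intro κ'
    rw [Finset.mul_sum, MvPolynomial.coeff_sum]
    apply Finset.sum_congr rfl
    intro κ _
    by_cases h2 : ∀ i, (κ i).val ≤ la i
    · rw [if_pos h2]
      have e1 : ((Equiv.Perm.sign κ' : ℤ) : RR n) * MvPolynomial.monomial (fs (fun i => ((κ' i) : Fin n).val)) 1 *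
        (((Equiv.Perm.sign κ : ℤ) : RR n) * ∏ i, hh n (la i - (κ i).val)) =
        MvPolynomial.C ((Equiv.Perm.sign κ' : ℤ) * (Equiv.Perm.sign κ : ℤ)) *
          (MvPolynomial.monomial (fs (fun i => ((κ' i) : Fin n).val)) 1 * ∏ i, hh n (la i - (κ i).val)) := by
        have ec : ∀ z : ℤ, (MvPolynomial.C z : RR n) = (z : RR n) := fun z => eq_intCast _ z
        rw [MvPolynomial.C_mul, ec, ec]
        ring
      rw [e1, MvPolynomial.coeff_C_mul, MvPolynomial.coeff_monomial_mul']
      by_cases h1 : ∀ i, (κ' i).val ≤ la' i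
      · rw [if_pos (show fs (fun i => ((κ' i) : Fin n).val) ≤ fs la' from fun i => h1 i), if_pos ⟨h1, h2⟩, one_mul, NN]
        have ef : (fs la' - fs fun i => ((κ' i) : Fin n).val) = fs fun i => la' i - (κ' i).val := by
          ext i; rfl
        rw [ef]
      · rw [if_neg (fun hh => h1 (fun i => hh i)), if_neg (fun hh => h1 hh.1), mul_zero]
    · rw [if_neg h2, if_neg (fun hh => h2 hh.2), mul_zero, MvPolynomial.coeff_zero]
  simp only [hL] at hjt
  rw [hjt]
  have hR : ∀ σ : Equiv.Perm (Fin n), MvPolynomial.coeff (fs la') (((Equiv.Perm.sign σ : ℤ) : RR n) *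
      MvPolynomial.monomial (fs (fun i => la (σ i))) 1) =
      if (∀ i, la (σ i) = la' i) then (Equiv.Perm.sign σ : ℤ) else 0 := by
    intro σ
    have e1 : ((Equiv.Perm.sign σ : ℤ) : RR n) = MvPolynomial.C (Equiv.Perm.sign σ : ℤ) := by rw [eq_intCast]
    rw [e1, MvPolynomial.coeff_C_mul, MvPolynomial.coeff_monomial]
    by_cases h1 : ∀ i, la (σ i) = la' i
    · rw [if_pos h1, if_pos, mul_one]
      congr 1
      funext i; exact h1 i
    · rw [if_neg h1, if_neg, mul_zero]
      intro h2
      exact h1 (fun i => congrFun (fs_inj h2) i)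
  simp only [hR]
  by_cases he : la = la'
  · rw [if_pos he, Finset.sum_eq_single (1 : Equiv.Perm (Fin n))]
    · rw [if_pos (fun i => by rw [← he]; rfl)]; simp
    · intro σ _ hσ
      rw [if_neg]
      intro h2
      exact hσ (strictMono_perm h h' σ h2).2
    · intro h2; exact absurd (Finset.mem_univ _) h2
  · rw [if_neg he]
    apply Finset.sum_eq_zero
    intro σ _
    rw [if_neg]
    intro h2
    exact he (strictMono_perm h h' σ h2).1

/-- `h_a` is the sum of monomials of degree `a` -/
theorem hh_eq (a : ℕ) : hh n a = ∑ l ∈ Finset.finsuppAntidiag univ a, MvPolynomial.monomial l 1 := by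
  rw [hh, HH, PowerSeries.coeff_prod]
  apply Finset.sum_congr rfl
  intro l _
  simp only [geo, PowerSeries.coeff_mk]
  rw [prod_X_pow (fun i => l i)]
  have : fs (fun i => l i) = l := by ext i; rfl
  rw [this]

open Classical in
theorem NN_eq (al be : Fin n → ℕ) : NN al be =
    ((Fintype.piFinset fun i : Fin n => Finset.finsuppAntidiag (univ : Finset (Fin n)) (al i)).filter
      (fun p => ∑ i, p i = fs be)).card := by
  rw [NN]
  simp only [hh_eq]
  rw [Finset.prod_univ_sum, MvPolynomial.coeff_sum]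
  have : ∀ p ∈ (Fintype.piFinset fun i : Fin n => Finset.finsuppAntidiag (univ : Finset (Fin n)) (al i)),
      MvPolynomial.coeff (fs be) (∏ i : Fin n, (MvPolynomial.monomial (p i) (1 : ℤ))) =
      if ∑ i, p i = fs be then 1 else 0 := by
    intro p _
    rw [← MvPolynomial.monomial_sum_one, MvPolynomial.coeff_monomial]
  rw [Finset.sum_congr rfl this, Finset.card_filter]
  push_cast
  rfl

end jt

end Cfsg.Agent.H8.GLP
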