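import Mathlib
import Cfsg.Agent.H8.GP2
import Cfsg.Agent.H8.GP3

/-! Number of orbits = number of matrices with given margins. -/

set_option autoImplicit false

namespace Cfsg.Agent.H8.GLP

open Finset

section lab

variable {n : ℕ}

def psum (μ : Fin n → ℕ) (s : ℕ) : ℕ := ∑ k ∈ univ.filter (fun k : Fin n => k.val < s), μ k

theorem psum_mono (μ : Fin n → ℕ) : Monotone (psum μ) := by
  intro s t h
  apply Finset.sum_le_sum_of_subset
  intro k hk
  simp only [Finset.mem_filter, Finset.mem_univ, true_and] at hk ⊢
  omega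

theorem psum_succ (μ : Fin n → ℕ) (s : Fin n) : psum μ (s.val + 1) = psum μ s.val + μ s := by
  rw [psum, psum]
  have : (univ.filter fun k : Fin n => k.val < s.val + 1) = insert s (univ.filter fun k : Fin n => k.val < s.val) := by
    ext k
    simp only [Finset.mem_filter, Finset.mem_univ, true_and, Finset.mem_insert, Fin.ext_iff]
    omega
  rw [this, Finset.sum_insert (by simp), add_comm]

theorem psum_n (μ : Fin n → ℕ) : psum μ n = ∑ i, μ i := by
  rw [psum]
  congr 1
  apply Finset.filter_true_of_mem
  intro k _
  exact k.isLt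

theorem psum_zero (μ : Fin n → ℕ) : psum μ 0 = 0 := by
  rw [psum]
  simp

theorem label_of (μ : Fin n → ℕ) (i : Fin n) (s : ℕ) (hs : s < n) (h1 : psum μ s ≤ i.val) (h2 : i.val < psum μ (s+1)) :
    compLabel μ i = s := by
  rw [compLabel]
  have : (univ.filter fun j : Fin n => (∑ k ∈ univ.filter (fun k : Fin n => k ≤ j), μ k) ≤ i.val) =
      univ.filter (fun j : Fin n => j.val < s) := by
    apply Finset.filter_congr
    intro j _
    have e : (∑ k ∈ univ.filter (fun k : Fin n => k ≤ j), μ k) = psum μ (j.val + 1) := by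
      rw [psum]
      apply Finset.sum_congr _ (fun _ _ => rfl)
      apply Finset.filter_congr
      intro k _
      rw [Fin.le_def]
      omega
    rw [e]
    constructor
    · intro h
      by_contra hc
      have := psum_mono μ (show s + 1 ≤ j.val + 1 by omega)
      omega
    · intro h
      have := psum_mono μ (show j.val + 1 ≤ s by omega)
      omega
  rw [this]
  have : (univ.filter (fun j : Fin n => j.val < s)) = Finset.Iio (⟨s, hs⟩ : Fin n) := by
    ext j
    simp [Fin.lt_def]
  rw [this, Fin.card_Iio]

theorem exists_label (μ : Fin n → ℕ) (hμ : ∑ i, μ i = n) (i : Fin n) :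
    ∃ s, s < n ∧ psum μ s ≤ i.val ∧ i.val < psum μ (s+1) := by
  have hex : ∃ s, i.val < psum μ s := ⟨n, by rw [psum_n, hμ]; exact i.isLt⟩
  classical
  have h1 := Nat.find_spec hex
  have h0 : Nat.find hex ≠ 0 := by
    intro h
    rw [h, psum_zero] at h1
    omega
  obtain ⟨s, hs⟩ : ∃ s, Nat.find hex = s + 1 := ⟨Nat.find hex - 1, by omega⟩
  rw [hs] at h1
  refine ⟨s, ?_, ?_, h1⟩
  · have := Nat.find_min' hex (m := n) (by rw [psum_n, hμ]; exact i.isLt)
    omega
  · have := Nat.find_min hex (m := s) (by omega)
    omega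

theorem label_iff (μ : Fin n → ℕ) (hμ : ∑ i, μ i = n) (i s : Fin n) :
    compLabel μ i = s.val ↔ psum μ s.val ≤ i.val ∧ i.val < psum μ (s.val+1) := by
  constructor
  · intro h
    obtain ⟨t, ht, h1, h2⟩ := exists_label μ hμ i
    have := label_of μ i t ht h1 h2
    rw [h] at this
    rw [this]
    exact ⟨h1, h2⟩
  · rintro ⟨h1, h2⟩
    exact label_of μ i s.val s.isLt h1 h2

theorem label_lt (μ : Fin n → ℕ) (hμ : ∑ i, μ i = n) (i : Fin n) : compLabel μ i < n := by
  obtain ⟨t, ht, h1, h2⟩ := exists_label μ hμ i
  rw [label_of μ i t ht h1 h2]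
  exact ht

theorem card_label (μ : Fin n → ℕ) (hμ : ∑ i, μ i = n) (s : Fin n) :
    (univ.filter fun i : Fin n => compLabel μ i = s.val).card = μ s := by
  have h1 : (univ.filter fun i : Fin n => compLabel μ i = s.val).card =
      (Finset.Ico (psum μ s.val) (psum μ (s.val + 1))).card := by
    apply Finset.card_bij (fun i _ => i.val)
    · intro i hi
      simp only [Finset.mem_filter, Finset.mem_univ, true_and] at hi
      rw [Finset.mem_Ico]
      exact (label_iff μ hμ i s).mp hi
    · intro i _ j _ h
      exact Fin.ext h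
    · intro k hk
      rw [Finset.mem_Ico] at hk
      have : psum μ (s.val + 1) ≤ n := by
        have h3 := psum_mono μ (show s.val + 1 ≤ n from s.isLt)
        have h4 := psum_n μ
        omega
      refine ⟨⟨k, by omega⟩, ?_, rfl⟩
      simp only [Finset.mem_filter, Finset.mem_univ, true_and]
      exact (label_iff μ hμ _ s).mpr hk
  rw [h1, Nat.card_Ico, psum_succ]
  omega

end lab

section margins

variable {n : ℕ}

noncomputable def rr (n : ℕ) (m : ℕ → ℕ → ℕ) : Fin n → (Fin n →₀ ℕ) := fun i => fs (fun j => m i j)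

theorem cnt_row (a b : Fin n → ℕ) (hb : ∀ i, b i < n) (w : Equiv.Perm (Fin n)) (s : ℕ) :
    ∑ j : Fin n, cnt a b w s j = (univ.filter fun i : Fin n => a i = s).card := by
  simp only [cnt, Finset.card_filter]
  rw [Finset.sum_comm]
  apply Finset.sum_congr rfl
  intro i _
  by_cases h : a i = s
  · rw [if_pos h, Finset.sum_eq_single (⟨b (w⁻¹ i), hb _⟩ : Fin n)]
    · rw [if_pos ⟨h, rfl⟩]
    · intro j _ hj
      rw [if_neg]
      rintro ⟨-, h2⟩
      exact hj (Fin.ext h2.symm)
    · intro h2; exact absurd (Finset.mem_univ _) h2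
  · rw [if_neg h]
    apply Finset.sum_eq_zero
    intro j _
    rw [if_neg (fun h2 => h h2.1)]

theorem cnt_col (a b : Fin n → ℕ) (ha : ∀ i, a i < n) (w : Equiv.Perm (Fin n)) (t : ℕ) :
    ∑ i : Fin n, cnt a b w i t = (univ.filter fun i : Fin n => b i = t).card := by
  simp only [cnt, Finset.card_filter]
  rw [Finset.sum_comm]
  have : ∀ k : Fin n, (∑ i : Fin n, if a k = i.val ∧ b (w⁻¹ k) = t then 1 else 0) = if b (w⁻¹ k) = t then 1 else 0 := by
    intro k
    by_cases h : b (w⁻¹ k) = t
    · rw [if_pos h, Finset.sum_eq_single (⟨a k, ha _⟩ : Fin n)]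
      · rw [if_pos ⟨rfl, h⟩]
      · intro j _ hj
        rw [if_neg]
        rintro ⟨h2, -⟩
        exact hj (Fin.ext h2.symm)
      · intro h2; exact absurd (Finset.mem_univ _) h2
    · rw [if_neg h]
      apply Finset.sum_eq_zero
      intro j _
      rw [if_neg (fun h2 => h h2.2)]
  simp only [this]
  exact Equiv.sum_comp w⁻¹ (fun i => if b i = t then 1 else 0)

theorem exists_cnt (a b : Fin n → ℕ) (ha : ∀ i, a i < n) (hb : ∀ i, b i < n) (p : Fin n → Fin n → ℕ)
    (h1 : ∀ i, ∑ j, p i j = (univ.filter fun k : Fin n => a k = i.val).card)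
    (h2 : ∀ j, ∑ i, p i j = (univ.filter fun k : Fin n => b k = j.val).card) :
    ∃ w, ∀ i j : Fin n, cnt a b w i j = p i j := by
  classical
  have hn : Fintype.card (Σ ij : Fin n × Fin n, Fin (p ij.1 ij.2)) = n := by
    rw [Fintype.card_sigma]
    simp only [Fintype.card_fin]
    rw [Fintype.sum_prod_type]
    simp only [h1]
    have := Finset.card_eq_sum_card_fiberwise (s := (univ : Finset (Fin n))) (t := (univ : Finset (Fin n)))
      (f := fun k => (⟨a k, ha k⟩ : Fin n)) (fun x _ => Finset.mem_univ _)
    rw [Finset.card_univ, Fintype.card_fin] at this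
    conv_rhs => rw [this]
    apply Finset.sum_congr rfl
    intro i _
    congr 1
    apply Finset.filter_congr
    intro k _
    rw [Fin.ext_iff]
  let e : Fin n ≃ (Σ ij : Fin n × Fin n, Fin (p ij.1 ij.2)) :=
    (Fintype.equivFinOfCardEq hn).symm
  let f : Fin n → Fin n × Fin n := fun k => (e k).1
  have hf : ∀ ij : Fin n × Fin n, (univ.filter fun k => f k = ij).card = p ij.1 ij.2 := by
    intro ij
    have e2 : (univ.filter fun k => f k = ij).card = Fintype.card (Fin (p ij.1 ij.2)) := by
      rw [← Fintype.card_subtype]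
      apply Fintype.card_congr
      exact
        { toFun := fun k => k.2 ▸ (e k.1).2
          invFun := fun x => ⟨e.symm ⟨ij, x⟩, by simp [f]⟩
          left_inv := by
            rintro ⟨k, rfl⟩
            apply Subtype.ext
            show e.symm ⟨(e k).1, (e k).2⟩ = k
            simp
          right_inv := by
            intro x
            have h : e (e.symm ⟨ij, x⟩) = ⟨ij, x⟩ := e.apply_symm_apply _
            have : ∀ (q : Σ ij : Fin n × Fin n, Fin (p ij.1 ij.2)) (hq : q = ⟨ij, x⟩) (h1 : q.1 = ij), h1 ▸ q.2 = x := by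
              intro q hq h1
              subst hq
              rfl
            exact this _ h _ }
    rw [e2, Fintype.card_fin]
  have hfa : ∀ c : ℕ, (univ.filter fun k => (f k).1.val = c).card = (univ.filter fun k => a k = c).card := by
    intro c
    by_cases hc : c < n
    · rw [← h1 ⟨c, hc⟩]
      rw [Finset.card_eq_sum_card_fiberwise (t := (univ : Finset (Fin n))) (f := fun k => (f k).2) (fun x _ => Finset.mem_univ _)]
      apply Finset.sum_congr rfl
      intro j _
      rw [← hf (⟨c, hc⟩, j), Finset.filter_filter]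
      congr 1
      apply Finset.filter_congr
      intro k _
      rw [Prod.ext_iff, Fin.ext_iff (a := (f k).1)]
    · rw [Finset.filter_false_of_mem, Finset.filter_false_of_mem]
      · intro k _ h; have := ha k; omega
      · intro k _ h; have := (f k).1.isLt; omega
  have hfb : ∀ c : ℕ, (univ.filter fun k => (f k).2.val = c).card = (univ.filter fun k => b k = c).card := by
    intro c
    by_cases hc : c < n
    · rw [← h2 ⟨c, hc⟩]
      rw [Finset.card_eq_sum_card_fiberwise (t := (univ : Finset (Fin n))) (f := fun k => (f k).1) (fun x _ => Finset.mem_univ _)]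
      apply Finset.sum_congr rfl
      intro j _
      rw [← hf (j, ⟨c, hc⟩), Finset.filter_filter]
      congr 1
      apply Finset.filter_congr
      intro k _
      rw [Prod.ext_iff, and_comm, Fin.ext_iff (a := (f k).2)]
    · rw [Finset.filter_false_of_mem, Finset.filter_false_of_mem]
      · intro k _ h; have := hb k; omega
      · intro k _ h; have := (f k).2.isLt; omega
  obtain ⟨σ, hσ⟩ := exists_perm_of_fiber (fun k => (f k).1.val) a hfa
  obtain ⟨τ, hτ⟩ := exists_perm_of_fiber b (fun k => (f (σ k)).2.val) (by
    intro c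
    rw [← hfb c]
    rw [Finset.card_filter, Finset.card_filter]
    exact (Equiv.sum_comp σ (fun k => if (f k).2.val = c then 1 else 0)).symm)
  refine ⟨τ⁻¹, ?_⟩
  intro i j
  rw [cnt, ← hf (i, j), Finset.card_filter, Finset.card_filter,
    ← Equiv.sum_comp σ (fun k => if f k = (i, j) then 1 else 0)]
  apply Finset.sum_congr rfl
  intro k _
  rw [inv_inv, hτ, ← hσ]
  simp only [Prod.ext_iff, Fin.ext_iff]

open Classical in
theorem card_range_cnt (al be : Fin n → ℕ) (hal : ∑ i, al i = n) (hbe : ∑ i, be i = n) :
    (Nat.card (Set.range (cnt (compLabel al) (compLabel be))) : ℤ) = NN al be := by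
  rw [NN_eq]
  norm_cast
  have hinj : Set.InjOn (rr n) (Set.range (cnt (compLabel al) (compLabel be))) := by
    rintro _ ⟨w, rfl⟩ _ ⟨w', rfl⟩ h
    funext s t
    by_cases hs : s < n
    · by_cases ht : t < n
      · have := DFunLike.congr_fun (congrFun h ⟨s, hs⟩) ⟨t, ht⟩
        exact this
      · rw [cnt, cnt, Finset.filter_false_of_mem, Finset.filter_false_of_mem]
        · intro k _ h; have := label_lt be hbe (w'⁻¹ k); omega
        · intro k _ h; have := label_lt be hbe (w⁻¹ k); omega
    · rw [cnt, cnt, Finset.filter_false_of_mem, Finset.filter_false_of_mem]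
      · intro k _ h; have := label_lt al hal k; omega
      · intro k _ h; have := label_lt al hal k; omega
  rw [← Nat.card_image_of_injOn hinj]
  have : rr n '' (Set.range (cnt (compLabel al) (compLabel be))) =
      ↑((Fintype.piFinset fun i : Fin n => Finset.finsuppAntidiag (univ : Finset (Fin n)) (al i)).filter
      (fun p => ∑ i, p i = fs be)) := by
    ext p
    simp only [Set.mem_image, Set.mem_range, exists_exists_eq_and, Finset.coe_filter, Fintype.mem_piFinset,
      Finset.mem_finsuppAntidiag, Set.mem_setOf_eq]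
    constructor
    · rintro ⟨w, rfl⟩
      refine ⟨fun i => ⟨?_, Finset.subset_univ _⟩, ?_⟩
      · rw [← card_label al hal i, ← cnt_row (compLabel al) (compLabel be) (label_lt be hbe) w]
        rfl
      · ext j
        rw [Finsupp.finsetSum_apply, fs_apply, ← card_label be hbe j, ← cnt_col (compLabel al) (compLabel be) (label_lt al hal) w]
        rfl
    · rintro ⟨h1, h2⟩
      obtain ⟨w, hw⟩ := exists_cnt (compLabel al) (compLabel be) (label_lt al hal) (label_lt be hbe) (fun i j => p i j)
        (fun i => by rw [card_label al hal]; exact (h1 i).1)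
        (fun j => by
          rw [card_label be hbe]
          have := DFunLike.congr_fun h2 j
          rw [Finsupp.finsetSum_apply] at this
          exact this)
      refine ⟨w, ?_⟩
      funext i
      ext j
      exact hw i j
  rw [this, Nat.card_coe_set_eq, Set.ncard_coe_finset]

end margins

end Cfsg.Agent.H8.GLP
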