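import Mathlib
import Cfsg.Agent.H8.GP4
import Cfsg.Agent.H4.Mult
import Cfsg.Agent.H4.Perm

/-! Orthonormality of the unipotent characters of GL_n. -/

set_option autoImplicit false

namespace Cfsg.Agent.H8.GLP

open Cfsg.Agent Cfsg.Agent.H4
open scoped ComplexConjugate
open Finset

section gen

universe u
variable {G : Type u} [Group G] [Fintype G]

theorem gen_norm_one (τ : G → ℂ) (hτ : IsGeneralizedCharacter G τ) (h2 : classInner τ τ = 1)
    (h1 : 0 < (τ 1).re) : IsIrrCharacter G τ := by
  classical
  obtain ⟨m, hm1, hm2⟩ := IsGenChar.exists_mult hτ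
  have hcl := H5.IsGeneralizedCharacter.classFun' hτ
  have hsum : ∑ ψ : IrrCharacter G, m ψ * m ψ = 1 := by
    rw [H5.classInner_eq_sum hcl] at h2
    simp only [hm1, map_intCast] at h2
    exact_mod_cast h2
  have hex : ∃ ψ, m ψ ≠ 0 := by
    by_contra h
    push Not at h
    rw [Finset.sum_eq_zero (fun ψ _ => by rw [h ψ, mul_zero])] at hsum
    exact zero_ne_one hsum
  obtain ⟨a, ha⟩ := hex
  have h3 : ∀ ψ, ψ ≠ a → m ψ = 0 := by
    intro ψ hψ
    by_contra h0
    have h4 : m ψ * m ψ + m a * m a ≤ 1 := by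
      rw [← hsum, ← Finset.sum_pair hψ (f := fun ψ => m ψ * m ψ)]
      exact Finset.sum_le_sum_of_subset_of_nonneg (Finset.subset_univ _) (fun _ _ _ => mul_self_nonneg _)
    have h5 : 1 ≤ m ψ * m ψ := Int.add_one_le_iff.mpr (lt_of_le_of_ne (mul_self_nonneg _) (Ne.symm (mul_self_ne_zero.mpr h0)))
    have h6 : 1 ≤ m a * m a := Int.add_one_le_iff.mpr (lt_of_le_of_ne (mul_self_nonneg _) (Ne.symm (mul_self_ne_zero.mpr ha)))
    omega
  have h4 : ∀ g, τ g = (m a : ℂ) * (a : G → ℂ) g := by
    intro g
    rw [hm2 g, Finset.sum_eq_single a]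
    · intro ψ _ hψ; rw [h3 ψ hψ]; simp
    · intro h; exact absurd (Finset.mem_univ _) h
  have h5 : m a * m a = 1 := by
    rw [← hsum, Finset.sum_eq_single a]
    · intro ψ _ hψ; rw [h3 ψ hψ]; simp
    · intro h; exact absurd (Finset.mem_univ _) h
  obtain ⟨d, hd, hd'⟩ := IsIrr.exists_degree a.2
  have h6 : m a = 1 := by
    have h7 : m a = 1 ∨ m a = -1 := by
      have := mul_self_eq_one_iff.mp h5
      exact this
    rcases h7 with h | h
    · exact h
    · exfalso
      rw [h4 1, h, hd'] at h1
      have hd2 : (0 : ℝ) ≤ d := Nat.cast_nonneg d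
      simp at h1
      linarith
  have : τ = (a : G → ℂ) := by
    funext g
    rw [h4 g, h6]; simp
  rw [this]
  exact a.2

end gen

section main

variable {n : ℕ} {F : Type*} [Field F] [Fintype F]

theorem fpc_conj {G : Type*} [Group G] (H : Subgroup G) (g : G) :
    conj (fixedPointCharacter H g) = fixedPointCharacter H g := by
  rw [fixedPointCharacter, map_natCast]

theorem sum_comp (ν : Fin n → ℕ) (hsum : ∑ i, ν i = n) (κ : Equiv.Perm (Fin n))
    (h : ∀ i, (κ i).val ≤ ν i + i.val) : ∑ i, (ν i + i.val - (κ i).val) = n := by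
  have h1 : ∑ i, (ν i + i.val - (κ i).val) + ∑ i, (κ i).val = ∑ i, (ν i + i.val) := by
    rw [← Finset.sum_add_distrib]
    apply Finset.sum_congr rfl
    intro i _
    have := h i
    omega
  rw [Finset.sum_add_distrib, hsum, Equiv.sum_comp κ (fun i => i.val)] at h1
  omega

theorem inner_parab [Fintype (GL (Fin n) F)] (al be : Fin n → ℕ) (hal : ∑ i, al i = n) (hbe : ∑ i, be i = n) :
    (Nat.card (GL (Fin n) F) : ℂ)⁻¹ * ∑ g : GL (Fin n) F,
      fixedPointCharacter (parabolicGL n F al) g * fixedPointCharacter (parabolicGL n F be) g = (NN al be : ℂ) := by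
  rw [parabolic_eq, parabolic_eq, inner_GL (compLabel_mono al) (compLabel_mono be), ← card_range_cnt al be hal hbe]
  norm_cast

theorem inner_uc [Fintype (GL (Fin n) F)] (ν ν' : Fin n → ℕ) (hmono : Monotone ν) (hsum : ∑ i, ν i = n)
    (hmono' : Monotone ν') (hsum' : ∑ i, ν' i = n) :
    (Nat.card (GL (Fin n) F) : ℂ)⁻¹ * ∑ g : GL (Fin n) F,
      unipotentCharacterGL n F ν g * unipotentCharacterGL n F ν' g = if ν = ν' then 1 else 0 := by
  have hs : ∀ ν : Fin n → ℕ, Monotone ν → StrictMono (fun i : Fin n => ν i + i.val) := by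
    intro ν h i j hij
    have := h hij.le
    have h2 : i.val < j.val := hij
    show ν i + i.val < ν j + j.val
    omega
  have ho := ortho (hs ν hmono) (hs ν' hmono')
  have e1 : ((fun i : Fin n => ν i + i.val) = fun i : Fin n => ν' i + i.val) ↔ ν = ν' := by
    constructor
    · intro h
      funext i
      have := congrFun h i
      omega
    · intro h; rw [h]
  simp only [e1] at ho
  have ho' := congrArg (fun z : ℤ => (z : ℂ)) ho
  push_cast at ho'
  have e2 : (if ν = ν' then (1 : ℂ) else 0) = if ν = ν' then 1 else 0 := rfl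
  rw [← ho']
  simp only [unipotentCharacterGL]
  have e3 : ∀ g : GL (Fin n) F,
      (∑ κ : Equiv.Perm (Fin n),
        if ∀ i : Fin n, (κ i).val ≤ ν i + i.val then
          ((Equiv.Perm.sign κ : ℤ) : ℂ) * fixedPointCharacter (parabolicGL n F fun i => ν i + i.val - (κ i).val) g
        else 0) *
      (∑ κ' : Equiv.Perm (Fin n),
        if ∀ i : Fin n, (κ' i).val ≤ ν' i + i.val then
          ((Equiv.Perm.sign κ' : ℤ) : ℂ) * fixedPointCharacter (parabolicGL n F fun i => ν' i + i.val - (κ' i).val) g
        else 0) =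
      ∑ κ' : Equiv.Perm (Fin n), ∑ κ : Equiv.Perm (Fin n),
        if (∀ i, (κ' i).val ≤ ν' i + i.val) ∧ (∀ i, (κ i).val ≤ ν i + i.val) then
          (((Equiv.Perm.sign κ' : ℤ) : ℂ) * ((Equiv.Perm.sign κ : ℤ) : ℂ)) *
          (fixedPointCharacter (parabolicGL n F fun i => ν i + i.val - (κ i).val) g *
          fixedPointCharacter (parabolicGL n F fun i => ν' i + i.val - (κ' i).val) g)
        else 0 := by
    intro g
    rw [mul_comm, Finset.sum_mul_sum]
    apply Finset.sum_congr rfl
    intro κ' _
    apply Finset.sum_congr rfl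
    intro κ _
    by_cases h1 : ∀ i : Fin n, (κ' i).val ≤ ν' i + i.val
    · by_cases h2 : ∀ i : Fin n, (κ i).val ≤ ν i + i.val
      · rw [if_pos h1, if_pos h2, if_pos ⟨h1, h2⟩]; ring
      · rw [if_neg h2, if_neg (not_and_of_not_right _ h2), mul_zero]
    · rw [if_neg h1, if_neg (not_and_of_not_left _ h1), zero_mul]
  simp only [e3]
  rw [Finset.sum_comm, Finset.mul_sum]
  apply Finset.sum_congr rfl
  intro κ' _
  rw [Finset.sum_comm, Finset.mul_sum]
  apply Finset.sum_congr rfl
  intro κ _
  by_cases h : (∀ i, (κ' i).val ≤ ν' i + i.val) ∧ (∀ i, (κ i).val ≤ ν i + i.val)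
  · simp only [if_pos h]
    rw [← Finset.mul_sum, mul_left_comm,
      inner_parab _ _ (sum_comp ν hsum κ h.2) (sum_comp ν' hsum' κ' h.1)]
  · simp only [if_neg h]
    simp

theorem uc_gen (ν : Fin n → ℕ) : IsGeneralizedCharacter (GL (Fin n) F) (unipotentCharacterGL n F ν) := by
  classical
  haveI : Fintype (GL (Fin n) F) := Fintype.ofFinite _
  have hz : IsGeneralizedCharacter (GL (Fin n) F) (fun _ => (0 : ℂ)) := by
    have h0 : IsCharacter (GL (Fin n) F) (fun g => fixedPointCharacter (⊤ : Subgroup (GL (Fin n) F)) g) :=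
      isCharacter_perm
    exact ⟨_, _, h0, h0, by funext g; simp⟩
  have : ∀ s : Finset (Equiv.Perm (Fin n)), IsGeneralizedCharacter (GL (Fin n) F)
      (fun g => ∑ κ ∈ s, if ∀ i : Fin n, (κ i).val ≤ ν i + i.val then
      ((Equiv.Perm.sign κ : ℤ) : ℂ) * fixedPointCharacter (parabolicGL n F fun i => ν i + i.val - (κ i).val) g
    else 0) := by
    intro s
    induction s using Finset.induction_on with
    | empty => simpa using hz
    | insert x s hx ih =>
      simp only [Finset.sum_insert hx]
      refine H5.isGeneralized_add ?_ ih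
      by_cases h : ∀ i : Fin n, (x i).val ≤ ν i + i.val
      · simp only [if_pos h]
        have hg : IsGeneralizedCharacter (GL (Fin n) F)
            (fun g => fixedPointCharacter (parabolicGL n F fun i => ν i + i.val - (x i).val) g) := by
          have h0 : IsCharacter (GL (Fin n) F)
            (fun g => fixedPointCharacter (parabolicGL n F fun i => ν i + i.val - (x i).val) g) := isCharacter_perm
          obtain ⟨a, b, ha, hb, hab⟩ := hz
          exact ⟨_ , _, H5.isCharacter_add h0 ha, hb, by
            funext g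
            have := congrFun hab g
            simp only [Pi.sub_apply, Pi.add_apply] at this ⊢
            rw [add_sub_assoc, ← this, add_zero]⟩
        rcases Int.units_eq_one_or (Equiv.Perm.sign x) with h1 | h1
        · rw [h1]; simpa using hg
        · rw [h1]
          have := H5.isGeneralized_neg hg
          have e : (fun g => (((-1 : ℤˣ) : ℤ) : ℂ) * fixedPointCharacter (parabolicGL n F fun i => ν i + i.val - (x i).val) g) =
            -(fun g => fixedPointCharacter (parabolicGL n F fun i => ν i + i.val - (x i).val) g) := by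
            funext g; simp
          rw [e]
          exact this
      · simp only [if_neg h]
        exact hz
  exact this univ

end main

end Cfsg.Agent.H8.GLP
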