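import Mathlib
import Cfsg.Agent.H8.GP4

/-! Order of the parabolic subgroups. -/

set_option autoImplicit false

namespace Cfsg.Agent.H8.GLP

open Finset Matrix
open scoped MatrixGroups

section qn

def qi (q k : ℕ) : ℕ := ∑ l ∈ range k, q ^ l

def qf (q m : ℕ) : ℕ := ∏ j ∈ range m, qi q (j + 1)

def tri (m : ℕ) : ℕ := ∑ i ∈ range m, i

theorem qi_mul (q : ℕ) (hq : 1 ≤ q) (k : ℕ) : qi q k * (q - 1) + 1 = q ^ k := by
  induction k with
  | zero => simp [qi]
  | succ k ih =>
    rw [qi, Finset.sum_range_succ, add_mul, pow_succ]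
    have h1 : (∑ l ∈ range k, q ^ l) * (q - 1) + 1 = q ^ k := ih
    have h2 : q ^ k * (q - 1) + q ^ k = q ^ k * q := by
      conv_lhs => rw [← Nat.mul_succ]
      congr 1; omega
    omega

theorem prod_card (q : ℕ) (hq : 2 ≤ q) (m : ℕ) :
    ∏ i ∈ range m, (q ^ m - q ^ i) = q ^ (tri m) * (q - 1) ^ m * qf q m := by
  have h1 : ∀ i ∈ range m, q ^ m - q ^ i = q ^ i * ((q - 1) * qi q (m - i)) := by
    intro i hi
    rw [Finset.mem_range] at hi
    have h2 := qi_mul q (by omega) (m - i)
    have h3 : q ^ m = q ^ i * q ^ (m - i) := by rw [← pow_add]; congr 1; omega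
    rw [h3, ← h2, mul_add, mul_one, Nat.add_sub_cancel, mul_comm (qi q (m-i))]
  rw [Finset.prod_congr rfl h1, Finset.prod_mul_distrib, Finset.prod_mul_distrib, Finset.prod_const,
    Finset.card_range, Finset.prod_pow_eq_pow_sum, ← mul_assoc, tri]
  congr 1
  rw [qf]
  have := Finset.prod_range_reflect (fun j => qi q (j + 1)) m
  rw [← this]
  apply Finset.prod_congr rfl
  intro i hi
  rw [Finset.mem_range] at hi
  congr 1
  omega

theorem tri_two (m : ℕ) : 2 * tri m + m = m * m := by
  have := Finset.sum_range_id_mul_two m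
  rw [tri]
  cases m with
  | zero => simp
  | succ m =>
    simp only [Nat.add_sub_cancel] at this
    nlinarith

end qn

section gl

variable {F : Type*} [Field F] [Fintype F]

theorem card_GL_type {ι : Type*} [Fintype ι] [DecidableEq ι] (m : ℕ) (hm : Fintype.card ι = m) :
    Nat.card (GL ι F) = (Fintype.card F) ^ (tri m) * (Fintype.card F - 1) ^ m * qf (Fintype.card F) m := by
  subst hm
  have e : GL ι F ≃* GL (Fin (Fintype.card ι)) F :=
    Units.mapEquiv (Matrix.reindexAlgEquiv F F (Fintype.equivFin ι)).toMulEquiv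
  rw [Nat.card_congr e.toEquiv, Matrix.card_GL_field, ← prod_card _ Fintype.one_lt_card]
  exact Finset.prod_range (fun i => (Fintype.card F ^ (Fintype.card ι) - Fintype.card F ^ i)) |>.symm

end gl

section par

variable {n : ℕ} {F : Type*} [Field F] [Fintype F]

theorem det_blk {a : Fin n → ℕ} {g : GL (Fin n) F} (hg : g ∈ PG F a) (s : ℕ) :
    (((g : Matrix (Fin n) (Fin n) F).toSquareBlock a s)).det ≠ 0 := by
  by_cases hs : s ∈ univ.image a
  · have h1 : (g : Matrix (Fin n) (Fin n) F).det ≠ 0 := (Matrix.isUnit_iff_isUnit_det _).mp g.isUnit |>.ne_zero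
    have h2 : (g : Matrix (Fin n) (Fin n) F).BlockTriangular a := hg
    rw [h2.det] at h1
    exact Finset.prod_ne_zero_iff.mp h1 s hs
  · haveI : IsEmpty {i : Fin n // a i = s} := ⟨fun i => hs (Finset.mem_image.mpr ⟨i.1, Finset.mem_univ _, i.2⟩)⟩
    rw [Matrix.det_isEmpty]
    exact one_ne_zero

theorem card_PG (a : Fin n → ℕ) (ha : ∀ i, a i < n) :
    Nat.card (PG F a) = (∏ s : Fin n, Nat.card (GL {i : Fin n // a i = s.val} F)) *
      Fintype.card F ^ (univ.filter fun p : Fin n × Fin n => a p.1 < a p.2).card := by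
  classical
  let mk : (∀ s : Fin n, GL {i : Fin n // a i = s.val} F) → ({p : Fin n × Fin n // a p.1 < a p.2} → F) →
      Matrix (Fin n) (Fin n) F := fun B u => Matrix.of fun i j =>
      if h : a i = a j then (B ⟨a j, ha j⟩).val (⟨i, h⟩ : {i : Fin n // a i = a j}) (⟨j, rfl⟩ : {i : Fin n // a i = a j})
      else if h : a i < a j then u ⟨(i, j), h⟩ else 0
  have hmkt : ∀ B u, (mk B u).BlockTriangular a := by
    intro B u i j hij
    have hij' : a j < a i := hij
    show (if h : a i = a j then _ else _) = (0 : F)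
    rw [dif_neg (by omega), dif_neg (by omega)]
  have hmkb : ∀ B u (s : Fin n), (mk B u).toSquareBlock a s.val = (B s).val := by
    intro B u s
    ext ⟨i, hi⟩ ⟨j, hj⟩
    show (if h : a i = a j then _ else _) = _
    obtain ⟨s, hs⟩ := s
    simp only at hi hj
    subst hj
    rw [dif_pos hi]
  have hdet : ∀ B u, (mk B u).det ≠ 0 := by
    intro B u
    rw [(hmkt B u).det]
    apply Finset.prod_ne_zero_iff.mpr
    intro s hs
    obtain ⟨i, _, rfl⟩ := Finset.mem_image.mp hs
    rw [hmkb B u ⟨a i, ha i⟩]
    exact (Matrix.isUnit_iff_isUnit_det _).mp (B ⟨a i, ha i⟩).isUnit |>.ne_zero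
  have e : PG F a ≃ (∀ s : Fin n, GL {i : Fin n // a i = s.val} F) × ({p : Fin n × Fin n // a p.1 < a p.2} → F) :=
    { toFun := fun g => (fun s => Matrix.GeneralLinearGroup.mkOfDetNeZero _ (det_blk g.2 s.val),
        fun p => (g.1 : Matrix (Fin n) (Fin n) F) p.1.1 p.1.2)
      invFun := fun x => ⟨Matrix.GeneralLinearGroup.mkOfDetNeZero (mk x.1 x.2) (hdet x.1 x.2), hmkt x.1 x.2⟩
      left_inv := fun g => by
        apply Subtype.ext
        apply Units.ext
        show mk _ _ = (g.1 : Matrix (Fin n) (Fin n) F)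
        ext i j
        show (if h : a i = a j then _ else _) = _
        by_cases h : a i = a j
        · rw [dif_pos h]
          rfl
        · rw [dif_neg h]
          by_cases h2 : a i < a j
          · rw [dif_pos h2]
          · rw [dif_neg h2]
            exact (mem_PG.mp g.2 i j (by omega)).symm
      right_inv := fun x => by
        apply Prod.ext
        · funext s
          apply Units.ext
          exact hmkb x.1 x.2 s
        · funext p
          show (if h : a p.1.1 = a p.1.2 then _ else _) = _
          have := p.2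
          rw [dif_neg (by omega), dif_pos p.2] }
  rw [Nat.card_congr e, Nat.card_prod, Nat.card_pi]
  congr 1
  rw [Nat.card_eq_fintype_card, Fintype.card_fun, Fintype.card_subtype]

theorem pairs_card (a : Fin n → ℕ) (ha : ∀ i, a i < n) :
    2 * (univ.filter fun p : Fin n × Fin n => a p.1 < a p.2).card +
      ∑ s : Fin n, (univ.filter fun i : Fin n => a i = s.val).card * (univ.filter fun i : Fin n => a i = s.val).card = n * n := by
  have h1 : (univ.filter fun p : Fin n × Fin n => a p.1 < a p.2).card =
      (univ.filter fun p : Fin n × Fin n => a p.2 < a p.1).card := by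
    rw [Finset.card_filter, Finset.card_filter]
    exact Equiv.sum_comp (Equiv.prodComm (Fin n) (Fin n)) (fun p => if a p.2 < a p.1 then 1 else 0)
  have h2 : ∑ s : Fin n, (univ.filter fun i : Fin n => a i = s.val).card * (univ.filter fun i : Fin n => a i = s.val).card =
      (univ.filter fun p : Fin n × Fin n => a p.1 = a p.2).card := by
    rw [Finset.card_eq_sum_card_fiberwise (t := (univ : Finset (Fin n))) (f := fun p => (⟨a p.1, ha p.1⟩ : Fin n))
      (fun x _ => Finset.mem_univ _)]
    apply Finset.sum_congr rfl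
    intro s _
    rw [← Finset.card_product]
    congr 1
    ext p
    simp only [Finset.mem_product, Finset.mem_filter, Finset.mem_univ, true_and, Fin.ext_iff]
    constructor
    · rintro ⟨h3, h4⟩; exact ⟨by omega, h3⟩
    · rintro ⟨h3, h4⟩; exact ⟨h4, by omega⟩
  have h3 : (univ.filter fun p : Fin n × Fin n => a p.1 < a p.2).card +
      (univ.filter fun p : Fin n × Fin n => a p.2 < a p.1).card +
      (univ.filter fun p : Fin n × Fin n => a p.1 = a p.2).card = n * n := by
    rw [Finset.card_filter, Finset.card_filter, Finset.card_filter, ← Finset.sum_add_distrib, ← Finset.sum_add_distrib]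
    have : ∀ p : Fin n × Fin n, ((if a p.1 < a p.2 then 1 else 0) + (if a p.2 < a p.1 then 1 else 0) +
      (if a p.1 = a p.2 then 1 else 0) : ℕ) = 1 := by
      intro p
      split_ifs <;> omega
    rw [Finset.sum_congr rfl (fun p _ => this p)]
    simp
  omega

theorem index_parab (μ : Fin n → ℕ) (hμ : ∑ i, μ i = n) :
    Nat.card (GL (Fin n) F ⧸ parabolicGL n F μ) * ∏ i : Fin n, qf (Fintype.card F) (μ i) = qf (Fintype.card F) n := by
  have hq : 2 ≤ Fintype.card F := Fintype.one_lt_card
  set q := Fintype.card F with hqdef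
  have h1 := Subgroup.card_eq_card_quotient_mul_card_subgroup (PG F (compLabel μ))
  rw [card_PG _ (label_lt μ hμ)] at h1
  have h2 : ∀ s : Fin n, Nat.card (GL {i : Fin n // compLabel μ i = s.val} F) =
      q ^ (tri (μ s)) * (q - 1) ^ (μ s) * qf q (μ s) := by
    intro s
    apply card_GL_type
    rw [Fintype.card_subtype, card_label μ hμ]
  simp only [h2] at h1
  rw [Finset.prod_mul_distrib, Finset.prod_mul_distrib, Finset.prod_pow_eq_pow_sum, Finset.prod_pow_eq_pow_sum, hμ] at h1
  rw [card_GL_type n (Fintype.card_fin n), ← hqdef] at h1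
  have h3 := pairs_card (compLabel μ) (label_lt μ hμ)
  simp only [card_label μ hμ] at h3
  have h4 : ∑ s : Fin n, tri (μ s) + (univ.filter fun p : Fin n × Fin n => compLabel μ p.1 < compLabel μ p.2).card = tri n := by
    have h5 := tri_two n
    have h6 : 2 * ∑ s : Fin n, tri (μ s) + ∑ s : Fin n, μ s = ∑ s : Fin n, μ s * μ s := by
      rw [Finset.mul_sum, ← Finset.sum_add_distrib]
      exact Finset.sum_congr rfl (fun s _ => tri_two (μ s))
    omega
  rw [← h4, pow_add] at h1
  have hpos : 0 < q ^ (∑ s : Fin n, tri (μ s)) * q ^ ((univ.filter fun p : Fin n × Fin n => compLabel μ p.1 < compLabel μ p.2).card) * (q - 1) ^ n := by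
    have : 0 < q - 1 := by omega
    have : 0 < q := by omega
    positivity
  rw [parabolic_eq]
  apply Nat.eq_of_mul_eq_mul_left hpos
  rw [h1]
  ring

end par

end Cfsg.Agent.H8.GLP
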