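import Mathlib
import Cfsg.Agent.H8.GP5
import Cfsg.Agent.H8.GP6

/-! Degrees of the unipotent characters of GL_n. -/

set_option autoImplicit false

namespace Cfsg.Agent.H8.GLP

open Finset Matrix
open scoped MatrixGroups

theorem qi_sub (q : ℕ) (a k : ℕ) (h : k ≤ a) : qi q (a - k) * q ^ k + qi q k = qi q a := by
  obtain ⟨b, rfl⟩ := Nat.exists_eq_add_of_le h
  rw [Nat.add_sub_cancel_left, qi, qi, qi, Finset.sum_range_add, Finset.sum_mul, add_comm]
  congr 1
  apply Finset.sum_congr rfl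
  intro i _
  rw [pow_add, mul_comm]

theorem qf_split (q : ℕ) (a j : ℕ) (h : j ≤ a) :
    qf q a = qf q (a - j) * ∏ k ∈ range j, qi q (a - k) := by
  induction j with
  | zero => simp
  | succ j ih =>
    rw [ih (by omega), Finset.prod_range_succ]
    obtain ⟨b, hb⟩ : ∃ b, a - j = b + 1 := ⟨a - j - 1, by omega⟩
    rw [show a - (j + 1) = b by omega, hb, qf, Finset.prod_range_succ]
    rw [← qf]
    ring

theorem qf_pos (q : ℕ) (hq : 1 ≤ q) (m : ℕ) : 0 < qf q m := by
  apply Finset.prod_pos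
  intro j _
  rw [qi, Finset.sum_range_succ]
  have : 0 < q ^ j := Nat.pos_of_ne_zero (pow_ne_zero _ (by omega))
  omega

theorem qi_lt (q : ℕ) (hq : 1 ≤ q) {a b : ℕ} (h : a < b) : qi q a < qi q b := by
  have := qi_sub q b a h.le
  obtain ⟨c, hc⟩ : ∃ c, b - a = c + 1 := ⟨b - a - 1, by omega⟩
  rw [hc] at this
  have h1 : 0 < qi q (c + 1) := by
    rw [qi, Finset.sum_range_succ]
    have : 0 < q ^ c := Nat.pos_of_ne_zero (pow_ne_zero _ (by omega))
    omega
  have h2 : 0 < qi q (c + 1) * q ^ a := Nat.mul_pos h1 (Nat.pos_of_ne_zero (pow_ne_zero _ (by omega)))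
  omega

/-- entry identity -/
theorem entry (q : ℕ) (hq : 1 ≤ q) (a j : ℕ) :
    (qf q a : ℂ) * ((q : ℂ) ^ (tri j) * (if j ≤ a then ((qf q (a - j) : ℕ) : ℂ)⁻¹ else 0)) =
      ∏ k ∈ range j, (((qi q a : ℕ) : ℂ) - ((qi q k : ℕ) : ℂ)) := by
  by_cases h : j ≤ a
  · rw [if_pos h, qf_split q a j h]
    have hne : ((qf q (a - j) : ℕ) : ℂ) ≠ 0 := by
      have := qf_pos q hq (a - j)
      exact_mod_cast this.ne'
    have h1 : ∀ k ∈ range j, (((qi q a : ℕ) : ℂ) - ((qi q k : ℕ) : ℂ)) = ((qi q (a - k) : ℕ) : ℂ) * (q : ℂ) ^ k := by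
      intro k hk
      rw [Finset.mem_range] at hk
      have := qi_sub q a k (by omega)
      rw [← this]
      push_cast
      ring
    rw [Finset.prod_congr rfl h1, Finset.prod_mul_distrib, Finset.prod_pow_eq_pow_sum, ← tri]
    push_cast
    field_simp
  · rw [if_neg h, mul_zero, mul_zero]
    symm
    apply Finset.prod_eq_zero (Finset.mem_range.mpr (show a < j by omega))
    rw [sub_self]

theorem sum_tri (n : ℕ) : 6 * ∑ j ∈ range n, tri j = n * (n - 1) * (n - 2) := by
  induction n with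
  | zero => simp
  | succ n ih =>
    rw [Finset.sum_range_succ, mul_add, ih]
    have h := tri_two n
    rcases n with _ | _ | n
    · simp [tri]
    · simp [tri]
    · simp only [Nat.add_sub_cancel, show n + 1 + 1 - 2 = n from rfl, show n + 1 + 1 + 1 - 1 = n + 2 from rfl,
        show n + 1 + 1 + 1 - 2 = n + 1 from rfl, show n + 1 + 1 - 1 = n + 1 from rfl] at h ⊢
      have h2 : 2 * tri (n + 1 + 1) = (n + 1 + 1) * (n + 1) := by nlinarith
      have h3 : 6 * tri (n + 1 + 1) = 3 * ((n + 1 + 1) * (n + 1)) := by omega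
      rw [h3]
      ring

section main

variable {n : ℕ} {F : Type*} [Field F] [Fintype F]

theorem fpc_one {G : Type*} [Group G] (H : Subgroup G) :
    fixedPointCharacter H 1 = (Nat.card (G ⧸ H) : ℂ) := by
  rw [fixedPointCharacter]
  congr 1
  apply Nat.card_congr
  exact { toFun := fun x => x.1, invFun := fun x => ⟨x, one_smul _ _⟩, left_inv := fun _ => rfl, right_inv := fun _ => rfl }

theorem degree (ν : Fin n → ℕ) (hsum : ∑ i, ν i = n) :
    unipotentCharacterGL n F ν 1 * ((Fintype.card F : ℂ) ^ (∑ j ∈ range n, tri j) *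
      ∏ i : Fin n, ((qf (Fintype.card F) (ν i + i.val) : ℕ) : ℂ)) =
      ((qf (Fintype.card F) n : ℕ) : ℂ) * ∏ i : Fin n, ∏ j ∈ Finset.univ.filter (fun j : Fin n => i < j),
        (((qi (Fintype.card F) (ν j + j.val) : ℕ) : ℂ) - ((qi (Fintype.card F) (ν i + i.val) : ℕ) : ℂ)) := by
  classical
  set q := Fintype.card F with hq
  have hq1 : 1 ≤ q := by rw [hq]; exact Fintype.card_pos
  let D : Matrix (Fin n) (Fin n) ℂ := Matrix.of fun i j =>
    if j.val ≤ ν i + i.val then ((qf q (ν i + i.val - j.val) : ℕ) : ℂ)⁻¹ else 0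
  have h1 : unipotentCharacterGL n F ν 1 = ((qf q n : ℕ) : ℂ) * D.det := by
    rw [← Matrix.det_transpose, Matrix.det_apply', Finset.mul_sum, unipotentCharacterGL]
    apply Finset.sum_congr rfl
    intro κ _
    by_cases h : ∀ i : Fin n, (κ i).val ≤ ν i + i.val
    · rw [if_pos h, fpc_one]
      have h2 := index_parab (F := F) (fun i => ν i + i.val - (κ i).val) (sum_comp ν hsum κ h)
      rw [← hq] at h2
      rw [← h2]
      have h3 : ∏ i : Fin n, Dᵀ (κ i) i = (∏ i : Fin n, ((qf q (ν i + i.val - (κ i).val) : ℕ) : ℂ))⁻¹ := by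
        rw [← Finset.prod_inv_distrib]
        apply Finset.prod_congr rfl
        intro i _
        show (if (κ i).val ≤ ν i + i.val then _ else _) = _
        rw [if_pos (h i)]
      rw [h3]
      have hne : (∏ i : Fin n, ((qf q (ν i + i.val - (κ i).val) : ℕ) : ℂ)) ≠ 0 := by
        apply Finset.prod_ne_zero_iff.mpr
        intro i _
        have := qf_pos q hq1 (ν i + i.val - (κ i).val)
        exact_mod_cast this.ne'
      push_cast
      field_simp
    · rw [if_neg h]
      push Not at h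
      obtain ⟨i, hi⟩ := h
      have h3 : ∏ i : Fin n, Dᵀ (κ i) i = 0 := by
        apply Finset.prod_eq_zero (Finset.mem_univ i)
        show (if (κ i).val ≤ ν i + i.val then _ else _) = (0 : ℂ)
        rw [if_neg (not_le.mpr hi)]
      rw [h3, mul_zero, mul_zero]
  have h2 : (∏ i : Fin n, ((qf q (ν i + i.val) : ℕ) : ℂ)) * ((∏ j : Fin n, (q : ℂ) ^ (tri j.val)) * D.det) =
      (Matrix.vandermonde (fun i : Fin n => ((qi q (ν i + i.val) : ℕ) : ℂ))).det := by
    rw [← Matrix.det_mul_row, ← Matrix.det_mul_column,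
      Matrix.det_eval_matrixOfPolynomials_eq_det_vandermonde _ (fun j : Fin n => ∏ k ∈ range j.val, (Polynomial.X - Polynomial.C ((qi q k : ℕ) : ℂ)))]
    · congr 1
      ext i j
      simp only [Matrix.of_apply]
      rw [Polynomial.eval_prod]
      simp only [Polynomial.eval_sub, Polynomial.eval_X, Polynomial.eval_C]
      exact entry q hq1 (ν i + i.val) j.val
    · intro j
      rw [Polynomial.natDegree_prod_of_monic _ _ (fun k _ => Polynomial.monic_X_sub_C _)]
      simp only [Polynomial.natDegree_X_sub_C, Finset.sum_const, Finset.card_range, smul_eq_mul, mul_one]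
    · intro j
      exact Polynomial.monic_prod_of_monic _ _ (fun k _ => Polynomial.monic_X_sub_C _)
  have h3 : ∏ j : Fin n, (q : ℂ) ^ (tri j.val) = (q : ℂ) ^ (∑ j ∈ range n, tri j) := by
    rw [Finset.prod_pow_eq_pow_sum, Finset.sum_range (fun j => tri j)]
  rw [h3, Matrix.det_vandermonde] at h2
  have h4 : ∏ i : Fin n, ∏ j ∈ Finset.univ.filter (fun j : Fin n => i < j),
        (((qi q (ν j + j.val) : ℕ) : ℂ) - ((qi q (ν i + i.val) : ℕ) : ℂ)) =
      ∏ i : Fin n, ∏ j ∈ Finset.Ioi i,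
        (((qi q (ν j + j.val) : ℕ) : ℂ) - ((qi q (ν i + i.val) : ℕ) : ℂ)) := by
    apply Finset.prod_congr rfl
    intro i _
    apply Finset.prod_congr _ (fun _ _ => rfl)
    ext j
    simp
  rw [h4, ← h2, h1]
  ring

theorem degree_pos (ν : Fin n → ℕ) (hmono : Monotone ν) (hsum : ∑ i, ν i = n) :
    0 < (unipotentCharacterGL n F ν 1).re := by
  have h := degree (F := F) ν hsum
  set q := Fintype.card F with hq
  have hq1 : 1 ≤ q := by rw [hq]; exact Fintype.card_pos
  have hA : ((q : ℂ) ^ (∑ j ∈ range n, tri j) * ∏ i : Fin n, ((qf q (ν i + i.val) : ℕ) : ℂ)) =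
      (((q : ℝ) ^ (∑ j ∈ range n, tri j) * ∏ i : Fin n, ((qf q (ν i + i.val) : ℕ) : ℝ) : ℝ) : ℂ) := by
    push_cast; rfl
  have hB : (((qf q n : ℕ) : ℂ) * ∏ i : Fin n, ∏ j ∈ Finset.univ.filter (fun j : Fin n => i < j),
        (((qi q (ν j + j.val) : ℕ) : ℂ) - ((qi q (ν i + i.val) : ℕ) : ℂ))) =
      ((((qf q n : ℕ) : ℝ) * ∏ i : Fin n, ∏ j ∈ Finset.univ.filter (fun j : Fin n => i < j),
        (((qi q (ν j + j.val) : ℕ) : ℝ) - ((qi q (ν i + i.val) : ℕ) : ℝ)) : ℝ) : ℂ) := by
    push_cast; rfl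
  rw [hA, hB] at h
  have hApos : 0 < ((q : ℝ) ^ (∑ j ∈ range n, tri j) * ∏ i : Fin n, ((qf q (ν i + i.val) : ℕ) : ℝ)) := by
    apply mul_pos
    · have : (0 : ℝ) < q := by exact_mod_cast hq1
      positivity
    · apply Finset.prod_pos
      intro i _
      exact_mod_cast qf_pos q hq1 _
  have hBpos : 0 < (((qf q n : ℕ) : ℝ) * ∏ i : Fin n, ∏ j ∈ Finset.univ.filter (fun j : Fin n => i < j),
        (((qi q (ν j + j.val) : ℕ) : ℝ) - ((qi q (ν i + i.val) : ℕ) : ℝ))) := by
    apply mul_pos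
    · exact_mod_cast qf_pos q hq1 _
    · apply Finset.prod_pos
      intro i _
      apply Finset.prod_pos
      intro j hj
      have hij : i < j := (Finset.mem_filter.mp hj).2
      have h1 := hmono hij.le
      have h2 : i.val < j.val := hij
      have := qi_lt q hq1 (show ν i + i.val < ν j + j.val by omega)
      rw [sub_pos]
      exact_mod_cast this
  have h2 := congrArg Complex.re h
  rw [Complex.re_mul_ofReal, Complex.ofReal_re] at h2
  rw [← h2] at hBpos
  exact (pos_iff_pos_of_mul_pos hBpos).mpr hApos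

end main

end Cfsg.Agent.H8.GLP
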