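import Mathlib
import Cfsg.Agent.H4.LinChar
import Cfsg.Agent.H4.Induced

/-! Mackey formula for two double cosets. -/

set_option autoImplicit false

namespace Cfsg.Agent.H8.PS

open Cfsg.Agent.H4
open scoped ComplexConjugate

section lin

variable {K : Type*} [Group K] [Fintype K]

theorem sum_hom (φ ψ : K →* ℂˣ) [Decidable (φ = ψ)] :
    ∑ k, (φ k : ℂ) * conj (ψ k : ℂ) = if φ = ψ then (Nat.card K : ℂ) else 0 := by
  classical
  have h := H5.classInner_irr (⟨_, isIrr_hom φ⟩ : IrrCharacter K) ⟨_, isIrr_hom ψ⟩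
  rw [classInner] at h
  have hne : (Nat.card K : ℂ) ≠ 0 := by exact_mod_cast Nat.card_pos.ne'
  have h2 : ∑ k, (φ k : ℂ) * conj (ψ k : ℂ) = (Nat.card K : ℂ) *
      ((Nat.card K : ℂ)⁻¹ * ∑ k, (φ k : ℂ) * conj (ψ k : ℂ)) := by
    rw [mul_inv_cancel_left₀ hne]
  rw [h2, h]
  by_cases he : φ = ψ
  · subst he
    simp
  · rw [if_neg he, if_neg, mul_zero]
    intro h3
    apply he
    ext k
    exact congrFun (congrArg Subtype.val h3) k

end lin

section mackey

variable {G : Type*} [Group G] (B : Subgroup G) (w : G)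

/-- the stabilizer -/
def TT : Subgroup B where
  carrier := {b | w⁻¹ * b.1 * w ∈ B}
  mul_mem' := fun {a b} ha hb => by
    have : w⁻¹ * (a * b).1 * w = (w⁻¹ * a.1 * w) * (w⁻¹ * b.1 * w) := by
      rw [Subgroup.coe_mul]; group
    show w⁻¹ * (a * b).1 * w ∈ B
    rw [this]; exact B.mul_mem ha hb
  one_mem' := by
    show w⁻¹ * (1 : B).1 * w ∈ B
    rw [Subgroup.coe_one, mul_one, inv_mul_cancel]; exact B.one_mem
  inv_mem' := fun {a} ha => by
    have : w⁻¹ * (a⁻¹).1 * w = (w⁻¹ * a.1 * w)⁻¹ := by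
      rw [Subgroup.coe_inv]; group
    show w⁻¹ * (a⁻¹).1 * w ∈ B
    rw [this]; exact B.inv_mem ha

theorem mem_TT {b : B} : b ∈ TT B w ↔ w⁻¹ * b.1 * w ∈ B := Iff.rfl

/-- the twisted map -/
def tw : TT B w →* B where
  toFun t := ⟨w⁻¹ * t.1.1 * w, t.2⟩
  map_one' := by
    apply Subtype.ext
    show w⁻¹ * (1 : G) * w = 1
    rw [mul_one, inv_mul_cancel]
  map_mul' := fun a b => by
    apply Subtype.ext
    show w⁻¹ * (a.1.1 * b.1.1) * w = (w⁻¹ * a.1.1 * w) * (w⁻¹ * b.1.1 * w)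
    group

variable [Fintype G]

theorem card_TT (hw : w ∉ B) (hG : ∀ g, g ∉ B → ∃ b ∈ B, ∃ c ∈ B, g = b * w * c) :
    ((Nat.card G : ℂ) - Nat.card B) * Nat.card (TT B w) = (Nat.card B : ℂ) * Nat.card B := by
  classical
  -- B acts on G ⧸ B
  have h1 : Nat.card (MulAction.orbit B ((w : G) : G ⧸ B)) * Nat.card (MulAction.stabilizer B ((w : G) : G ⧸ B)) = Nat.card B := by
    rw [← Nat.card_prod]
    exact Nat.card_congr (MulAction.orbitProdStabilizerEquivGroup B ((w : G) : G ⧸ B))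
  have h2 : MulAction.stabilizer B ((w : G) : G ⧸ B) = TT B w := by
    ext b
    rw [MulAction.mem_stabilizer_iff, mem_TT]
    show (((b.1 * w : G) : G ⧸ B) = ((w : G) : G ⧸ B)) ↔ _
    rw [QuotientGroup.eq]
    have : (b.1 * w)⁻¹ * w = (w⁻¹ * b.1 * w)⁻¹ := by group
    rw [this, Subgroup.inv_mem_iff]
  have h3 : MulAction.orbit B ((w : G) : G ⧸ B) = {x | x ≠ ((1 : G) : G ⧸ B)} := by
    ext x
    induction x using QuotientGroup.induction_on with
    | H g =>
      rw [MulAction.mem_orbit_iff]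
      simp only [Set.mem_setOf_eq]
      constructor
      · rintro ⟨b, hb⟩ h
        have hb' : ((b.1 * w : G) : G ⧸ B) = (g : G ⧸ B) := hb
        rw [h, eq_comm, QuotientGroup.eq, inv_one, one_mul] at hb'
        exact hw ((B.mul_mem_cancel_left b.2).mp hb')
      · intro h
        have hg : g ∉ B := by
          intro hg
          apply h
          rw [eq_comm, QuotientGroup.eq, inv_one, one_mul]
          exact hg
        obtain ⟨b, hb, c, hc, e⟩ := hG g hg
        refine ⟨⟨b, hb⟩, ?_⟩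
        show ((b * w : G) : G ⧸ B) = (g : G ⧸ B)
        rw [QuotientGroup.eq, e]
        have : (b * w)⁻¹ * (b * w * c) = c := by group
        rw [this]; exact hc
  have h4 : Nat.card (MulAction.orbit B ((w : G) : G ⧸ B)) + 1 = Nat.card (G ⧸ B) := by
    rw [h3]
    have h5 : {x : G ⧸ B | x ≠ ((1 : G) : G ⧸ B)} = ({((1 : G) : G ⧸ B)} : Set (G ⧸ B))ᶜ := by
      ext x; simp
    rw [h5, Nat.card_coe_set_eq, Set.ncard_compl, Set.ncard_singleton]
    have : 0 < Nat.card (G ⧸ B) := Nat.card_pos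
    omega
  have h5 := Subgroup.card_eq_card_quotient_mul_card_subgroup B
  rw [h2] at h1
  have h6 : (Nat.card G : ℂ) = ((Nat.card (MulAction.orbit B ((w : G) : G ⧸ B)) : ℂ) + 1) * Nat.card B := by
    rw [h5, ← h4]; push_cast; ring
  have h7 : (Nat.card B : ℂ) = (Nat.card (MulAction.orbit B ((w : G) : G ⧸ B)) : ℂ) * Nat.card (TT B w) := by
    exact_mod_cast h1.symm
  rw [h6]
  conv_rhs => rw [h7]
  conv_lhs => rw [h7]
  ring

/-- kernel function -/
noncomputable def kf (θ θ' : B → ℂ) (x : G) : ℂ := ∑ g : G, extendByZero B θ g * conj (extendByZero B θ' (x⁻¹ * g * x))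

theorem ext_conj (θ : B →* ℂˣ) (c : G) (hc : c ∈ B) (g : G) :
    extendByZero B (fun b => (θ b : ℂ)) (c⁻¹ * g * c) = extendByZero B (fun b => (θ b : ℂ)) g := by
  by_cases hg : g ∈ B
  · have h2 : c⁻¹ * g * c ∈ B := B.mul_mem (B.mul_mem (B.inv_mem hc) hg) hc
    rw [extendByZero_mem B _ h2, extendByZero_mem B _ hg]
    have : (⟨c⁻¹ * g * c, h2⟩ : B) = ⟨c, hc⟩⁻¹ * ⟨g, hg⟩ * ⟨c, hc⟩ := rfl
    rw [this, map_mul, map_mul, map_inv, mul_comm (θ ⟨c, hc⟩)⁻¹, inv_mul_cancel_right]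
  · have h2 : c⁻¹ * g * c ∉ B := by
      intro h
      apply hg
      have : g = c * (c⁻¹ * g * c) * c⁻¹ := by group
      rw [this]
      exact B.mul_mem (B.mul_mem hc h) (B.inv_mem hc)
    rw [extendByZero_not_mem B _ h2, extendByZero_not_mem B _ hg]

theorem kf_right (θ θ' : B →* ℂˣ) (x c : G) (hc : c ∈ B) :
    kf B (fun b => (θ b : ℂ)) (fun b => (θ' b : ℂ)) (x * c) = kf B (fun b => (θ b : ℂ)) (fun b => (θ' b : ℂ)) x := by
  unfold kf
  apply Finset.sum_congr rfl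
  intro g _
  have : (x * c)⁻¹ * g * (x * c) = c⁻¹ * (x⁻¹ * g * x) * c := by group
  rw [this, ext_conj B θ' c hc]

theorem kf_left (θ θ' : B →* ℂˣ) (x c : G) (hc : c ∈ B) :
    kf B (fun b => (θ b : ℂ)) (fun b => (θ' b : ℂ)) (c * x) = kf B (fun b => (θ b : ℂ)) (fun b => (θ' b : ℂ)) x := by
  unfold kf
  rw [← Equiv.sum_comp (MulAut.conj c).toEquiv]
  apply Finset.sum_congr rfl
  intro g _
  show extendByZero B (fun b => (θ b : ℂ)) (c * g * c⁻¹) * conj (extendByZero B (fun b => (θ' b : ℂ)) ((c * x)⁻¹ * (c * g * c⁻¹) * (c * x))) = _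
  have h1 : (c * x)⁻¹ * (c * g * c⁻¹) * (c * x) = x⁻¹ * g * x := by group
  have h2 : c * g * c⁻¹ = (c⁻¹)⁻¹ * g * c⁻¹ := by group
  rw [h1, h2, ext_conj B θ c⁻¹ (B.inv_mem hc)]

open Classical in
theorem kf_one (θ θ' : B →* ℂˣ) :
    kf B (fun b => (θ b : ℂ)) (fun b => (θ' b : ℂ)) 1 = if θ = θ' then (Nat.card B : ℂ) else 0 := by
  have h := sum_extendByZero_mul B (fun b => (θ b : ℂ)) (fun g => conj (extendByZero B (fun b => (θ' b : ℂ)) g))
  simp only [extendByZero_coe] at h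
  rw [← sum_hom, ← h]
  unfold kf
  apply Finset.sum_congr rfl
  intro g _
  rw [inv_one, one_mul, mul_one]

open Classical in
theorem kf_w (θ θ' : B →* ℂˣ) :
    kf B (fun b => (θ b : ℂ)) (fun b => (θ' b : ℂ)) w =
      if θ.comp (TT B w).subtype = θ'.comp (tw B w) then (Nat.card (TT B w) : ℂ) else 0 := by
  rw [← sum_hom]
  unfold kf
  rw [sum_extendByZero_mul B (fun b => (θ b : ℂ)) (fun g => conj (extendByZero B (fun b => (θ' b : ℂ)) (w⁻¹ * g * w)))]
  have h2 := sum_extendByZero_mul (TT B w) (fun t => ((θ.comp (TT B w).subtype) t : ℂ) * conj ((θ'.comp (tw B w)) t : ℂ)) (fun _ => 1)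
  simp only [mul_one] at h2
  rw [← h2]
  apply Finset.sum_congr rfl
  intro b _
  by_cases hb : b ∈ TT B w
  · rw [extendByZero_mem _ _ hb, extendByZero_mem B _ (mem_TT B w |>.mp hb)]
    rfl
  · rw [extendByZero_not_mem _ _ hb, extendByZero_not_mem B _ (fun h => hb ((mem_TT B w).mpr h)), map_zero, mul_zero]

open Classical in
theorem mackey (hw : w ∉ B) (hG : ∀ g, g ∉ B → ∃ b ∈ B, ∃ c ∈ B, g = b * w * c) (θ θ' : B →* ℂˣ) :
    classInner (indFun B (fun b => (θ b : ℂ))) (indFun B (fun b => (θ' b : ℂ))) =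
      (if θ = θ' then 1 else 0) + (if θ.comp (TT B w).subtype = θ'.comp (tw B w) then 1 else 0) := by
  have hB : (Nat.card B : ℂ) ≠ 0 := by exact_mod_cast Nat.card_pos.ne'
  have hT : (Nat.card (TT B w) : ℂ) ≠ 0 := by exact_mod_cast Nat.card_pos.ne'
  have hGc : (Nat.card G : ℂ) ≠ 0 := by exact_mod_cast Nat.card_pos.ne'
  -- reduce to kf
  have h1 : classInner (indFun B (fun b => (θ b : ℂ))) (indFun B (fun b => (θ' b : ℂ))) =
      (Nat.card B : ℂ)⁻¹ * (Nat.card B : ℂ)⁻¹ * ∑ x : G, kf B (fun b => (θ b : ℂ)) (fun b => (θ' b : ℂ)) x := by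
    rw [frobenius_reciprocity B _ _ (by
      first
        | exact isClassFunction_indFun _ _
        | exact indFun_isClassFunction _ _
        | exact IsClassFunction_indFun _ _)]
    unfold classInner indFun kf
    rw [mul_assoc]
    congr 1
    rw [Finset.sum_comm, Finset.mul_sum,
      ← sum_extendByZero_mul B (fun b => (θ b : ℂ)) (fun g => conj ((Nat.card B : ℂ)⁻¹ * ∑ x : G, extendByZero B (fun b => (θ' b : ℂ)) (x⁻¹ * g * x)))]
    apply Finset.sum_congr rfl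
    intro g _
    rw [map_mul, map_inv₀, map_natCast, map_sum, ← Finset.mul_sum]
    ring
  rw [h1]
  have h2 : ∀ x : G, kf B (fun b => (θ b : ℂ)) (fun b => (θ' b : ℂ)) x =
      (if x ∈ B then (kf B (fun b => (θ b : ℂ)) (fun b => (θ' b : ℂ)) 1 - kf B (fun b => (θ b : ℂ)) (fun b => (θ' b : ℂ)) w) else 0) +
        kf B (fun b => (θ b : ℂ)) (fun b => (θ' b : ℂ)) w := by
    intro x
    by_cases hx : x ∈ B
    · rw [if_pos hx, sub_add_cancel]
      have := kf_right B θ θ' 1 x hx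
      rwa [one_mul] at this
    · rw [if_neg hx, zero_add]
      obtain ⟨b, hb, c, hc, rfl⟩ := hG x hx
      rw [kf_right B θ θ' _ c hc, kf_left B θ θ' _ b hb]
  rw [Finset.sum_congr rfl (fun x _ => h2 x), Finset.sum_add_distrib, Finset.sum_ite, Finset.sum_const_zero, add_zero,
    Finset.sum_const, Finset.sum_const, nsmul_eq_mul, nsmul_eq_mul]
  have h3 : ((Finset.univ.filter (fun x : G => x ∈ B)).card : ℂ) = Nat.card B := by
    rw [Nat.card_eq_fintype_card, Fintype.card_subtype]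
  have h4 : ((Finset.univ : Finset G).card : ℂ) = Nat.card G := by
    rw [Nat.card_eq_fintype_card, Finset.card_univ]
  rw [h3, h4]
  have h5 := card_TT B w hw hG
  have h6 : (Nat.card B : ℂ)⁻¹ * (Nat.card B : ℂ)⁻¹ * ((Nat.card B : ℂ) *
      (kf B (fun b => (θ b : ℂ)) (fun b => (θ' b : ℂ)) 1 - kf B (fun b => (θ b : ℂ)) (fun b => (θ' b : ℂ)) w) +
      (Nat.card G : ℂ) * kf B (fun b => (θ b : ℂ)) (fun b => (θ' b : ℂ)) w) =
      (Nat.card B : ℂ)⁻¹ * kf B (fun b => (θ b : ℂ)) (fun b => (θ' b : ℂ)) 1 +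
      (Nat.card B : ℂ)⁻¹ * (Nat.card B : ℂ)⁻¹ * (((Nat.card G : ℂ) - Nat.card B) * kf B (fun b => (θ b : ℂ)) (fun b => (θ' b : ℂ)) w) := by
    field_simp
    ring
  rw [h6, kf_one, kf_w]
  congr 1
  · split_ifs
    · rw [inv_mul_cancel₀ hB]
    · rw [mul_zero]
  · split_ifs
    · rw [h5]; field_simp
    · rw [mul_zero, mul_zero]

end mackey

end Cfsg.Agent.H8.PS
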