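import Mathlib
import Cfsg.Agent.H8.PS1
import Cfsg.Prelude.Def_ParabolicCharacters

/-! Principal series of GL2 and SL2. -/

set_option autoImplicit false

namespace Cfsg.Agent.H8.PS

open Cfsg.Agent.H4
open scoped ComplexConjugate MatrixGroups
open Matrix

variable {F : Type*} [Field F]

section gl

theorem mem_B {g : GL (Fin 2) F} : g ∈ upperTriangularGL 2 F ↔ (g : Matrix (Fin 2) (Fin 2) F) 1 0 = 0 := by
  constructor
  · intro h
    exact h (show (0 : Fin 2) < 1 by decide)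
  · intro h i j hij
    have hij' : j < i := hij
    fin_cases i <;> fin_cases j
    · exact absurd hij' (by decide)
    · exact absurd hij' (by decide)
    · exact h
    · exact absurd hij' (by decide)

theorem B_mul00 (b c : upperTriangularGL 2 F) :
    ((b * c : upperTriangularGL 2 F).1 : Matrix (Fin 2) (Fin 2) F) 0 0 = (b.1 : Matrix (Fin 2) (Fin 2) F) 0 0 * (c.1 : Matrix (Fin 2) (Fin 2) F) 0 0 := by
  rw [Subgroup.coe_mul, Units.val_mul, Matrix.mul_apply, Fin.sum_univ_two, mem_B.mp c.2, mul_zero, add_zero]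

theorem B_mul11 (b c : upperTriangularGL 2 F) :
    ((b * c : upperTriangularGL 2 F).1 : Matrix (Fin 2) (Fin 2) F) 1 1 = (b.1 : Matrix (Fin 2) (Fin 2) F) 1 1 * (c.1 : Matrix (Fin 2) (Fin 2) F) 1 1 := by
  rw [Subgroup.coe_mul, Units.val_mul, Matrix.mul_apply, Fin.sum_univ_two, mem_B.mp b.2, zero_mul, zero_add]

/-- linear character of B -/
noncomputable def lam (α β : MulChar F ℂ) : upperTriangularGL 2 F →* ℂˣ :=
  MonoidHom.toHomUnits
    { toFun := fun b => α ((b.1 : Matrix (Fin 2) (Fin 2) F) 0 0) * β ((b.1 : Matrix (Fin 2) (Fin 2) F) 1 1)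
      map_one' := by simp
      map_mul' := fun b c => by
        rw [B_mul00, B_mul11, map_mul, map_mul]; ring }

theorem lam_apply (α β : MulChar F ℂ) (b : upperTriangularGL 2 F) :
    (lam α β b : ℂ) = α ((b.1 : Matrix (Fin 2) (Fin 2) F) 0 0) * β ((b.1 : Matrix (Fin 2) (Fin 2) F) 1 1) := rfl

/-- diagonal elements -/
def dg (a d : Fˣ) : GL (Fin 2) F := Matrix.GeneralLinearGroup.mkOfDetNeZero !![(a : F), 0; 0, (d : F)] (by
  rw [Matrix.det_fin_two_of]; simp)

def ww : GL (Fin 2) F := Matrix.GeneralLinearGroup.mkOfDetNeZero !![(0 : F), 1; 1, 0] (by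
  rw [Matrix.det_fin_two_of]; simp)

theorem ww_inv : (ww : GL (Fin 2) F)⁻¹ = ww := by
  rw [inv_eq_iff_mul_eq_one]
  apply Units.ext
  show !![(0 : F), 1; 1, 0] * !![(0 : F), 1; 1, 0] = 1
  ext i j
  fin_cases i <;> fin_cases j <;> simp [Matrix.mul_apply]

theorem conj_ww (g : GL (Fin 2) F) : ((ww⁻¹ * g * ww : GL (Fin 2) F) : Matrix (Fin 2) (Fin 2) F) =
    !![(g : Matrix (Fin 2) (Fin 2) F) 1 1, (g : Matrix (Fin 2) (Fin 2) F) 1 0; (g : Matrix (Fin 2) (Fin 2) F) 0 1, (g : Matrix (Fin 2) (Fin 2) F) 0 0] := by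
  rw [ww_inv]
  show !![(0 : F), 1; 1, 0] * (g : Matrix (Fin 2) (Fin 2) F) * !![(0 : F), 1; 1, 0] = _
  ext i j
  fin_cases i <;> fin_cases j <;> simp [Matrix.mul_apply, Fin.sum_univ_two, Matrix.vecMul, dotProduct]

theorem ww_not_mem : (ww : GL (Fin 2) F) ∉ upperTriangularGL 2 F := by
  rw [mem_B]
  show (!![(0 : F), 1; 1, 0] : Matrix (Fin 2) (Fin 2) F) 1 0 ≠ 0
  simp

theorem gl_dec (g : GL (Fin 2) F) (hg : g ∉ upperTriangularGL 2 F) :
    ∃ b ∈ upperTriangularGL 2 F, ∃ c ∈ upperTriangularGL 2 F, g = b * ww * c := by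
  rw [mem_B] at hg
  let b : GL (Fin 2) F := Matrix.GeneralLinearGroup.mkOfDetNeZero
    !![1, (g : Matrix (Fin 2) (Fin 2) F) 0 0 / (g : Matrix (Fin 2) (Fin 2) F) 1 0; 0, 1] (by
      rw [Matrix.det_fin_two_of]; simp)
  have hb : ((b⁻¹ : GL (Fin 2) F) : Matrix (Fin 2) (Fin 2) F) =
      !![1, - ((g : Matrix (Fin 2) (Fin 2) F) 0 0 / (g : Matrix (Fin 2) (Fin 2) F) 1 0); 0, 1] := by
    have h1 : b⁻¹ = Matrix.GeneralLinearGroup.mkOfDetNeZero
      !![1, - ((g : Matrix (Fin 2) (Fin 2) F) 0 0 / (g : Matrix (Fin 2) (Fin 2) F) 1 0); 0, 1] (by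
      rw [Matrix.det_fin_two_of]; simp) := by
      rw [inv_eq_iff_mul_eq_one]
      apply Units.ext
      show !![1, (g : Matrix (Fin 2) (Fin 2) F) 0 0 / (g : Matrix (Fin 2) (Fin 2) F) 1 0; 0, 1] *
        !![1, - ((g : Matrix (Fin 2) (Fin 2) F) 0 0 / (g : Matrix (Fin 2) (Fin 2) F) 1 0); 0, 1] = 1
      ext i j
      fin_cases i <;> fin_cases j <;> simp [Matrix.mul_apply]
    rw [h1]; rfl
  refine ⟨b, ?_, ww⁻¹ * (b⁻¹ * g), ?_, by group⟩
  · rw [mem_B]
    show (!![1, (g : Matrix (Fin 2) (Fin 2) F) 0 0 / (g : Matrix (Fin 2) (Fin 2) F) 1 0; 0, 1] : Matrix (Fin 2) (Fin 2) F) 1 0 = 0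
    simp
  · rw [mem_B, ww_inv, Units.val_mul, Units.val_mul, hb]
    show (!![(0 : F), 1; 1, 0] * (!![1, - ((g : Matrix (Fin 2) (Fin 2) F) 0 0 / (g : Matrix (Fin 2) (Fin 2) F) 1 0); 0, 1] * (g : Matrix (Fin 2) (Fin 2) F))) 1 0 = 0
    simp only [Matrix.mul_apply, Fin.sum_univ_two, Matrix.of_apply, Matrix.cons_val', Matrix.cons_val_zero, Matrix.cons_val_one,
      Matrix.cons_val_fin_one, Matrix.empty_val']
    field_simp
    ring

theorem lam_eq_iff (α β α' β' : MulChar F ℂ) : lam α β = lam α' β' ↔ α = α' ∧ β = β' := by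
  constructor
  · intro h
    constructor
    · apply MulChar.ext
      intro a
      have h1 := congrArg Units.val (DFunLike.congr_fun h ⟨dg a 1, mem_B.mpr rfl⟩)
      rw [lam_apply, lam_apply] at h1
      have e0 : (dg a 1 : Matrix (Fin 2) (Fin 2) F) 0 0 = a := rfl
      have e1 : (dg a 1 : Matrix (Fin 2) (Fin 2) F) 1 1 = ((1 : Fˣ) : F) := rfl
      simp only at h1
      rw [e0, e1, Units.val_one, map_one, map_one, mul_one, mul_one] at h1
      exact h1
    · apply MulChar.ext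
      intro a
      have h1 := congrArg Units.val (DFunLike.congr_fun h ⟨dg 1 a, mem_B.mpr rfl⟩)
      rw [lam_apply, lam_apply] at h1
      have e0 : (dg 1 a : Matrix (Fin 2) (Fin 2) F) 0 0 = ((1 : Fˣ) : F) := rfl
      have e1 : (dg 1 a : Matrix (Fin 2) (Fin 2) F) 1 1 = a := rfl
      simp only at h1
      rw [e0, e1, Units.val_one, map_one, map_one, one_mul, one_mul] at h1
      exact h1
  · rintro ⟨rfl, rfl⟩; rfl

theorem lam_tw_iff (α β α' β' : MulChar F ℂ) :
    (lam α β).comp (TT (upperTriangularGL 2 F) ww).subtype = (lam α' β').comp (tw (upperTriangularGL 2 F) ww) ↔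
      α = β' ∧ β = α' := by
  have hd : ∀ a d : Fˣ, ∃ h : (dg a d : GL (Fin 2) F) ∈ upperTriangularGL 2 F, (⟨dg a d, h⟩ : upperTriangularGL 2 F) ∈ TT (upperTriangularGL 2 F) ww := by
    intro a d
    refine ⟨mem_B.mpr rfl, ?_⟩
    rw [mem_TT, mem_B, conj_ww]
    rfl
  constructor
  · intro h
    constructor
    · apply MulChar.ext
      intro a
      obtain ⟨h1, h2⟩ := hd a 1
      have h3 := congrArg Units.val (DFunLike.congr_fun h ⟨⟨dg a 1, h1⟩, h2⟩)
      have h4 : (lam α β ⟨dg a 1, h1⟩ : ℂ) = (lam α' β' ⟨ww⁻¹ * dg a 1 * ww, h2⟩ : ℂ) := h3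
      rw [lam_apply, lam_apply] at h4
      simp only at h4
      rw [conj_ww] at h4
      have e0 : (dg a 1 : Matrix (Fin 2) (Fin 2) F) 0 0 = a := rfl
      have e1 : (dg a 1 : Matrix (Fin 2) (Fin 2) F) 1 1 = ((1 : Fˣ) : F) := rfl
      simp only [Matrix.of_apply, Matrix.cons_val', Matrix.cons_val_zero, Matrix.cons_val_one,
        Matrix.cons_val_fin_one, Matrix.empty_val'] at h4
      rw [e0, e1, Units.val_one, map_one, map_one, mul_one, one_mul] at h4
      exact h4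
    · apply MulChar.ext
      intro a
      obtain ⟨h1, h2⟩ := hd 1 a
      have h3 := congrArg Units.val (DFunLike.congr_fun h ⟨⟨dg 1 a, h1⟩, h2⟩)
      have h4 : (lam α β ⟨dg 1 a, h1⟩ : ℂ) = (lam α' β' ⟨ww⁻¹ * dg 1 a * ww, h2⟩ : ℂ) := h3
      rw [lam_apply, lam_apply] at h4
      simp only at h4
      rw [conj_ww] at h4
      have e0 : (dg 1 a : Matrix (Fin 2) (Fin 2) F) 0 0 = ((1 : Fˣ) : F) := rfl
      have e1 : (dg 1 a : Matrix (Fin 2) (Fin 2) F) 1 1 = a := rfl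
      simp only [Matrix.of_apply, Matrix.cons_val', Matrix.cons_val_zero, Matrix.cons_val_one,
        Matrix.cons_val_fin_one, Matrix.empty_val'] at h4
      rw [e0, e1, Units.val_one, map_one, map_one, one_mul, mul_one] at h4
      exact h4
  · rintro ⟨rfl, rfl⟩
    ext t
    show (lam α β t.1 : ℂ) = (lam β α ⟨ww⁻¹ * t.1.1 * ww, t.2⟩ : ℂ)
    rw [lam_apply, lam_apply]
    simp only
    rw [conj_ww]
    simp only [Matrix.of_apply, Matrix.cons_val', Matrix.cons_val_zero, Matrix.cons_val_one,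
        Matrix.cons_val_fin_one, Matrix.empty_val']
    ring

variable [Fintype F]

open Classical in
theorem inner_gl [Fintype (GL (Fin 2) F)] (α β α' β' : MulChar F ℂ) :
    classInner (indFun (upperTriangularGL 2 F) (fun b => (lam α β b : ℂ))) (indFun (upperTriangularGL 2 F) (fun b => (lam α' β' b : ℂ))) =
      (if α = α' ∧ β = β' then 1 else 0) + (if α = β' ∧ β = α' then 1 else 0) := by
  rw [mackey _ ww ww_not_mem gl_dec]
  simp only [lam_eq_iff, lam_tw_iff]

end gl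

section sl

abbrev BS (F : Type*) [Field F] : Subgroup (Matrix.SpecialLinearGroup (Fin 2) F) :=
  (upperTriangularGL 2 F).comap Matrix.SpecialLinearGroup.toGL

theorem mem_BS {g : Matrix.SpecialLinearGroup (Fin 2) F} : g ∈ BS F ↔ g 1 0 = 0 := by
  rw [Subgroup.mem_comap, mem_B]
  rfl

theorem BS_mul00 (b c : BS F) : (b * c : BS F).1 0 0 = b.1 0 0 * c.1 0 0 := by
  rw [Subgroup.coe_mul, Matrix.SpecialLinearGroup.coe_mul, Matrix.mul_apply, Fin.sum_univ_two, mem_BS.mp c.2, mul_zero, add_zero]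

noncomputable def las (α : MulChar F ℂ) : BS F →* ℂˣ :=
  MonoidHom.toHomUnits
    { toFun := fun b => α (b.1 0 0)
      map_one' := by simp
      map_mul' := fun b c => by
        rw [BS_mul00, map_mul] }

theorem las_apply (α : MulChar F ℂ) (b : BS F) : (las α b : ℂ) = α (b.1 0 0) := rfl

def ds (a : Fˣ) : Matrix.SpecialLinearGroup (Fin 2) F := ⟨!![(a : F), 0; 0, ((a⁻¹ : Fˣ) : F)], by
  rw [Matrix.det_fin_two_of]; simp⟩

def ws : Matrix.SpecialLinearGroup (Fin 2) F := ⟨!![(0 : F), 1; -1, 0], by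
  rw [Matrix.det_fin_two_of]; simp⟩

theorem conj_ws (g : Matrix.SpecialLinearGroup (Fin 2) F) : ((ws⁻¹ * g * ws : Matrix.SpecialLinearGroup (Fin 2) F) : Matrix (Fin 2) (Fin 2) F) =
    !![g 1 1, - g 1 0; - g 0 1, g 0 0] := by
  rw [Matrix.SpecialLinearGroup.coe_mul, Matrix.SpecialLinearGroup.coe_mul, Matrix.SpecialLinearGroup.SL2_inv_expl ws]
  show !![(0:F), -1; -(-1), 0] * (g : Matrix (Fin 2) (Fin 2) F) * !![(0 : F), 1; -1, 0] = _
  ext i j
  fin_cases i <;> fin_cases j <;> simp [Matrix.mul_apply, Fin.sum_univ_two, Matrix.vecMul, dotProduct]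

theorem ws_not_mem : (ws : Matrix.SpecialLinearGroup (Fin 2) F) ∉ BS F := by
  rw [mem_BS]
  show (!![(0 : F), 1; -1, 0] : Matrix (Fin 2) (Fin 2) F) 1 0 ≠ 0
  simp

theorem sl_dec (g : Matrix.SpecialLinearGroup (Fin 2) F) (hg : g ∉ BS F) :
    ∃ b ∈ BS F, ∃ c ∈ BS F, g = b * ws * c := by
  rw [mem_BS] at hg
  let b : Matrix.SpecialLinearGroup (Fin 2) F := ⟨!![1, - (g 0 0 / g 1 0); 0, 1], by rw [Matrix.det_fin_two_of]; simp⟩
  refine ⟨b⁻¹, (BS F).inv_mem (mem_BS.mpr rfl), ws⁻¹ * (b * g), ?_, by group⟩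
  rw [mem_BS, Matrix.SpecialLinearGroup.coe_mul, Matrix.SpecialLinearGroup.coe_mul, Matrix.SpecialLinearGroup.SL2_inv_expl ws]
  show (!![(0:F), -1; -(-1), 0] * (!![1, - (g 0 0 / g 1 0); 0, 1] * (g : Matrix (Fin 2) (Fin 2) F))) 1 0 = 0
  simp only [Matrix.mul_apply, Fin.sum_univ_two, Matrix.of_apply, Matrix.cons_val', Matrix.cons_val_zero, Matrix.cons_val_one,
      Matrix.cons_val_fin_one, Matrix.empty_val']
  field_simp
  ring

theorem las_eq_iff (α β : MulChar F ℂ) : las α = las β ↔ α = β := by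
  constructor
  · intro h
    apply MulChar.ext
    intro a
    have h1 := congrArg Units.val (DFunLike.congr_fun h ⟨ds a, mem_BS.mpr rfl⟩)
    rw [las_apply, las_apply] at h1
    exact h1
  · rintro rfl; rfl

theorem las_tw_iff (α β : MulChar F ℂ) :
    (las α).comp (TT (BS F) ws).subtype = (las β).comp (tw (BS F) ws) ↔ α = β⁻¹ := by
  constructor
  · intro h
    apply MulChar.ext
    intro a
    have h1 : (ds a : Matrix.SpecialLinearGroup (Fin 2) F) ∈ BS F := mem_BS.mpr rfl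
    have h2 : (⟨ds a, h1⟩ : BS F) ∈ TT (BS F) ws := by
      rw [mem_TT, mem_BS, conj_ws]
      show - (0 : F) = 0
      exact neg_zero
    have h3 := congrArg Units.val (DFunLike.congr_fun h ⟨⟨ds a, h1⟩, h2⟩)
    have h4 : (las α ⟨ds a, h1⟩ : ℂ) = (las β ⟨ws⁻¹ * ds a * ws, h2⟩ : ℂ) := h3
    rw [las_apply, las_apply] at h4
    simp only at h4
    rw [conj_ws] at h4
    rw [MulChar.inv_apply']
    have e : ((a : F))⁻¹ = ((a⁻¹ : Fˣ) : F) := by simp
    rw [e]
    exact h4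
  · rintro rfl
    ext t
    show (las β⁻¹ t.1 : ℂ) = (las β ⟨ws⁻¹ * t.1.1 * ws, t.2⟩ : ℂ)
    rw [las_apply, las_apply]
    simp only
    rw [conj_ws, MulChar.inv_apply']
    simp only [Matrix.of_apply, Matrix.cons_val', Matrix.cons_val_zero, Matrix.cons_val_one,
        Matrix.cons_val_fin_one, Matrix.empty_val']
    congr 1
    have h1 := mem_BS.mp t.1.2
    have h2 := t.1.1.det_coe
    rw [Matrix.det_fin_two, h1, mul_zero, sub_zero] at h2
    exact inv_eq_of_mul_eq_one_right h2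

variable [Fintype F]

open Classical in
theorem inner_sl [Fintype (Matrix.SpecialLinearGroup (Fin 2) F)] (α β : MulChar F ℂ) :
    classInner (indFun (BS F) (fun b => (las α b : ℂ))) (indFun (BS F) (fun b => (las β b : ℂ))) =
      (if α = β then 1 else 0) + (if α = β⁻¹ then 1 else 0) := by
  rw [mackey _ ws ws_not_mem sl_dec]
  simp only [las_eq_iff, las_tw_iff]

end sl

end Cfsg.Agent.H8.PS
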