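import Mathlib
import Cfsg.Agent.H8.PS2
import Cfsg.Agent.H8.SL2c
import Cfsg.Agent.H4.BrauerInd1

/-! Values of principal series. -/

set_option autoImplicit false

namespace Cfsg.Agent.H8.PS

open Cfsg.Agent.H4
open scoped ComplexConjugate MatrixGroups
open Matrix

variable {F : Type*} [Field F]

section sl

theorem c10 (x g : SpecialLinearGroup (Fin 2) F) : (x⁻¹ * g * x) 1 0 =
    - x 1 0 * (g 0 0 * x 0 0 + g 0 1 * x 1 0) + x 0 0 * (g 1 0 * x 0 0 + g 1 1 * x 1 0) := by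
  rw [Matrix.SpecialLinearGroup.coe_mul, Matrix.SpecialLinearGroup.coe_mul, Matrix.SpecialLinearGroup.SL2_inv_expl x]
  show (!![x 1 1, - x 0 1; - x 1 0, x 0 0] * (g : Matrix (Fin 2) (Fin 2) F) * (x : Matrix (Fin 2) (Fin 2) F)) 1 0 = _
  simp only [Matrix.mul_apply, Fin.sum_univ_two, Matrix.of_apply, Matrix.cons_val', Matrix.cons_val_zero, Matrix.cons_val_one,
      Matrix.cons_val_fin_one, Matrix.empty_val']
  ring

theorem c00 (x g : SpecialLinearGroup (Fin 2) F) : (x⁻¹ * g * x) 0 0 =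
    x 1 1 * (g 0 0 * x 0 0 + g 0 1 * x 1 0) - x 0 1 * (g 1 0 * x 0 0 + g 1 1 * x 1 0) := by
  rw [Matrix.SpecialLinearGroup.coe_mul, Matrix.SpecialLinearGroup.coe_mul, Matrix.SpecialLinearGroup.SL2_inv_expl x]
  show (!![x 1 1, - x 0 1; - x 1 0, x 0 0] * (g : Matrix (Fin 2) (Fin 2) F) * (x : Matrix (Fin 2) (Fin 2) F)) 0 0 = _
  simp only [Matrix.mul_apply, Fin.sum_univ_two, Matrix.of_apply, Matrix.cons_val', Matrix.cons_val_zero, Matrix.cons_val_one,
      Matrix.cons_val_fin_one, Matrix.empty_val']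
  ring

theorem det2 (x : SpecialLinearGroup (Fin 2) F) : x 0 0 * x 1 1 - x 0 1 * x 1 0 = 1 := by
  have := x.det_coe
  rwa [Matrix.det_fin_two] at this

variable [Fintype F] [DecidableEq F]

theorem sum_x10 (c : ℂ) : (∑ x : SpecialLinearGroup (Fin 2) F, if x 1 0 = 0 then c else 0) = (Nat.card (BS F) : ℂ) * c := by
  classical
  rw [Finset.sum_ite, Finset.sum_const_zero, add_zero, Finset.sum_const, nsmul_eq_mul]
  congr 2
  rw [Nat.card_eq_fintype_card, ← Fintype.card_subtype]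
  apply Fintype.card_congr
  exact Equiv.subtypeEquivRight (fun x => (mem_BS).symm)

theorem sum_x00 (c : ℂ) : (∑ x : SpecialLinearGroup (Fin 2) F, if x 0 0 = 0 then c else 0) = (Nat.card (BS F) : ℂ) * c := by
  rw [← sum_x10, ← Equiv.sum_comp (Equiv.mulLeft (ws : SpecialLinearGroup (Fin 2) F))]
  apply Finset.sum_congr rfl
  intro x _
  have : ((Equiv.mulLeft (ws : SpecialLinearGroup (Fin 2) F)) x) 0 0 = x 1 0 := by
    show ((ws : SpecialLinearGroup (Fin 2) F) * x) 0 0 = _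
    rw [Matrix.SpecialLinearGroup.coe_mul]
    show (!![(0 : F), 1; -1, 0] * (x : Matrix (Fin 2) (Fin 2) F)) 0 0 = _
    simp [Matrix.mul_apply, Fin.sum_univ_two]
  rw [this]

theorem card_BS : Nat.card (BS F) = (Fintype.card F - 1) * Fintype.card F := by
  have e : BS F ≃ Fˣ × F :=
    { toFun := fun b => (Units.mk0 (b.1 0 0) (by
        have h := det2 b.1
        rw [mem_BS.mp b.2, mul_zero, sub_zero] at h
        exact left_ne_zero_of_mul_eq_one h), b.1 0 1)
      invFun := fun p => ⟨⟨!![(p.1 : F), p.2; 0, ((p.1⁻¹ : Fˣ) : F)], by rw [Matrix.det_fin_two_of]; simp⟩, mem_BS.mpr rfl⟩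
      left_inv := fun b => by
        apply Subtype.ext
        apply Subtype.ext
        have h := det2 b.1
        rw [mem_BS.mp b.2, mul_zero, sub_zero] at h
        ext i j
        fin_cases i <;> fin_cases j
        · rfl
        · rfl
        · exact (mem_BS.mp b.2).symm
        · show (b.1 0 0)⁻¹ = b.1 1 1
          exact inv_eq_of_mul_eq_one_right h
      right_inv := fun p => by
        apply Prod.ext
        · apply Units.ext; rfl
        · rfl }
  rw [Nat.card_congr e, Nat.card_prod, Nat.card_eq_fintype_card (α := F), Nat.card_units, Nat.card_eq_fintype_card]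

theorem card_ratio : (Nat.card (SpecialLinearGroup (Fin 2) F) : ℂ) = ((Fintype.card F : ℂ) + 1) * Nat.card (BS F) := by
  have h := SL2.card_SL2 (F := F)
  rw [h, card_BS, Nat.card_eq_fintype_card]
  obtain ⟨c, hc⟩ : ∃ c, Fintype.card F = c + 1 := ⟨Fintype.card F - 1, by have := Fintype.card_pos (α := F); omega⟩
  rw [hc]
  have : (c + 1) ^ 2 - 1 = c * (c + 2) := by
    have : (c + 1) ^ 2 = c * (c + 2) + 1 := by ring
    omega
  rw [this, Nat.add_sub_cancel]
  push_cast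
  ring

theorem ind_eq (α : MulChar F ℂ) (g : SpecialLinearGroup (Fin 2) F) :
    indFun (BS F) (fun b => α (b.1 0 0)) g =
      (Nat.card (BS F) : ℂ)⁻¹ * ∑ x : SpecialLinearGroup (Fin 2) F, if (x⁻¹ * g * x) 1 0 = 0 then α ((x⁻¹ * g * x) 0 0) else 0 := by
  unfold indFun
  congr 1
  apply Finset.sum_congr rfl
  intro x _
  by_cases h : (x⁻¹ * g * x) 1 0 = 0
  · rw [if_pos h, extendByZero_mem _ _ (mem_BS.mpr h)]
  · rw [if_neg h, extendByZero_not_mem _ _ (fun hh => h (mem_BS.mp hh))]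

theorem BS_ne : (Nat.card (BS F) : ℂ) ≠ 0 := by exact_mod_cast Nat.card_pos.ne'

theorem val_diag (α : MulChar F ℂ) (g : SpecialLinearGroup (Fin 2) F) (h1 : g 0 1 = 0) (h2 : g 1 0 = 0) (h3 : (g 0 0) ^ 2 ≠ 1) :
    indFun (BS F) (fun b => α (b.1 0 0)) g = α (g 0 0) + α (g 1 1) := by
  have hd := det2 g
  rw [h1, zero_mul, sub_zero] at hd
  have hne : g 1 1 - g 0 0 ≠ 0 := by
    intro h
    apply h3
    rw [sub_eq_zero] at h
    rw [h] at hd
    rw [pow_two]; exact hd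
  rw [ind_eq]
  have key : ∀ x : SpecialLinearGroup (Fin 2) F, (if (x⁻¹ * g * x) 1 0 = 0 then α ((x⁻¹ * g * x) 0 0) else 0) =
      (if x 1 0 = 0 then α (g 0 0) else 0) + (if x 0 0 = 0 then α (g 1 1) else 0) := by
    intro x
    have hx := det2 x
    rw [c10, c00, h1, h2]
    have e : - x 1 0 * (g 0 0 * x 0 0 + 0 * x 1 0) + x 0 0 * (0 * x 0 0 + g 1 1 * x 1 0) = x 1 0 * x 0 0 * (g 1 1 - g 0 0) := by ring
    rw [e]
    by_cases hx1 : x 1 0 = 0
    · have hx0 : x 0 0 ≠ 0 := by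
        intro h; rw [h, hx1] at hx; simp at hx
      rw [if_pos (by rw [hx1]; ring), if_pos hx1, if_neg hx0, add_zero]
      congr 1
      rw [hx1] at hx ⊢
      linear_combination (g 0 0) * hx
    · by_cases hx0 : x 0 0 = 0
      · rw [if_pos (by rw [hx0]; ring), if_neg hx1, if_pos hx0, zero_add]
        congr 1
        rw [hx0] at hx ⊢
        linear_combination (g 1 1) * hx
      · rw [if_neg (mul_ne_zero (mul_ne_zero hx1 hx0) hne), if_neg hx1, if_neg hx0, add_zero]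
  rw [Finset.sum_congr rfl (fun x _ => key x), Finset.sum_add_distrib, sum_x10, sum_x00, ← mul_add, ← mul_assoc,
    inv_mul_cancel₀ BS_ne, one_mul]

theorem val_none (α : MulChar F ℂ) (g : SpecialLinearGroup (Fin 2) F)
    (h : ∀ (c : F) (v : Fin 2 → F), v ≠ 0 → (g : Matrix (Fin 2) (Fin 2) F).mulVec v ≠ c • v) :
    indFun (BS F) (fun b => α (b.1 0 0)) g = 0 := by
  rw [ind_eq, Finset.sum_eq_zero, mul_zero]
  intro x _
  rw [if_neg]
  intro h0
  have hv : (fun i => x i 0 : Fin 2 → F) ≠ 0 := by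
    intro hv
    have h1 := congrFun hv 0
    have h2 := congrFun hv 1
    simp only [Pi.zero_apply] at h1 h2
    have := det2 x
    rw [h1, h2] at this
    simp at this
  apply h ((x⁻¹ * g * x) 0 0) _ hv
  have e : (g : Matrix (Fin 2) (Fin 2) F) * (x : Matrix (Fin 2) (Fin 2) F) = (x : Matrix (Fin 2) (Fin 2) F) * ((x⁻¹ * g * x : SpecialLinearGroup (Fin 2) F) : Matrix (Fin 2) (Fin 2) F) := by
    have h5 : g * x = x * (x⁻¹ * g * x) := by group
    rw [← Matrix.SpecialLinearGroup.coe_mul, ← Matrix.SpecialLinearGroup.coe_mul, ← h5]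
  funext i
  have e2 := congrFun (congrFun e i) 0
  rw [Matrix.mul_apply, Matrix.mul_apply, Fin.sum_univ_two (f := fun j => (x : Matrix (Fin 2) (Fin 2) F) i j * _), h0, mul_zero, add_zero] at e2
  show ∑ j, g i j * x j 0 = _
  rw [e2, mul_comm]
  rfl

theorem val_unip (α : MulChar F ℂ) (g : SpecialLinearGroup (Fin 2) F) (h1 : g 1 0 = 0) (h2 : g 0 0 = g 1 1) (h3 : g 0 1 ≠ 0) :
    indFun (BS F) (fun b => α (b.1 0 0)) g = α (g 0 0) := by
  rw [ind_eq]
  have key : ∀ x : SpecialLinearGroup (Fin 2) F, (if (x⁻¹ * g * x) 1 0 = 0 then α ((x⁻¹ * g * x) 0 0) else 0) =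
      (if x 1 0 = 0 then α (g 0 0) else 0) := by
    intro x
    have hx := det2 x
    rw [c10, c00, h1, ← h2]
    have e : - x 1 0 * (g 0 0 * x 0 0 + g 0 1 * x 1 0) + x 0 0 * (0 * x 0 0 + g 0 0 * x 1 0) = - (x 1 0 * x 1 0 * (g 0 1)) := by ring
    rw [e]
    by_cases hx1 : x 1 0 = 0
    · rw [if_pos (by rw [hx1]; ring), if_pos hx1]
      congr 1
      rw [hx1] at hx ⊢
      linear_combination (g 0 0) * hx
    · rw [if_neg (neg_ne_zero.mpr (mul_ne_zero (mul_ne_zero hx1 hx1) h3)), if_neg hx1]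
  rw [Finset.sum_congr rfl (fun x _ => key x), sum_x10, ← mul_assoc, inv_mul_cancel₀ BS_ne, one_mul]

theorem val_scalar (α : MulChar F ℂ) (g : SpecialLinearGroup (Fin 2) F) (h0 : g 0 1 = 0) (h1 : g 1 0 = 0) (h2 : g 0 0 = g 1 1) :
    indFun (BS F) (fun b => α (b.1 0 0)) g = ((Fintype.card F : ℂ) + 1) * α (g 0 0) := by
  rw [ind_eq]
  have key : ∀ x : SpecialLinearGroup (Fin 2) F, (if (x⁻¹ * g * x) 1 0 = 0 then α ((x⁻¹ * g * x) 0 0) else 0) = α (g 0 0) := by
    intro x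
    have hx := det2 x
    rw [c10, c00, h1, h0, ← h2]
    rw [if_pos (by ring)]
    congr 1
    linear_combination (g 0 0) * hx
  rw [Finset.sum_congr rfl (fun x _ => key x), Finset.sum_const, nsmul_eq_mul]
  have h4 : ((Finset.univ : Finset (SpecialLinearGroup (Fin 2) F)).card : ℂ) = Nat.card (SpecialLinearGroup (Fin 2) F) := by
    rw [Nat.card_eq_fintype_card, Finset.card_univ]
  rw [h4, card_ratio]
  have := BS_ne (F := F)
  field_simp

end sl

section gl

variable [Fintype F] [DecidableEq F]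

theorem gconj_mem (x g : GL (Fin 2) F) : x⁻¹ * g * x ∈ upperTriangularGL 2 F ↔
    (x : Matrix (Fin 2) (Fin 2) F) 0 0 * ((g : Matrix (Fin 2) (Fin 2) F) 1 0 * (x : Matrix (Fin 2) (Fin 2) F) 0 0 + (g : Matrix (Fin 2) (Fin 2) F) 1 1 * (x : Matrix (Fin 2) (Fin 2) F) 1 0) =
    (x : Matrix (Fin 2) (Fin 2) F) 1 0 * ((g : Matrix (Fin 2) (Fin 2) F) 0 0 * (x : Matrix (Fin 2) (Fin 2) F) 0 0 + (g : Matrix (Fin 2) (Fin 2) F) 0 1 * (x : Matrix (Fin 2) (Fin 2) F) 1 0) := by
  have hd : (x : Matrix (Fin 2) (Fin 2) F).det ≠ 0 := (Matrix.isUnit_iff_isUnit_det _).mp x.isUnit |>.ne_zero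
  rw [mem_B, Units.val_mul, Units.val_mul, Matrix.coe_units_inv, Matrix.inv_def, Matrix.adjugate_fin_two]
  have e : (Ring.inverse (x : Matrix (Fin 2) (Fin 2) F).det • !![(x : Matrix (Fin 2) (Fin 2) F) 1 1, -(x : Matrix (Fin 2) (Fin 2) F) 0 1; -(x : Matrix (Fin 2) (Fin 2) F) 1 0, (x : Matrix (Fin 2) (Fin 2) F) 0 0] *
      (g : Matrix (Fin 2) (Fin 2) F) * (x : Matrix (Fin 2) (Fin 2) F)) 1 0 =
      Ring.inverse (x : Matrix (Fin 2) (Fin 2) F).det * ((x : Matrix (Fin 2) (Fin 2) F) 0 0 * ((g : Matrix (Fin 2) (Fin 2) F) 1 0 * (x : Matrix (Fin 2) (Fin 2) F) 0 0 + (g : Matrix (Fin 2) (Fin 2) F) 1 1 * (x : Matrix (Fin 2) (Fin 2) F) 1 0) -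
    (x : Matrix (Fin 2) (Fin 2) F) 1 0 * ((g : Matrix (Fin 2) (Fin 2) F) 0 0 * (x : Matrix (Fin 2) (Fin 2) F) 0 0 + (g : Matrix (Fin 2) (Fin 2) F) 0 1 * (x : Matrix (Fin 2) (Fin 2) F) 1 0)) := by
    rw [Matrix.smul_mul, Matrix.smul_mul, Matrix.smul_apply, smul_eq_mul]
    congr 1
    simp only [Matrix.mul_apply, Fin.sum_univ_two, Matrix.of_apply, Matrix.cons_val', Matrix.cons_val_zero, Matrix.cons_val_one,
      Matrix.cons_val_fin_one, Matrix.empty_val']
    ring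
  rw [e, mul_eq_zero, sub_eq_zero]
  constructor
  · rintro (h | h)
    · rw [Ring.inverse_eq_inv'] at h
      exact absurd h (inv_ne_zero hd)
    · exact h
  · intro h; exact Or.inr h

theorem gsum_x10 (c : ℂ) : (∑ x : GL (Fin 2) F, if (x : Matrix (Fin 2) (Fin 2) F) 1 0 = 0 then c else 0) = (Nat.card (upperTriangularGL 2 F) : ℂ) * c := by
  classical
  rw [Finset.sum_ite, Finset.sum_const_zero, add_zero, Finset.sum_const, nsmul_eq_mul]
  congr 2
  rw [Nat.card_eq_fintype_card, ← Fintype.card_subtype]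
  apply Fintype.card_congr
  exact Equiv.subtypeEquivRight (fun x => (mem_B).symm)

theorem gsum_x00 (c : ℂ) : (∑ x : GL (Fin 2) F, if (x : Matrix (Fin 2) (Fin 2) F) 0 0 = 0 then c else 0) = (Nat.card (upperTriangularGL 2 F) : ℂ) * c := by
  rw [← gsum_x10, ← Equiv.sum_comp (Equiv.mulLeft (ww : GL (Fin 2) F))]
  apply Finset.sum_congr rfl
  intro x _
  have : (((Equiv.mulLeft (ww : GL (Fin 2) F)) x : GL (Fin 2) F) : Matrix (Fin 2) (Fin 2) F) 0 0 = (x : Matrix (Fin 2) (Fin 2) F) 1 0 := by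
    show (!![(0 : F), 1; 1, 0] * (x : Matrix (Fin 2) (Fin 2) F)) 0 0 = _
    simp [Matrix.mul_apply, Fin.sum_univ_two]
  rw [this]

theorem gB_ne : (Nat.card (upperTriangularGL 2 F) : ℂ) ≠ 0 := by exact_mod_cast Nat.card_pos.ne'

theorem card_gB : Nat.card (upperTriangularGL 2 F) = (Fintype.card F - 1) * (Fintype.card F - 1) * Fintype.card F := by
  have hu : ∀ b : upperTriangularGL 2 F, (b.1 : Matrix (Fin 2) (Fin 2) F) 0 0 * (b.1 : Matrix (Fin 2) (Fin 2) F) 1 1 ≠ 0 := by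
    intro b
    have hd : (b.1 : Matrix (Fin 2) (Fin 2) F).det ≠ 0 := (Matrix.isUnit_iff_isUnit_det _).mp b.1.isUnit |>.ne_zero
    rw [Matrix.det_fin_two, mem_B.mp b.2, mul_zero, sub_zero] at hd
    exact hd
  have e : upperTriangularGL 2 F ≃ (Fˣ × Fˣ) × F :=
    { toFun := fun b => ((Units.mk0 ((b.1 : Matrix (Fin 2) (Fin 2) F) 0 0) (left_ne_zero_of_mul (hu b)),
          Units.mk0 ((b.1 : Matrix (Fin 2) (Fin 2) F) 1 1) (right_ne_zero_of_mul (hu b))), (b.1 : Matrix (Fin 2) (Fin 2) F) 0 1)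
      invFun := fun p => ⟨Matrix.GeneralLinearGroup.mkOfDetNeZero !![(p.1.1 : F), p.2; 0, (p.1.2 : F)] (by rw [Matrix.det_fin_two_of]; simp), mem_B.mpr rfl⟩
      left_inv := fun b => by
        apply Subtype.ext
        apply Units.ext
        ext i j
        fin_cases i <;> fin_cases j
        · rfl
        · rfl
        · exact (mem_B.mp b.2).symm
        · rfl
      right_inv := fun p => by
        apply Prod.ext
        · apply Prod.ext
          · apply Units.ext; rfl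
          · apply Units.ext; rfl
        · rfl }
  rw [Nat.card_congr e, Nat.card_prod, Nat.card_prod, Nat.card_eq_fintype_card (α := F), Nat.card_units, Nat.card_eq_fintype_card]

theorem gcard_ratio : (Nat.card (GL (Fin 2) F) : ℂ) = ((Fintype.card F : ℂ) + 1) * Nat.card (upperTriangularGL 2 F) := by
  rw [Matrix.card_GL_field, card_gB, Fin.prod_univ_two]
  obtain ⟨c, hc⟩ : ∃ c, Fintype.card F = c + 1 := ⟨Fintype.card F - 1, by have := Fintype.card_pos (α := F); omega⟩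
  rw [hc]
  have h1 : (c + 1) ^ 2 - (c + 1) ^ ((0 : Fin 2) : ℕ) = c * (c + 2) := by
    have : (c + 1) ^ 2 = c * (c + 2) + 1 := by ring
    rw [this]; simp
  have h2 : (c + 1) ^ 2 - (c + 1) ^ ((1 : Fin 2) : ℕ) = c * (c + 1) := by
    have : (c + 1) ^ 2 = c * (c + 1) + (c + 1) := by ring
    rw [this]; simp
  rw [h1, h2, Nat.add_sub_cancel]
  push_cast
  ring

theorem fpc_eq (g : GL (Fin 2) F) : fixedPointCharacter (upperTriangularGL 2 F) g =
    (Nat.card (upperTriangularGL 2 F) : ℂ)⁻¹ * ∑ x : GL (Fin 2) F, if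
      (x : Matrix (Fin 2) (Fin 2) F) 0 0 * ((g : Matrix (Fin 2) (Fin 2) F) 1 0 * (x : Matrix (Fin 2) (Fin 2) F) 0 0 + (g : Matrix (Fin 2) (Fin 2) F) 1 1 * (x : Matrix (Fin 2) (Fin 2) F) 1 0) =
    (x : Matrix (Fin 2) (Fin 2) F) 1 0 * ((g : Matrix (Fin 2) (Fin 2) F) 0 0 * (x : Matrix (Fin 2) (Fin 2) F) 0 0 + (g : Matrix (Fin 2) (Fin 2) F) 0 1 * (x : Matrix (Fin 2) (Fin 2) F) 1 0)
      then (1 : ℂ) else 0 := by
  classical
  unfold fixedPointCharacter
  rw [← indFun_one_eq_card_fixed, indFun_one_apply_eq]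
  congr 1
  apply Finset.sum_congr rfl
  intro x _
  simp only [gconj_mem]

end gl

end Cfsg.Agent.H8.PS
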