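import Mathlib
import Cfsg.Agent.H8.PS3
import Cfsg.Agent.H4.Mult

/-! Splitting of the principal series for the character of order two. -/

set_option autoImplicit false

namespace Cfsg.Agent.H8.PS

open Cfsg.Agent.H4
open scoped ComplexConjugate MatrixGroups
open Matrix

section gen
variable {G : Type*} [Group G] [Fintype G]

theorem char_norm_two (R : G → ℂ) (hR : IsCharacter G R) (h2 : classInner R R = 2) :
    ∃ a b : IrrCharacter G, a ≠ b ∧ ∀ g, R g = (a : G → ℂ) g + (b : G → ℂ) g := by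
  classical
  obtain ⟨m, hm1, hm2⟩ := IsChar.exists_mult hR
  have hcl := IsChar.isClassFunction hR
  have hsum : ∑ ψ : IrrCharacter G, m ψ * m ψ = 2 := by
    rw [H5.classInner_eq_sum hcl] at h2
    simp only [hm1, map_natCast] at h2
    exact_mod_cast h2
  have habs : ∀ ψ, m ψ = 0 ∨ m ψ = 1 := by
    intro ψ
    have h3 : m ψ * m ψ ≤ 2 := by
      rw [← hsum]
      exact Finset.single_le_sum (f := fun ψ => m ψ * m ψ) (fun _ _ => Nat.zero_le _) (Finset.mem_univ ψ)
    have h4 : m ψ < 2 := by nlinarith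
    omega
  let P := Finset.univ.filter (fun ψ : IrrCharacter G => m ψ = 1)
  have hP : P.card = 2 := by
    have h3 : ∀ ψ : IrrCharacter G, m ψ * m ψ = (if m ψ = 1 then 1 else 0) := by
      intro ψ
      rcases habs ψ with h | h <;> rw [h] <;> norm_num
    rw [Finset.sum_congr rfl (fun ψ _ => h3 ψ), Finset.sum_boole] at hsum
    exact_mod_cast hsum
  obtain ⟨a, b, hab, hPe⟩ := Finset.card_eq_two.mp hP
  refine ⟨a, b, hab, fun g => ?_⟩
  rw [hm2 g]
  have : ∑ ψ : IrrCharacter G, (m ψ : ℂ) * (ψ : G → ℂ) g = ∑ ψ ∈ P, (ψ : G → ℂ) g := by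
    rw [Finset.sum_filter]
    apply Finset.sum_congr rfl
    intro ψ _
    rcases habs ψ with h | h <;> rw [h] <;> norm_num
  rw [this, hPe, Finset.sum_pair hab]

end gen

section sl

variable {F : Type*} [Field F]

/-- upper unipotent -/
def uu : Multiplicative F →* SpecialLinearGroup (Fin 2) F where
  toFun b := ⟨!![1, b.toAdd; 0, 1], by rw [Matrix.det_fin_two_of]; simp⟩
  map_one' := by
    ext i j
    fin_cases i <;> fin_cases j <;> rfl
  map_mul' := fun a b => by
    apply Subtype.ext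
    show !![1, a.toAdd + b.toAdd; 0, 1] = !![1, a.toAdd; 0, 1] * !![1, b.toAdd; 0, 1]
    ext i j
    fin_cases i <;> fin_cases j <;> simp [Matrix.mul_apply, Fin.sum_univ_two, add_comm]

def ll (b : F) : SpecialLinearGroup (Fin 2) F := ⟨!![1, 0; b, 1], by rw [Matrix.det_fin_two_of]; simp⟩

theorem ll_eq (b : F) : ll b = ws⁻¹ * uu (Multiplicative.ofAdd (-b)) * ws := by
  apply Subtype.ext
  rw [conj_ws]
  show !![1, 0; b, 1] = !![1, -0; -(-b), 1]
  simp

theorem normal_top (N : Subgroup (SpecialLinearGroup (Fin 2) F)) [N.Normal] (h : ∀ b, uu b ∈ N) : N = ⊤ := by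
  rw [eq_top_iff]
  have hl : ∀ b : F, ll b ∈ N := by
    intro b
    rw [ll_eq]
    have := Subgroup.Normal.conj_mem ‹N.Normal› _ (h (Multiplicative.ofAdd (-b))) ws⁻¹
    rwa [inv_inv] at this
  have key : ∀ g : SpecialLinearGroup (Fin 2) F, g 1 0 ≠ 0 → g ∈ N := by
    intro g hg
    have e : g = uu (Multiplicative.ofAdd ((g 0 0 - 1) / g 1 0)) * ll (g 1 0) * uu (Multiplicative.ofAdd ((g 1 1 - 1) / g 1 0)) := by
      have hd := det2 g
      apply Subtype.ext
      rw [Matrix.SpecialLinearGroup.coe_mul, Matrix.SpecialLinearGroup.coe_mul]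
      show g.1 = !![1, (g 0 0 - 1) / g 1 0; 0, 1] * !![1, 0; g 1 0, 1] * !![1, (g 1 1 - 1) / g 1 0; 0, 1]
      ext i j
      fin_cases i <;> fin_cases j
      · show g 0 0 = _
        simp [Matrix.mul_apply, Fin.sum_univ_two]
        field_simp
        ring
      · show g 0 1 = _
        simp [Matrix.mul_apply, Fin.sum_univ_two]
        field_simp
        linear_combination - hd
      · show g 1 0 = _
        simp [Matrix.mul_apply, Fin.sum_univ_two]
      · show g 1 1 = _
        simp [Matrix.mul_apply, Fin.sum_univ_two]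
        field_simp
        ring
    rw [e]
    exact N.mul_mem (N.mul_mem (h _) (hl _)) (h _)
  intro g _
  by_cases hg : g 1 0 = 0
  · have h1 : g * ll 1 ∈ N := by
      apply key
      have e : (g * ll 1 : SpecialLinearGroup (Fin 2) F) 1 0 = g 1 0 + g 1 1 := by
        rw [Matrix.SpecialLinearGroup.coe_mul]
        show ((g : Matrix (Fin 2) (Fin 2) F) * !![(1:F), 0; 1, 1]) 1 0 = _
        simp [Matrix.mul_apply, Fin.sum_univ_two]
      rw [e, hg, zero_add]
      intro h0
      have hd := det2 g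
      rw [hg, h0] at hd
      simp at hd
    exact (N.mul_mem_cancel_right (hl 1)).mp h1
  · exact key g hg

/-- conjugation by diag(e,1) -/
def sg (e : Fˣ) : SpecialLinearGroup (Fin 2) F →* SpecialLinearGroup (Fin 2) F where
  toFun g := ⟨!![g 0 0, (e : F) * g 0 1; ((e⁻¹ : Fˣ) : F) * g 1 0, g 1 1], by
    rw [Matrix.det_fin_two_of]
    have := det2 g
    have h2 : (e : F) * ((e⁻¹ : Fˣ) : F) = 1 := by simp
    linear_combination this - g 0 1 * g 1 0 * h2⟩
  map_one' := by
    ext i j
    fin_cases i <;> fin_cases j <;> simp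
  map_mul' := fun a b => by
    have h2 : (e : F) * ((e⁻¹ : Fˣ) : F) = 1 := by simp
    apply Subtype.ext
    show !![(a * b) 0 0, (e : F) * (a * b) 0 1; ((e⁻¹ : Fˣ) : F) * (a * b) 1 0, (a * b) 1 1] =
      !![a 0 0, (e : F) * a 0 1; ((e⁻¹ : Fˣ) : F) * a 1 0, a 1 1] * !![b 0 0, (e : F) * b 0 1; ((e⁻¹ : Fˣ) : F) * b 1 0, b 1 1]
    have hc : ∀ i j, (a * b) i j = a i 0 * b 0 j + a i 1 * b 1 j := by
      intro i j
      rw [Matrix.SpecialLinearGroup.coe_mul, Matrix.mul_apply, Fin.sum_univ_two]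
    ext i j
    fin_cases i <;> fin_cases j
    · simp only [Matrix.mul_apply, Fin.sum_univ_two, Matrix.of_apply, Matrix.cons_val', Matrix.cons_val_zero, Matrix.cons_val_one,
        Matrix.cons_val_fin_one, Matrix.empty_val', Fin.zero_eta, Fin.mk_one, hc]
      linear_combination - a 0 1 * b 1 0 * h2
    · simp only [Matrix.mul_apply, Fin.sum_univ_two, Matrix.of_apply, Matrix.cons_val', Matrix.cons_val_zero, Matrix.cons_val_one,
        Matrix.cons_val_fin_one, Matrix.empty_val', Fin.zero_eta, Fin.mk_one, hc]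
      ring
    · simp only [Matrix.mul_apply, Fin.sum_univ_two, Matrix.of_apply, Matrix.cons_val', Matrix.cons_val_zero, Matrix.cons_val_one,
        Matrix.cons_val_fin_one, Matrix.empty_val', Fin.zero_eta, Fin.mk_one, hc]
      ring
    · simp only [Matrix.mul_apply, Fin.sum_univ_two, Matrix.of_apply, Matrix.cons_val', Matrix.cons_val_zero, Matrix.cons_val_one,
        Matrix.cons_val_fin_one, Matrix.empty_val', Fin.zero_eta, Fin.mk_one, hc]
      linear_combination - a 1 0 * b 0 1 * h2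

theorem sg_sg (e : Fˣ) (g : SpecialLinearGroup (Fin 2) F) : sg e (sg e⁻¹ g) = g := by
  have h2 : (e : F) * ((e⁻¹ : Fˣ) : F) = 1 := by simp
  ext i j
  fin_cases i <;> fin_cases j
  · rfl
  · show (e : F) * (((e⁻¹ : Fˣ) : F) * g 0 1) = g 0 1
    linear_combination g 0 1 * h2
  · show ((e⁻¹ : Fˣ) : F) * (((e⁻¹⁻¹ : Fˣ) : F) * g 1 0) = g 1 0
    rw [inv_inv]
    linear_combination g 1 0 * h2
  · rfl

theorem sg_surj (e : Fˣ) : Function.Surjective (sg e : SpecialLinearGroup (Fin 2) F →* SpecialLinearGroup (Fin 2) F) :=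
  fun g => ⟨sg e⁻¹ g, sg_sg e g⟩

end sl

end Cfsg.Agent.H8.PS
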