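import Mathlib
import Cfsg.Agent.H8.PS4

/-! Splitting of the principal series for the character of order two. -/

set_option autoImplicit false

namespace Cfsg.Agent.H8.PS

open Cfsg.Agent.H4
open scoped ComplexConjugate MatrixGroups
open Matrix

variable {F : Type*} [Field F] [Fintype F] [DecidableEq F]

noncomputable abbrev RR (α : MulChar F ℂ) : SpecialLinearGroup (Fin 2) F → ℂ := indFun (BS F) (fun b => α (b.1 0 0))

theorem RR_sg (α : MulChar F ℂ) (e : Fˣ) (g : SpecialLinearGroup (Fin 2) F) : RR α (sg e g) = RR α g := by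
  show indFun (BS F) (fun b => α (b.1 0 0)) (sg e g) = indFun (BS F) (fun b => α (b.1 0 0)) g
  rw [ind_eq, ind_eq]
  congr 1
  let eq : SpecialLinearGroup (Fin 2) F ≃ SpecialLinearGroup (Fin 2) F :=
    { toFun := sg e, invFun := sg e⁻¹, left_inv := fun x => by
        have := sg_sg e⁻¹ x
        rwa [inv_inv] at this
      right_inv := fun x => sg_sg e x }
  rw [← Equiv.sum_comp eq]
  apply Finset.sum_congr rfl
  intro x _
  have h1 : (eq x)⁻¹ * sg e g * eq x = sg e (x⁻¹ * g * x) := by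
    rw [map_mul, map_mul, map_inv]; rfl
  rw [h1]
  have h2 : (sg e (x⁻¹ * g * x)) 1 0 = ((e⁻¹ : Fˣ) : F) * (x⁻¹ * g * x) 1 0 := rfl
  have h3 : (sg e (x⁻¹ * g * x)) 0 0 = (x⁻¹ * g * x) 0 0 := rfl
  rw [h2, h3]
  have h4 : ((e⁻¹ : Fˣ) : F) * (x⁻¹ * g * x) 1 0 = 0 ↔ (x⁻¹ * g * x) 1 0 = 0 := by
    rw [mul_eq_zero]
    constructor
    · rintro (h | h)
      · exact absurd h (Units.ne_zero _)
      · exact h
    · intro h; exact Or.inr h
  simp only [h4]

theorem uu_val (t : F) : (uu (Multiplicative.ofAdd t) : SpecialLinearGroup (Fin 2) F).1 = !![1, t; 0, 1] := rfl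

theorem ds_val (s : Fˣ) : (ds s : SpecialLinearGroup (Fin 2) F).1 = !![(s : F), 0; 0, ((s⁻¹ : Fˣ) : F)] := rfl

theorem ds_uu (s : Fˣ) (t : F) : ds s * uu (Multiplicative.ofAdd t) * (ds s)⁻¹ = uu (Multiplicative.ofAdd ((s : F) ^ 2 * t)) := by
  rw [mul_inv_eq_iff_eq_mul]
  have h2 : (s : F) * ((s⁻¹ : Fˣ) : F) = 1 := by simp
  obtain ⟨v, hv⟩ : ∃ v, v = (s : F) ^ 2 * t := ⟨_, rfl⟩
  rw [← hv]
  apply Subtype.ext
  rw [Matrix.SpecialLinearGroup.coe_mul, Matrix.SpecialLinearGroup.coe_mul, uu_val, ds_val, uu_val, Matrix.mul_fin_two, Matrix.mul_fin_two]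
  have h5 : v * ((s⁻¹ : Fˣ) : F) = (s : F) * t := by rw [hv]; linear_combination (s : F) * t * h2
  rw [h5]
  simp

theorem const_unip {c : SpecialLinearGroup (Fin 2) F → ℂ} (hc : IsClassFunction _ c) (e : Fˣ) (he : ¬ IsSquare (e : F))
    (hs : ∀ g, c (sg e g) = c g) (t : F) (ht : t ≠ 0) : c (uu (Multiplicative.ofAdd t)) = c (uu (Multiplicative.ofAdd 1)) := by
  have h1 : ∀ (s : Fˣ) (t : F), c (uu (Multiplicative.ofAdd ((s : F) ^ 2 * t))) = c (uu (Multiplicative.ofAdd t)) := by
    intro s t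
    rw [← ds_uu, hc]
  have h2 : ∀ t : F, c (uu (Multiplicative.ofAdd ((e : F) * t))) = c (uu (Multiplicative.ofAdd t)) := by
    intro t
    rw [← hs (uu (Multiplicative.ofAdd t))]
    congr 1
    apply Subtype.ext
    show !![1, (e : F) * t; 0, 1] = !![(1 : F), (e : F) * t; ((e⁻¹ : Fˣ) : F) * 0, 1]
    rw [mul_zero]
  by_cases hsq : IsSquare t
  · obtain ⟨s, rfl⟩ := hsq
    have hs0 : s ≠ 0 := left_ne_zero_of_mul ht
    have := h1 (Units.mk0 s hs0) 1
    rw [Units.val_mk0, mul_one, pow_two] at this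
    exact this
  · have h3 : IsSquare (t * e) := by
      have ha : quadraticChar F t = -1 := quadraticChar_neg_one_iff_not_isSquare.mpr hsq
      have hb : quadraticChar F (e : F) = -1 := quadraticChar_neg_one_iff_not_isSquare.mpr he
      rw [← quadraticChar_one_iff_isSquare (mul_ne_zero ht e.ne_zero), map_mul, ha, hb]
      norm_num
    obtain ⟨s, hs3⟩ := h3
    have hs0 : s ≠ 0 := by
      rintro rfl
      rw [mul_zero] at hs3
      exact (mul_ne_zero ht e.ne_zero) hs3
    have h4 := h1 (Units.mk0 s hs0 * e⁻¹) 1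
    have h5 : t = (e : F) * (((Units.mk0 s hs0 * e⁻¹ : Fˣ) : F) ^ 2 * 1) := by
      rw [Units.val_mul, Units.val_mk0, Units.val_inv_eq_inv_val]
      have := e.ne_zero
      field_simp
      rw [hs3, pow_two]
    rw [h5, h2, h4]

theorem exists_hom : ∃ ψ : Multiplicative F →* ℂˣ, ψ ≠ 1 := by
  have h := card_hom_units (G := Multiplicative F)
  have h1 : commutator (Multiplicative F) = ⊥ := by
    rw [commutator_def, Subgroup.commutator_eq_bot_iff_le_centralizer]
    intro x _
    rw [Subgroup.mem_centralizer_iff]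
    intro y _
    exact mul_comm y x
  rw [h1, Subgroup.index_bot] at h
  by_contra hcon
  push Not at hcon
  have h2 : Nat.card (Multiplicative F →* ℂˣ) = 1 := by
    haveI : Subsingleton (Multiplicative F →* ℂˣ) := ⟨fun a b => (hcon a).trans (hcon b).symm⟩
    exact Nat.card_unique
  rw [h2] at h
  have h3 : Nat.card (Multiplicative F) = Nat.card F := rfl
  have h4 : 1 < Nat.card F := by rw [Nat.card_eq_fintype_card]; exact Fintype.one_lt_card
  omega

theorem mult_unip {c : SpecialLinearGroup (Fin 2) F → ℂ} (hc : IsCharacter _ c) (c1 : ℂ)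
    (h : ∀ t : F, t ≠ 0 → c (uu (Multiplicative.ofAdd t)) = c1) : ∃ m : ℕ, (Fintype.card F : ℂ) * m = c 1 - c1 := by
  classical
  obtain ⟨ψ, hψ⟩ := exists_hom (F := F)
  obtain ⟨m, hm⟩ := H5.IsCharacter.inner_nat (H5.isCharacter_comp (uu : Multiplicative F →* _) hc) ⟨_, isIrr_hom ψ⟩
  refine ⟨m, ?_⟩
  rw [← hm, classInner]
  have h0 := sum_hom (1 : Multiplicative F →* ℂˣ) ψ
  rw [if_neg (fun h => hψ h.symm)] at h0
  have h1 : ∑ k : Multiplicative F, (c ∘ uu) k * conj (ψ k : ℂ) = c 1 - c1 := by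
    have h2 : ∀ k : Multiplicative F, (c ∘ uu) k * conj (ψ k : ℂ) =
        c1 * (((1 : Multiplicative F →* ℂˣ) k : ℂ) * conj (ψ k : ℂ)) + (if k = 1 then (c 1 - c1) else 0) := by
      intro k
      by_cases hk : k = 1
      · rw [if_pos hk, hk]
        simp
      · rw [if_neg hk, add_zero]
        have : c (uu k) = c1 := h k.toAdd (fun h => hk (by rw [← ofAdd_toAdd k, h]; rfl))
        show c (uu k) * _ = _
        rw [this]
        simp
    rw [Finset.sum_congr rfl (fun k _ => h2 k), Finset.sum_add_distrib, ← Finset.mul_sum, h0, mul_zero, zero_add,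
      Finset.sum_ite_eq' Finset.univ (1 : Multiplicative F), if_pos (Finset.mem_univ _)]
  have h3 : (Nat.card (Multiplicative F) : ℂ) = Fintype.card F := by
    rw [show Nat.card (Multiplicative F) = Nat.card F from rfl, Nat.card_eq_fintype_card]
  have hne : (Fintype.card F : ℂ) ≠ 0 := by exact_mod_cast Fintype.card_ne_zero
  show (Fintype.card F : ℂ) * ((Nat.card (Multiplicative F) : ℂ)⁻¹ * ∑ k : Multiplicative F, (c ∘ uu) k * conj (ψ k : ℂ)) = _
  rw [h1, h3, mul_inv_cancel_left₀ hne]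

theorem not_triv (α : MulChar F ℂ) (hα1 : α ≠ 1) (c : IrrCharacter (SpecialLinearGroup (Fin 2) F))
    (hin : classInner (RR α) (c : SpecialLinearGroup (Fin 2) F → ℂ) = 1)
    (h : ∀ t : F, (c : SpecialLinearGroup (Fin 2) F → ℂ) (uu (Multiplicative.ofAdd t)) = (c : SpecialLinearGroup (Fin 2) F → ℂ) 1) : False := by
  classical
  have hc : IsCharacter _ (c : SpecialLinearGroup (Fin 2) F → ℂ) := IsIrr.isCharacter c.2
  have htop : charKer hc = ⊤ := normal_top _ (fun b => by
    rw [mem_charKer]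
    exact h b.toAdd)
  have hconst : ∀ g, (c : SpecialLinearGroup (Fin 2) F → ℂ) g = (c : SpecialLinearGroup (Fin 2) F → ℂ) 1 := by
    intro g
    rw [← mem_charKer hc, htop]
    exact Subgroup.mem_top _
  have h1 : classInner (indFun (BS F) (fun b => (las α b : ℂ))) (c : SpecialLinearGroup (Fin 2) F → ℂ) = 0 := by
    rw [frobenius_reciprocity _ _ _ (IsChar.isClassFunction hc), classInner]
    have h2 := sum_hom (las α) 1
    rw [if_neg (fun h => hα1 (by
      rw [← las_eq_iff, h]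
      ext b
      show (1 : ℂ) = (las 1 b : ℂ)
      rw [las_apply]
      have hb := det2 b.1
      rw [mem_BS.mp b.2, mul_zero, sub_zero] at hb
      have hu : IsUnit (b.1 0 0) := isUnit_iff_ne_zero.mpr (left_ne_zero_of_mul_eq_one hb)
      exact (MulChar.one_apply hu).symm))] at h2
    have h3 : ∑ b : BS F, (las α b : ℂ) * conj ((c : SpecialLinearGroup (Fin 2) F → ℂ) b) = 0 := by
      have h4 : ∀ b : BS F, (las α b : ℂ) * conj ((c : SpecialLinearGroup (Fin 2) F → ℂ) b) =
          ((las α b : ℂ) * conj (((1 : BS F →* ℂˣ) b : ℂˣ) : ℂ)) * conj ((c : SpecialLinearGroup (Fin 2) F → ℂ) 1) := by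
        intro b
        rw [hconst b]
        simp
      rw [Finset.sum_congr rfl (fun b _ => h4 b), ← Finset.sum_mul, h2, zero_mul]
    rw [h3, mul_zero]
  have h5 : classInner (RR α) (c : SpecialLinearGroup (Fin 2) F → ℂ) = 0 := h1
  rw [h5] at hin
  exact zero_ne_one hin

end Cfsg.Agent.H8.PS
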