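import Mathlib
import Cfsg.Agent.H7.Disc

set_option autoImplicit false

namespace Cfsg.Agent.H8.QFD

open Module Matrix Cfsg.Agent.H7.Disc

variable {F : Type*} [Field F]

theorem sqd {m : ℕ} {B : (Fin (m + 1) → F) →ₗ[F] (Fin (m + 1) → F) →ₗ[F] F} {δ : F} (h : Ty m B δ) :
    ∃ s : F, s ≠ 0 ∧ δ = (LinearMap.BilinForm.toMatrix (Pi.basisFun F (Fin (m + 1))) (B : LinearMap.BilinForm F (Fin (m + 1) → F))).det * s ^ 2 := by
  obtain ⟨b', hb'⟩ := h
  have h1 := LinearMap.BilinForm.toMatrix_mul_basis_toMatrix (b := Pi.basisFun F (Fin (m + 1))) (c := b') (B := (B : LinearMap.BilinForm F (Fin (m + 1) → F)))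
  have h3 : LinearMap.BilinForm.toMatrix b' (B : LinearMap.BilinForm F (Fin (m + 1) → F)) =
      Matrix.of (fun i j : Fin (m + 1) => if i = j then (if i = Fin.last m then δ else 1) else 0) := by
    ext i j
    rw [LinearMap.BilinForm.toMatrix_apply, Matrix.of_apply, ← hb']
  rw [h3] at h1
  have h4 := congrArg Matrix.det h1
  rw [det_mul, det_mul, det_transpose, det_diag] at h4
  refine ⟨((Pi.basisFun F (Fin (m + 1))).toMatrix b').det, ?_, by rw [← h4]; ring⟩
  have h5 := Basis.invertibleToMatrix (Pi.basisFun F (Fin (m + 1))) b'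
  exact (Matrix.isUnit_det_of_invertible ((Pi.basisFun F (Fin (m + 1))).toMatrix b')).ne_zero

theorem ty_of_iso {m : ℕ} {B B' : (Fin (m + 1) → F) →ₗ[F] (Fin (m + 1) → F) →ₗ[F] F} {δ : F} (h : Ty m B' δ) (g : (Fin (m + 1) → F) ≃ₗ[F] (Fin (m + 1) → F))
    (hg : ∀ u v, B' (g u) (g v) = B u v) : Ty m B δ := by
  obtain ⟨b, hb⟩ := h
  refine ⟨b.map g.symm, fun i j => ?_⟩
  rw [Basis.map_apply, Basis.map_apply, ← hg, g.apply_symm_apply, g.apply_symm_apply, hb]

theorem gram_eq {n : ℕ} (Q : QuadraticForm F (Fin n → F)) : Matrix.of (fun i j : Fin n => QuadraticMap.polar ⇑Q (Pi.single i 1) (Pi.single j 1)) =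
    LinearMap.BilinForm.toMatrix (Pi.basisFun F (Fin n)) (QuadraticMap.polarBilin Q) := by
  ext i j
  rw [LinearMap.BilinForm.toMatrix_apply, Matrix.of_apply, Pi.basisFun_apply, Pi.basisFun_apply]
  rfl

theorem self {n : ℕ} (Q : QuadraticForm F (Fin n → F)) (v : Fin n → F) : QuadraticMap.polarBilin Q v v = 2 * Q v := Cfsg.Agent.H7.QF.pB_self Q v

theorem iff_sq [Finite F] (h2 : (2 : F) ≠ 0) {n : ℕ} (Q₁ Q₂ : QuadraticForm F (Fin n → F))
    (h₁ : (QuadraticMap.polarBilin Q₁).Nondegenerate) (h₂ : (QuadraticMap.polarBilin Q₂).Nondegenerate) :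
    (∃ g : (Fin n → F) ≃ₗ[F] (Fin n → F), ∀ v, Q₂ (g v) = Q₁ v) ↔
      IsSquare ((Matrix.of (fun i j : Fin n => QuadraticMap.polar ⇑Q₁ (Pi.single i 1) (Pi.single j 1))).det *
        (Matrix.of (fun i j : Fin n => QuadraticMap.polar ⇑Q₂ (Pi.single i 1) (Pi.single j 1))).det) := by
  rw [gram_eq, gram_eq]
  rcases n with _ | m
  · constructor
    · intro _
      rw [Matrix.det_isEmpty, Matrix.det_isEmpty, mul_one]
      exact ⟨1, by rw [mul_one]⟩
    · intro _
      refine ⟨LinearEquiv.refl F _, fun v => ?_⟩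
      rw [Subsingleton.elim v 0, map_zero, QuadraticMap.map_zero, QuadraticMap.map_zero]
  · have hchar : ringChar F ≠ 2 := by
      intro h
      apply h2
      have : ((ringChar F : ℕ) : F) = 0 := ringChar.Nat.cast_ringChar
      rw [h] at this
      exact_mod_cast this
    obtain ⟨α, hα⟩ := FiniteField.exists_nonsquare hchar
    have nd : ∀ {Q : QuadraticForm F (Fin (m + 1) → F)}, (QuadraticMap.polarBilin Q).Nondegenerate → ∀ v, (∀ u, QuadraticMap.polarBilin Q v u = 0) → v = 0 := by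
      intro Q hQ v hv
      exact Cfsg.Agent.H7.QF.pB_nd hQ v (fun u => by rw [Cfsg.Agent.H7.QF.pB_symm]; exact hv u)
    have t1 := exists_ty h2 hα (fun x y => Cfsg.Agent.H7.QF.pB_symm (Q := Q₁) x y) (nd h₁) (m := m) (by simp)
    have t2 := exists_ty h2 hα (fun x y => Cfsg.Agent.H7.QF.pB_symm (Q := Q₂) x y) (nd h₂) (m := m) (by simp)
    constructor
    · rintro ⟨g, hg⟩
      have hgB : ∀ u v, QuadraticMap.polarBilin Q₂ (g u) (g v) = QuadraticMap.polarBilin Q₁ u v := by
        intro u v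
        show QuadraticMap.polar ⇑Q₂ (g u) (g v) = QuadraticMap.polar ⇑Q₁ u v
        unfold QuadraticMap.polar
        rw [← map_add, hg, hg, hg]
      obtain ⟨δ, hδ0, t2'⟩ : ∃ δ : F, δ ≠ 0 ∧ Ty m (QuadraticMap.polarBilin Q₂) δ := by
        rcases t2 with h | h
        · exact ⟨1, one_ne_zero, h⟩
        · refine ⟨α, ?_, h⟩
          rintro rfl
          exact hα ⟨0, by simp⟩
      obtain ⟨s2, hs2, e2⟩ := sqd t2'
      obtain ⟨s1, hs1, e1⟩ := sqd (ty_of_iso t2' g hgB)
      refine ⟨δ / (s1 * s2), ?_⟩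
      generalize (LinearMap.BilinForm.toMatrix (Pi.basisFun F (Fin (m + 1))) (QuadraticMap.polarBilin Q₁)).det = d1 at e1 ⊢
      generalize (LinearMap.BilinForm.toMatrix (Pi.basisFun F (Fin (m + 1))) (QuadraticMap.polarBilin Q₂)).det = d2 at e2 ⊢
      field_simp
      linear_combination (-(d2 * s2 ^ 2)) * e1 - δ * e2
    · rintro ⟨r, hr⟩
      have key : ∀ δ, Ty m (QuadraticMap.polarBilin Q₁) δ → Ty m (QuadraticMap.polarBilin Q₂) δ → ∃ g : (Fin (m + 1) → F) ≃ₗ[F] (Fin (m + 1) → F), ∀ v, Q₂ (g v) = Q₁ v := by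
        intro δ h h'
        obtain ⟨g, hg⟩ := iso_of_ty h h'
        refine ⟨g, fun v => ?_⟩
        have h3 := hg v v
        rw [self, self] at h3
        exact mul_left_cancel₀ h2 h3
      have mixed : ∀ {δ δ' : F}, Ty m (QuadraticMap.polarBilin Q₁) δ → Ty m (QuadraticMap.polarBilin Q₂) δ' → IsSquare (δ * δ') := by
        intro δ δ' h h'
        obtain ⟨s1, hs1, e1⟩ := sqd h
        obtain ⟨s2, hs2, e2⟩ := sqd h'
        refine ⟨r * s1 * s2, ?_⟩
        generalize (LinearMap.BilinForm.toMatrix (Pi.basisFun F (Fin (m + 1))) (QuadraticMap.polarBilin Q₁)).det = d1 at e1 hr ⊢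
        generalize (LinearMap.BilinForm.toMatrix (Pi.basisFun F (Fin (m + 1))) (QuadraticMap.polarBilin Q₂)).det = d2 at e2 hr ⊢
        rw [e1, e2]
        linear_combination (s1 ^ 2 * s2 ^ 2) * hr
      rcases t1 with h | h <;> rcases t2 with h' | h'
      · exact key 1 h h'
      · exact absurd (by simpa using mixed h h') hα
      · exact absurd (by simpa using mixed h h') hα
      · exact key α h h'

end Cfsg.Agent.H8.QFD
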