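import Mathlib
import Cfsg.Agent.H8.Mat
import Cfsg.Agent.H8.LinAlg

set_option autoImplicit false

namespace Cfsg.Agent.H8

open Matrix Module

variable {F : Type*} [Field F]

theorem shift_mulVec {n : ℕ} (w : Fin n → F) (i : Fin n) :
    ((shift F n).mulVec w) i = if h : i.val + 1 < n then w ⟨i.val + 1, h⟩ else 0 := by
  rw [Matrix.mulVec, dotProduct]
  split_ifs with h
  · rw [Finset.sum_eq_single (⟨i.val + 1, h⟩ : Fin n)]
    · simp [shift]
    · intro b _ hb
      simp only [shift, Matrix.of_apply]
      rw [if_neg, zero_mul]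
      intro hc; apply hb; exact Fin.ext hc.symm
    · simp
  · apply Finset.sum_eq_zero
    intro b _
    simp only [shift, Matrix.of_apply]
    rw [if_neg, zero_mul]
    have := b.2; omega

theorem shift_rank (n : ℕ) : (shift F n).rank = n - 1 := by
  refine rank_of_factor (shift F n)
    (Matrix.of fun (i : Fin n) (k : Fin (n - 1)) => if i.val = k.val then (1 : F) else 0)
    (Matrix.of fun (k : Fin (n - 1)) (j : Fin n) => if k.val + 1 = j.val then (1 : F) else 0) ?_
    (Matrix.of fun (k : Fin (n - 1)) (i : Fin n) => if i.val = k.val then (1 : F) else 0)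
    (Matrix.of fun (j : Fin n) (k : Fin (n - 1)) => if k.val + 1 = j.val then (1 : F) else 0) ?_ ?_
  · ext i j
    rw [Matrix.mul_apply]
    simp only [shift, Matrix.of_apply]
    by_cases h : i.val < n - 1
    · rw [Finset.sum_eq_single (⟨i.val, h⟩ : Fin (n - 1))]
      · simp
      · intro k _ hk
        rw [if_neg, zero_mul]
        intro hc; apply hk; exact Fin.ext hc.symm
      · simp
    · rw [if_neg (by have := j.2; omega), Finset.sum_eq_zero]
      intro k _
      rw [if_neg, zero_mul]
      have := k.2; omega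
  · ext k l
    rw [Matrix.mul_apply, Finset.sum_eq_single (⟨k.val, by omega⟩ : Fin n)]
    · simp [Matrix.one_apply, Fin.ext_iff]
    · intro b _ hb
      simp only [Matrix.of_apply]
      rw [if_neg, zero_mul]
      intro hc; apply hb; exact Fin.ext hc
    · simp
  · ext k l
    rw [Matrix.mul_apply, Finset.sum_eq_single (⟨k.val + 1, by omega⟩ : Fin n)]
    · simp [Matrix.one_apply, Fin.ext_iff, eq_comm]
    · intro b _ hb
      simp only [Matrix.of_apply]
      rw [if_neg, zero_mul]
      intro hc; apply hb; exact Fin.ext hc.symm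
    · simp

theorem reg_conj_shift {n : ℕ} (hn : 1 ≤ n) (N : Matrix (Fin n) (Fin n) F) (hnil : N ^ n = 0) (hreg : N.rank = n - 1) :
    ∃ P : GL (Fin n) F, (P : Matrix (Fin n) (Fin n) F) * shift F n = N * P := by
  obtain ⟨v, hv⟩ := exists_mulVec_ne (reg_pow_ne (Fintype.card_fin _) N hreg hn)
  have hli := reg_cyclic N hnil v hv
  set P : Matrix (Fin n) (Fin n) F := Matrix.of fun i j => ((N ^ (n - 1 - j.val)).mulVec v) i with hP
  have hcol : P.col = (fun i : Fin n => (N ^ (i : ℕ)).mulVec v) ∘ Fin.rev := by
    funext j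
    ext i
    simp only [hP, Matrix.col_apply, Matrix.of_apply, Function.comp, Fin.val_rev]
    have : n - 1 - j.val = n - (j.val + 1) := by omega
    rw [this]
  have hPu : IsUnit P := by
    rw [← Matrix.linearIndependent_cols_iff_isUnit, hcol]
    exact hli.comp _ Fin.rev_injective
  refine ⟨hPu.unit, ?_⟩
  show P * shift F n = N * P
  ext i j
  rw [Matrix.mul_apply]
  have h1 : (N * P) i j = ((N ^ (n - 1 - j.val + 1)).mulVec v) i := by
    rw [pow_succ', ← Matrix.mulVec_mulVec]
    rfl
  rw [h1]
  rcases Nat.eq_zero_or_pos j.val with hj | hj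
  · have h2 : N ^ (n - 1 - j.val + 1) = 0 := by
      rw [hj]; have : n - 1 - 0 + 1 = n := by omega
      rw [this]; exact hnil
    rw [h2, Matrix.zero_mulVec]
    apply Finset.sum_eq_zero
    intro k _
    simp only [shift, Matrix.of_apply]
    rw [if_neg (by omega), mul_zero]
  · rw [Finset.sum_eq_single (⟨j.val - 1, by omega⟩ : Fin n)]
    · have h3 : n - 1 - j.val + 1 = n - 1 - (j.val - 1) := by omega
      have h4 : j.val - 1 + 1 = j.val := by omega
      rw [h3]
      simp only [shift, Matrix.of_apply, hP]
      rw [if_pos h4, mul_one]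
    · intro b _ hb
      simp only [shift, Matrix.of_apply]
      rw [if_neg, mul_zero]
      intro hc; apply hb; apply Fin.ext; simp only; omega
    · simp

theorem polyMat_shift {n : ℕ} (c : Fin n → F) (i j : Fin n) :
    (polyMat (shift F n) c) i j = if h : i.val ≤ j.val then c ⟨j.val - i.val, by omega⟩ else 0 := by
  unfold polyMat
  rw [Matrix.sum_apply]
  simp only [Matrix.smul_apply, shift_pow, smul_eq_mul]
  split_ifs with h
  · rw [Finset.sum_eq_single (⟨j.val - i.val, by omega⟩ : Fin n)]
    · rw [if_pos (by simp only; omega), mul_one]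
    · intro b _ hb
      rw [if_neg, mul_zero]
      intro hc; apply hb; apply Fin.ext; simp only; omega
    · simp
  · apply Finset.sum_eq_zero
    intro b _
    rw [if_neg (by omega), mul_zero]

theorem det_polyMat_shift {n : ℕ} (hn : 1 ≤ n) (c : Fin n → F) : (polyMat (shift F n) c).det = (c ⟨0, by omega⟩) ^ n := by
  rw [Matrix.det_of_upperTriangular]
  · rw [Finset.prod_congr rfl (g := fun _ => c ⟨0, by omega⟩)]
    · simp
    · intro i _
      rw [polyMat_shift, dif_pos le_rfl]
      congr 1
      apply Fin.ext; simp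
  · intro i j hij
    have h1 : j.val < i.val := hij
    rw [polyMat_shift, dif_neg (by omega)]

/-- elements commuting with the shift -/
theorem commute_shift {n : ℕ} (hn : 1 ≤ n) (B : Matrix (Fin n) (Fin n) F) (hB : Commute B (shift F n)) :
    ∃ c : Fin n → F, polyMat (shift F n) c = B := by
  have hne := shift_pow_pred F n hn
  obtain ⟨v, hv⟩ := exists_mulVec_ne hne
  have hli := reg_cyclic (shift F n) (shift_pow_self F n) v hv
  obtain ⟨c, hc, -⟩ := commutant_of_cyclic (Fintype.card_fin _) (shift F n) v hli B hB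
  exact ⟨c, hc⟩

end Cfsg.Agent.H8
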