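import Mathlib
import Cfsg.Agent.H8.SL2f

set_option autoImplicit false

namespace Cfsg.Agent.H8.SL2

open Matrix Polynomial

section group
variable {G : Type*} [Group G]

theorem card_two_coset (g g' w : G) (hne : g ≠ g') (hw : w * g * w⁻¹ = g') :
    Nat.card {h : G // h * g * h⁻¹ = g ∨ h * g * h⁻¹ = g'} = 2 * Nat.card (Subgroup.centralizer ({g} : Set G)) ∨ Infinite G := by
  by_cases hinf : Infinite G
  · right; exact hinf
  left
  haveI : Finite G := not_infinite_iff_finite.1 hinf
  have hA : ∀ x : (Subgroup.centralizer ({g} : Set G)), x.1 * g * x.1⁻¹ = g :=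
    fun x => mul_inv_eq_iff_eq_mul.2 (Subgroup.mem_centralizer_singleton_iff.1 x.2)
  have hB : ∀ x : (Subgroup.centralizer ({g} : Set G)), (w * x.1) * g * (w * x.1)⁻¹ = g' := by
    intro x
    rw [← hw]
    have : w * x.1 * g * (w * x.1)⁻¹ = w * (x.1 * g * x.1⁻¹) * w⁻¹ := by group
    rw [this, hA]
  let φ : (Subgroup.centralizer ({g} : Set G)) ⊕ (Subgroup.centralizer ({g} : Set G)) →
      {h : G // h * g * h⁻¹ = g ∨ h * g * h⁻¹ = g'} :=
    Sum.elim (fun x => ⟨x.1, Or.inl (hA x)⟩) (fun x => ⟨w * x.1, Or.inr (hB x)⟩)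
  have hφ : Function.Bijective φ := by
    constructor
    · have hmix : ∀ x y : (Subgroup.centralizer ({g} : Set G)), x.1 ≠ w * y.1 := by
        intro x y H
        apply hne
        have h1 := hA x
        have h2 := hB y
        rw [← H, h1] at h2
        exact h2
      rintro (x | x) (y | y) H
      · have := congrArg Subtype.val H
        exact congrArg Sum.inl (Subtype.ext this)
      · exact absurd (congrArg Subtype.val H) (hmix x y)
      · exact absurd (congrArg Subtype.val H).symm (hmix y x)
      · have h5 : w * x.1 = w * y.1 := congrArg Subtype.val H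
        exact congrArg Sum.inr (Subtype.ext (mul_left_cancel h5))
    · rintro ⟨x, hx⟩
      rcases hx with H | H
      · exact ⟨Sum.inl ⟨x, Subgroup.mem_centralizer_singleton_iff.2 (mul_inv_eq_iff_eq_mul.1 H)⟩, rfl⟩
      · refine ⟨Sum.inr ⟨w⁻¹ * x, ?_⟩, ?_⟩
        · rw [Subgroup.mem_centralizer_singleton_iff]
          apply mul_inv_eq_iff_eq_mul.1
          have : w⁻¹ * x * g * (w⁻¹ * x)⁻¹ = w⁻¹ * (x * g * x⁻¹) * w := by group
          rw [this, H, ← hw]; group
        · apply Subtype.ext
          show w * (w⁻¹ * x) = x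
          group
  rw [← Nat.card_congr (Equiv.ofBijective φ hφ), Nat.card_sum, two_mul]

theorem card_two_coset' [Finite G] (g g' w : G) (hne : g ≠ g') (hw : w * g * w⁻¹ = g') :
    Nat.card {h : G // h * g * h⁻¹ = g ∨ h * g * h⁻¹ = g'} = 2 * Nat.card (Subgroup.centralizer ({g} : Set G)) := by
  rcases card_two_coset g g' w hne hw with h | h
  · exact h
  · exact absurd h (not_infinite_iff_finite.2 inferInstance)

/-- number of classes as a sum of centralizer orders -/
theorem classes_sum [Finite G] : Nat.card (ConjClasses G) * Nat.card G = ∑ᶠ x : G, Nat.card (Subgroup.centralizer ({x} : Set G)) := by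
  classical
  haveI := Fintype.ofFinite G
  rw [← card_comm_eq_card_conjClasses_mul_card, finsum_eq_sum_of_fintype, ← Nat.card_sigma]
  apply Nat.card_congr
  refine ⟨fun p => ⟨p.1.1, p.1.2, Subgroup.mem_centralizer_singleton_iff.2 p.2.symm⟩, fun s => ⟨(s.1, s.2.1), (Subgroup.mem_centralizer_singleton_iff.1 s.2.2).symm⟩, ?_, ?_⟩
  · intro p; rfl
  · intro s; rfl

/-- classes of a generalized dihedral-like group -/
theorem classes_inverting [Finite G] (T : Subgroup G) (hT : ∀ a ∈ T, ∀ b ∈ T, a * b = b * a) (hinv : ∀ x, x ∉ T → ∀ t ∈ T, x * t * x⁻¹ = t⁻¹)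
    (w : G) (hw : w ∉ T) (hidx : Nat.card G = 2 * Nat.card T) :
    2 * Nat.card (ConjClasses G) = Nat.card T + 3 * Nat.card {t : G // t ∈ T ∧ t * t = 1} := by
  classical
  haveI := Fintype.ofFinite G
  set i := Nat.card {t : G // t ∈ T ∧ t * t = 1} with hi
  -- index two : products of two outside elements are inside
  have hidx2 : T.index = 2 := by
    have h1 := T.card_mul_index
    rw [hidx, mul_comm] at h1
    exact Nat.eq_of_mul_eq_mul_right Nat.card_pos h1
  have hmem : ∀ x y : G, x ∉ T → y ∉ T → x⁻¹ * y ∈ T := by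
    intro x y hx hy
    rw [Subgroup.mul_mem_iff_of_index_two hidx2]
    rw [T.inv_mem_iff]
    exact iff_of_false hx hy
  have c1 : ∀ x : G, x ∈ T → x * x = 1 → Nat.card (Subgroup.centralizer ({x} : Set G)) = 2 * Nat.card T := by
    intro x hx hx2
    have : Subgroup.centralizer ({x} : Set G) = ⊤ := by
      rw [eq_top_iff]
      intro y _
      rw [Subgroup.mem_centralizer_singleton_iff]
      by_cases hy : y ∈ T
      · exact hT y hy x hx
      · have h1 := hinv y hy x hx
        have h2 : x⁻¹ = x := inv_eq_of_mul_eq_one_left hx2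
        rw [h2] at h1
        exact mul_inv_eq_iff_eq_mul.1 h1
    rw [this, Subgroup.card_top, hidx]
  have c2 : ∀ x : G, x ∈ T → x * x ≠ 1 → Nat.card (Subgroup.centralizer ({x} : Set G)) = Nat.card T := by
    intro x hx hx2
    have : Subgroup.centralizer ({x} : Set G) = T := by
      ext y
      rw [Subgroup.mem_centralizer_singleton_iff]
      constructor
      · intro h
        by_contra hy
        have h1 := hinv y hy x hx
        have h3 : y * x * y⁻¹ = x := mul_inv_eq_iff_eq_mul.2 h
        rw [h1] at h3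
        apply hx2
        nth_rw 1 [← h3]
        exact inv_mul_cancel x
      · intro hy; exact hT y hy x hx
    rw [this]
  have c3 : ∀ x : G, x ∉ T → Nat.card (Subgroup.centralizer ({x} : Set G)) = 2 * i := by
    intro x hx
    have hcom : ∀ t : G, t ∈ T → (t * x = x * t ↔ t * t = 1) := by
      intro t ht
      have h1 := hinv x hx t ht
      constructor
      · intro h
        have h2 : x * t * x⁻¹ = t := mul_inv_eq_iff_eq_mul.2 h.symm
        rw [h1] at h2
        nth_rw 1 [← h2]
        exact inv_mul_cancel t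
      · intro h
        have h2 : t⁻¹ = t := inv_eq_of_mul_eq_one_left h
        rw [h2] at h1
        exact (mul_inv_eq_iff_eq_mul.1 h1).symm
    let ψ : {t : G // t ∈ T ∧ t * t = 1} ⊕ {t : G // t ∈ T ∧ t * t = 1} → Subgroup.centralizer ({x} : Set G) :=
      Sum.elim (fun t => ⟨t.1, Subgroup.mem_centralizer_singleton_iff.2 ((hcom t.1 t.2.1).2 t.2.2)⟩)
        (fun t => ⟨x * t.1, Subgroup.mem_centralizer_singleton_iff.2 (by rw [mul_assoc, (hcom t.1 t.2.1).2 t.2.2])⟩)
    have hψ : Function.Bijective ψ := by
      constructor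
      · have hmix : ∀ s t : {t : G // t ∈ T ∧ t * t = 1}, s.1 ≠ x * t.1 := by
          intro s t H
          apply hx
          have : x = s.1 * t.1⁻¹ := by rw [H]; group
          rw [this]
          exact T.mul_mem s.2.1 (T.inv_mem t.2.1)
        rintro (s | s) (t | t) H
        · have h5 := congrArg (fun z : Subgroup.centralizer ({x} : Set G) => z.1) H
          exact congrArg Sum.inl (Subtype.ext h5)
        · exact absurd (congrArg Subtype.val H) (hmix s t)
        · exact absurd (congrArg Subtype.val H).symm (hmix t s)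
        · have h5 : x * s.1 = x * t.1 := congrArg Subtype.val H
          exact congrArg Sum.inr (Subtype.ext (mul_left_cancel h5))
      · rintro ⟨y, hy⟩
        rw [Subgroup.mem_centralizer_singleton_iff] at hy
        by_cases hyT : y ∈ T
        · exact ⟨Sum.inl ⟨y, hyT, (hcom y hyT).1 hy⟩, rfl⟩
        · have h1 := hmem x y hx hyT
          refine ⟨Sum.inr ⟨x⁻¹ * y, h1, (hcom _ h1).1 ?_⟩, ?_⟩
          · rw [mul_assoc, hy]; group
          · apply Subtype.ext
            show x * (x⁻¹ * y) = y
            group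
    rw [← Nat.card_congr (Equiv.ofBijective ψ hψ), Nat.card_sum, two_mul]
  have hs := classes_sum (G := G)
  rw [finsum_eq_sum_of_fintype] at hs
  have hval : ∀ x : G, Nat.card (Subgroup.centralizer ({x} : Set G)) = (if x ∈ T then Nat.card T else 0) + (if x ∈ T ∧ x * x = 1 then Nat.card T else 0) + (if x ∉ T then 2 * i else 0) := by
    intro x
    by_cases hx : x ∈ T
    · by_cases hx2 : x * x = 1
      · rw [c1 x hx hx2, if_pos hx, if_pos ⟨hx, hx2⟩, if_neg (not_not.2 hx)]; ring
      · rw [c2 x hx hx2, if_pos hx, if_neg (fun h => hx2 h.2), if_neg (not_not.2 hx), add_zero, add_zero]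
    · rw [c3 x hx, if_neg hx, if_neg (fun h => hx h.1), if_pos hx]; ring
  rw [Finset.sum_congr rfl (fun x _ => hval x), Finset.sum_add_distrib, Finset.sum_add_distrib, ← Finset.sum_filter, ← Finset.sum_filter, ← Finset.sum_filter,
    Finset.sum_const, Finset.sum_const, Finset.sum_const] at hs
  have n1 : (Finset.univ.filter (fun x => x ∈ T)).card = Nat.card T := by
    rw [Nat.card_eq_fintype_card, Fintype.card_subtype]
  have n2 : (Finset.univ.filter (fun x => x ∈ T ∧ x * x = 1)).card = i := by
    rw [hi, Nat.card_eq_fintype_card, Fintype.card_subtype]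
  have n3 : (Finset.univ.filter (fun x => x ∉ T)).card = Nat.card T := by
    have h1 := Finset.card_filter_add_card_filter_not (s := (Finset.univ : Finset G)) (fun x => x ∈ T)
    rw [n1, Finset.card_univ, ← Nat.card_eq_fintype_card, hidx] at h1
    omega
  rw [n1, n2, n3, hidx] at hs
  simp only [smul_eq_mul] at hs
  have h6 : Nat.card T * (2 * Nat.card (ConjClasses G)) = Nat.card T * (Nat.card T + 3 * i) := by
    rw [mul_comm (Nat.card (ConjClasses G))] at hs
    linarith
  exact Nat.eq_of_mul_eq_mul_left Nat.card_pos h6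

end group

variable {F : Type*} [Field F]

theorem inv_val (A : SpecialLinearGroup (Fin 2) F) : (A⁻¹).1 = A.1.trace • (1 : Matrix (Fin 2) (Fin 2) F) + (-1 : F) • A.1 := by
  show Matrix.adjugate A.1 = _
  rw [Matrix.adjugate_fin_two, Matrix.trace_fin_two]
  ext i j
  fin_cases i <;> fin_cases j <;> simp

theorem conj_val (x g : SpecialLinearGroup (Fin 2) F) : (x * g * x⁻¹).1.trace = g.1.trace :=
  (trace_conj (isConj_iff.2 ⟨x, rfl⟩)).symm

theorem conj_cases (g h : SpecialLinearGroup (Fin 2) F) (hg : NS g.1) (ht : g.1.trace ^ 2 ≠ 4) (hc : h * g = g * h) (htr : h.1.trace = g.1.trace) :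
    h = g ∨ h = g⁻¹ := by
  obtain ⟨a, b, hab⟩ := commutant g.1 h.1 hg (congrArg Subtype.val hc)
  set t := g.1.trace with htt
  have e1 : 2 * a + b * t = t := by
    rw [hab, Matrix.trace_add, Matrix.trace_smul, Matrix.trace_smul, Matrix.trace_one] at htr
    simp only [Fintype.card_fin, smul_eq_mul] at htr
    push_cast at htr
    linear_combination htr
  have e2 : a ^ 2 + t * a * b + b ^ 2 = 1 := by
    have := h.2
    rw [hab, det_xy, g.2, one_mul] at this
    exact this
  have e3 : (t ^ 2 - 4) * (1 - b ^ 2) = 0 := by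
    linear_combination (-(2 * a + b * t + t)) * e1 + (4:F) * e2
  have e4 : 1 - b ^ 2 = 0 := by
    rcases mul_eq_zero.1 e3 with h1 | h1
    · exact absurd (sub_eq_zero.1 h1) ht
    · exact h1
  have e5 : (1 - b) * (1 + b) = 0 := by linear_combination e4
  have hG : ∀ x y : F, h.1 = x • (1 : Matrix (Fin 2) (Fin 2) F) + y • g.1 → x = 0 → y = 1 → h = g := by
    intro x y h1 h2 h3
    apply Subtype.ext
    rw [h1, h2, h3, zero_smul, one_smul, zero_add]
  have hI : ∀ x y : F, h.1 = x • (1 : Matrix (Fin 2) (Fin 2) F) + y • g.1 → x = t → y = -1 → h = g⁻¹ := by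
    intro x y h1 h2 h3
    apply Subtype.ext
    rw [h1, h2, h3, inv_val]
  rcases mul_eq_zero.1 e5 with h1 | h1
  · have hb : b = 1 := (sub_eq_zero.1 h1).symm
    rw [hb] at e1 e2
    have e6 : a * (a + t) = 0 := by linear_combination e2
    rcases mul_eq_zero.1 e6 with h2 | h2
    · left; exact hG a b hab h2 hb
    · by_cases h20 : (2 : F) = 0
      · right
        apply hI a b hab
        · linear_combination h2 - t * h20
        · linear_combination hb + h20
      · left
        apply hG a b hab _ hb
        have : 2 * a = 0 := by linear_combination e1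
        exact (mul_eq_zero.1 this).resolve_left h20
  · have hb : b = -1 := by linear_combination h1
    rw [hb] at e1 e2
    have e6 : a * (a - t) = 0 := by linear_combination e2
    rcases mul_eq_zero.1 e6 with h2 | h2
    · by_cases h20 : (2 : F) = 0
      · left
        apply hG a b hab h2
        linear_combination hb - h20
      · right
        apply hI a b hab _ hb
        have : 2 * (a - t) = 0 := by linear_combination e1
        exact sub_eq_zero.1 ((mul_eq_zero.1 this).resolve_left h20)
    · right; exact hI a b hab (sub_eq_zero.1 h2) hb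

theorem cent_comm (g : SpecialLinearGroup (Fin 2) F) (hg : NS g.1) (x y : SpecialLinearGroup (Fin 2) F)
    (hx : x ∈ Subgroup.centralizer ({g} : Set (SpecialLinearGroup (Fin 2) F))) (hy : y ∈ Subgroup.centralizer ({g} : Set (SpecialLinearGroup (Fin 2) F))) :
    x * y = y * x := by
  have hx' : x * g = g * x := Subgroup.mem_centralizer_singleton_iff.1 hx
  have hy' : y * g = g * y := Subgroup.mem_centralizer_singleton_iff.1 hy
  obtain ⟨a, b, hab⟩ := commutant g.1 x.1 hg (congrArg Subtype.val hx')
  apply Subtype.ext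
  show x.1 * y.1 = y.1 * x.1
  have : y.1 * g.1 = g.1 * y.1 := congrArg Subtype.val hy'
  rw [hab, add_mul, mul_add, smul_mul_assoc, smul_mul_assoc, mul_smul_comm, mul_smul_comm, one_mul, mul_one, this]

theorem cent_eq (g h : SpecialLinearGroup (Fin 2) F) (hg : NS g.1) (hh : NS h.1) (hc : h * g = g * h) :
    Subgroup.centralizer ({h} : Set (SpecialLinearGroup (Fin 2) F)) = Subgroup.centralizer ({g} : Set (SpecialLinearGroup (Fin 2) F)) := by
  have hgh : h ∈ Subgroup.centralizer ({g} : Set (SpecialLinearGroup (Fin 2) F)) := Subgroup.mem_centralizer_singleton_iff.2 hc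
  have hhg : g ∈ Subgroup.centralizer ({h} : Set (SpecialLinearGroup (Fin 2) F)) := Subgroup.mem_centralizer_singleton_iff.2 hc.symm
  ext x
  constructor
  · intro hx
    rw [Subgroup.mem_centralizer_singleton_iff]
    exact cent_comm h hh x g hx hhg
  · intro hx
    rw [Subgroup.mem_centralizer_singleton_iff]
    exact cent_comm g hg x h hx hgh

theorem normalizer_cent (g : SpecialLinearGroup (Fin 2) F) (hg : NS g.1) (ht : g.1.trace ^ 2 ≠ 4) (x : SpecialLinearGroup (Fin 2) F) :
    x ∈ Subgroup.normalizer ((Subgroup.centralizer ({g} : Set (SpecialLinearGroup (Fin 2) F))) : Set (SpecialLinearGroup (Fin 2) F)) ↔ (x * g * x⁻¹ = g ∨ x * g * x⁻¹ = g⁻¹) := by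
  constructor
  · intro hx
    have h1 : x * g * x⁻¹ ∈ Subgroup.centralizer ({g} : Set (SpecialLinearGroup (Fin 2) F)) :=
      (Subgroup.mem_normalizer_iff.1 hx g).1 (Subgroup.mem_centralizer_singleton_iff.2 rfl)
    exact conj_cases g _ hg ht (Subgroup.mem_centralizer_singleton_iff.1 h1) (conj_val x g)
  · intro hx
    rw [Subgroup.mem_normalizer_iff]
    intro y
    rw [Subgroup.mem_centralizer_singleton_iff, Subgroup.mem_centralizer_singleton_iff]
    have e1 : x * y * x⁻¹ * (x * g * x⁻¹) = x * (y * g) * x⁻¹ := by group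
    have e2 : (x * g * x⁻¹) * (x * y * x⁻¹) = x * (g * y) * x⁻¹ := by group
    have key : y * g = g * y ↔ x * y * x⁻¹ * (x * g * x⁻¹) = (x * g * x⁻¹) * (x * y * x⁻¹) := by
      rw [e1, e2]
      constructor
      · intro h; rw [h]
      · intro h; exact mul_left_cancel (mul_right_cancel h)
    rw [key]
    rcases hx with h | h
    · rw [h]
    · rw [h]
      constructor
      · intro H
        have : x * y * x⁻¹ * g = g * (g⁻¹ * (x * y * x⁻¹)) * g := by group
        rw [this, ← H]; group
      · intro H
        have : x * y * x⁻¹ * g⁻¹ = g⁻¹ * (g * (x * y * x⁻¹)) * g⁻¹ := by group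
        rw [this, ← H]; group

theorem inv_ne [Finite F] (g : SpecialLinearGroup (Fin 2) F) (hg : NS g.1) (ht : ringChar F = 2 ∨ g.1.trace ≠ 0) (h4 : g.1.trace ^ 2 ≠ 4) : g ≠ g⁻¹ := by
  intro h
  have h1 : g ^ 2 = 1 := by rw [sq]; nth_rw 2 [h]; exact mul_inv_cancel g
  by_cases h2 : ringChar F = 2
  · have h3 : g.1 * g.1 = 1 := by
      have := congrArg Subtype.val h1
      rw [sq] at this
      exact this
    rw [cayley] at h3
    have h5 : (-1 : F) • (1 : Matrix (Fin 2) (Fin 2) F) + g.1.trace • g.1 = (1 : F) • (1 : Matrix (Fin 2) (Fin 2) F) + (0 : F) • g.1 := by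
      have e7 : g.1.trace • g.1 = 1 + 1 := eq_add_of_sub_eq h3
      rw [e7, neg_smul, one_smul, zero_smul, add_zero, neg_add_cancel_left]
    have h6 := (xy_inj g.1 hg _ _ _ _ h5).2
    apply h4
    haveI : CharP F 2 := by rw [← h2]; exact ringChar.charP F
    have h20 : (2 : F) = 0 := CharTwo.two_eq_zero
    rw [h6]
    linear_combination (-2 : F) * h20
  · rcases sq_eq_one g h1 h2 with h3 | h3
    · exact (ns_iff' g).1 hg (Or.inl h3)
    · exact (ns_iff' g).1 hg (Or.inr h3)

end Cfsg.Agent.H8.SL2
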