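import Mathlib
import Cfsg.Agent.H8.SL2g
import Cfsg.Agent.H8.Disc

set_option autoImplicit false

namespace Cfsg.Agent.H8.SL2

open Matrix Polynomial

variable {F : Type*} [Field F]

/-- structure of the normalizer of the centralizer of a regular semisimple element -/
theorem norm_struct [Finite F] (h2 : ringChar F ≠ 2) (g : SpecialLinearGroup (Fin 2) F) (hg : NS g.1) (ht : g.1.trace ^ 2 ≠ 4) :
    Nat.card (Subgroup.normalizer ((Subgroup.centralizer ({g} : Set (SpecialLinearGroup (Fin 2) F))) : Set (SpecialLinearGroup (Fin 2) F))) = 2 * Nat.card (Subgroup.centralizer ({g} : Set (SpecialLinearGroup (Fin 2) F))) ∧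
    2 * Nat.card (ConjClasses (Subgroup.normalizer ((Subgroup.centralizer ({g} : Set (SpecialLinearGroup (Fin 2) F))) : Set (SpecialLinearGroup (Fin 2) F)))) = Nat.card (Subgroup.centralizer ({g} : Set (SpecialLinearGroup (Fin 2) F))) + 6 ∧
    ∀ x ∈ Subgroup.normalizer ((Subgroup.centralizer ({g} : Set (SpecialLinearGroup (Fin 2) F))) : Set (SpecialLinearGroup (Fin 2) F)), x ∉ Subgroup.centralizer ({g} : Set (SpecialLinearGroup (Fin 2) F)) → x * x = -1 := by
  classical
  set T := Subgroup.centralizer ({g} : Set (SpecialLinearGroup (Fin 2) F)) with hT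
  set N := Subgroup.normalizer (T : Set (SpecialLinearGroup (Fin 2) F)) with hN
  have hnc := normalizer_cent g hg ht
  rw [← hT, ← hN] at hnc
  have hne : g ≠ g⁻¹ := by
    intro h
    have h1 : g ^ 2 = 1 := by rw [sq]; nth_rw 2 [h]; exact mul_inv_cancel g
    rcases sq_eq_one g h1 h2 with h3 | h3
    · exact (ns_iff' g).1 hg (Or.inl h3)
    · exact (ns_iff' g).1 hg (Or.inr h3)
  have hinvtr : (g⁻¹).1.trace = g.1.trace := by
    rw [inv_val, Matrix.trace_add, Matrix.trace_smul, Matrix.trace_smul, Matrix.trace_one]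
    simp only [Fintype.card_fin, smul_eq_mul]; push_cast; ring
  have hinvns : NS (g⁻¹).1 := by
    rw [ns_iff']
    rw [ns_iff'] at hg
    rintro (h | h)
    · apply hg; left; exact inv_eq_one.1 h
    · apply hg; right
      rw [← inv_inv g, h]
      apply inv_eq_of_mul_eq_one_left
      rw [neg_mul_neg, one_mul]
  obtain ⟨w, hw⟩ := isConj_iff.1 (sl_conj g g⁻¹ hg hinvns hinvtr.symm (Or.inl ht))
  have hcard : Nat.card N = 2 * Nat.card T := by
    rw [hT, ← card_two_coset' g g⁻¹ w hne hw]
    exact Nat.card_congr (Equiv.subtypeEquivRight hnc)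
  have hTN : T ≤ N := Subgroup.le_normalizer
  have hxt : ∀ x ∈ N, x ∉ T → ∀ t ∈ T, x * t * x⁻¹ = t⁻¹ := by
    intro x hx hxT t ht
    have h1 : x * g * x⁻¹ = g⁻¹ := by
      rcases (hnc x).1 hx with h | h
      · exact absurd (Subgroup.mem_centralizer_singleton_iff.2 (mul_inv_eq_iff_eq_mul.1 h)) hxT
      · exact h
    have htg : t * g = g * t := Subgroup.mem_centralizer_singleton_iff.1 ht
    obtain ⟨a, b, hab⟩ := commutant g.1 t.1 hg (congrArg Subtype.val htg)
    apply Subtype.ext
    have hgoal : (x * t * x⁻¹).1 = x.1 * t.1 * (x⁻¹ : SpecialLinearGroup (Fin 2) F).1 := rfl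
    have h3 : x.1 * g.1 * (x⁻¹ : SpecialLinearGroup (Fin 2) F).1 = (g⁻¹).1 := congrArg Subtype.val h1
    have h4 : x.1 * (x⁻¹ : SpecialLinearGroup (Fin 2) F).1 = 1 := congrArg Subtype.val (mul_inv_cancel x)
    rw [inv_val g] at h3
    rw [hgoal, inv_val t, hab, mul_add, add_mul, mul_smul_comm, mul_smul_comm, smul_mul_assoc, smul_mul_assoc, mul_one, h3, h4,
      Matrix.trace_add, Matrix.trace_smul, Matrix.trace_smul, Matrix.trace_one]
    ext i j
    simp only [Matrix.add_apply, Matrix.smul_apply, smul_eq_mul, Fintype.card_fin]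
    push_cast
    ring
  have hwT : w ∉ T := by
    intro h
    rw [hT, Subgroup.mem_centralizer_singleton_iff] at h
    apply hne
    rw [← hw, h]; group
  have hwN : w ∈ N := (hnc w).2 (Or.inr hw)
  refine ⟨hcard, ?_, ?_⟩
  · have key := classes_inverting (G := N) (T.subgroupOf N) ?_ ?_ ⟨w, hwN⟩ ?_ ?_
    · rw [key]
      have e1 : Nat.card (T.subgroupOf N) = Nat.card T := Nat.card_congr (Subgroup.subgroupOfEquivOfLe hTN).toEquiv
      rw [e1]
      have e2 : Nat.card {t : N // t ∈ T.subgroupOf N ∧ t * t = 1} = 2 := by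
        have hone : (1 : SpecialLinearGroup (Fin 2) F) ≠ -1 := by
          intro h
          have h5 := congrArg (fun z : SpecialLinearGroup (Fin 2) F => z.1.trace) h
          simp only [trace_one_SL, trace_neg_SL] at h5
          have h20 : (2 : F) ≠ 0 := Ring.two_ne_zero h2
          have h6 : (2 : F) * 2 = 0 := by linear_combination h5
          rcases mul_eq_zero.1 h6 with h | h <;> exact h20 h
        have h7 : Nat.card {t : N // t ∈ T.subgroupOf N ∧ t * t = 1} = Nat.card (({1, -1} : Finset (SpecialLinearGroup (Fin 2) F))) := by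
          have hm1 : (-1 : SpecialLinearGroup (Fin 2) F) ∈ T := by
            rw [hT, Subgroup.mem_centralizer_singleton_iff, neg_mul, mul_neg, one_mul, mul_one]
          apply Nat.card_congr
          refine ⟨fun t => ⟨t.1.1, ?_⟩, fun s => ⟨⟨s.1, ?_⟩, ?_, ?_⟩, ?_, ?_⟩
          · rw [Finset.mem_insert, Finset.mem_singleton]
            apply sq_eq_one _ _ h2
            rw [sq]
            exact congrArg Subtype.val t.2.2
          · rcases Finset.mem_insert.1 s.2 with h | h
            · rw [h]; exact N.one_mem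
            · rw [Finset.mem_singleton.1 h]; exact hTN hm1
          · show s.1 ∈ T
            rcases Finset.mem_insert.1 s.2 with h | h
            · rw [h]; exact T.one_mem
            · rw [Finset.mem_singleton.1 h]; exact hm1
          · apply Subtype.ext
            show s.1 * s.1 = 1
            rcases Finset.mem_insert.1 s.2 with h | h
            · rw [h, one_mul]
            · rw [Finset.mem_singleton.1 h, neg_mul_neg, one_mul]
          · intro t; rfl
          · intro s; rfl
        rw [h7, Nat.card_eq_fintype_card, Fintype.card_coe, Finset.card_pair hone]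
      rw [e2]
    · intro a ha b hb
      apply Subtype.ext
      exact cent_comm g hg a.1 b.1 ha hb
    · intro x hx t ht
      apply Subtype.ext
      exact hxt x.1 x.2 hx t.1 ht
    · exact hwT
    · rw [hcard, Nat.card_congr (Subgroup.subgroupOfEquivOfLe hTN).toEquiv]
  · intro x hx hxT
    have hidx : (T.subgroupOf N).index = 2 := by
      have h1 := (T.subgroupOf N).card_mul_index
      rw [hcard, Nat.card_congr (Subgroup.subgroupOfEquivOfLe hTN).toEquiv, mul_comm] at h1
      exact Nat.eq_of_mul_eq_mul_right Nat.card_pos h1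
    have hxx : x * x ∈ T := by
      have : (⟨x, hx⟩ : N) * ⟨x, hx⟩ ∈ T.subgroupOf N := by
        rw [Subgroup.mul_mem_iff_of_index_two hidx]
      exact this
    have h1 := hxt x hx hxT _ hxx
    have h3 : x * (x * x) * x⁻¹ = x * x := by group
    rw [h3] at h1
    have h4 : (x * x) ^ 2 = 1 := by
      rw [sq]; nth_rw 1 [h1]; exact inv_mul_cancel _
    rcases sq_eq_one _ h4 h2 with h5 | h5
    · exfalso
      rw [← sq] at h5
      rcases sq_eq_one _ h5 h2 with h6 | h6
      · exact hxT (h6 ▸ T.one_mem)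
      · apply hxT
        rw [h6, hT, Subgroup.mem_centralizer_singleton_iff, neg_mul, mul_neg, one_mul, mul_one]
    · exact h5

theorem ringChar_ne_two_of_odd [Fintype F] (h : Odd (Fintype.card F)) : ringChar F ≠ 2 := by
  intro h2
  have := FiniteField.even_card_of_char_two h2
  rw [Nat.odd_iff] at h
  omega


theorem disc_nonsquare (h2 : ringChar F ≠ 2) (t : F) : (∀ c : F, c ^ 2 - t * c + 1 ≠ 0) ↔ ¬ IsSquare (t ^ 2 - 4) := by
  have h20 : (2 : F) ≠ 0 := Ring.two_ne_zero h2
  constructor
  · rintro h ⟨s, hs⟩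
    apply h ((t + s) / 2)
    field_simp
    linear_combination hs * (-1)
  · intro h c hc
    apply h
    exact ⟨2 * c - t, by linear_combination (-4 : F) * hc⟩

/-- a nonsplit element is conjugate into a given nonsplit torus -/
theorem conj_into [Finite F] (h2 : ringChar F ≠ 2) (g0 g : SpecialLinearGroup (Fin 2) F)
    (h0 : ∀ c : F, c ^ 2 - g0.1.trace * c + 1 ≠ 0) (hg : ∀ c : F, c ^ 2 - g.1.trace * c + 1 ≠ 0) :
    ∃ h : SpecialLinearGroup (Fin 2) F, h * g * h⁻¹ ∈ Subgroup.centralizer ({g0} : Set (SpecialLinearGroup (Fin 2) F)) := by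
  classical
  haveI := Fintype.ofFinite F
  have h20 : (2 : F) ≠ 0 := Ring.two_ne_zero h2
  set t := g0.1.trace with ht
  set τ := g.1.trace with hτ
  have n0 := (disc_nonsquare h2 t).1 h0
  have n1 := (disc_nonsquare h2 τ).1 hg
  have hd0 : t ^ 2 - 4 ≠ 0 := by intro h; exact n0 (h ▸ IsSquare.zero)
  have hd1 : τ ^ 2 - 4 ≠ 0 := by intro h; exact n1 (h ▸ IsSquare.zero)
  have hsq : IsSquare ((t ^ 2 - 4) * (τ ^ 2 - 4)) := by
    by_contra hcon
    rw [H8.not_isSquare_mul hd0 n1] at hcon
    exact hcon n0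
  obtain ⟨s, hs⟩ := hsq
  -- b = s / (t^2-4)
  set b := s / (t ^ 2 - 4) with hb
  set a := (τ - b * t) / 2 with ha
  have hb2 : b ^ 2 * (t ^ 2 - 4) = τ ^ 2 - 4 := by
    rw [hb]; field_simp; linear_combination -hs
  have ha2 : 2 * a = τ - b * t := by rw [ha]; field_simp
  have hdet : (a • (1 : Matrix (Fin 2) (Fin 2) F) + b • g0.1).det = 1 := by
    rw [det_xy, g0.2, one_mul, ← ht]
    have : (4 : F) * (a ^ 2 + t * a * b + b ^ 2 - 1) = 0 := by
      linear_combination (2 * a + τ + b * t) * ha2 - hb2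
    have h40 : (4 : F) ≠ 0 := by
      have : (4 : F) = 2 * 2 := by norm_num
      rw [this]; exact mul_ne_zero h20 h20
    exact sub_eq_zero.1 ((mul_eq_zero.1 this).resolve_left h40)
  let M : SpecialLinearGroup (Fin 2) F := mkSL _ hdet
  have hMt : M.1.trace = τ := by
    show (a • (1 : Matrix (Fin 2) (Fin 2) F) + b • g0.1).trace = τ
    rw [Matrix.trace_add, Matrix.trace_smul, Matrix.trace_smul, Matrix.trace_one, ← ht]
    simp only [Fintype.card_fin, smul_eq_mul]; push_cast
    linear_combination ha2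
  have hMns : NS M.1 := by
    apply nonsplit_ns
    rw [hMt]; exact hg
  obtain ⟨h, hh⟩ := isConj_iff.1 (sl_conj g M (nonsplit_ns g hg) hMns hMt.symm (nonsplit_ne _ hg))
  refine ⟨h, ?_⟩
  rw [hh, Subgroup.mem_centralizer_singleton_iff]
  apply Subtype.ext
  exact xy_comm g0.1 a b

theorem norm_inv [Finite F] (g : SpecialLinearGroup (Fin 2) F) (hg : NS g.1) (ht : g.1.trace ^ 2 ≠ 4)
    (x : SpecialLinearGroup (Fin 2) F) (hx : x ∈ Subgroup.normalizer ((Subgroup.centralizer ({g} : Set (SpecialLinearGroup (Fin 2) F))) : Set (SpecialLinearGroup (Fin 2) F)))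
    (t : SpecialLinearGroup (Fin 2) F) (htT : t ∈ Subgroup.centralizer ({g} : Set (SpecialLinearGroup (Fin 2) F))) : x * t * x⁻¹ = t ∨ x * t * x⁻¹ = t⁻¹ := by
  have htg : t * g = g * t := Subgroup.mem_centralizer_singleton_iff.1 htT
  obtain ⟨a, b, hab⟩ := commutant g.1 t.1 hg (congrArg Subtype.val htg)
  have hgoal : (x * t * x⁻¹).1 = x.1 * t.1 * (x⁻¹ : SpecialLinearGroup (Fin 2) F).1 := rfl
  have h4 : x.1 * (x⁻¹ : SpecialLinearGroup (Fin 2) F).1 = 1 := congrArg Subtype.val (mul_inv_cancel x)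
  rcases (normalizer_cent g hg ht x).1 hx with h | h
  · left
    apply Subtype.ext
    have h3 : x.1 * g.1 * (x⁻¹ : SpecialLinearGroup (Fin 2) F).1 = g.1 := congrArg Subtype.val h
    rw [hgoal, hab, mul_add, add_mul, mul_smul_comm, mul_smul_comm, smul_mul_assoc, smul_mul_assoc, mul_one, h3, h4]
  · right
    apply Subtype.ext
    have h3 : x.1 * g.1 * (x⁻¹ : SpecialLinearGroup (Fin 2) F).1 = (g⁻¹).1 := congrArg Subtype.val h
    rw [inv_val g] at h3
    rw [hgoal, inv_val t, hab, mul_add, add_mul, mul_smul_comm, mul_smul_comm, smul_mul_assoc, smul_mul_assoc, mul_one, h3, h4,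
      Matrix.trace_add, Matrix.trace_smul, Matrix.trace_smul, Matrix.trace_one]
    ext i j
    simp only [Matrix.add_apply, Matrix.smul_apply, smul_eq_mul, Fintype.card_fin]
    push_cast
    ring

theorem isCyclic_cent_split [Finite F] (x : SpecialLinearGroup (Fin 2) F) (a : Fˣ) (ha : (a : F) ^ 2 ≠ 1) (h : IsConj x (dg a)) :
    IsCyclic (Subgroup.centralizer ({x} : Set (SpecialLinearGroup (Fin 2) F))) := by
  obtain ⟨M, hM⟩ := isConj_iff.1 h
  let ψ : Fˣ →* SpecialLinearGroup (Fin 2) F := (MulAut.conj M⁻¹).toMonoidHom.comp dgHom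
  have : Subgroup.centralizer ({x} : Set (SpecialLinearGroup (Fin 2) F)) = ψ.range := by
    ext y
    have h1 : y ∈ Subgroup.centralizer ({x} : Set (SpecialLinearGroup (Fin 2) F)) ↔ M * y * M⁻¹ ∈ Subgroup.centralizer ({dg a} : Set (SpecialLinearGroup (Fin 2) F)) := by
      rw [Subgroup.mem_centralizer_singleton_iff, Subgroup.mem_centralizer_singleton_iff, ← hM]
      have e1 : M * y * M⁻¹ * (M * x * M⁻¹) = M * (y * x) * M⁻¹ := by group
      have e2 : M * x * M⁻¹ * (M * y * M⁻¹) = M * (x * y) * M⁻¹ := by group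
      rw [e1, e2]
      constructor
      · intro h; rw [h]
      · intro h; exact mul_left_cancel (mul_right_cancel h)
    rw [h1, cent_dg a ha]
    constructor
    · rintro ⟨b, hb⟩
      refine ⟨b, ?_⟩
      show M⁻¹ * dgHom b * (M⁻¹)⁻¹ = y
      rw [hb]; group
    · rintro ⟨b, hb⟩
      refine ⟨b, ?_⟩
      rw [← hb]
      show dgHom b = M * (M⁻¹ * dgHom b * (M⁻¹)⁻¹) * M⁻¹
      group
  rw [this]
  exact isCyclic_of_surjective ψ.rangeRestrict ψ.rangeRestrict_surjective

/-- odd Sylow subgroups -/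
theorem sylow_struct [Finite F] (P : Subgroup (SpecialLinearGroup (Fin 2) F)) (g : SpecialLinearGroup (Fin 2) F) (hgP : g ∈ P)
    (hc : ∀ y ∈ P, y * g = g * y) (hg : NS g.1) (ht : g.1.trace ^ 2 ≠ 4) :
    Subgroup.centralizer (P : Set (SpecialLinearGroup (Fin 2) F)) = Subgroup.centralizer ({g} : Set (SpecialLinearGroup (Fin 2) F)) ∧
    Subgroup.normalizer (P : Set (SpecialLinearGroup (Fin 2) F)) = Subgroup.normalizer ((Subgroup.centralizer ({g} : Set (SpecialLinearGroup (Fin 2) F))) : Set (SpecialLinearGroup (Fin 2) F)) := by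
  have hPT : ∀ y ∈ P, y ∈ Subgroup.centralizer ({g} : Set (SpecialLinearGroup (Fin 2) F)) := fun y hy =>
    Subgroup.mem_centralizer_singleton_iff.2 (hc y hy)
  have h1 : Subgroup.centralizer (P : Set (SpecialLinearGroup (Fin 2) F)) = Subgroup.centralizer ({g} : Set (SpecialLinearGroup (Fin 2) F)) := by
    apply le_antisymm
    · apply Subgroup.centralizer_le
      intro y hy
      rw [Set.mem_singleton_iff.1 hy]; exact hgP
    · intro y hy
      rw [Subgroup.mem_centralizer_iff]
      intro z hz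
      exact cent_comm g hg z y (hPT z hz) hy
  refine ⟨h1, ?_⟩
  apply le_antisymm
  · rw [← h1]
    intro x hx
    have hx' := Subgroup.mem_normalizer_iff.1 hx
    rw [Subgroup.mem_normalizer_iff]
    intro y
    rw [Subgroup.mem_centralizer_iff, Subgroup.mem_centralizer_iff]
    constructor
    · intro h z hz
      have hz' : x⁻¹ * z * x ∈ P := by
        rw [hx']
        have : x * (x⁻¹ * z * x) * x⁻¹ = z := by group
        rw [this]; exact hz
      have := h _ hz'
      have e1 : z * (x * y * x⁻¹) = x * ((x⁻¹ * z * x) * y) * x⁻¹ := by group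
      rw [e1, this]; group
    · intro h z hz
      have hz' : x * z * x⁻¹ ∈ P := (hx' z).1 hz
      have := h _ hz'
      have e1 : z * y = x⁻¹ * ((x * z * x⁻¹) * (x * y * x⁻¹)) * x := by group
      rw [e1, this]; group
  · intro x hx
    rw [Subgroup.mem_normalizer_iff]
    have key : ∀ x ∈ Subgroup.normalizer ((Subgroup.centralizer ({g} : Set (SpecialLinearGroup (Fin 2) F))) : Set (SpecialLinearGroup (Fin 2) F)), ∀ y ∈ P, x * y * x⁻¹ ∈ P := by
      intro x hx y hy
      rcases norm_inv g hg ht x hx y (hPT y hy) with h | h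
      · rw [h]; exact hy
      · rw [h]; exact P.inv_mem hy
    intro y
    constructor
    · exact key x hx y
    · intro h
      have := key x⁻¹ (Subgroup.inv_mem _ hx) _ h
      have e : x⁻¹ * (x * y * x⁻¹) * (x⁻¹)⁻¹ = y := by group
      rwa [e] at this

end Cfsg.Agent.H8.SL2
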