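import Mathlib
import Cfsg.Agent.H8.SLn

set_option autoImplicit false

namespace Cfsg.Agent.H8.SLn

open Matrix Matrix.SpecialLinearGroup
open scoped Fin.CommRing

variable {F : Type*} [Field F]

theorem conj_transv {ι : Type*} [DecidableEq ι] [Fintype ι] (w : SpecialLinearGroup ι F) {i j i' j' : ι} (hij : i ≠ j) (hij' : i' ≠ j') (s r a b : F)
    (hcol : ∀ k, (w : Matrix ι ι F) k i = if k = i' then s else 0) (hrow : ∀ l, (w : Matrix ι ι F) j' l = if l = j then r else 0)
    (h : s * a = b * r) : w * transvection hij a * w⁻¹ = transvection hij' b := by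
  rw [mul_inv_eq_iff_eq_mul]
  apply coeMonoidHom_injective
  simp only [map_mul, coeMonoidHom_apply, transvection_coe]
  rw [mul_add, add_mul, mul_one, one_mul]
  congr 1
  ext k l
  rw [Matrix.mul_apply, Matrix.mul_apply]
  have e1 : ∑ x, (w : Matrix ι ι F) k x * single i j a x l = if k = i' ∧ l = j then s * a else 0 := by
    rw [Finset.sum_eq_single i]
    · rw [hcol, Matrix.single_apply]
      rcases eq_or_ne l j with h2 | h2
      · subst h2
        by_cases h1 : k = i' <;> simp [h1]
      · simp [h2, h2.symm]
    · intro x _ hx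
      rw [Matrix.single_apply, if_neg (by rintro ⟨h1, -⟩; exact hx h1.symm), mul_zero]
    · simp
  have e2 : ∑ x, single i' j' b k x * (w : Matrix ι ι F) x l = if k = i' ∧ l = j then b * r else 0 := by
    rw [Finset.sum_eq_single j']
    · rw [hrow, Matrix.single_apply]
      rcases eq_or_ne k i' with h2 | h2
      · subst h2
        by_cases h1 : l = j <;> simp [h1]
      · simp [h2, h2.symm]
    · intro x _ hx
      rw [Matrix.single_apply, if_neg (by rintro ⟨-, h1⟩; exact hx h1.symm), zero_mul]
    · simp
  rw [e1, e2, h]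

/-- the Steinberg monomial matrix together with a root subgroup generates `SL_{n+1}` -/
theorem gen_of_w (n : ℕ) (hn : 1 ≤ n) (w : SpecialLinearGroup (Fin (n + 1)) F)
    (hw : (w : Matrix (Fin (n + 1)) (Fin (n + 1)) F) =
      Matrix.of (fun i j => if j.val = i.val + 1 then 1 else if i.val = n ∧ j.val = 0 then (-1) ^ n else 0))
    (H : Subgroup (SpecialLinearGroup (Fin (n + 1)) F)) (hwH : w ∈ H)
    (h01 : (0 : Fin (n + 1)) ≠ 1) (hx : ∀ t : F, transvection h01 t ∈ H) : H = ⊤ := by
  haveI : Nontrivial (Fin (n + 1)) := Fin.nontrivial_iff_two_le.2 (by omega)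
  haveI : NeZero n := ⟨by omega⟩
  let s : Fin (n + 1) → F := fun i => if i.val = n then (-1) ^ n else 1
  have hs : ∀ i, s i ≠ 0 := by
    intro i
    simp only [s]
    split_ifs
    · exact pow_ne_zero _ (neg_ne_zero.2 one_ne_zero)
    · exact one_ne_zero
  have hwe : ∀ i k, (w : Matrix (Fin (n + 1)) (Fin (n + 1)) F) i k = if k = i + 1 then s i else 0 := by
    intro i k
    rw [hw, Matrix.of_apply]
    by_cases hi : i.val = n
    · have hi' : i = Fin.last n := Fin.ext hi
      have h1 : i + 1 = 0 := by rw [hi']; exact Fin.last_add_one n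
      rw [h1, if_neg (by have := k.2; omega)]
      by_cases hk : k = 0
      · rw [if_pos ⟨hi, by rw [hk]; rfl⟩, if_pos hk]
        simp only [s]; rw [if_pos hi]
      · rw [if_neg, if_neg hk]
        rintro ⟨-, h2⟩
        exact hk (Fin.ext h2)
    · have hlt : i.val < n := by have := i.2; omega
      have h1 : (i + 1).val = i.val + 1 := by
        rw [Fin.val_add_one, if_neg]
        intro h; apply hi; rw [h]; rfl
      by_cases hk : k = i + 1
      · rw [if_pos (by rw [hk, h1]), if_pos hk]
        simp only [s]; rw [if_neg hi]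
      · rw [if_neg, if_neg, if_neg hk]
        · rintro ⟨h2, -⟩; exact hi h2
        · intro h2; apply hk; apply Fin.ext; rw [h2, h1]
  have hadd : ∀ i : Fin (n + 1), i ≠ i + 1 := by
    intro i h
    have h1 : (1 : Fin (n + 1)) = 0 := by
      have : i + 0 = i + 1 := by rw [add_zero]; exact h
      exact (add_left_cancel this).symm
    exact h01 h1.symm
  have hP1 : ∀ (k : ℕ) (i : Fin (n + 1)), i + (k : Fin (n + 1)) = 0 → ∀ t : F, transvection (hadd i) t ∈ H := by
    intro k
    induction k with
    | zero =>
      intro i hi t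
      have hi0 : i = 0 := by simpa using hi
      subst hi0
      have := hx t
      convert this using 2
      simp
    | succ k ih =>
      intro i hi t
      have h1 : (i + 1) + (k : Fin (n + 1)) = 0 := by
        rw [← hi]; push_cast; ring
      have h2 := ih (i + 1) h1 ((s i)⁻¹ * (t * s (i + 1)))
      have h3 := conj_transv w (hadd (i + 1)) (hadd i) (s i) (s (i + 1)) ((s i)⁻¹ * (t * s (i + 1))) t
        (fun k => by
          rw [hwe]
          by_cases hk : k = i
          · rw [hk]; simp
          · rw [if_neg (fun h => hk (add_right_cancel h).symm), if_neg hk])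
        (fun l => hwe _ _) (by rw [mul_inv_cancel_left₀ (hs i)])
      rw [← h3]
      exact H.mul_mem (H.mul_mem hwH h2) (H.inv_mem hwH)
  have hP2 : ∀ (i : Fin (n + 1)) (t : F), transvection (hadd i) t ∈ H := by
    intro i t
    refine hP1 (-i).val i ?_ t
    rw [Fin.cast_val_eq_self, add_neg_cancel]
  have hP3 : ∀ (d : ℕ), 1 ≤ d → d ≤ n → ∀ (i j : Fin (n + 1)) (hij : i ≠ j), j = i + (d : Fin (n + 1)) → ∀ t : F, transvection hij t ∈ H := by
    intro d hd
    induction d, hd using Nat.le_induction with
    | base =>
      intro _ i j hij hj t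
      have h1 : j = i + 1 := by rw [hj]; simp
      subst h1
      exact hP2 i t
    | succ d hd ih =>
      intro hdn i j hij hj t
      have hne1 : i ≠ i + (d : Fin (n + 1)) := by
        intro h
        have h1 : (d : Fin (n + 1)) = 0 := by
          have : i + 0 = i + (d : Fin (n + 1)) := by rw [add_zero]; exact h
          exact (add_left_cancel this).symm
        rw [Fin.natCast_eq_zero] at h1
        have := Nat.le_of_dvd (by omega) h1
        omega
      have hj' : j = (i + (d : Fin (n + 1))) + 1 := by rw [hj]; push_cast; ring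
      have h1 := ih (by omega) i (i + d) hne1 rfl t
      have h2 := hP2 (i + d) 1
      subst hj'
      have h3 := transvection_comm hne1 (hadd (i + (d : Fin (n + 1)))) hij t 1
      rw [mul_one] at h3
      rw [← h3]
      exact H.mul_mem (H.mul_mem (H.mul_mem h1 h2) (H.inv_mem h1)) (H.inv_mem h2)
  apply mem_of_transvections
  intro i j hij a
  refine hP3 (j - i).val ?_ ?_ i j hij ?_ a
  · rcases Nat.eq_zero_or_pos (j - i).val with h | h
    · exfalso
      have : j - i = 0 := Fin.ext h
      exact hij (sub_eq_zero.1 this).symm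
    · exact h
  · have := (j - i).2; omega
  · rw [Fin.cast_val_eq_self]; abel

end Cfsg.Agent.H8.SLn
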