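import Mathlib

set_option autoImplicit false

namespace Cfsg.Agent.H8.Shin

variable {X : Type*} [Group X] (σ : MulAut X)

theorem mem_eqL (τ : MulAut X) (x : X) :
    x ∈ (MulEquiv.toMonoidHom τ).eqLocus (MonoidHom.id X) ↔ τ x = x := Iff.rfl

theorem fix_pow {x : X} (h : σ x = x) (e : ℕ) : (σ ^ e) x = x := by
  induction e with
  | zero => simp
  | succ n ih => rw [pow_succ, MulAut.mul_apply, h, ih]

theorem comm_pow (e : ℕ) (x : X) : σ ((σ ^ e) x) = (σ ^ e) (σ x) := by
  rw [← MulAut.mul_apply, ← MulAut.mul_apply, (Commute.self_pow σ e).eq]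

theorem norm_eq {g a : X} (ha : g = a * (σ a)⁻¹) (d : ℕ) :
    ((List.range d).map (fun i => (σ ^ i) g)).prod = a * ((σ ^ d) a)⁻¹ := by
  induction d with
  | zero => simp
  | succ n ih =>
    rw [List.range_succ, List.map_append, List.prod_append, ih]
    simp only [List.map_cons, List.map_nil, List.prod_cons, List.prod_nil, mul_one]
    rw [pow_succ, MulAut.mul_apply, ha, map_mul, map_inv]
    group

theorem sig_a {g a : X} (ha : g = a * (σ a)⁻¹) : σ a = g⁻¹ * a := by
  rw [ha]; group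

theorem x_fix {e : ℕ} {g a : X} (hg : (σ ^ e) g = g) (ha : g = a * (σ a)⁻¹) :
    σ (((σ ^ e) a)⁻¹ * a) = ((σ ^ e) a)⁻¹ * a := by
  rw [map_mul, map_inv, comm_pow, sig_a σ ha, map_mul, map_inv, hg]
  group

/-- twisted conjugation transfers to ordinary conjugation -/
theorem fwd {e : ℕ} {g g' a b k : X} (ha : g = a * (σ a)⁻¹) (hb : g' = b * (σ b)⁻¹)
    (hk : g' = k * g * (σ k)⁻¹) : σ (b⁻¹ * k * a) = b⁻¹ * k * a := by
  have h1 : σ k = g'⁻¹ * k * g := by rw [hk]; group
  rw [map_mul, map_mul, map_inv, sig_a σ ha, sig_a σ hb, h1]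
  group

end Cfsg.Agent.H8.Shin
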