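import Mathlib
import Cfsg.Agent.H8.SzS9

set_option autoImplicit false

namespace Cfsg.Agent.H8.Suz

open Matrix Cfsg.Agent.H8.TI
open scoped Pointwise

/-! ### transfer -/

theorem transfer_central {Γ : Type*} [Group Γ] [Finite Γ] (hperf : commutator Γ = ⊤) (P : Subgroup Γ) {A : Type*} [CommGroup A] (ϕ : P →* A) {z : Γ}
    (hz : ∀ g, g * z = z * g) (hzP : z ∈ P) : ϕ ⟨z, hzP⟩ ^ P.index = 1 := by
  have hzk : ∀ k : ℕ, ∀ g : Γ, g⁻¹ * z ^ k * g = z ^ k := by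
    intro k g
    have hc : Commute g (z ^ k) := (show Commute g z from hz g).pow_right k
    calc g⁻¹ * z ^ k * g = g⁻¹ * (g * z ^ k) := by rw [mul_assoc, hc.eq]
      _ = z ^ k := by group
  have h1 := MonoidHom.transfer_eq_pow ϕ z (fun k g _ => hzk k g)
  have h2 : z ∈ (MonoidHom.transfer ϕ).ker := by
    have h3 : commutator Γ ≤ (MonoidHom.transfer ϕ).ker := Abelianization.commutator_subset_ker _
    rw [hperf] at h3
    exact h3 (Subgroup.mem_top z)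
  rw [MonoidHom.mem_ker, h1] at h2
  rw [← map_pow, ← h2]
  rfl

variable {F : Type*} [Field F] [Fintype F] (m : ℕ) [H : Hyp F m]

include H in
theorem exists_three : ∃ a b c : F, a ≠ 0 ∧ b ≠ 0 ∧ c ≠ 0 ∧ a + b ≠ 0 ∧ a + c ≠ 0 ∧ b + c ≠ 0 ∧ a + (b + c) ≠ 0 := by
  classical
  have h8 := card_ge (F := F) m
  obtain ⟨y, h0, hy1⟩ := exists_ne01 (F := F) (by omega)
  obtain ⟨c, hc⟩ : ∃ c : F, c ∉ ({0, 1, y, 1 + y} : Finset F) := by
    by_contra hcon
    push Not at hcon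
    have h1 : Finset.univ ⊆ ({0, 1, y, 1 + y} : Finset F) := fun x _ => hcon x
    have h2 := Finset.card_le_card h1
    have h3 : ({0, 1, y, 1 + y} : Finset F).card ≤ 4 := Finset.card_le_four
    rw [Finset.card_univ] at h2
    omega
  simp only [Finset.mem_insert, Finset.mem_singleton, not_or] at hc
  obtain ⟨c0, c1, c2, c3⟩ := hc
  refine ⟨1, y, c, one_ne_zero, h0, c0, ?_, ?_, ?_, ?_⟩
  · intro h; exact hy1 (eq_of_add_zero m h).symm
  · intro h; exact c1 (eq_of_add_zero m h).symm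
  · intro h; exact c2 (eq_of_add_zero m h).symm
  · intro h
    rw [← add_assoc] at h
    exact c3 (eq_of_add_zero m h).symm

include H in
theorem lemE {V : Type*} [Group V] {z : V} (hz : ∀ g, g * z = z * g) (z2 : z * z = 1) (z1 : z ≠ 1) (π : V → F) (hadd : ∀ x y, π (x * y) = π x + π y)
    (hker : ∀ v, π v = 0 → v = 1 ∨ v = z) (hsurj : ∀ a, ∃ v, π v = a) (hconst : ∀ v w, π v ≠ 0 → π w ≠ 0 → v * v = w * w) : ∀ v : V, v * v = 1 := by
  by_contra hcon
  push Not at hcon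
  obtain ⟨v₀, hv₀⟩ := hcon
  have h1 : v₀ * v₀ = z := by
    rcases hker (v₀ * v₀) (by rw [hadd, add_self m]) with h | h
    · exact absurd h hv₀
    · exact h
  have h2 : π v₀ ≠ 0 := by
    intro h
    rcases hker v₀ h with h | h
    · rw [h, one_mul] at hv₀; exact hv₀ rfl
    · rw [h] at hv₀; exact hv₀ z2
  have hall : ∀ v, π v ≠ 0 → v * v = z := fun v hv => (hconst v v₀ hv h2).trans h1
  have hanti : ∀ x y : V, π x ≠ 0 → π y ≠ 0 → π x + π y ≠ 0 → x * y = y * x * z := by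
    intro x y hx hy hxy
    have e1 := hall x hx
    have e2 := hall y hy
    have e3 := hall (x * y) (by rw [hadd]; exact hxy)
    have e4 : y * x = x⁻¹ * z * y⁻¹ := by rw [← e3]; group
    have e5 : x = z * x⁻¹ := by rw [← e1]; group
    have e6 : y = z * y⁻¹ := by rw [← e2]; group
    rw [e4]
    calc x * y = (z * x⁻¹) * (z * y⁻¹) := by rw [← e5, ← e6]
      _ = (x⁻¹ * z) * (z * y⁻¹) := by rw [← hz x⁻¹]
      _ = x⁻¹ * z * (y⁻¹ * z) := by rw [← hz y⁻¹]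
      _ = x⁻¹ * z * y⁻¹ * z := by group
  obtain ⟨a', b', c', ha, hb, hc, hab, hac, hbc, habc⟩ := exists_three (F := F) m
  obtain ⟨a, rfl⟩ := hsurj a'
  obtain ⟨b, rfl⟩ := hsurj b'
  obtain ⟨c, rfl⟩ := hsurj c'
  have e1 := hanti a b ha hb hab
  have e2 := hanti a c ha hc hac
  have e3 := hanti a (b * c) ha (by rw [hadd]; exact hbc) (by rw [hadd]; exact habc)
  apply z1
  have e4 : a * (b * c) = b * c * a := by
    calc a * (b * c) = (a * b) * c := by group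
      _ = (b * a * z) * c := by rw [e1]
      _ = b * a * (z * c) := by group
      _ = b * a * (c * z) := by rw [hz c]
      _ = b * (a * c) * z := by group
      _ = b * (c * a * z) * z := by rw [e2]
      _ = b * c * a * (z * z) := by group
      _ = b * c * a := by rw [z2, mul_one]
  rw [e4] at e3
  have e5 : b * c * a * z = b * c * a * 1 := by rw [← e3, mul_one]
  exact mul_left_cancel e5

/-! ### double covers -/

/-- data of a double cover -/
structure Cov {Γ : Type*} [Group Γ] (σ : Γ →* ↥(Cfsg.Sz F m)) (z : Γ) : Prop where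
  surj : Function.Surjective σ
  cen : ∀ g, g * z = z * g
  ne : z ≠ 1
  sq : z * z = 1
  ker : ∀ g, σ g = 1 → g = 1 ∨ g = z
  one : σ z = 1

/-- coordinates -/
def c1 (g : ↥(Cfsg.Sz F m)) : F := mat m g 0 1
def c2 (g : ↥(Cfsg.Sz F m)) : F := mat m g 1 3

theorem c1_U (a b : F) : c1 m (U m a b) = a := by
  unfold c1; rw [mat_U]; simp [Um]
theorem c2_U (a b : F) : c2 m (U m a b) = b := by
  unfold c2; rw [mat_U]; simp [Um]

section cov

variable {Γ : Type*} [Group Γ] {σ : Γ →* ↥(Cfsg.Sz F m)} {z : Γ} (hc : Cov m σ z)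

include hc

theorem Cov.eq {g h : Γ} (hgh : σ g = σ h) : g = h ∨ g = h * z := by
  rcases hc.ker (h⁻¹ * g) (by rw [map_mul, map_inv, hgh, inv_mul_cancel]) with h1 | h1
  · left; rw [inv_mul_eq_one] at h1; exact h1.symm
  · right; rw [← h1]; group

theorem Cov.conj_eq {g h v : Γ} (hgh : σ g = σ h) : g * v * g⁻¹ = h * v * h⁻¹ := by
  rcases hc.eq m hgh with rfl | rfl
  · rfl
  · calc h * z * v * (h * z)⁻¹ = h * (z * v) * z⁻¹ * h⁻¹ := by group
      _ = h * (v * z) * z⁻¹ * h⁻¹ := by rw [hc.cen v]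
      _ = h * v * h⁻¹ := by group

theorem Cov.sq_eq {g h : Γ} (hgh : σ g = σ h) : g * g = h * h := by
  rcases hc.eq m hgh with rfl | rfl
  · rfl
  · calc h * z * (h * z) = h * (z * h) * z := by group
      _ = h * (h * z) * z := by rw [hc.cen h]
      _ = h * h * (z * z) := by group
      _ = h * h := by rw [hc.sq, mul_one]

theorem Cov.Zsq {v : Γ} {b : F} (hv : σ v = U m 0 b) : v * v = 1 := by
  have key := lemE (F := F) m (V := ↥((Z F m).comap σ)) (z := ⟨z, by rw [Subgroup.mem_comap, hc.one]; exact (Z F m).one_mem⟩)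
    (fun g => Subtype.ext (hc.cen g)) (Subtype.ext hc.sq) (fun h => hc.ne (congrArg Subtype.val h))
    (fun v => c2 m (σ v)) ?_ ?_ ?_ ?_
  · exact congrArg Subtype.val (key ⟨v, by rw [Subgroup.mem_comap, hv]; exact U_mem_Z m b⟩)
  · rintro ⟨x, hx⟩ ⟨y, hy⟩
    obtain ⟨b, hb⟩ := Subgroup.mem_comap.1 hx
    obtain ⟨c, hc'⟩ := Subgroup.mem_comap.1 hy
    show c2 m (σ (x * y)) = c2 m (σ x) + c2 m (σ y)
    rw [map_mul, hb, hc', U0_mul, c2_U, c2_U, c2_U]
  · rintro ⟨x, hx⟩ h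
    obtain ⟨b, hb⟩ := Subgroup.mem_comap.1 hx
    have h : c2 m (σ x) = 0 := h
    rw [hb, c2_U] at h
    rw [h, U_zero] at hb
    rcases hc.ker x hb with h | h
    · left; exact Subtype.ext h
    · right; exact Subtype.ext h
  · intro b
    obtain ⟨x, hx⟩ := hc.surj (U m 0 b)
    exact ⟨⟨x, by rw [Subgroup.mem_comap, hx]; exact U_mem_Z m b⟩, by show c2 m (σ x) = b; rw [hx, c2_U]⟩
  · rintro ⟨x, hx⟩ ⟨y, hy⟩ h1 h2
    obtain ⟨b, hb⟩ := Subgroup.mem_comap.1 hx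
    obtain ⟨c, hc'⟩ := Subgroup.mem_comap.1 hy
    have h1 : c2 m (σ x) ≠ 0 := h1
    have h2 : c2 m (σ y) ≠ 0 := h2
    rw [hb, c2_U] at h1
    rw [hc', c2_U] at h2
    obtain ⟨k, hk⟩ := exists_kth m (Units.mk0 (c * b⁻¹) (mul_ne_zero h2 (inv_ne_zero h1)))
    rw [Units.val_mk0] at hk
    obtain ⟨t, ht⟩ := hc.surj (T m k)
    have e1 : σ (t * x * t⁻¹) = σ y := by
      rw [map_mul, map_mul, map_inv, ht, hb, T_conj_U, mul_zero, hk, hc']
      congr 1
      field_simp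
    have e2 := hc.sq_eq m e1
    have e3 : t * (x * x) * t⁻¹ = y * y := by rw [← e2]; group
    have e4 : σ (x * x) = 1 := by rw [map_mul, hb, U0_sq']
    apply Subtype.ext
    show x * x = y * y
    rcases hc.ker _ e4 with h | h
    · rw [← e3, h]; group
    · rw [← e3, h, hc.cen]; group

theorem Cov.Zcomm {v w : Γ} {b c : F} (hv : σ v = U m 0 b) (hw : σ w = U m 0 c) : v * w = w * v := by
  have h1 := hc.Zsq m hv
  have h2 := hc.Zsq m hw
  have h3 := hc.Zsq m (v := v * w) (b := b + c) (by rw [map_mul, hv, hw, U0_mul])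
  have e1 : v⁻¹ = v := inv_eq_of_mul_eq_one_left h1
  have e2 : w⁻¹ = w := inv_eq_of_mul_eq_one_left h2
  have e3 : (v * w)⁻¹ = v * w := inv_eq_of_mul_eq_one_left h3
  rw [← e3, _root_.mul_inv_rev, e1, e2]

/-- the commutator is central -/
theorem Cov.comm_mem {x w : Γ} {a b c : F} (hx : σ x = U m a b) (hw : σ w = U m 0 c) : x * w * x⁻¹ * w⁻¹ = 1 ∨ x * w * x⁻¹ * w⁻¹ = z := by
  apply hc.ker
  rw [map_mul, map_mul, map_mul, map_inv, map_inv, hx, hw, mul_inv_eq_one, mul_inv_eq_iff_eq_mul, U_mul, U_mul, mul_zero, add_zero, zero_add, th_zero, zero_mul, add_zero, add_zero, add_comm]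

theorem Cov.comm_cen {x w : Γ} {a b c : F} (hx : σ x = U m a b) (hw : σ w = U m 0 c) (g : Γ) : g * (x * w * x⁻¹ * w⁻¹) = (x * w * x⁻¹ * w⁻¹) * g := by
  rcases hc.comm_mem m hx hw with h | h
  · rw [h, mul_one, one_mul]
  · rw [h, hc.cen]

theorem Cov.comm_mul_right {x w w' : Γ} {a b c c' : F} (hx : σ x = U m a b) (hw : σ w = U m 0 c) (hw' : σ w' = U m 0 c') :
    x * (w * w') * x⁻¹ * (w * w')⁻¹ = (x * w * x⁻¹ * w⁻¹) * (x * w' * x⁻¹ * w'⁻¹) := by
  calc x * (w * w') * x⁻¹ * (w * w')⁻¹ = x * w * x⁻¹ * (x * w' * x⁻¹ * w'⁻¹) * w⁻¹ := by group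
    _ = x * w * x⁻¹ * ((x * w' * x⁻¹ * w'⁻¹) * w⁻¹) := by group
    _ = x * w * x⁻¹ * (w⁻¹ * (x * w' * x⁻¹ * w'⁻¹)) := by rw [hc.comm_cen m hx hw']
    _ = _ := by group

theorem Cov.comm_mul_left {x y w : Γ} {a b a' b' c : F} (_hx : σ x = U m a b) (hy : σ y = U m a' b') (hw : σ w = U m 0 c) :
    (x * y) * w * (x * y)⁻¹ * w⁻¹ = (x * w * x⁻¹ * w⁻¹) * (y * w * y⁻¹ * w⁻¹) := by
  calc (x * y) * w * (x * y)⁻¹ * w⁻¹ = x * (y * w * y⁻¹ * w⁻¹) * (w * x⁻¹ * w⁻¹) := by group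
    _ = x * ((y * w * y⁻¹ * w⁻¹) * (w * x⁻¹ * w⁻¹)) := by group
    _ = x * ((w * x⁻¹ * w⁻¹) * (y * w * y⁻¹ * w⁻¹)) := by rw [hc.comm_cen m hy hw]
    _ = _ := by group

theorem Cov.comm_right_eq {x w w' : Γ} {a b c : F} (_hx : σ x = U m a b) (hw : σ w = U m 0 c) (hw' : σ w' = U m 0 c) : x * w * x⁻¹ * w⁻¹ = x * w' * x⁻¹ * w'⁻¹ := by
  rcases hc.eq m (hw.trans hw'.symm) with h | h
  · rw [h]
  · rw [h]
    calc x * (w' * z) * x⁻¹ * (w' * z)⁻¹ = x * w' * (z * x⁻¹) * z⁻¹ * w'⁻¹ := by group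
      _ = x * w' * (x⁻¹ * z) * z⁻¹ * w'⁻¹ := by rw [hc.cen x⁻¹]
      _ = _ := by group

theorem Cov.comm_left_eq {x x' w : Γ} {a b b' c : F} (hx : σ x = U m a b) (hx' : σ x' = U m a b') (hw : σ w = U m 0 c) : x * w * x⁻¹ * w⁻¹ = x' * w * x'⁻¹ * w⁻¹ := by
  have h2 := (two0 m : (2 : F) = 0)
  obtain ⟨u, hu⟩ : ∃ u, u = x'⁻¹ * x := ⟨_, rfl⟩
  have hxu : x = x' * u := by rw [hu]; group
  have hσu : ∃ d, σ u = U m 0 d := by
    rw [hu, map_mul, map_inv, hx, hx', U_inv, U_mul]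
    rw [add_self m a]
    exact ⟨_, rfl⟩
  obtain ⟨d, hd⟩ := hσu
  have e := hc.Zcomm m hd hw
  rw [hxu]
  calc x' * u * w * (x' * u)⁻¹ * w⁻¹ = x' * (u * w) * u⁻¹ * x'⁻¹ * w⁻¹ := by group
    _ = x' * (w * u) * u⁻¹ * x'⁻¹ * w⁻¹ := by rw [e]
    _ = _ := by group

end cov

include H in
/-- the field argument -/
theorem field_arg (hm2 : 2 ≤ m) : ∃ c : F, c ≠ 0 ∧ 1 + c ≠ 0 ∧ ((1 + c) * th m (1 + c))⁻¹ + (1 + (c * th m c)⁻¹) ≠ 0 := by
  classical
  by_contra hcon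
  push Not at hcon
  have h2 := (two0 m : (2 : F) = 0)
  have h7 : ∀ c : Fˣ, c ^ 7 = 1 := by
    intro c'
    apply Units.ext
    rw [Units.val_pow_eq_pow_val, Units.val_one]
    obtain ⟨c, hcc⟩ : ∃ c : F, c = c' := ⟨_, rfl⟩
    have hc : c ≠ 0 := by rw [hcc]; exact c'.ne_zero
    rw [← hcc]
    by_cases hc1 : 1 + c = 0
    · have : c = 1 := (eq_of_add_zero m hc1).symm
      rw [this, one_pow]
    · have key : ∀ c : F, c ≠ 0 → 1 + c ≠ 0 → (th m c) ^ 2 * (c ^ 2 + c) + th m c * (c ^ 2 + c + 1) + (c + 1) = 0 := by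
        intro c hc hc1
        have h3 := hcon c hc hc1
        have hθ : th m c ≠ 0 := fun h => hc ((th_eq_zero m).1 h)
        have hθ1 : th m (1 + c) ≠ 0 := fun h => hc1 ((th_eq_zero m).1 h)
        have e : th m (1 + c) = 1 + th m c := by rw [th_add, th_one]
        rw [e] at h3 hθ1
        field_simp at h3
        linear_combination h3 - (th m c * c) * h2
      have hd0 : th m c ≠ 0 := fun h => hc ((th_eq_zero m).1 h)
      have hd1 : 1 + th m c ≠ 0 := by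
        intro h
        apply hc1
        apply (th_eq_zero m).1
        rw [th_add, th_one, h]
      have g1 := key c hc hc1
      have g2 := key (th m c) hd0 hd1
      rw [th_th] at g2
      obtain ⟨d, hd⟩ : ∃ d, d = th m c := ⟨_, rfl⟩
      rw [← hd] at g1 g2
      have g3 : d * (c ^ 2 + c + 1) + (c + 1) ^ 3 = 0 := by
        linear_combination g2 - (c ^ 2 + c) * g1 + (c * d + 2 * c + c ^ 2 * d + 2 * c ^ 2 + c ^ 3 * d + c ^ 3 * d ^ 2 + c ^ 3) * h2
      have g4 : c * (c ^ 7 + 1) = 0 := by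
        linear_combination (c ^ 2 + c + 1) ^ 2 * g1 - ((d * (c ^ 2 + c + 1) - (c + 1) ^ 3) * (c ^ 2 + c) + (c ^ 2 + c + 1) ^ 2) * g3 +
          (c - 4 * c ^ 3 - 10 * c ^ 4 - 12 * c ^ 5 - 8 * c ^ 6 - 3 * c ^ 7) * h2
      rcases mul_eq_zero.1 g4 with h | h
      · exact absurd h hc
      · exact eq_of_add_zero m h
  have h3 : Fintype.card Fˣ ≤ 7 := by
    have h4 := IsCyclic.card_pow_eq_one_le (α := Fˣ) (n := 7) (by norm_num)
    rw [Finset.filter_true_of_mem (fun c _ => h7 c), Finset.card_univ] at h4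
    exact h4
  have h4 : Fintype.card Fˣ = 2 ^ (2 * m + 1) - 1 := by
    rw [← Nat.card_eq_fintype_card]; exact card_units (F := F) m
  have h5 : 2 ^ 5 ≤ 2 ^ (2 * m + 1) := Nat.pow_le_pow_right (by norm_num) (by omega)
  omega

end Cfsg.Agent.H8.Suz
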