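import Mathlib
import Cfsg.Agent.H8.SzMul

set_option autoImplicit false

namespace Cfsg.Agent.H8.Suz

open Matrix Cfsg.Agent.H8.TI
open scoped Pointwise

variable {F : Type*} [Field F] [Fintype F] (m : ℕ) [H : Hyp F m]

section cov

variable {Γ : Type*} [Group Γ] {σ : Γ →* ↥(Cfsg.Sz F m)} {z : Γ} (hc : Cov m σ z)

include hc

theorem Cov.conj_comm {x w t : Γ} {a b c : F} (hx : σ x = U m a b) (hw : σ w = U m 0 c) {k : Fˣ} (ht : σ t = T m k) :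
    (t * x * t⁻¹) * w * (t * x * t⁻¹)⁻¹ * w⁻¹ = x * (t⁻¹ * w * t) * x⁻¹ * (t⁻¹ * w * t)⁻¹ ∧ σ (t⁻¹ * w * t) = U m 0 (((k : F) * th m (k : F))⁻¹ * c) := by
  have h1 : σ (t⁻¹ * w * t) = U m 0 (((k : F) * th m (k : F))⁻¹ * c) := by
    rw [map_mul, map_mul, map_inv, ht, hw, ← map_inv]
    have := T_conj_U m k⁻¹ 0 c
    rw [mul_zero, map_inv, inv_inv, Units.val_inv_eq_inv_val, th_inv, ← _root_.mul_inv] at this
    rw [map_inv]; exact this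
  refine ⟨?_, h1⟩
  have h2 := hc.comm_cen m hx h1 t
  calc (t * x * t⁻¹) * w * (t * x * t⁻¹)⁻¹ * w⁻¹ = t * (x * (t⁻¹ * w * t) * x⁻¹ * (t⁻¹ * w * t)⁻¹) * t⁻¹ := by group
    _ = x * (t⁻¹ * w * t) * x⁻¹ * (t⁻¹ * w * t)⁻¹ := by rw [h2]; group

theorem Cov.central1 (hm2 : 2 ≤ m) {x₁ w : Γ} (hx : σ x₁ = U m 1 0) {e : F} (hw : σ w = U m 0 e) : x₁ * w * x₁⁻¹ * w⁻¹ = 1 := by
  obtain ⟨c, hc0, hc1, hW⟩ := field_arg (F := F) m hm2
  obtain ⟨b, hb⟩ : ∃ b, b = e * (((1 + c) * th m (1 + c))⁻¹ + (1 + (c * th m c)⁻¹))⁻¹ := ⟨_, rfl⟩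
  obtain ⟨t, ht⟩ := hc.surj (T m (Units.mk0 c hc0))
  obtain ⟨t', ht'⟩ := hc.surj (T m (Units.mk0 (1 + c) hc1))
  obtain ⟨w₁, hw₁⟩ := hc.surj (U m 0 b)
  have hxc : σ (t * x₁ * t⁻¹) = U m c 0 := by
    rw [map_mul, map_mul, map_inv, ht, hx, T_conj_U, Units.val_mk0, mul_one, mul_zero]
  have hxc' : σ (t' * x₁ * t'⁻¹) = U m (1 + c) 0 := by
    rw [map_mul, map_mul, map_inv, ht', hx, T_conj_U, Units.val_mk0, mul_one, mul_zero]
  have hp : σ (x₁ * (t * x₁ * t⁻¹)) = U m (1 + c) (0 + 0 + th m 1 * c) := by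
    rw [map_mul, hxc, hx, U_mul]
  obtain ⟨e2, h2⟩ := hc.conj_comm m hx hw₁ ht
  obtain ⟨e3, h3⟩ := hc.conj_comm m hx hw₁ ht'
  rw [Units.val_mk0] at h2 h3
  obtain ⟨w₂, hw₂⟩ : ∃ w₂, w₂ = t⁻¹ * w₁ * t := ⟨_, rfl⟩
  obtain ⟨w₃, hw₃⟩ : ∃ w₃, w₃ = t'⁻¹ * w₁ * t' := ⟨_, rfl⟩
  rw [← hw₂] at e2 h2
  rw [← hw₃] at e3 h3
  have k1 : x₁ * w₃ * x₁⁻¹ * w₃⁻¹ = (x₁ * w₁ * x₁⁻¹ * w₁⁻¹) * (x₁ * w₂ * x₁⁻¹ * w₂⁻¹) := by
    rw [← e3, ← e2, ← hc.comm_mul_left m hx hxc hw₁]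
    exact hc.comm_left_eq m hxc' hp hw₁
  have h12 : σ (w₁ * w₂) = U m 0 (b + (c * th m c)⁻¹ * b) := by rw [map_mul, hw₁, h2, U0_mul]
  have h312 : σ (w₃ * (w₁ * w₂)) = U m 0 e := by
    rw [map_mul, h3, h12, U0_mul]
    congr 1
    have e5 : ((1 + c) * th m (1 + c))⁻¹ * b + (b + (c * th m c)⁻¹ * b) = b * (((1 + c) * th m (1 + c))⁻¹ + (1 + (c * th m c)⁻¹)) := by ring
    rw [e5, hb, mul_assoc, inv_mul_cancel₀ hW, mul_one]
  rw [hc.comm_right_eq m hx hw h312, hc.comm_mul_right m hx h3 h12, hc.comm_mul_right m hx hw₁ h2, ← k1]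
  rcases hc.comm_mem m hx h3 with h | h
  · rw [h, one_mul]
  · rw [h, hc.sq]

theorem Cov.central (hm2 : 2 ≤ m) {x w : Γ} {a b e : F} (hx : σ x = U m a b) (hw : σ w = U m 0 e) : x * w = w * x := by
  have h0 : x * w * x⁻¹ * w⁻¹ = 1 := by
    by_cases ha : a = 0
    · rw [ha] at hx
      rw [hc.Zcomm m hx hw]; group
    · obtain ⟨x₁, hx₁⟩ := hc.surj (U m 1 0)
      obtain ⟨t, ht⟩ := hc.surj (T m (Units.mk0 a ha))
      have hxa : σ (t * x₁ * t⁻¹) = U m a 0 := by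
        rw [map_mul, map_mul, map_inv, ht, hx₁, T_conj_U, Units.val_mk0, mul_one, mul_zero]
      obtain ⟨e2, h2⟩ := hc.conj_comm m hx₁ hw ht
      rw [hc.comm_left_eq m hx hxa hw, e2]
      exact hc.central1 m hm2 hx₁ h2
  calc x * w = (x * w * x⁻¹ * w⁻¹) * w * x := by group
    _ = w * x := by rw [h0, one_mul]

theorem Cov.exists_Z1 : ∃ N : Subgroup Γ, (∀ g ∈ N, ∃ b, σ g = U m 0 b) ∧ z ∉ N ∧ (∀ w b, σ w = U m 0 b → w ∈ N ∨ w * z ∈ N) ∧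
    (∀ t k, σ t = T m k → ∀ g ∈ N, t * g * t⁻¹ ∈ N) := by
  obtain ⟨k, hk⟩ := exists_unit_ne (F := F) m
  have hk' := unit_th_ne m hk
  obtain ⟨t₁, ht₁⟩ := hc.surj (T m k)
  have hconj : ∀ (t : Γ) (l : Fˣ) (w : Γ) (b : F), σ t = T m l → σ w = U m 0 b → σ (t * w * t⁻¹) = U m 0 ((l : F) * th m (l : F) * b) := by
    intro t l w b ht hw
    rw [map_mul, map_mul, map_inv, ht, hw, T_conj_U, mul_zero]
  have hinv : ∀ (w : Γ) (b : F), σ w = U m 0 b → σ w⁻¹ = U m 0 b := by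
    intro w b hw
    rw [map_inv, hw, U_inv, mul_zero, add_zero]
  let N : Subgroup Γ := {
    carrier := {g | ∃ w, (∃ b, σ w = U m 0 b) ∧ g = t₁ * w * t₁⁻¹ * w⁻¹}
    one_mem' := ⟨1, ⟨0, by rw [map_one, U_zero]⟩, by group⟩
    mul_mem' := by
      rintro _ _ ⟨w, ⟨b, hw⟩, rfl⟩ ⟨w', ⟨b', hw'⟩, rfl⟩
      refine ⟨w * w', ⟨b + b', by rw [map_mul, hw, hw', U0_mul]⟩, ?_⟩
      have e1 := hc.Zcomm m (hinv w b hw) (hconj t₁ k w' b' ht₁ hw')
      have e2 := hc.Zcomm m (hinv w b hw) (hinv w' b' hw')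
      calc t₁ * w * t₁⁻¹ * w⁻¹ * (t₁ * w' * t₁⁻¹ * w'⁻¹) = t₁ * w * t₁⁻¹ * (w⁻¹ * (t₁ * w' * t₁⁻¹)) * w'⁻¹ := by group
        _ = t₁ * w * t₁⁻¹ * ((t₁ * w' * t₁⁻¹) * w⁻¹) * w'⁻¹ := by rw [e1]
        _ = t₁ * (w * w') * t₁⁻¹ * (w⁻¹ * w'⁻¹) := by group
        _ = t₁ * (w * w') * t₁⁻¹ * (w'⁻¹ * w⁻¹) := by rw [e2]
        _ = _ := by group
    inv_mem' := by
      rintro _ ⟨w, ⟨b, hw⟩, rfl⟩
      refine ⟨w⁻¹, ⟨b, hinv w b hw⟩, ?_⟩
      have e1 := hc.Zcomm m hw (hconj t₁ k w⁻¹ b ht₁ (hinv w b hw))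
      calc (t₁ * w * t₁⁻¹ * w⁻¹)⁻¹ = w * (t₁ * w⁻¹ * t₁⁻¹) := by group
        _ = (t₁ * w⁻¹ * t₁⁻¹) * w := by rw [e1]
        _ = _ := by group }
  have hσ : ∀ (w : Γ) (b : F), σ w = U m 0 b → σ (t₁ * w * t₁⁻¹ * w⁻¹) = U m 0 ((k : F) * th m (k : F) * b + b) := by
    intro w b hw
    rw [map_mul, hconj t₁ k w b ht₁ hw, hinv w b hw, U0_mul]
  have hk1 : (k : F) * th m (k : F) + 1 ≠ 0 := fun h => hk' (eq_of_add_zero m h)
  refine ⟨N, ?_, ?_, ?_, ?_⟩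
  · rintro _ ⟨w, ⟨b, hw⟩, rfl⟩
    exact ⟨_, hσ w b hw⟩
  · rintro ⟨w, ⟨b, hw⟩, hzw⟩
    have h1 := hσ w b hw
    rw [← hzw, hc.one, ← U_zero m] at h1
    have h2 := (U_inj m h1).2
    have h3 : b = 0 := by
      have : ((k : F) * th m (k : F) + 1) * b = 0 := by linear_combination -h2
      exact (mul_eq_zero.1 this).resolve_left hk1
    rw [h3, U_zero] at hw
    rcases hc.ker w hw with h | h
    · apply hc.ne
      rw [hzw, h]; group
    · apply hc.ne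
      rw [hzw, h, hc.cen t₁]; group
  · intro w b hw
    obtain ⟨w', hw'⟩ := hc.surj (U m 0 (((k : F) * th m (k : F) + 1)⁻¹ * b))
    have h1 := hσ w' _ hw'
    have h2 : σ (t₁ * w' * t₁⁻¹ * w'⁻¹) = σ w := by
      rw [h1, hw]
      congr 1
      field_simp
    rcases hc.eq m h2 with h | h
    · left; exact ⟨w', ⟨_, hw'⟩, h.symm⟩
    · right; exact ⟨w', ⟨_, hw'⟩, h.symm⟩
  · rintro t l ht _ ⟨w, ⟨b, hw⟩, rfl⟩
    refine ⟨t * w * t⁻¹, ⟨_, hconj t l w b ht hw⟩, ?_⟩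
    have e1 : (t * t₁) * w * (t * t₁)⁻¹ = (t₁ * t) * w * (t₁ * t)⁻¹ := by
      apply hc.conj_eq m
      rw [map_mul, map_mul, ht, ht₁, ← map_mul, ← map_mul, mul_comm]
    calc t * (t₁ * w * t₁⁻¹ * w⁻¹) * t⁻¹ = ((t * t₁) * w * (t * t₁)⁻¹) * (t * w⁻¹ * t⁻¹) := by group
      _ = ((t₁ * t) * w * (t₁ * t)⁻¹) * (t * w⁻¹ * t⁻¹) := by rw [e1]
      _ = _ := by group

/-- there is no perfect double cover -/
theorem Cov.no [Finite Γ] (hm2 : 2 ≤ m) (hperf : commutator Γ = ⊤) : False := by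
  obtain ⟨N, hN1, hN2, hN3, hN4⟩ := hc.exists_Z1 m
  obtain ⟨P, hP⟩ : ∃ P : Subgroup Γ, P = (Q F m).comap σ := ⟨_, rfl⟩
  have hmemP : ∀ x, x ∈ P ↔ ∃ a b, σ x = U m a b := by intro x; rw [hP]; rfl
  have hNP : N ≤ P := by
    intro g hg
    obtain ⟨b, hb⟩ := hN1 g hg
    exact (hmemP g).2 ⟨0, b, hb⟩
  have hNc : ∀ x ∈ P, ∀ g ∈ N, x * g = g * x := by
    intro x hx g hg
    obtain ⟨a, b, hab⟩ := (hmemP x).1 hx
    obtain ⟨c, hc'⟩ := hN1 g hg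
    exact hc.central m hm2 hab hc'
  haveI hnorm : (N.subgroupOf P).Normal := by
    constructor
    rintro ⟨g, hg⟩ hgN ⟨x, hx⟩
    rw [Subgroup.mem_subgroupOf] at hgN ⊢
    show x * g * x⁻¹ ∈ N
    rw [hNc x hx g hgN, mul_inv_cancel_right]
    exact hgN
  have hzP : z ∈ P := (hmemP z).2 ⟨0, 0, by rw [hc.one, U_zero]⟩
  -- projection
  let π₀ : P →* Multiplicative F := {
    toFun := fun x => Multiplicative.ofAdd (c1 m (σ x))
    map_one' := by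
      show Multiplicative.ofAdd (c1 m (σ 1)) = 1
      rw [map_one, ← U_zero m, c1_U]; rfl
    map_mul' := by
      rintro ⟨x, hx⟩ ⟨y, hy⟩
      obtain ⟨a, b, hab⟩ := (hmemP x).1 hx
      obtain ⟨c, d, hcd⟩ := (hmemP y).1 hy
      show Multiplicative.ofAdd (c1 m (σ (x * y))) = Multiplicative.ofAdd (c1 m (σ x)) * Multiplicative.ofAdd (c1 m (σ y))
      rw [map_mul, hab, hcd, U_mul, c1_U, c1_U, c1_U]; rfl }
  have hker : N.subgroupOf P ≤ π₀.ker := by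
    rintro ⟨g, hg⟩ hgN
    rw [Subgroup.mem_subgroupOf] at hgN
    obtain ⟨b, hb⟩ := hN1 g hgN
    rw [MonoidHom.mem_ker]
    show Multiplicative.ofAdd (c1 m (σ g)) = 1
    rw [hb, c1_U]; rfl
  let π₁ : (P ⧸ N.subgroupOf P) →* Multiplicative F := QuotientGroup.lift _ π₀ hker
  have hπ : ∀ (x : Γ) (hx : x ∈ P), Multiplicative.toAdd (π₁ (QuotientGroup.mk ⟨x, hx⟩)) = c1 m (σ x) := fun _ _ => rfl
  have hmk : ∀ (x : Γ) (hx : x ∈ P), x ∈ N → (QuotientGroup.mk ⟨x, hx⟩ : P ⧸ N.subgroupOf P) = 1 := by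
    intro x hx hxN
    rw [QuotientGroup.eq_one_iff, Subgroup.mem_subgroupOf]; exact hxN
  have hmk2 : ∀ (x : Γ) (hx : x ∈ P), x * z ∈ N → (QuotientGroup.mk ⟨x, hx⟩ : P ⧸ N.subgroupOf P) = QuotientGroup.mk ⟨z, hzP⟩ := by
    intro x hx hxN
    rw [QuotientGroup.eq, Subgroup.mem_subgroupOf]
    show x⁻¹ * z ∈ N
    have : x⁻¹ * z = (x * z)⁻¹ := by
      rw [_root_.mul_inv_rev, inv_eq_of_mul_eq_one_left hc.sq, hc.cen]
    rw [this]; exact N.inv_mem hxN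
  have key : ∀ v : P ⧸ N.subgroupOf P, v * v = 1 := by
    apply lemE (F := F) m (z := QuotientGroup.mk ⟨z, hzP⟩) (π := fun v => Multiplicative.toAdd (π₁ v))
    · intro g
      obtain ⟨⟨g, hg⟩, rfl⟩ := QuotientGroup.mk_surjective g
      rw [← QuotientGroup.mk_mul, ← QuotientGroup.mk_mul]
      congr 1
      exact Subtype.ext (hc.cen g)
    · rw [← QuotientGroup.mk_mul]
      exact hmk _ (P.mul_mem hzP hzP) (by rw [hc.sq]; exact N.one_mem)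
    · intro h
      rw [QuotientGroup.eq_one_iff, Subgroup.mem_subgroupOf] at h
      exact hN2 h
    · intro x y
      show Multiplicative.toAdd (π₁ (x * y)) = _
      rw [map_mul]; rfl
    · intro v hv
      obtain ⟨⟨x, hx⟩, rfl⟩ := QuotientGroup.mk_surjective v
      have hv : c1 m (σ x) = 0 := hv
      obtain ⟨a, b, hab⟩ := (hmemP x).1 hx
      rw [hab, c1_U] at hv
      rw [hv] at hab
      rcases hN3 x b hab with h | h
      · left; exact hmk x hx h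
      · right; exact hmk2 x hx h
    · intro a
      obtain ⟨x, hx⟩ := hc.surj (U m a 0)
      refine ⟨QuotientGroup.mk ⟨x, (hmemP x).2 ⟨a, 0, hx⟩⟩, ?_⟩
      show c1 m (σ x) = a
      rw [hx, c1_U]
    · intro v w hv hw
      obtain ⟨⟨x, hx⟩, rfl⟩ := QuotientGroup.mk_surjective v
      obtain ⟨⟨y, hy⟩, rfl⟩ := QuotientGroup.mk_surjective w
      have hv : c1 m (σ x) ≠ 0 := hv
      have hw : c1 m (σ y) ≠ 0 := hw
      obtain ⟨a, b, hab⟩ := (hmemP x).1 hx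
      obtain ⟨c, d, hcd⟩ := (hmemP y).1 hy
      rw [hab, c1_U] at hv
      rw [hcd, c1_U] at hw
      obtain ⟨t, ht⟩ := hc.surj (T m (Units.mk0 (c * a⁻¹) (mul_ne_zero hw (inv_ne_zero hv))))
      have e1 : ∃ e, σ (t * x * t⁻¹) = U m c e := by
        rw [map_mul, map_mul, map_inv, ht, hab, T_conj_U, Units.val_mk0]
        have : c * a⁻¹ * a = c := by field_simp
        rw [this]
        exact ⟨_, rfl⟩
      obtain ⟨e, he⟩ := e1
      obtain ⟨u, hu⟩ : ∃ u, u = y⁻¹ * (t * x * t⁻¹) := ⟨_, rfl⟩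
      have hσu : ∃ f, σ u = U m 0 f := by
        rw [hu, map_mul, map_inv, hcd, he, U_inv, U_mul, add_self m c]
        exact ⟨_, rfl⟩
      obtain ⟨f, hf⟩ := hσu
      have e2 : t * x * t⁻¹ = y * u := by rw [hu]; group
      have e3 : t * (x * x) * t⁻¹ = y * y := by
        calc t * (x * x) * t⁻¹ = (t * x * t⁻¹) * (t * x * t⁻¹) := by group
          _ = y * (u * y) * u := by rw [e2]; group
          _ = y * (y * u) * u := by rw [hc.central m hm2 hcd hf]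
          _ = y * y * (u * u) := by group
          _ = y * y := by rw [hc.Zsq m hf, mul_one]
      have e4 : σ (x * x) = U m 0 (th m a * a) := by rw [map_mul, hab, U_sq]
      rw [← QuotientGroup.mk_mul, ← QuotientGroup.mk_mul]
      have hxx : x * x ∈ P := P.mul_mem hx hx
      have hyy : y * y ∈ P := P.mul_mem hy hy
      have goal : (QuotientGroup.mk ⟨x * x, hxx⟩ : P ⧸ N.subgroupOf P) = QuotientGroup.mk ⟨y * y, hyy⟩ := by
        rcases hN3 _ _ e4 with h | h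
        · have h' := hN4 t _ ht _ h
          rw [e3] at h'
          rw [hmk _ hxx h, hmk _ hyy h']
        · have h' := hN4 t _ ht _ h
          have e5 : t * (x * x * z) * t⁻¹ = y * y * z := by
            rw [← e3]
            calc t * (x * x * z) * t⁻¹ = t * (x * x) * (z * t⁻¹) := by group
              _ = t * (x * x) * (t⁻¹ * z) := by rw [hc.cen t⁻¹]
              _ = _ := by group
          rw [e5] at h'
          rw [hmk2 _ hxx h, hmk2 _ hyy h']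
      exact goal
  letI : CommGroup (P ⧸ N.subgroupOf P) := { (inferInstance : Group (P ⧸ N.subgroupOf P)) with
    mul_comm := by
      intro v w
      have e1 : v⁻¹ = v := inv_eq_of_mul_eq_one_left (key v)
      have e2 : w⁻¹ = w := inv_eq_of_mul_eq_one_left (key w)
      have e3 : (v * w)⁻¹ = v * w := inv_eq_of_mul_eq_one_left (key (v * w))
      rw [← e3, _root_.mul_inv_rev, e1, e2] }
  have h1 := transfer_central hperf P (QuotientGroup.mk' (N.subgroupOf P)) hc.cen hzP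
  have h2 : Odd P.index := by
    rw [hP, Subgroup.index_comap_of_surjective _ hc.surj, index_Q]
    exact odd_index m
  obtain ⟨n, hn⟩ := h2
  rw [hn, pow_add, pow_mul, pow_two, pow_one] at h1
  have h3 := key (QuotientGroup.mk' (N.subgroupOf P) ⟨z, hzP⟩)
  rw [h3, one_pow, one_mul, QuotientGroup.mk'_apply, QuotientGroup.eq_one_iff, Subgroup.mem_subgroupOf] at h1
  exact hN2 h1

end cov

end Cfsg.Agent.H8.Suz
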