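import Mathlib
import Cfsg.Prelude.Def_SporadicB
import Cfsg.Agent.H7.SympSimple
import Cfsg.Agent.H7.OrthGen

set_option autoImplicit false

namespace Cfsg.Agent.H8.TTC

open Matrix Module
open scoped MatrixGroups
open Cfsg Cfsg.Agent.H7 Cfsg.Agent.H7.Tv Cfsg.Agent.H7.Orth

section rk

variable {ι : Type} [Fintype ι] [DecidableEq ι] {F : Type*} [Field F]

theorem rank_form {M : Matrix ι ι F} (h : M.rank = 1) : ∃ (u : ι → F) (l : Dual F (ι → F)), u ≠ 0 ∧ l ≠ 0 ∧ ∀ x, M *ᵥ x = l x • u := by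
  rw [Matrix.rank] at h
  obtain ⟨⟨u, hu⟩, hu0, hspan⟩ := finrank_eq_one_iff'.1 h
  have hu0' : u ≠ 0 := fun h => hu0 (Subtype.ext h)
  have h1 : ∀ x, ∃ c : F, c • u = M *ᵥ x := by
    intro x
    obtain ⟨c, hc⟩ := hspan ⟨_, LinearMap.mem_range_self M.mulVecLin x⟩
    exact ⟨c, congrArg Subtype.val hc⟩
  obtain ⟨l0, hl0, -⟩ := exists_dual_one (P := (⊥ : Submodule F (ι → F))) (x := u) (by simpa using hu0')
  have h2 : ∀ x, M *ᵥ x = (l0.comp M.mulVecLin) x • u := by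
    intro x
    obtain ⟨c, hc⟩ := h1 x
    rw [LinearMap.comp_apply, Matrix.mulVecLin_apply, ← hc, map_smul, hl0, smul_eq_mul, mul_one]
  refine ⟨u, l0.comp M.mulVecLin, hu0', ?_, h2⟩
  intro h0
  obtain ⟨x, hx⟩ := hu
  rw [Matrix.mulVecLin_apply, h2, h0] at hx
  simp at hx
  exact hu0' hx.symm

theorem rank_of_form {M : Matrix ι ι F} {u : ι → F} {l : Dual F (ι → F)} (hu : u ≠ 0) (hl : l ≠ 0) (h : ∀ x, M *ᵥ x = l x • u) : M.rank = 1 := by
  rw [Matrix.rank]
  have h1 : LinearMap.range M.mulVecLin = Submodule.span F {u} := by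
    obtain ⟨x0, hx0⟩ : ∃ x, l x ≠ 0 := by
      by_contra hcon
      push Not at hcon
      exact hl (LinearMap.ext hcon)
    ext y
    rw [Submodule.mem_span_singleton]
    constructor
    · rintro ⟨x, rfl⟩
      exact ⟨l x, by rw [Matrix.mulVecLin_apply, h]⟩
    · rintro ⟨a, rfl⟩
      refine ⟨(a * (l x0)⁻¹) • x0, ?_⟩
      rw [Matrix.mulVecLin_apply, h, map_smul, smul_eq_mul, inv_mul_cancel_right₀ hx0]
  rw [h1]
  exact finrank_span_singleton hu

theorem ap_form {g : GL ι F} (h : ((g : Matrix ι ι F) - 1).rank = 1) : ∃ (u : ι → F) (l : Dual F (ι → F)), u ≠ 0 ∧ l ≠ 0 ∧ ∀ x, ap g x = x + l x • u := by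
  obtain ⟨u, l, hu, hl, hx⟩ := rank_form h
  refine ⟨u, l, hu, hl, fun x => ?_⟩
  rw [← hx, Matrix.sub_mulVec, Matrix.one_mulVec, ap_def]
  abel

theorem rank_ap {g : GL ι F} {u : ι → F} {l : Dual F (ι → F)} (hu : u ≠ 0) (hl : l ≠ 0) (h : ∀ x, ap g x = x + l x • u) : ((g : Matrix ι ι F) - 1).rank = 1 := by
  refine rank_of_form hu hl (fun x => ?_)
  rw [Matrix.sub_mulVec, Matrix.one_mulVec, ← ap_def, h]
  abel

end rk

theorem tt_aux {G : Type*} [Group G] {d e : G} (hd : d * d = 1) (he : e * e = 1) (h : d * e * d = e ∨ d * e * d = e * d * e) :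
    (d * e) ^ 2 = 1 ∨ (d * e) ^ 3 = 1 := by
  rcases h with h | h
  · left
    calc (d * e) ^ 2 = (d * e * d) * e := by rw [pow_two]; simp only [mul_assoc]
      _ = 1 := by rw [h, he]
  · right
    calc (d * e) ^ 3 = (d * e * d) * e * d * e := by rw [pow_succ, pow_two]; simp only [mul_assoc]
      _ = e * d * (e * e) * d * e := by rw [h]; group
      _ = e * (d * d) * e := by rw [he]; group
      _ = 1 := by rw [hd, mul_one, he]

theorem z2 : ∀ x : ZMod 2, x ≠ 0 → x = 1 := by decide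

theorem order_two {G : Type*} [Group G] {d : G} (h1 : d ≠ 1) (h2 : d * d = 1) : orderOf d = 2 :=
  orderOf_eq_prime (by rw [pow_two, h2]) h1

/-! ## symplectic -/

theorem sp_rank {m : ℕ} (A : symplecticGroup (Fin m) (ZMod 2)) :
    ((A : Matrix (Fin m ⊕ Fin m) (Fin m ⊕ Fin m) (ZMod 2)) - 1).rank = 1 ↔ ∃ v, v ≠ 0 ∧ A = stv v 1 := by
  have hf := sf_alt (F := ZMod 2) m
  constructor
  · intro h
    obtain ⟨u, l, hu, hl, hx⟩ := ap_form (g := spToGL m (ZMod 2) A) h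
    refine ⟨u, hu, eq_stv ?_⟩
    have h1 : ∀ x y, l y * sf m (ZMod 2) x u = l x * sf m (ZMod 2) y u := by
      intro x y
      have h2 := spToGL_iso A x y
      rw [hx, hx] at h2
      simp only [map_add, LinearMap.add_apply, map_smul, LinearMap.smul_apply, smul_eq_mul, hf.alt u] at h2
      rw [hf.skew u y] at h2
      linear_combination h2
    obtain ⟨y0, hy0⟩ : ∃ y, l y ≠ 0 := by
      by_contra hcon
      push Not at hcon
      exact hl (LinearMap.ext hcon)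
    have h3 := z2 _ hy0
    have h4 : sf m (ZMod 2) y0 u ≠ 0 := by
      intro h5
      apply hu
      apply hf.nd
      intro x
      have := h1 x y0
      rw [h3, h5, one_mul, mul_zero] at this
      exact this
    have h5 := z2 _ h4
    intro x
    have h6 := h1 x y0
    rw [h3, h5, one_mul, mul_one] at h6
    rw [hx, one_mul, h6]
  · rintro ⟨v, hv, rfl⟩
    refine rank_ap (g := spToGL m (ZMod 2) (stv v 1)) (l := (sf m (ZMod 2)).flip v) hv ?_ ?_
    · intro h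
      apply hv
      apply hf.nd
      intro x
      exact congrArg (fun l => l x) h
    · intro x
      rw [stv_isSTv, one_mul]
      rfl

theorem stv_sq {m : ℕ} (v : Fin m ⊕ Fin m → ZMod 2) : stv v (1 : ZMod 2) * stv v 1 = 1 := by
  rw [stv_mul, show (1 + 1 : ZMod 2) = 0 by decide, stv_zero]

theorem sp_class (m : ℕ) (hm : 1 ≤ m) : IsThreeTranspositionClass {g : symplecticGroup (Fin m) (ZMod 2) | ((g : Matrix (Fin m ⊕ Fin m) (Fin m ⊕ Fin m) (ZMod 2)) - 1).rank = 1} := by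
  have hf := sf_alt (F := ZMod 2) m
  have hne : ∀ v : Fin m ⊕ Fin m → ZMod 2, v ≠ 0 → stv v (1 : ZMod 2) ≠ 1 := by
    intro v hv h
    have h1 := (sp_rank (stv v 1)).2 ⟨v, hv, rfl⟩
    rw [h] at h1
    have h2 : ((1 : symplecticGroup (Fin m) (ZMod 2)) : Matrix (Fin m ⊕ Fin m) (Fin m ⊕ Fin m) (ZMod 2)) - 1 = 0 := sub_self _
    rw [h2, Matrix.rank_zero] at h1
    omega
  refine ⟨⟨?_, ?_⟩, ?_, ?_⟩
  · intro d hd
    obtain ⟨v, hv, rfl⟩ := (sp_rank d).1 hd
    exact order_two (hne v hv) (stv_sq v)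
  · intro d hd e he
    obtain ⟨v, hv, rfl⟩ := (sp_rank d).1 hd
    obtain ⟨u, hu, rfl⟩ := (sp_rank e).1 he
    have hinv : ∀ w : Fin m ⊕ Fin m → ZMod 2, (stv w (1 : ZMod 2))⁻¹ = stv w 1 := fun w => inv_eq_of_mul_eq_one_left (stv_sq w)
    have hc : ∀ v u : Fin m ⊕ Fin m → ZMod 2, stv v (1 : ZMod 2) * stv u 1 * stv v 1 = stv (u + sf m (ZMod 2) u v • v) 1 := by
      intro v u
      have := stv_conj (stv v (1 : ZMod 2)) u 1
      rw [hinv, stv_isSTv, one_mul] at this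
      exact this
    refine tt_aux (stv_sq v) (stv_sq u) ?_
    rw [hc v u, hc u v]
    rcases eq_or_ne (sf m (ZMod 2) u v) 0 with h | h
    · left
      rw [h, zero_smul, add_zero]
    · right
      have h1 := z2 _ h
      have h2 := z2 _ (hf.skew_ne h)
      rw [h1, h2, one_smul, one_smul, add_comm]
  · have hv0 : (Pi.single (Sum.inl ⟨0, hm⟩) 1 : Fin m ⊕ Fin m → ZMod 2) ≠ 0 := by
      intro h
      have := congrFun h (Sum.inl ⟨0, hm⟩)
      simp at this
    refine ⟨stv (Pi.single (Sum.inl ⟨0, hm⟩) 1) 1, (sp_rank _).2 ⟨_, hv0, rfl⟩, ?_⟩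
    ext g
    change _ ↔ IsConj _ g
    rw [isConj_iff]
    constructor
    · intro hg
      obtain ⟨v, hv, rfl⟩ := (sp_rank g).1 hg
      obtain ⟨A, hA⟩ := exists_move hv0 hv
      exact ⟨A, by rw [stv_conj, hA]⟩
    · rintro ⟨A, rfl⟩
      rw [stv_conj]
      refine (sp_rank _).2 ⟨_, ?_, rfl⟩
      rw [Ne, ap_eq_zero]
      exact hv0
  · apply sp_eq_top
    intro v c
    rcases eq_or_ne c 0 with rfl | hc
    · rw [stv_zero]; exact one_mem _
    · rw [z2 c hc]
      rcases eq_or_ne v 0 with rfl | hv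
      · have : stv (0 : Fin m ⊕ Fin m → ZMod 2) (1 : ZMod 2) = 1 := by
          have := stv_smul (0 : Fin m ⊕ Fin m → ZMod 2) (0 : ZMod 2) 1
          rw [smul_zero, zero_mul, zero_mul, stv_zero] at this
          exact this
        rw [this]; exact one_mem _
      · exact Subgroup.subset_closure ((sp_rank _).2 ⟨v, hv, rfl⟩)

/-! ## orthogonal over `ZMod 2` -/

section orth

variable {ι : Type} [Fintype ι] [DecidableEq ι] {Q : (ι → ZMod 2) → ZMod 2} {B : (ι → ZMod 2) →ₗ[ZMod 2] (ι → ZMod 2) →ₗ[ZMod 2] ZMod 2}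

theorem o_rank (hQ : Qf Q B) {g : GL ι (ZMod 2)} (hg : g ∈ O Q) : ((g : Matrix ι ι (ZMod 2)) - 1).rank = 1 ↔ ∃ v, Q v ≠ 0 ∧ g = Rf Q B v := by
  constructor
  · intro h
    obtain ⟨u, l, hu, hl, hx⟩ := ap_form h
    have h1 : ∀ x, l x ≠ 0 → Q u = B x u := by
      intro x hlx
      have h2 := mem_O.1 hg x
      rw [hx, z2 _ hlx, one_smul, hQ.add] at h2
      have h3 : Q u + B x u = 0 := by linear_combination h2
      have h4 : ∀ a b : ZMod 2, a + b = 0 → a = b := by decide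
      exact h4 _ _ h3
    obtain ⟨y0, hy0⟩ : ∃ y, l y ≠ 0 := by
      by_contra hcon
      push Not at hcon
      exact hl (LinearMap.ext hcon)
    have h2 : ∀ x, l x = 0 → B x u = 0 := by
      intro x hlx
      have h3 := h1 (x + y0) (by rw [map_add, hlx, zero_add]; exact hy0)
      have h4 := h1 y0 hy0
      rw [map_add, LinearMap.add_apply, ← h4] at h3
      linear_combination -h3
    have h3 : Q u ≠ 0 := by
      intro h0
      apply hu
      apply hQ.nd'
      intro x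
      by_cases hlx : l x = 0
      · exact h2 x hlx
      · rw [← h1 x hlx, h0]
    refine ⟨u, h3, ?_⟩
    apply ap_ext
    intro x
    rw [hx, ap_Rf hQ h3, z2 _ h3, div_one]
    have h4 : l x = B u x := by
      rw [hQ.symm]
      by_cases hlx : l x = 0
      · rw [h2 x hlx, hlx]
      · rw [← h1 x hlx, z2 _ hlx, z2 _ h3]
    rw [h4, sub_eq_add_neg, ← neg_smul]
    congr 2
    exact (by decide : ∀ a : ZMod 2, a = -a) _
  · rintro ⟨v, hv, rfl⟩
    have hv0 : v ≠ 0 := by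
      rintro rfl
      exact hv hQ.zero
    refine rank_ap (l := B v) hv0 ?_ ?_
    · intro h
      apply hv0
      apply hQ.nd
      intro y
      rw [h]; rfl
    · intro x
      rw [ap_Rf hQ hv, z2 _ hv, div_one, sub_eq_add_neg, ← neg_smul]
      congr 2
      exact (by decide : ∀ a : ZMod 2, -a = a) _

theorem o_class (hQ : Qf Q B) (h5 : 5 ≤ Fintype.card ι) :
    IsThreeTranspositionClass {g : ↥(isometryGroup (ZMod 2) Q) | (((g : GL ι (ZMod 2)) : Matrix ι ι (ZMod 2)) - 1).rank = 1} := by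
  have hsq : ∀ v, Q v ≠ 0 → Rf Q B v * Rf Q B v = 1 := fun v hv => Rf_sq hQ hv
  have hinv : ∀ v, Q v ≠ 0 → (Rf Q B v)⁻¹ = Rf Q B v := fun v hv => Rf_inv hQ hv
  have hap : ∀ v, Q v ≠ 0 → ∀ x, ap (Rf Q B v) x = x + B v x • v := by
    intro v hv x
    rw [ap_Rf hQ hv, z2 _ hv, div_one, sub_eq_add_neg, ← neg_smul]
    congr 2
    exact (by decide : ∀ a : ZMod 2, -a = a) _
  obtain ⟨u0, hu0⟩ : ∃ u, Q u ≠ 0 := by
    by_contra hcon
    push Not at hcon
    haveI : Nonempty ι := Fintype.card_pos_iff.1 (by omega)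
    have h1 : (Pi.single (Classical.arbitrary ι) 1 : ι → ZMod 2) = 0 := by
      apply hQ.nd
      intro y
      have := hQ.add (Pi.single (Classical.arbitrary ι) 1) y
      rw [hcon, hcon, hcon, zero_add, zero_add] at this
      exact this.symm
    have := congrFun h1 (Classical.arbitrary ι)
    simp at this
  refine ⟨⟨?_, ?_⟩, ?_, ?_⟩
  · rintro ⟨d, hdO⟩ hd
    obtain ⟨v, hv, rfl⟩ := (o_rank hQ hdO).1 hd
    refine order_two ?_ (Subtype.ext (hsq v hv))
    intro h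
    have h1 : ((Rf Q B v : GL ι (ZMod 2)) : Matrix ι ι (ZMod 2)) - 1 = 0 := by
      have h2 : Rf Q B v = 1 := congrArg Subtype.val h
      rw [h2]
      exact sub_self _
    have h3 : ((((⟨Rf Q B v, hdO⟩ : ↥(isometryGroup (ZMod 2) Q)) : GL ι (ZMod 2)) : Matrix ι ι (ZMod 2)) - 1).rank = 1 := hd
    change (((Rf Q B v : GL ι (ZMod 2)) : Matrix ι ι (ZMod 2)) - 1).rank = 1 at h3
    rw [h1, Matrix.rank_zero] at h3
    omega
  · rintro ⟨d, hdO⟩ hd ⟨e, heO⟩ he
    obtain ⟨v, hv, rfl⟩ := (o_rank hQ hdO).1 hd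
    obtain ⟨u, hu, rfl⟩ := (o_rank hQ heO).1 he
    have key : (Rf Q B v * Rf Q B u) ^ 2 = 1 ∨ (Rf Q B v * Rf Q B u) ^ 3 = 1 := by
      refine tt_aux (hsq v hv) (hsq u hu) ?_
      have hc : ∀ v u, Q v ≠ 0 → Q u ≠ 0 → Rf Q B v * Rf Q B u * Rf Q B v = Rf Q B (u + B v u • v) := by
        intro v u hv hu
        have := Rf_conj hQ (Rf_mem_O hQ hv) hu
        rw [hinv v hv, hap v hv] at this
        exact this
      rw [hc v u hv hu, hc u v hu hv]
      rcases eq_or_ne (B v u) 0 with h | h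
      · left
        rw [h, zero_smul, add_zero]
      · right
        have h1 := z2 _ h
        rw [hQ.symm u v, h1, one_smul, one_smul, add_comm]
    rcases key with h | h
    · left; exact Subtype.ext h
    · right; exact Subtype.ext h
  · refine ⟨⟨Rf Q B u0, Rf_mem_O hQ hu0⟩, (o_rank hQ (Rf_mem_O hQ hu0)).2 ⟨u0, hu0, rfl⟩, ?_⟩
    have hne : ∀ v, Q v ≠ 0 → v ≠ 0 := by
      rintro v hv rfl
      exact hv hQ.zero
    ext g
    change _ ↔ IsConj _ g
    rw [isConj_iff]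
    constructor
    · intro hg
      obtain ⟨v, hv, hgv⟩ := (o_rank hQ g.2).1 hg
      obtain ⟨t, ht, htv⟩ := move_norm hQ h5 (hne u0 hu0) (hne v hv) (by rw [z2 _ hu0, z2 _ hv])
      refine ⟨⟨t, TT_le_O hQ ht⟩, Subtype.ext ?_⟩
      show t * Rf Q B u0 * t⁻¹ = g.1
      rw [Rf_conj hQ (TT_le_O hQ ht) hu0, htv, hgv]
    · rintro ⟨A, hA⟩
      have h1 : g.1 = A.1 * Rf Q B u0 * A.1⁻¹ := (congrArg Subtype.val hA).symm
      rw [Rf_conj hQ A.2 hu0] at h1
      have h2 : Q (ap A.1 u0) ≠ 0 := by rw [mem_O.1 A.2]; exact hu0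
      exact (o_rank hQ g.2).2 ⟨_, h2, h1⟩
  · rw [eq_top_iff]
    intro g _
    have h1 : g.1 ∈ RR Q B ⊤ := by
      rw [← O_eq_RR' hQ (Or.inr (by omega))]
      exact g.2
    have h2 : RR Q B ⊤ ≤ (Subgroup.closure {g : ↥(isometryGroup (ZMod 2) Q) | (((g : GL ι (ZMod 2)) : Matrix ι ι (ZMod 2)) - 1).rank = 1}).map (isometryGroup (ZMod 2) Q).subtype := by
      unfold RR
      rw [Subgroup.closure_le]
      rintro _ ⟨u, -, hu, rfl⟩
      exact ⟨⟨Rf Q B u, Rf_mem_O hQ hu⟩, Subgroup.subset_closure ((o_rank hQ (Rf_mem_O hQ hu)).2 ⟨u, hu, rfl⟩), rfl⟩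
    obtain ⟨y, hy, hyg⟩ := h2 h1
    have : y = g := Subtype.ext hyg
    rwa [this] at hy

end orth

end Cfsg.Agent.H8.TTC
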