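import Mathlib
import Cfsg.Prelude.Def_SporadicB
import Cfsg.Agent.H8.TTC1
import Cfsg.Agent.H7.UniStd

set_option autoImplicit false

namespace Cfsg.Agent.H8.TTC

open Matrix Module
open scoped MatrixGroups
open Cfsg Cfsg.Agent.H7 Cfsg.Agent.H7.Tv Cfsg.Agent.H7.UTv

variable {ι : Type} [Fintype ι] [DecidableEq ι] {F : Type*} [Field F] [Finite F] {σ : F →+* F}
  {B : (ι → F) →ₛₗ[σ] (ι → F) →ₗ[F] F} {G : Type*} [Group G]

theorem u_conj {φ : G →* GL ι F} (hφ : ∀ a, Isom B (φ a)) {g a : G} {u : ι → F} (h : IsTv (φ g) u (B u)) :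
    IsTv (φ (a * g * a⁻¹)) (ap (φ a) u) (B (ap (φ a) u)) := by
  intro x
  rw [map_mul, map_mul, ap_mul, ap_mul, h, ap_add, ap_smul, map_inv, ap_ap_inv]
  have h2 : B u (ap (φ a)⁻¹ x) = B (ap (φ a) u) x := by
    rw [← hφ a u, ap_ap_inv]
  rw [h2]

theorem u_class (hB : Hm B) (h4 : 4 ≤ Fintype.card ι) (hc : ∀ c : F, c + σ c = 0 → c = 0 ∨ c = 1) (hn : ∀ c : F, c ≠ 0 → c * σ c = 1)
    (h2 : ∀ x : F, x + x = 0) (φ : G →* GL ι F) (hφi : Function.Injective φ) (hφr : φ.range = SUn B) :
    IsThreeTranspositionClass {g : G | ((φ g : Matrix ι ι F) - 1).rank = 1} := by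
  have hS : ∀ a, φ a ∈ SUn B := fun a => by rw [← hφr]; exact ⟨a, rfl⟩
  have hφ : ∀ a, Isom B (φ a) := fun a => (hS a).1
  have hneg : ∀ x : F, -x = x := fun x => neg_eq_of_add_eq_zero_left (h2 x)
  have hmem : ∀ u : ι → F, B u u = 0 → ∃ g : G, IsTv (φ g) u (B u) := by
    intro u hu
    obtain ⟨g, hg⟩ := exists_utv (σ := σ) (B := B) hu 1
    rw [one_smul] at hg
    have h1 : g ∈ SUn B := ⟨isom_utv hB.symm hu (c := 1) (by rw [map_one]; exact h2 1) (by rw [one_smul]; exact hg), IsTv.mem_SL hu hg⟩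
    rw [← hφr] at h1
    obtain ⟨a, rfl⟩ := h1
    exact ⟨a, hg⟩
  have huniq : ∀ {g h : G} {u : ι → F}, IsTv (φ g) u (B u) → IsTv (φ h) u (B u) → g = h := fun hg hh => hφi (hg.unique hh)
  have hscal : ∀ {g : G} {u : ι → F} {c : F}, c ≠ 0 → IsTv (φ g) (c • u) (B (c • u)) → IsTv (φ g) u (B u) := by
    intro g u c hc0 hg x
    rw [hg]
    congr 1
    rw [LinearMap.map_smulₛₗ, LinearMap.smul_apply, smul_smul, smul_eq_mul]
    congr 1
    linear_combination (B u x) * hn c hc0
  have hchar : ∀ g : G, ((φ g : Matrix ι ι F) - 1).rank = 1 ↔ ∃ u, u ≠ 0 ∧ B u u = 0 ∧ IsTv (φ g) u (B u) := by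
    intro g
    constructor
    · intro h
      obtain ⟨u, l, hu, hl, hx⟩ := ap_form h
      have hdet := det_of_tv (g := φ g) (u := u) (l := l) hx
      rw [(mem_SL_iff' _).1 (hS g).2] at hdet
      have hlu : l u = 0 := by linear_combination -hdet
      obtain ⟨y0, hy0⟩ : ∃ y, l y ≠ 0 := by
        by_contra hcon
        push Not at hcon
        exact hl (LinearMap.ext hcon)
      have h1 : ∀ x y, l y * B x u + σ (l x) * B u y + σ (l x) * l y * B u u = 0 := by
        intro x y
        have h2 := hφ g x y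
        rw [hx, hx] at h2
        simp only [map_add, LinearMap.add_apply, map_smul, LinearMap.map_smulₛₗ, LinearMap.smul_apply, smul_eq_mul] at h2
        linear_combination h2
      have huu : B u u = 0 := by
        have h3 := h1 u y0
        rw [hlu, map_zero, zero_mul, zero_mul, zero_mul, add_zero, add_zero] at h3
        exact (mul_eq_zero.1 h3).resolve_left hy0
      have hσ : σ (l y0) ≠ 0 := by rw [Ne, map_eq_zero]; exact hy0
      have h3 : ∀ y, B u y = -(σ (l y0))⁻¹ * B y0 u * l y := by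
        intro y
        have h4 := h1 y0 y
        rw [huu, mul_zero, add_zero] at h4
        field_simp
        linear_combination h4
      have hb0 : B y0 u ≠ 0 := by
        intro h5
        apply hu
        apply hB.nd
        intro y
        rw [h3, h5, mul_zero, zero_mul]
      have hk0 : -(σ (l y0))⁻¹ * B y0 u ≠ 0 := mul_ne_zero (neg_ne_zero.2 (inv_ne_zero hσ)) hb0
      obtain ⟨k, hk⟩ : ∃ k, k = -(σ (l y0))⁻¹ * B y0 u := ⟨_, rfl⟩
      rw [← hk] at hk0
      have h5 : IsTv (φ g) u (k⁻¹ • B u) := by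
        intro x
        rw [hx, LinearMap.smul_apply, h3, ← hk, smul_eq_mul, inv_mul_cancel_left₀ hk0]
      have h6 : k⁻¹ + σ k⁻¹ = 0 := by
        obtain ⟨f, -, hf, hvf⟩ := exists_partner hB (nd_top hB) Submodule.mem_top hu huu
        have hfv : B f u = 1 := by rw [← hB.symm, hvf, map_one]
        have h1 := hφ g f f
        rw [h5, LinearMap.smul_apply, hvf] at h1
        simp only [map_add, LinearMap.add_apply, map_smul, LinearMap.map_smulₛₗ, LinearMap.smul_apply, smul_eq_mul, hf, huu, hvf, hfv,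
          mul_one, mul_zero, add_zero, zero_add] at h1
        linear_combination h1
      rcases hc _ h6 with h7 | h7
      · exact absurd h7 (inv_ne_zero hk0)
      · rw [h7, one_smul] at h5
        exact ⟨u, hu, huu, h5⟩
    · rintro ⟨u, hu, huu, hg⟩
      refine rank_ap hu ?_ hg
      intro h
      apply hu
      apply hB.nd
      intro y
      rw [h]; rfl
  have hsq : ∀ {g : G} {u : ι → F}, B u u = 0 → IsTv (φ g) u (B u) → g * g = 1 := by
    intro g u huu hg
    apply hφi
    rw [map_mul, map_one]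
    apply ap_ext
    intro x
    rw [ap_mul, hg, hg, ap_one, map_add, map_smul, huu, smul_zero, add_zero, add_assoc, ← add_smul, h2, zero_smul, add_zero]
  obtain ⟨e0, -, f0, -, he0, hf0, hef0⟩ := exists_hyp hB (nd_top hB) (by rw [finrank_top, finrank_fintype_fun_eq_card]; omega)
  have he0' : e0 ≠ 0 := by
    rintro rfl
    rw [map_zero, LinearMap.zero_apply] at hef0
    exact zero_ne_one hef0
  refine ⟨⟨?_, ?_⟩, ?_, ?_⟩
  · intro d hd
    obtain ⟨v, hv, hvv, hd'⟩ := (hchar d).1 hd
    refine order_two ?_ (hsq hvv hd')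
    rintro rfl
    have h1 : ((φ 1 : GL ι F) : Matrix ι ι F) - 1 = 0 := by
      rw [map_one]; exact sub_self _
    have h3 : (((φ 1 : GL ι F) : Matrix ι ι F) - 1).rank = 1 := hd
    rw [h1, Matrix.rank_zero] at h3
    omega
  · intro d hd e he
    obtain ⟨v, hv, hvv, hd'⟩ := (hchar d).1 hd
    obtain ⟨u, hu, huu, he'⟩ := (hchar e).1 he
    refine tt_aux (hsq hvv hd') (hsq huu he') ?_
    have hdi : d⁻¹ = d := inv_eq_of_mul_eq_one_left (hsq hvv hd')
    have hei : e⁻¹ = e := inv_eq_of_mul_eq_one_left (hsq huu he')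
    have c1 := u_conj hφ (a := d) he'
    have c2 := u_conj hφ (a := e) hd'
    rw [hdi, hd'] at c1
    rw [hei, he'] at c2
    rcases eq_or_ne (B v u) 0 with h | h
    · left
      rw [h, zero_smul, add_zero] at c1
      exact huniq c1 he'
    · right
      have h5 : B u v = σ (B v u) := (hB.symm v u).symm
      have h6 := hn _ h
      have h7 : u + B v u • v = B v u • (v + B u v • u) := by
        rw [smul_add, smul_smul, h5, h6, one_smul, add_comm]
      rw [h7] at c1
      exact huniq (hscal h c1) c2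
  · obtain ⟨t0, ht0⟩ := hmem e0 he0
    refine ⟨t0, (hchar t0).2 ⟨e0, he0', he0, ht0⟩, ?_⟩
    ext g
    change _ ↔ IsConj _ g
    rw [isConj_iff]
    constructor
    · intro hg
      obtain ⟨v, hv, hvv, hg'⟩ := (hchar g).1 hg
      obtain ⟨t, ht, htv⟩ := trans_iso hB (nd_top hB) (by rw [finrank_top, finrank_fintype_fun_eq_card]; omega) trivial trivial he0 hvv he0' hv
      have ht2 := TC_le_SUn hB ht
      rw [← hφr] at ht2
      obtain ⟨a, rfl⟩ := ht2
      refine ⟨a, ?_⟩
      have c1 := u_conj hφ (a := a) ht0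
      rw [htv] at c1
      exact huniq c1 hg'
    · rintro ⟨A, hA⟩
      have c1 := u_conj hφ (a := A) ht0
      rw [hA] at c1
      refine (hchar g).2 ⟨_, ?_, ?_, c1⟩
      · rw [Ne, ap_eq_zero]; exact he0'
      · rw [hφ A]; exact he0
  · rw [eq_top_iff]
    intro g _
    have h1 : φ g ∈ TC B ⊤ := by
      rw [← SUn_eq_TC hB (Or.inl h4)]
      exact hS g
    have h2 : TC B ⊤ ≤ (Subgroup.closure {g : G | ((φ g : Matrix ι ι F) - 1).rank = 1}).map φ := by
      unfold TC
      rw [Subgroup.closure_le]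
      rintro a ⟨u, -, c, huu, hcc, ha⟩
      have haS : a ∈ SUn B := ⟨isom_utv hB.symm huu hcc ha, IsTv.mem_SL (by rw [LinearMap.smul_apply, huu, smul_zero]) ha⟩
      rw [← hφr] at haS
      obtain ⟨b, rfl⟩ := haS
      refine ⟨b, ?_, rfl⟩
      by_cases hb : b = 1
      · rw [hb]; exact one_mem _
      · apply Subgroup.subset_closure
        refine (hchar b).2 ?_
        have hbne : ¬ ∀ x, ap (φ b) x = x := by
          intro h
          apply hb
          apply hφi
          rw [map_one]
          apply ap_ext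
          intro x
          rw [h, ap_one]
        rcases hc c hcc with rfl | rfl
        · exfalso
          apply hbne
          intro x
          rw [ha, LinearMap.smul_apply, zero_smul, zero_smul, add_zero]
        · rw [one_smul] at ha
          refine ⟨u, ?_, huu, ha⟩
          rintro rfl
          apply hbne
          intro x
          rw [ha, smul_zero, add_zero]
    obtain ⟨y, hy, hyg⟩ := h2 h1
    have : y = g := hφi hyg
    rwa [this] at hy

end Cfsg.Agent.H8.TTC
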