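import Mathlib
import Cfsg.Agent.H8.TVS1

set_option autoImplicit false

namespace Cfsg.Agent.H8.TVS

open Cfsg Cfsg.Agent.H8.TVA Cfsg.Agent.H7.Tv Matrix Module Cfsg.Agent.H8.MDat
open Cfsg.Agent.H8.AutPSL (ind ind_mk)

local notation "SF" => Cfsg.Agent.H7.Tv.sf

variable {F : Type*} [Field F] {m : ℕ}

theorem memS {W : GL (Fin m ⊕ Fin m) F} : W ∈ GSp m F ↔ ∃ c : Fˣ, ∀ u v, SF m F (ap W u) (ap W v) = (c : F) * SF m F u v := Iff.rfl

theorem ap_map {ι : Type} [Fintype ι] [DecidableEq ι] (σ : F ≃+* F) (A : GL ι F) (u : ι → F) : ap (fW σ A) (σ ∘ u) = σ ∘ (ap A u) := by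
  funext i
  show ∑ j, (A : Matrix ι ι F).map σ i j * σ (u j) = σ (∑ j, (A : Matrix ι ι F) i j * u j)
  rw [map_sum]
  apply Finset.sum_congr rfl
  intro j _
  rw [map_mul, Matrix.map_apply]

theorem symp_map {R : Type*} [CommRing R] {R' : Type*} [CommRing R'] (σ : R →+* R') (u v : Fin m ⊕ Fin m → R) :
    u ⬝ᵥ (Matrix.J (Fin m) R *ᵥ v) = u ⬝ᵥ (Matrix.J (Fin m) R *ᵥ v) := rfl

theorem SF_map (σ : F ≃+* F) (u v : Fin m ⊕ Fin m → F) : SF m F (σ ∘ u) (σ ∘ v) = σ (SF m F u v) := by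
  rw [sf_apply, sf_apply, sympForm_eq, sympForm_eq, map_sum]
  apply Finset.sum_congr rfl
  intro i _
  rw [map_sub, map_mul, map_mul]; rfl

theorem sym_comp {ι : Type} (σ : F ≃+* F) (u : ι → F) : σ ∘ (σ.symm ∘ u) = u := by funext i; exact σ.apply_symm_apply _

theorem fW_mult (σ : F ≃+* F) (W : GL (Fin m ⊕ Fin m) F) (c : F) (h : ∀ u v, SF m F (ap W u) (ap W v) = c * SF m F u v) (u v : Fin m ⊕ Fin m → F) :
    SF m F (ap (fW σ W) u) (ap (fW σ W) v) = σ c * SF m F u v := by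
  rw [← sym_comp σ u, ← sym_comp σ v, ap_map, ap_map, SF_map, SF_map, h, map_mul]

theorem spGL_le_GSp : spGL m F ≤ GSp m F := fun g hg => memS.2 ⟨1, fun u v => by rw [Units.val_one, one_mul]; exact hg u v⟩

theorem mem_sp_iff (g : GL (Fin m ⊕ Fin m) F) : g ∈ spGL m F ↔ ∀ u v, SF m F (ap g u) (ap g v) = SF m F u v := Iff.rfl

theorem inv_mult (W : GL (Fin m ⊕ Fin m) F) (c : F) (hc : c ≠ 0) (h : ∀ u v, SF m F (ap W u) (ap W v) = c * SF m F u v) (u v : Fin m ⊕ Fin m → F) :
    SF m F (ap W⁻¹ u) (ap W⁻¹ v) = c⁻¹ * SF m F u v := by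
  have h1 := h (ap W⁻¹ u) (ap W⁻¹ v)
  rw [ap_ap_inv, ap_ap_inv] at h1
  rw [h1, ← mul_assoc, inv_mul_cancel₀ hc, one_mul]

theorem conj_mem {W g : GL (Fin m ⊕ Fin m) F} (hW : W ∈ GSp m F) (hg : g ∈ spGL m F) : W * g * W⁻¹ ∈ spGL m F := by
  obtain ⟨c, hc⟩ := memS.1 hW
  rw [mem_sp_iff] at hg ⊢
  intro u v
  rw [ap_mul, ap_mul, ap_mul, ap_mul, hc, hg, inv_mult W c c.ne_zero hc, ← mul_assoc, mul_inv_cancel₀ c.ne_zero, one_mul]

theorem fW_mem {σ : F ≃+* F} {g : GL (Fin m ⊕ Fin m) F} (hg : g ∈ spGL m F) : fW σ g ∈ spGL m F := by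
  rw [mem_sp_iff] at hg ⊢
  intro u v
  rw [fW_mult σ g 1 (fun u v => by rw [hg, one_mul]), map_one, one_mul]

/-- semilinear map attached to a pair -/
def slm {ι : Type} [Fintype ι] [DecidableEq ι] (W : GL ι F) (τ : F ≃+* F) : (ι → F) →ₛₗ[(τ : F →+* F)] (ι → F) where
  toFun x := ap W (τ ∘ x)
  map_add' x y := by
    rw [← ap_add]; congr 1; funext i; exact map_add τ _ _
  map_smul' c x := by
    show _ = (τ : F →+* F) c • _
    rw [← ap_smul]; congr 1; funext i; exact map_mul τ _ _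

theorem slm_apply {ι : Type} [Fintype ι] [DecidableEq ι] (W : GL ι F) (τ : F ≃+* F) (x : ι → F) : slm W τ x = ap W (τ ∘ x) := rfl

theorem sc_of_smul {ι : Type} [Fintype ι] [DecidableEq ι] [Nonempty ι] (W : GL ι F) (a : F) (h : ∀ x : ι → F, ap W x = a • x) : ∃ c : Fˣ, W = sc c := by
  have h1 : (W : Matrix ι ι F) = a • 1 := by
    apply Matrix.mulVec_injective
    funext x
    rw [Matrix.smul_mulVec, Matrix.one_mulVec]
    exact h x
  have ha : a ≠ 0 := by
    rintro rfl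
    exact W_ne_zero W (by rw [h1, zero_smul])
  exact ⟨Units.mk0 a ha, Units.ext (by rw [h1, sc_val]; rfl)⟩

theorem exists_hypS (hm : 2 ≤ m) : ∃ e f : Fin m ⊕ Fin m → F, Hyp (SF m F) e f := by
  have hne : (Pi.single (Sum.inl (⟨0, by omega⟩ : Fin m)) (1 : F) : Fin m ⊕ Fin m → F) ≠ 0 := by
    intro h
    have := congrFun h (Sum.inl ⟨0, by omega⟩)
    rw [Pi.single_eq_same] at this
    exact one_ne_zero this
  obtain ⟨f, hf, hff⟩ := (frm (F := F) (m := m)).exists_hyp hne (alt _)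
  exact ⟨_, f, alt _, hff, hf⟩

theorem charP_center (p : ℕ) [hp : Fact p.Prime] [CharP F p] [Fintype F] (hm : 1 ≤ m) (z : symplecticGroup (Fin m) F)
    (hz : z ∈ Subgroup.center (symplecticGroup (Fin m) F)) (h : z ^ p = 1) : z = 1 := by
  obtain ⟨c, hc⟩ := (center_scalar z).1 hz
  have hk : ∀ k : ℕ, ∀ x, rho m F (z ^ k) x = c ^ k • x := by
    intro k
    induction k with
    | zero => intro x; rw [pow_zero, pow_zero, map_one, one_smul]; rfl
    | succ k ih =>
      intro x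
      rw [pow_succ, map_mul]
      show rho m F (z ^ k) (rho m F z x) = _
      rw [hc, map_smul, ih, smul_smul, pow_succ, mul_comm]
  have h1 := hk p
  rw [h, map_one] at h1
  have hne : (Pi.single (Sum.inl (⟨0, by omega⟩ : Fin m)) (1 : F) : Fin m ⊕ Fin m → F) ≠ 0 := by
    intro h
    have := congrFun h (Sum.inl ⟨0, by omega⟩)
    rw [Pi.single_eq_same] at this
    exact one_ne_zero this
  have h2 := h1 (Pi.single (Sum.inl (⟨0, by omega⟩ : Fin m)) (1 : F))
  have h3 : (1 - c ^ p) • (Pi.single (Sum.inl (⟨0, by omega⟩ : Fin m)) (1 : F) : Fin m ⊕ Fin m → F) = 0 := by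
    rw [sub_smul, ← h2, one_smul]
    exact sub_self _
  have h4 := (smul_eq_zero.1 h3).resolve_right hne
  have h5 : c = 1 := Cfg.pow_one_of (p := p) (k := 1) (by rw [pow_one]; exact (sub_eq_zero.1 h4).symm)
  apply rho_inj
  apply LinearEquiv.ext
  intro x
  rw [hc, h5, one_smul, map_one]; rfl

/-- the symplectic datum -/
noncomputable def mdS (p : ℕ) [Fact p.Prime] [CharP F p] [Fintype F] (hm : 2 ≤ m) : MD (Fin m ⊕ Fin m) F (symplecticGroup (Fin m) F) where
  m := spToGL m F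
  minj := spToGL_injective m
  D := GSp m F
  cjm W hW s := exists_spToGL (conj_mem hW (spToGL_mem s))
  fdm σ s := exists_spToGL (fW_mem (spToGL_mem s))
  fD σ W hW := by
    obtain ⟨c, hc⟩ := memS.1 hW
    exact memS.2 ⟨Units.map (σ : F →* F) c, fun u v => fW_mult σ W c hc u v⟩
  SD s := spGL_le_GSp (spToGL_mem s)
  rig W hW σ h := by
    haveI : Nonempty (Fin m ⊕ Fin m) := ⟨Sum.inl ⟨0, by omega⟩⟩
    obtain ⟨l, hl⟩ := memS.1 hW
    have hform : ∀ x y, SF m F (slm W σ x) (slm W σ y) = (l : F) * (σ : F →+* F) (SF m F x y) := by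
      intro x y
      rw [slm_apply, slm_apply, hl, SF_map]; rfl
    have he : ∀ e : Fin m ⊕ Fin m → F, SF m F e e = 0 → ∃ a : F, slm W σ e = a • e := by
      intro v _
      by_cases hv : v = 0
      · exact ⟨0, by rw [hv, map_zero, smul_zero]⟩
      set s := stv v (1 : F) with hs
      obtain ⟨s', hs'⟩ := exists_spToGL (conj_mem hW (fW_mem (σ := σ) (spToGL_mem s)))
      have h1 := h s s' hs'
      -- s^p = 1
      have hsp : s ^ p = 1 := by
        have h2 : ∀ k : ℕ, s ^ k = stv v (k : F) := by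
          intro k
          induction k with
          | zero => rw [pow_zero, Nat.cast_zero, stv_zero]
          | succ k ih => rw [pow_succ, ih, hs, stv_mul]; push_cast; rfl
        rw [h2, CharP.cast_eq_zero, stv_zero]
      have hsp' : s' ^ p = 1 := by
        apply spToGL_injective m
        rw [map_pow, hs', conj_pow, ← map_pow, ← map_pow, hsp, map_one, map_one]
        group
      have hz : s⁻¹ * s' ∈ Subgroup.center (symplecticGroup (Fin m) F) := QuotientGroup.eq.1 h1.symm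
      have hcomm : Commute s (s⁻¹ * s') := (Subgroup.mem_center_iff.1 hz s)
      have hzp : (s⁻¹ * s') ^ p = 1 := by
        have h3 := hcomm.mul_pow p
        have h4 : s * (s⁻¹ * s') = s' := by group
        rw [h4, hsp', hsp, one_mul] at h3
        exact h3.symm
      have h5 := charP_center p (by omega) _ hz hzp
      have h6 : s' = s := by
        have : s' = s * (s⁻¹ * s') := by group
        rw [this, h5, mul_one]
      rw [h6] at hs'
      have h7 : spToGL m F s * W = W * fW σ (spToGL m F s) := by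
        conv_lhs => rw [hs']
        group
      obtain ⟨x, hx⟩ := (sf_alt (F := F) m).exists_ne hv
      have hx' := (sf_alt (F := F) m).skew_ne hx
      have h8 := congrArg (fun g => ap g (σ ∘ x)) h7
      simp only [ap_mul, ap_map] at h8
      rw [stv_isSTv, stv_isSTv, one_mul, one_mul] at h8
      have h9 : σ ∘ (x + SF m F x v • v) = σ ∘ x + σ (SF m F x v) • (σ ∘ v) := by
        funext i
        simp [map_add, map_mul]
      rw [h9, ap_add, ap_smul] at h8
      have h10 := add_left_cancel h8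
      have h11 : σ (SF m F x v) ≠ 0 := (map_ne_zero σ).2 hx'
      refine ⟨(σ (SF m F x v))⁻¹ * SF m F (ap W (σ ∘ x)) v, ?_⟩
      rw [mul_smul, h10, smul_smul, inv_mul_cancel₀ h11, one_smul]
      rfl
    obtain ⟨e, f, hh⟩ := exists_hypS (F := F) hm
    obtain ⟨hτ, a, ha⟩ := rigid frm (σ : F →+* F) (slm W σ) l hform l.ne_zero he hh (exists_Wm hm hh)
    have hσ : σ = 1 := by ext x; exact hτ x
    refine ⟨hσ, ?_⟩
    apply sc_of_smul W a
    intro x
    have := ha x
    rw [slm_apply, hσ] at this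
    exact this

/-- every automorphism of `PSp` is semilinear, odd characteristic -/
theorem fullS (p : ℕ) [Fact p.Prime] [CharP F p] [Fintype F] (hp2 : p ≠ 2) (hm : 2 ≤ m) : (mdS (F := F) p hm).Full := by
  intro α
  have E := envS (F := F) p hp2 hm
  haveI : Nontrivial (Fin m ⊕ Fin m → F) := by
    haveI : Nonempty (Fin m ⊕ Fin m) := ⟨Sum.inl ⟨0, by omega⟩⟩
    exact Function.nontrivial
  haveI : Finite (symplecticGroup (Fin m) F) := inferInstance
  obtain ⟨τ, g, l, hl0, hsl, hg, hα⟩ := Cfg.main E α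
  have hτb : Function.Bijective τ := Finite.injective_iff_bijective.1 τ.injective
  set τ' : F ≃+* F := RingEquiv.ofBijective τ hτb with hτ'
  have hττ : ∀ x, τ' x = τ x := fun x => rfl
  -- matrix
  let M : Matrix (Fin m ⊕ Fin m) (Fin m ⊕ Fin m) F := Matrix.of fun i j => g (Pi.single j 1) i
  have hM : ∀ x, M *ᵥ (τ' ∘ x) = g x := by
    intro x
    conv_rhs => rw [pi_eq_sum_univ' x]
    rw [map_sum]
    funext i
    rw [Finset.sum_apply]
    show ∑ j, M i j * τ' (x j) = _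
    apply Finset.sum_congr rfl
    intro j _
    rw [LinearMap.map_smulₛₗ, Pi.smul_apply, smul_eq_mul, hττ]
    show g (Pi.single j 1) i * τ (x j) = _
    ring
  have hform : ∀ x y, SF m F (M *ᵥ x) (M *ᵥ y) = l * SF m F x y := by
    intro x y
    rw [← sym_comp τ' x, ← sym_comp τ' y, hM, hM, SF_map, hg, hττ]
  have hinj : Function.Injective (fun x => M *ᵥ x) := by
    intro x y hxy
    have hxy : M *ᵥ x = M *ᵥ y := hxy
    rw [← sub_eq_zero]
    apply frm.nd (B := SF m F)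
    intro z
    have h1 := hform (x - y) z
    rw [Matrix.mulVec_sub, hxy, sub_self, map_zero, LinearMap.zero_apply] at h1
    exact (mul_eq_zero.1 h1.symm).resolve_left hl0
  have hMu : IsUnit M := Matrix.mulVec_injective_iff_isUnit.1 hinj
  let W : GL (Fin m ⊕ Fin m) F := hMu.unit
  have hWap : ∀ x, ap W x = M *ᵥ x := fun x => rfl
  have hWD : W ∈ GSp m F := memS.2 ⟨Units.mk0 l hl0, fun u v => hform u v⟩
  refine ⟨⟨W, hWD⟩, τ', ?_⟩
  apply MD.T_ext
  intro s
  rw [ind_mk]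
  obtain ⟨h', hh'⟩ := QuotientGroup.mk_surjective (α (QuotientGroup.mk s))
  rw [← hh', QuotientGroup.eq, (mdS (F := F) p hm).mem_center_iff]
  obtain ⟨c, hc0, hc⟩ := hα s h' hh'.symm
  set s' := ((mdS (F := F) p hm).cj ⟨W, hWD⟩ * (mdS (F := F) p hm).fd τ') s with hs'
  have e2 : (spToGL m F s') * W = W * fW τ' (spToGL m F s) := by
    have : spToGL m F s' = W * fW τ' (spToGL m F s) * W⁻¹ := by
      have e3 := (mdS (F := F) p hm).m_cj ⟨W, hWD⟩ ((mdS (F := F) p hm).fd τ' s)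
      rw [(mdS (F := F) p hm).m_fd] at e3
      exact e3
    rw [this]; group
  have e4 : ∀ x, ap (spToGL m F s') x = c • (ap (spToGL m F h') x) := by
    intro x
    obtain ⟨y, rfl⟩ : ∃ y, ap W (τ' ∘ y) = x := by
      refine ⟨τ'.symm ∘ (ap W⁻¹ x), ?_⟩
      rw [sym_comp, ap_ap_inv]
    rw [← ap_mul, e2, ap_mul, ap_map, hWap, hWap, hM, hM]
    have h6 := hc y
    exact h6
  refine ⟨(Units.mk0 c hc0), ?_⟩
  have e5 : spToGL m F s' = sc (Units.mk0 c hc0) * spToGL m F h' := by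
    apply ap_ext
    intro x
    rw [e4]
    rw [ap_def (sc (Units.mk0 c hc0) * spToGL m F h'), sc_mul_val, Matrix.smul_mulVec]
    rfl
  show spToGL m F (h'⁻¹ * s') = _
  rw [map_mul, e5, map_inv, sc_comm, ← mul_assoc, inv_mul_cancel, one_mul]

end Cfsg.Agent.H8.TVS
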