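import Mathlib
import Cfsg.Agent.H8.TVS2
import Cfsg.Agent.H7.IsoStab

set_option autoImplicit false

namespace Cfsg.Agent.H8.TVS

open Cfsg Cfsg.Agent.H8.TVA Cfsg.Agent.H7.Tv Matrix Module Cfsg.Agent.H8.MDat
open Cfsg.Agent.H8.AutPSL (ind ind_mk)

local notation "SF" => Cfsg.Agent.H7.Tv.sf

section basics
variable {F : Type*} [Field F] {m : ℕ}

theorem mat_ext' {ι : Type} [Fintype ι] [DecidableEq ι] {A B : Matrix ι ι F} (h : ∀ u v : ι → F, u ⬝ᵥ (A *ᵥ v) = u ⬝ᵥ (B *ᵥ v)) : A = B := by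
  ext i j
  have h1 := h (Pi.single i 1) (Pi.single j 1)
  simpa using h1

theorem key_form (A : Matrix (Fin m ⊕ Fin m) (Fin m ⊕ Fin m) F) (u v : Fin m ⊕ Fin m → F) :
    SF m F (A *ᵥ u) (A *ᵥ v) = u ⬝ᵥ ((Aᵀ * J (Fin m) F * A) *ᵥ v) := by
  rw [sf_apply, sympForm, ← Matrix.vecMul_transpose, ← Matrix.dotProduct_mulVec, Matrix.mulVec_mulVec, Matrix.mulVec_mulVec]

theorem mult_iff (A : Matrix (Fin m ⊕ Fin m) (Fin m ⊕ Fin m) F) (c : F) :
    (∀ u v, SF m F (A *ᵥ u) (A *ᵥ v) = c * SF m F u v) ↔ Aᵀ * J (Fin m) F * A = c • J (Fin m) F := by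
  constructor
  · intro h
    apply mat_ext'
    intro u v
    rw [← key_form, h, Matrix.smul_mulVec, dotProduct_smul]; rfl
  · intro h u v
    rw [key_form, h, Matrix.smul_mulVec, dotProduct_smul]; rfl

theorem J_map {F' : Type*} [Field F'] (j : F →+* F') : (J (Fin m) F).map j = J (Fin m) F' := by
  rw [Matrix.J, Matrix.J, Matrix.fromBlocks_map]
  congr 1
  · ext a b; simp
  · ext a b
    rw [Matrix.map_apply, Matrix.neg_apply, Matrix.neg_apply, map_neg, Matrix.one_apply, Matrix.one_apply]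
    split_ifs <;> simp
  · ext a b
    rw [Matrix.map_apply, Matrix.one_apply, Matrix.one_apply]
    split_ifs <;> simp
  · ext a b; simp

theorem J_entry (i : Fin m) : J (Fin m) F (Sum.inr i) (Sum.inl i) = 1 := by
  rw [Matrix.J, Matrix.fromBlocks_apply₂₁, Matrix.one_apply_eq]

theorem memS' {W : GL (Fin m ⊕ Fin m) F} : W ∈ GSp m F ↔ ∃ c : Fˣ, (W : Matrix (Fin m ⊕ Fin m) (Fin m ⊕ Fin m) F)ᵀ * J (Fin m) F * (W : Matrix (Fin m ⊕ Fin m) (Fin m ⊕ Fin m) F) = (c : F) • J (Fin m) F := by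
  rw [memS]
  constructor
  · rintro ⟨c, hc⟩
    exact ⟨c, (mult_iff _ _).1 hc⟩
  · rintro ⟨c, hc⟩
    exact ⟨c, (mult_iff _ _).2 hc⟩

theorem J_smul_inj (hm : 1 ≤ m) {a b : F} (h : a • J (Fin m) F = b • J (Fin m) F) : a = b := by
  have h1 := congrFun (congrFun h (Sum.inr ⟨0, hm⟩)) (Sum.inl ⟨0, hm⟩)
  rw [Matrix.smul_apply, Matrix.smul_apply, J_entry] at h1
  simpa using h1

/-- `diag(a,…,a,1,…,1)` -/
def Dia (m : ℕ) (a : Fˣ) : GL (Fin m ⊕ Fin m) F where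
  val := Matrix.diagonal (Sum.elim (fun _ => (a : F)) (fun _ => 1))
  inv := Matrix.diagonal (Sum.elim (fun _ => ((a⁻¹ : Fˣ) : F)) (fun _ => 1))
  val_inv := by
    rw [Matrix.diagonal_mul_diagonal, ← Matrix.diagonal_one]; congr 1; funext i
    cases i <;> simp
  inv_val := by
    rw [Matrix.diagonal_mul_diagonal, ← Matrix.diagonal_one]; congr 1; funext i
    cases i <;> simp

theorem Dia_mult (a : Fˣ) (u v : Fin m ⊕ Fin m → F) : SF m F (ap (Dia m a) u) (ap (Dia m a) v) = (a : F) * SF m F u v := by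
  have e1 : ∀ (u : Fin m ⊕ Fin m → F) i, ap (Dia m a) u i = Sum.elim (fun _ => (a : F)) (fun _ => 1) i * u i := by
    intro u i
    show (Matrix.diagonal _ *ᵥ u) i = _
    rw [Matrix.mulVec_diagonal]
  rw [sf_apply, sf_apply, sympForm_eq, sympForm_eq, Finset.mul_sum]
  apply Finset.sum_congr rfl
  intro i _
  rw [e1, e1, e1, e1]
  simp only [Sum.elim_inl, Sum.elim_inr]
  ring

theorem Dia_mem (a : Fˣ) : Dia m a ∈ GSp m F := memS.2 ⟨a, Dia_mult a⟩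

theorem Dia_fW (σ : F ≃+* F) (a : Fˣ) (h : σ (a : F) = a) : fW σ (Dia m a) = Dia m a := by
  apply Units.ext
  rw [fW_val]
  show (Matrix.diagonal _).map σ = Matrix.diagonal _
  rw [Matrix.diagonal_map (map_zero σ)]
  congr 1
  funext i
  cases i with
  | inl i => show σ (a : F) = a; exact h
  | inr i => show σ (1 : F) = 1; exact map_one σ

theorem sc_mult (c : Fˣ) (u v : Fin m ⊕ Fin m → F) : SF m F (ap (sc c) u) (ap (sc c) v) = ((c ^ 2 : Fˣ) : F) * SF m F u v := by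
  have e : ∀ u : Fin m ⊕ Fin m → F, ap (sc c) u = (c : F) • u := by
    intro u
    rw [ap_def, sc_val, Matrix.smul_mulVec, Matrix.one_mulVec]
  simp only [e, map_smul, LinearMap.smul_apply, smul_eq_mul, Units.val_pow_eq_pow_val]
  ring

theorem sc_memS (c : Fˣ) : (sc c : GL (Fin m ⊕ Fin m) F) ∈ GSp m F := memS.2 ⟨c ^ 2, sc_mult c⟩

end basics

variable {F : Type*} [Field F] [Fintype F] {m : ℕ} (p : ℕ) [Fact p.Prime] [CharP F p] (hm : 2 ≤ m)

theorem mult_uniq (hm : 2 ≤ m) {W : GL (Fin m ⊕ Fin m) F} {c d : Fˣ} (h1 : ∀ u v, SF m F (ap W u) (ap W v) = (c : F) * SF m F u v)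
    (h2 : ∀ u v, SF m F (ap W u) (ap W v) = (d : F) * SF m F u v) : c = d := by
  apply Units.ext
  apply J_smul_inj (by omega : 1 ≤ m)
  rw [← (mult_iff _ _).1 h1, ← (mult_iff _ _).1 h2]

/-- multiplier -/
noncomputable def dS : (mdS (F := F) p hm).D →* Fˣ where
  toFun W := Classical.choose (memS.1 W.2)
  map_one' := by
    apply mult_uniq hm (Classical.choose_spec (memS.1 (1 : (mdS (F := F) p hm).D).2))
    intro u v
    show SF m F (ap (1 : GL (Fin m ⊕ Fin m) F) u) (ap (1 : GL (Fin m ⊕ Fin m) F) v) = _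
    rw [ap_one, ap_one, Units.val_one, one_mul]
  map_mul' W V := by
    apply mult_uniq hm (Classical.choose_spec (memS.1 (W * V).2))
    intro u v
    show SF m F (ap (W.1 * V.1) u) (ap (W.1 * V.1) v) = _
    rw [ap_mul, ap_mul, Classical.choose_spec (memS.1 W.2), Classical.choose_spec (memS.1 V.2), Units.val_mul, mul_assoc]

theorem dS_spec (W : (mdS (F := F) p hm).D) (u v : Fin m ⊕ Fin m → F) : SF m F (ap W.1 u) (ap W.1 v) = (dS p hm W : F) * SF m F u v :=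
  Classical.choose_spec (memS.1 W.2) u v

theorem dS_eq (W : (mdS (F := F) p hm).D) (c : Fˣ) (h : ∀ u v, SF m F (ap W.1 u) (ap W.1 v) = (c : F) * SF m F u v) : dS p hm W = c :=
  mult_uniq hm (dS_spec p hm W) h

theorem dS_surj : Function.Surjective (dS (F := F) p hm) := by
  intro a
  exact ⟨⟨Dia m a, Dia_mem a⟩, dS_eq p hm _ a (Dia_mult a)⟩

theorem dS_ker (W : (mdS (F := F) p hm).D) : dS p hm W = 1 ↔ ∃ s, W.1 = (mdS (F := F) p hm).m s := by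
  constructor
  · intro h
    have h1 : W.1 ∈ spGL m F := by
      rw [mem_sp_iff]
      intro u v
      rw [dS_spec p hm W, h, Units.val_one, one_mul]
    obtain ⟨s, hs⟩ := exists_spToGL h1
    exact ⟨s, hs.symm⟩
  · rintro ⟨s, h⟩
    apply dS_eq
    intro u v
    rw [h, Units.val_one, one_mul]
    exact spToGL_mem s u v

theorem dS_Z (a : Fˣ) : a ∈ (powMonoidHom 2 : Fˣ →* Fˣ).range ↔ ∃ (W : (mdS (F := F) p hm).D) (c : Fˣ), W.1 = sc c ∧ dS p hm W = a := by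
  constructor
  · rintro ⟨c, rfl⟩
    exact ⟨⟨sc c, sc_memS c⟩, c, rfl, dS_eq p hm _ _ (sc_mult c)⟩
  · rintro ⟨W, c, h1, rfl⟩
    refine ⟨c, ?_⟩
    symm
    apply dS_eq
    intro u v
    rw [h1]
    exact sc_mult c u v

/-- normality of the inner-diagonal group -/
theorem N_normal : (mdS (F := F) p hm).N.Normal := by
  by_cases hp2 : p = 2
  · subst hp2
    have h1 : (mdS (F := F) 2 hm).N = Cfsg.Inn (PSp m F) := by
      apply le_antisymm _ (mdS (F := F) 2 hm).inn_le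
      rintro _ ⟨W, rfl⟩
      show ind ((mdS (F := F) 2 hm).cj W) ∈ _
      rw [(mdS (F := F) 2 hm).inner_iff' (dS 2 hm) (dS_ker 2 hm) _ (dS_Z 2 hm)]
      obtain ⟨b, hb⟩ := FiniteField.isSquare_of_char_two (ringChar.eq F 2) ((dS 2 hm W : Fˣ) : F)
      have hb0 : b ≠ 0 := by
        rintro rfl
        rw [mul_zero] at hb
        exact (dS 2 hm W).ne_zero hb
      exact ⟨Units.mk0 b hb0, Units.ext (by
        show (((Units.mk0 b hb0) ^ 2 : Fˣ) : F) = _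
        rw [Units.val_pow_eq_pow_val, Units.val_mk0, hb, sq])⟩
    rw [h1]
    infer_instance
  · exact (mdS (F := F) p hm).N_normal (fullS p hp2 hm)

theorem fld_eq {σ : F ≃+* F} {β : MulAut (PSp m F)} (h : IsStdFieldAutPSp σ β) : β = ind ((mdS (F := F) p hm).fd σ) := by
  apply MD.T_ext
  intro s
  rw [ind_mk]
  apply h
  exact congrArg Units.val ((mdS (F := F) p hm).m_fd σ s)

theorem inndiag_eq : inndiagPSp m F = (mdS (F := F) p hm).N := by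
  apply le_antisymm
  · apply (Subgroup.closure_le _).2
    rintro β ⟨g, hg, hβ⟩
    refine ⟨⟨g, hg⟩, ?_⟩
    apply MD.T_ext
    intro s
    show ind ((mdS (F := F) p hm).cj ⟨g, hg⟩) _ = _
    rw [ind_mk]
    symm
    apply hβ
    exact congrArg Units.val ((mdS (F := F) p hm).m_cj ⟨g, hg⟩ s)
  · rintro _ ⟨W, rfl⟩
    apply Subgroup.subset_closure
    refine ⟨W.1, W.2, ?_⟩
    intro s s' h
    show ind ((mdS (F := F) p hm).cj W) _ = _
    rw [ind_mk]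
    congr 1
    apply (mdS (F := F) p hm).minj
    rw [(mdS (F := F) p hm).m_cj]
    apply Units.ext
    exact h.symm

include hm in
theorem gamma_top (hp2 : p ≠ 2) : gammaPSp m F = ⊤ := by
  rw [eq_top_iff]
  intro α _
  apply Subgroup.subset_closure
  obtain ⟨W, σ, rfl⟩ := fullS p hp2 hm α
  refine ⟨W.1, σ, W.2, ?_⟩
  intro s s' h
  rw [ind_mk]
  congr 1
  apply (mdS (F := F) p hm).minj
  rw [MulAut.mul_apply, (mdS (F := F) p hm).m_cj, (mdS (F := F) p hm).m_fd]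
  apply Units.ext
  exact h.symm

/-- descent of the symplectic form -/
theorem desc (hm : 2 ≤ m) {F₀ : Type*} [Field F₀] (σ : F ≃+* F) (j : F₀ →+* F) (hj : ∀ x, σ (j x) = j x) (hjs : ∀ y : F, σ y = y → ∃ x, j x = y)
    (W : GL (Fin m ⊕ Fin m) F) (hW : W ∈ GSp m F) (V : GL (Fin m ⊕ Fin m) F) (h : W = V * (fW σ V)⁻¹) :
    ∃ V' ∈ GSp m F, W = V' * (fW σ V')⁻¹ := by
  obtain ⟨c, hc⟩ := memS.1 hW
  have hW1 : fW σ V = W⁻¹ * V := by rw [h]; group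
  have hWi : (((W⁻¹ : GL (Fin m ⊕ Fin m) F) : Matrix (Fin m ⊕ Fin m) (Fin m ⊕ Fin m) F))ᵀ * J (Fin m) F * (((W⁻¹ : GL (Fin m ⊕ Fin m) F) : Matrix (Fin m ⊕ Fin m) (Fin m ⊕ Fin m) F)) = ((c : F)⁻¹) • J (Fin m) F :=
    (mult_iff _ _).1 (inv_mult W c c.ne_zero hc)
  have hW2 : (V : Matrix (Fin m ⊕ Fin m) (Fin m ⊕ Fin m) F).map σ = ((W⁻¹ : GL (Fin m ⊕ Fin m) F) : Matrix (Fin m ⊕ Fin m) (Fin m ⊕ Fin m) F) * (V : Matrix (Fin m ⊕ Fin m) (Fin m ⊕ Fin m) F) := congrArg Units.val hW1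
  set Vm := (V : Matrix (Fin m ⊕ Fin m) (Fin m ⊕ Fin m) F) with hVm
  set H : Matrix (Fin m ⊕ Fin m) (Fin m ⊕ Fin m) F := Vmᵀ * J (Fin m) F * Vm with hH
  have hform : ∀ u v, SF m F (ap V u) (ap V v) = u ⬝ᵥ (H *ᵥ v) := fun u v => key_form _ u v
  have hHσ : H.map σ = (c : F)⁻¹ • H := by
    have hJ : (J (Fin m) F).map σ = J (Fin m) F := J_map (σ : F →+* F)
    rw [hH, Matrix.map_mul, Matrix.map_mul, Matrix.transpose_map, hW2, hJ, Matrix.transpose_mul]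
    have e1 : Vmᵀ * ((W⁻¹ : GL (Fin m ⊕ Fin m) F) : Matrix (Fin m ⊕ Fin m) (Fin m ⊕ Fin m) F)ᵀ * J (Fin m) F * (((W⁻¹ : GL (Fin m ⊕ Fin m) F) : Matrix (Fin m ⊕ Fin m) (Fin m ⊕ Fin m) F) * Vm) =
      Vmᵀ * (((W⁻¹ : GL (Fin m ⊕ Fin m) F) : Matrix (Fin m ⊕ Fin m) (Fin m ⊕ Fin m) F)ᵀ * J (Fin m) F * ((W⁻¹ : GL (Fin m ⊕ Fin m) F) : Matrix (Fin m ⊕ Fin m) (Fin m ⊕ Fin m) F)) * Vm := by simp only [mul_assoc]
    rw [e1, hWi, Matrix.mul_smul, Matrix.smul_mul]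
  have hH0 : ∃ a b, H a b ≠ 0 := by
    by_contra hcon
    push Not at hcon
    have h0 : H = 0 := by ext a b; exact hcon a b
    obtain ⟨e, f, hh⟩ := exists_hypS (F := F) hm
    have h1 := hform (ap V⁻¹ e) (ap V⁻¹ f)
    rw [ap_ap_inv, ap_ap_inv, h0, hh.ef, Matrix.zero_mulVec, dotProduct_zero] at h1
    exact one_ne_zero h1
  obtain ⟨a0, b0, hν⟩ := hH0
  set ν := H a0 b0 with hνd
  have hσν : σ ν = (c : F)⁻¹ * ν := congrFun (congrFun hHσ a0) b0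
  have hent : ∀ a b, σ (ν⁻¹ * H a b) = ν⁻¹ * H a b := by
    intro a b
    have h1 : σ (H a b) = (c : F)⁻¹ * H a b := congrFun (congrFun hHσ a) b
    rw [map_mul, map_inv₀, hσν, h1]
    have := c.ne_zero
    field_simp
  choose g hg using fun a b => hjs _ (hent a b)
  set H0 : Matrix (Fin m ⊕ Fin m) (Fin m ⊕ Fin m) F₀ := Matrix.of g with hH0d
  have hH0j : H0.map j = ν⁻¹ • H := by
    ext a b
    exact hg a b
  have hjm : ∀ u v : Fin m ⊕ Fin m → F₀, j (u ⬝ᵥ (H0 *ᵥ v)) = ν⁻¹ * SF m F (ap V (j ∘ u)) (ap V (j ∘ v)) := by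
    intro u v
    rw [hform]
    have e1 : ν⁻¹ * ((j ∘ u) ⬝ᵥ (H *ᵥ (j ∘ v))) = (j ∘ u) ⬝ᵥ ((H0.map j) *ᵥ (j ∘ v)) := by
      rw [hH0j, Matrix.smul_mulVec, dotProduct_smul, smul_eq_mul]
    rw [e1]
    simp only [Matrix.mulVec, dotProduct, map_sum, map_mul, Matrix.map_apply, Function.comp]
  let B₀ : (Fin m ⊕ Fin m → F₀) →ₗ[F₀] (Fin m ⊕ Fin m → F₀) →ₗ[F₀] F₀ := Matrix.toLinearMap₂' F₀ H0
  have hB₀ : ∀ u v, B₀ u v = u ⬝ᵥ (H0 *ᵥ v) := fun u v => Matrix.toLinearMap₂'_apply' H0 u v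
  obtain ⟨φ, hφ⟩ := Cfsg.Agent.H7.Witt.symp_iso (B := B₀) (k := m) (by
      intro x
      apply j.injective
      rw [hB₀, hjm, alt, mul_zero, map_zero]) (by
      intro u hu
      have h1 : ∀ v : Fin m ⊕ Fin m → F, SF m F (ap V (j ∘ u)) (ap V v) = 0 := by
        intro v
        have h2 : ∀ k, (j ∘ u) ⬝ᵥ (H *ᵥ (Pi.single k 1)) = 0 := by
          intro k
          have h3 := hu (Pi.single k 1)
          have h4 := congrArg j h3
          have h5 : (j ∘ (Pi.single k 1 : Fin m ⊕ Fin m → F₀)) = Pi.single k 1 := by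
            funext i
            show j ((Pi.single k 1 : Fin m ⊕ Fin m → F₀) i) = _
            rw [Pi.single_apply, Pi.single_apply]
            split_ifs <;> simp
          rw [hB₀, hjm, map_zero, h5, hform] at h4
          exact (mul_eq_zero.1 h4).resolve_left (inv_ne_zero hν)
        rw [hform, pi_eq_sum_univ' v, Matrix.mulVec_sum, dotProduct_sum]
        apply Finset.sum_eq_zero
        intro k _
        rw [Matrix.mulVec_smul, dotProduct_smul, h2, smul_zero]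
      have h6 : ap V (j ∘ u) = 0 := by
        apply frm.nd (B := SF m F)
        intro y
        have := h1 (ap V⁻¹ y)
        rwa [ap_ap_inv] at this
      have h7 := ap_eq_zero.1 h6
      funext i
      have h8 := congrFun h7 i
      exact (map_eq_zero j).1 h8) (by rw [Module.finrank_fintype_fun_eq_card, Fintype.card_sum, Fintype.card_fin]; omega)
  let X₀ : GL (Fin m ⊕ Fin m) F₀ := ofE φ
  have hX₀ : (X₀ : Matrix (Fin m ⊕ Fin m) (Fin m ⊕ Fin m) F₀)ᵀ * J (Fin m) F₀ * (X₀ : Matrix (Fin m ⊕ Fin m) (Fin m ⊕ Fin m) F₀) = H0 := by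
    apply mat_ext'
    intro u v
    rw [← key_form, ← hB₀, ← hφ]
    have e : ∀ u, (X₀ : Matrix (Fin m ⊕ Fin m) (Fin m ⊕ Fin m) F₀) *ᵥ u = φ u := fun u => ap_ofE φ u
    rw [e, e]
  let X : GL (Fin m ⊕ Fin m) F := Matrix.GeneralLinearGroup.map j X₀
  have hXv : (X : Matrix (Fin m ⊕ Fin m) (Fin m ⊕ Fin m) F) = (X₀ : Matrix (Fin m ⊕ Fin m) (Fin m ⊕ Fin m) F₀).map j := rfl
  have hXσ : fW σ X = X := by
    apply Units.ext
    rw [fW_val, hXv]
    ext a b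
    simp only [Matrix.map_apply]
    exact hj _
  have hXX : (X : Matrix (Fin m ⊕ Fin m) (Fin m ⊕ Fin m) F)ᵀ * J (Fin m) F * (X : Matrix (Fin m ⊕ Fin m) (Fin m ⊕ Fin m) F) = ν⁻¹ • H := by
    rw [← hH0j, ← hX₀, Matrix.map_mul, Matrix.map_mul, Matrix.transpose_map, J_map, hXv]
  refine ⟨V * X⁻¹, ?_, ?_⟩
  · rw [memS']
    refine ⟨Units.mk0 ν hν, ?_⟩
    have hXi : (X : Matrix (Fin m ⊕ Fin m) (Fin m ⊕ Fin m) F) * ((X⁻¹ : GL (Fin m ⊕ Fin m) F) : Matrix (Fin m ⊕ Fin m) (Fin m ⊕ Fin m) F) = 1 := congrArg Units.val (mul_inv_cancel X)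
    set Xi := ((X⁻¹ : GL (Fin m ⊕ Fin m) F) : Matrix (Fin m ⊕ Fin m) (Fin m ⊕ Fin m) F) with hXidef
    have e0 : ((V * X⁻¹ : GL (Fin m ⊕ Fin m) F) : Matrix (Fin m ⊕ Fin m) (Fin m ⊕ Fin m) F) = Vm * Xi := rfl
    have hH3 : H = ν • ((X : Matrix (Fin m ⊕ Fin m) (Fin m ⊕ Fin m) F)ᵀ * J (Fin m) F * (X : Matrix (Fin m ⊕ Fin m) (Fin m ⊕ Fin m) F)) := by
      rw [hXX, smul_smul, mul_inv_cancel₀ hν, one_smul]
    rw [e0, Matrix.transpose_mul, Units.val_mk0]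
    have e1 : Xiᵀ * Vmᵀ * J (Fin m) F * (Vm * Xi) = Xiᵀ * H * Xi := by rw [hH]; simp only [mul_assoc]
    rw [e1, hH3, Matrix.mul_smul, Matrix.smul_mul]
    congr 1
    have e2 : Xiᵀ * (X : Matrix (Fin m ⊕ Fin m) (Fin m ⊕ Fin m) F)ᵀ = 1 := by rw [← Matrix.transpose_mul, hXi, Matrix.transpose_one]
    have e3 : Xiᵀ * ((X : Matrix (Fin m ⊕ Fin m) (Fin m ⊕ Fin m) F)ᵀ * J (Fin m) F * (X : Matrix (Fin m ⊕ Fin m) (Fin m ⊕ Fin m) F)) * Xi = (Xiᵀ * (X : Matrix (Fin m ⊕ Fin m) (Fin m ⊕ Fin m) F)ᵀ) * J (Fin m) F * ((X : Matrix (Fin m ⊕ Fin m) (Fin m ⊕ Fin m) F) * Xi) := by simp only [mul_assoc]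
    rw [e3, e2, hXi, one_mul, mul_one]
  · rw [map_mul, map_inv, hXσ, h]; group

end Cfsg.Agent.H8.TVS
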