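import Mathlib
import Cfsg.Agent.H8.TVS3

set_option autoImplicit false

namespace Cfsg.Agent.H8.TVS

open Cfsg Cfsg.Agent.H8.TVA Cfsg.Agent.H7.Tv Matrix Module Cfsg.Agent.H8.MDat
open Cfsg.Agent.H8.AutPSL (ind ind_mk)

local notation "SF" => Cfsg.Agent.H7.Tv.sf

variable {F : Type*} [Field F] [Fintype F] {m : ℕ} (p : ℕ) [Fact p.Prime] [CharP F p] (hm : 2 ≤ m)

theorem cosetS {F₀ : Type*} [Field F₀] (σ : F ≃+* F) (j : F₀ →+* F) (hj : ∀ x, σ (j x) = j x) (hjs : ∀ y : F, σ y = y → ∃ x, j x = y)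
    (W : (mdS (F := F) p hm).D) (hW : (ind ((mdS (F := F) p hm).cj W * (mdS (F := F) p hm).fd σ)) ^ orderOf σ = 1) :
    ∃ V : (mdS (F := F) p hm).D, ind ((mdS (F := F) p hm).cj W * (mdS (F := F) p hm).fd σ) =
      ind ((mdS (F := F) p hm).cj V) * ind ((mdS (F := F) p hm).fd σ) * (ind ((mdS (F := F) p hm).cj V))⁻¹ := by
  haveI : Nonempty (Fin m ⊕ Fin m) := ⟨Sum.inl ⟨0, by omega⟩⟩
  haveI : Finite (F ≃+* F) := by
    apply Finite.of_injective (fun τ : F ≃+* F => (fun x : F => τ x))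
    intro a b h
    ext x
    exact congrFun h x
  apply (mdS (F := F) p hm).coset σ _ _ W hW
  · intro c hc _
    obtain ⟨d, hd⟩ := AutPSL.exists_cyc_norm σ ((c : F)⁻¹) (by rw [map_inv₀, hc])
    have hd0 : d ≠ 0 := by
      rintro rfl
      have : ∏ i ∈ Finset.range (orderOf σ), (σ ^ i) (0 : F) = 0 := Finset.prod_eq_zero (Finset.mem_range.2 (orderOf_pos σ)) (map_zero _)
      rw [this] at hd
      exact inv_ne_zero c.ne_zero hd.symm
    exact ⟨Units.mk0 d hd0, sc_memS _, hd⟩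
  · intro W hW V hV
    exact desc hm σ j hj hjs W hW V hV

theorem commS (σ : F ≃+* F) :
    ∀ c : Fˣ, (sc c : GL (Fin m ⊕ Fin m) F) ∈ (mdS (F := F) p hm).D → ∏ i ∈ Finset.range (orderOf σ), (σ ^ i) (c : F) = 1 →
      ∃ d : Fˣ, (sc d : GL (Fin m ⊕ Fin m) F) ∈ (mdS (F := F) p hm).D ∧ (c : F) * σ d = d := by
  intro c _ hc2
  obtain ⟨d, hd⟩ := AutPSL.h90_field σ c hc2
  exact ⟨d, sc_memS d, hd⟩

theorem centS {F₀ : Type*} [Field F₀] (σ : F ≃+* F) (j : F₀ →+* F) (hj : ∀ x, σ (j x) = j x) (hjs : ∀ y : F, σ y = y → ∃ x, j x = y) :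
    Nonempty (↥((mdS (F := F) p hm).N ⊓ Subgroup.centralizer {ind ((mdS (F := F) p hm).fd σ)}) ≃* PGSp m F₀) := by
  haveI : Nonempty (Fin m ⊕ Fin m) := ⟨Sum.inl ⟨0, by omega⟩⟩
  apply (mdS (F := F) p hm).cent_iso σ (commS p hm σ) j hj hjs
  intro g
  show Matrix.GeneralLinearGroup.map j g ∈ GSp m F ↔ g ∈ GSp m F₀
  rw [memS', memS']
  have e0 : ((Matrix.GeneralLinearGroup.map j g : GL (Fin m ⊕ Fin m) F) : Matrix (Fin m ⊕ Fin m) (Fin m ⊕ Fin m) F) = (g : Matrix (Fin m ⊕ Fin m) (Fin m ⊕ Fin m) F₀).map j := rfl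
  have e1 : ((g : Matrix (Fin m ⊕ Fin m) (Fin m ⊕ Fin m) F₀).map j)ᵀ * J (Fin m) F * (g : Matrix (Fin m ⊕ Fin m) (Fin m ⊕ Fin m) F₀).map j =
      ((g : Matrix (Fin m ⊕ Fin m) (Fin m ⊕ Fin m) F₀)ᵀ * J (Fin m) F₀ * (g : Matrix (Fin m ⊕ Fin m) (Fin m ⊕ Fin m) F₀)).map j := by
    rw [Matrix.map_mul, Matrix.map_mul, Matrix.transpose_map, J_map]
  rw [e0, e1]
  constructor
  · rintro ⟨c, hc⟩
    have h1 := congrFun (congrFun hc (Sum.inr ⟨0, by omega⟩)) (Sum.inl ⟨0, by omega⟩)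
    rw [Matrix.map_apply, Matrix.smul_apply, J_entry, smul_eq_mul, mul_one] at h1
    set c₀ := ((g : Matrix (Fin m ⊕ Fin m) (Fin m ⊕ Fin m) F₀)ᵀ * J (Fin m) F₀ * (g : Matrix (Fin m ⊕ Fin m) (Fin m ⊕ Fin m) F₀)) (Sum.inr ⟨0, by omega⟩) (Sum.inl ⟨0, by omega⟩) with hc₀
    have hne : c₀ ≠ 0 := by
      intro h0
      rw [h0, map_zero] at h1
      exact c.ne_zero h1.symm
    refine ⟨Units.mk0 c₀ hne, ?_⟩
    ext a b
    apply j.injective
    have h2 := congrFun (congrFun hc a) b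
    rw [Matrix.map_apply] at h2
    rw [h2, Matrix.smul_apply, Matrix.smul_apply, smul_eq_mul, smul_eq_mul, map_mul, Units.val_mk0, h1, ← J_map j, Matrix.map_apply]
  · rintro ⟨c, hc⟩
    refine ⟨Units.map (j : F₀ →* F) c, ?_⟩
    rw [hc, Matrix.map_smul' _ _ _ (map_mul j), J_map]
    rfl

theorem splitS {f : ℕ} (hF : Nat.card F = p ^ f) (hf : 1 ≤ f) (σ : F ≃+* F) :
    splitClassCount (mdS (F := F) p hm).N (Inn (PSp m F)) (ind ((mdS (F := F) p hm).fd σ)) = Nat.gcd 2 ((p ^ f - 1) / (p ^ (f / orderOf σ) - 1)) := by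
  haveI : Nonempty (Fin m ⊕ Fin m) := ⟨Sum.inl ⟨0, by omega⟩⟩
  obtain ⟨h1, h2, -, -⟩ := AutPSL.fix_iff hF hf σ
  set q0 := p ^ (f / orderOf σ) with hq0
  have hpp : p.Prime := Fact.out
  have hr0 : 0 < orderOf σ := Nat.pos_of_dvd_of_pos h1 (by omega)
  have hfr : 1 ≤ f / orderOf σ := Nat.div_pos (Nat.le_of_dvd (by omega) h1) hr0
  have hq01 : 1 < q0 := Nat.one_lt_pow (by omega) hpp.one_lt
  have hdiv : (q0 - 1) ∣ (p ^ f - 1) := by
    have h3 : p ^ f = q0 ^ orderOf σ := by rw [hq0, ← pow_mul, Nat.div_mul_cancel h1]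
    rw [h3]
    have := Nat.sub_dvd_pow_sub_pow q0 1 (orderOf σ)
    rwa [one_pow] at this
  have hfix : ∀ u : Fˣ, σ (u : F) = u ↔ u ^ (q0 - 1) = 1 := by
    intro u
    rw [h2]
    have h4 : (u : F) ^ q0 = (u : F) ^ (q0 - 1) * u := by rw [← pow_succ]; congr 1; omega
    rw [h4]
    constructor
    · intro h
      apply Units.ext
      rw [Units.val_pow_eq_pow_val, Units.val_one]
      have h5 : (u : F) ^ (q0 - 1) * u = 1 * u := by rw [h, one_mul]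
      exact mul_right_cancel₀ u.ne_zero h5
    · intro h
      have h5 : (u : F) ^ (q0 - 1) = 1 := by rw [← Units.val_pow_eq_pow_val, h, Units.val_one]
      rw [h5, one_mul]
  rw [(mdS (F := F) p hm).split_card (dS p hm) (dS_surj p hm) (dS_ker p hm) (ind ((mdS (F := F) p hm).fd σ))
    ((powMonoidHom 2 : Fˣ →* Fˣ).range ⊔ (powMonoidHom (q0 - 1) : Fˣ →* Fˣ).ker)]
  · apply AutPSL.index_join
    rw [Nat.card_units, hF, Nat.mul_div_cancel' hdiv]
  · intro W hW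
    obtain ⟨d, hdD, hd⟩ := (mdS (F := F) p hm).comm_field σ (commS p hm σ) W hW
    set W' : (mdS (F := F) p hm).D := ⟨sc d * W.1, (mdS (F := F) p hm).D.mul_mem hdD W.2⟩ with hW'
    have h5 : dS p hm W' ∈ (powMonoidHom (q0 - 1) : Fˣ →* Fˣ).ker := by
      rw [MonoidHom.mem_ker]
      apply (hfix _).1
      have h6 := fW_mult σ W'.1 (dS p hm W' : F) (dS_spec p hm W')
      have h7 : fW σ W'.1 = W'.1 := hd
      rw [h7] at h6
      have h8 := (mult_iff _ _).1 (dS_spec p hm W')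
      have h9 := (mult_iff _ _).1 h6
      rw [h8] at h9
      exact (J_smul_inj (by omega : 1 ≤ m) h9).symm
    have h6 : dS p hm W = (d⁻¹) ^ 2 * dS p hm W' := by
      have h7 : dS p hm W' = d ^ 2 * dS p hm W := by
        apply dS_eq
        intro u v
        rw [hW', ap_mul, ap_mul, sc_mult, dS_spec p hm W, Units.val_mul, mul_assoc]
      rw [h7, ← mul_assoc, ← mul_pow, inv_mul_cancel, one_pow, one_mul]
    rw [h6]
    exact Subgroup.mul_mem_sup ⟨d⁻¹, rfl⟩ h5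
  · intro c hc
    obtain ⟨a, ⟨x, rfl⟩, k, hk, rfl⟩ := Subgroup.mem_sup.1 hc
    have hk' : σ (k : F) = k := (hfix k).2 hk
    set K' : (mdS (F := F) p hm).D := ⟨Dia m k, Dia_mem k⟩ with hK'
    refine ⟨⟨sc x * K'.1, (mdS (F := F) p hm).D.mul_mem (sc_memS x) K'.2⟩, ?_, ?_⟩
    · apply dS_eq
      intro u v
      rw [ap_mul, ap_mul, sc_mult, hK', Dia_mult, Units.val_mul, mul_assoc]
      rfl
    · have h10 : (mdS (F := F) p hm).cj ⟨sc x * K'.1, (mdS (F := F) p hm).D.mul_mem (sc_memS x) K'.2⟩ = (mdS (F := F) p hm).cj K' :=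
        (mdS (F := F) p hm).cj_sc_mul K' _ x rfl
      rw [h10]
      apply (mdS (F := F) p hm).comm_field'
      exact Dia_fW σ k hk'

theorem gcd_arith {p f r : ℕ} (hp : p.Prime) (hr : r ∣ f) (hr0 : 0 < r) (hf : 1 ≤ f) :
    Nat.gcd 2 ((p ^ f - 1) / (p ^ (f / r) - 1)) = Nat.gcd (Nat.gcd 2 (p ^ f - 1)) r := by
  obtain ⟨k, rfl⟩ := hr
  have hk : 0 < k := Nat.pos_of_ne_zero (by rintro rfl; omega)
  rw [Nat.mul_div_cancel_left k hr0]
  set q0 := p ^ k with hq0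
  have hq01 : 1 < q0 := Nat.one_lt_pow (by omega) hp.one_lt
  have h1 : p ^ (r * k) = q0 ^ r := by rw [hq0, ← pow_mul, mul_comm]
  rw [h1]
  have h2 : q0 ^ r - 1 = (∑ i ∈ Finset.range r, q0 ^ i) * (q0 - 1) := by
    have := Nat.geomSum_eq (m := q0) (by omega) r
    rw [this, Nat.div_mul_cancel]
    have := Nat.sub_dvd_pow_sub_pow q0 1 r
    rwa [one_pow] at this
  have h3 : (q0 ^ r - 1) / (q0 - 1) = ∑ i ∈ Finset.range r, q0 ^ i := by
    rw [h2, Nat.mul_div_cancel _ (by omega)]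
  rw [h3]
  rcases Nat.even_or_odd q0 with he | ho
  · -- even
    have h4 : ¬ 2 ∣ q0 ^ r - 1 := by
      have h5 : 2 ∣ q0 ^ r := (even_iff_two_dvd.1 he).trans (dvd_pow_self q0 hr0.ne')
      have h6 : 1 ≤ q0 ^ r := Nat.one_le_pow _ _ (by omega)
      omega
    have h7 : Nat.gcd 2 (q0 ^ r - 1) = 1 := (Nat.Prime.coprime_iff_not_dvd Nat.prime_two).2 h4
    rw [h7, Nat.gcd_one_left]
    apply (Nat.Prime.coprime_iff_not_dvd Nat.prime_two).2
    intro h8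
    apply h4
    rw [h2]
    exact Dvd.dvd.mul_right h8 _
  · have h4 : 2 ∣ q0 ^ r - 1 := by
      obtain ⟨s, hs⟩ := (Odd.pow ho : Odd (q0 ^ r))
      rw [hs]; exact ⟨s, by omega⟩
    rw [Nat.gcd_eq_left h4]
    have h5 : (∑ i ∈ Finset.range r, q0 ^ i) ≡ r [MOD 2] := by
      have h6 : ∀ i ∈ Finset.range r, q0 ^ i ≡ 1 [MOD 2] := by
        intro i _
        obtain ⟨s, hs⟩ := (Odd.pow ho : Odd (q0 ^ i))
        rw [hs]
        show (2 * s + 1) % 2 = 1 % 2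
        omega
      have h7 : ∀ n : ℕ, (∀ i ∈ Finset.range n, q0 ^ i ≡ 1 [MOD 2]) → (∑ i ∈ Finset.range n, q0 ^ i) ≡ n [MOD 2] := by
        intro n
        induction n with
        | zero => intro _; rw [Finset.range_zero, Finset.sum_empty]
        | succ n ih =>
          intro h
          rw [Finset.sum_range_succ]
          exact Nat.ModEq.add (ih (fun i hi => h i (Finset.mem_range.2 (by have := Finset.mem_range.1 hi; omega)))) (h n (Finset.mem_range.2 (by omega)))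
      exact h7 r h6
    rw [Nat.gcd_rec 2, Nat.gcd_rec 2 r]
    rw [h5]

theorem exists_j {f : ℕ} (hF : Nat.card F = p ^ f) (hf : 1 ≤ f) (σ : F ≃+* F) :
    orderOf σ ∣ f ∧ ∀ (F₀ : Type*) [Field F₀] [Fintype F₀], Fintype.card F₀ = p ^ (f / orderOf σ) →
      ∃ j : F₀ →+* F, (∀ x, σ (j x) = j x) ∧ (∀ y : F, σ y = y → ∃ x, j x = y) := by
  obtain ⟨h1, h2, h3, h4⟩ := AutPSL.fix_iff hF hf σ
  refine ⟨h1, ?_⟩
  intro F₀ _ _ hF₀
  set K := FixedPoints.subfield (Subgroup.zpowers (σ : RingAut F)) F with hK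
  haveI : Fintype K := Fintype.ofFinite K
  let e : F₀ ≃+* K := FiniteField.ringEquivOfCardEq (by rw [hF₀, Fintype.card_eq_nat_card, h3])
  refine ⟨K.subtype.comp (e : F₀ →+* K), ?_, ?_⟩
  · intro x
    exact (h4 _).1 (e x).2
  · intro y hy
    refine ⟨e.symm ⟨y, (h4 y).2 hy⟩, ?_⟩
    show ((e (e.symm ⟨y, (h4 y).2 hy⟩) : K) : F) = y
    rw [RingEquiv.apply_symm_apply]

end Cfsg.Agent.H8.TVS
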