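import Mathlib
import Cfsg.Agent.H8.TVU6

set_option autoImplicit false

namespace Cfsg.Agent.H8.TVU

open Cfsg Cfsg.Agent.H8.TVA Cfsg.Agent.H7.Herm Matrix Cfsg.Agent.H8.MDat
open Cfsg.Agent.H8.AutPSL (ind ind_mk)

variable {F : Type*} [Field F] [Fintype F] {q q₀ n : ℕ} {F₀ : Type*} [Field F₀] [Fintype F₀]

/-- descent situation -/
structure Des (σ : F ≃+* F) (j : F₀ →+* F) (q q₀ : ℕ) : Prop where
  hF : Fintype.card F = q ^ 2
  hF₀ : Fintype.card F₀ = q₀ ^ 2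
  odd : Odd (orderOf σ)
  hq : q = q₀ ^ (orderOf σ)
  hj : ∀ x, σ (j x) = j x
  hjs : ∀ y : F, σ y = y → ∃ x, j x = y

variable {σ : F ≃+* F} {j : F₀ →+* F} (D : Des σ j q q₀)

namespace Des
include D

theorem powq (x : F₀) : x ^ q = x ^ q₀ := by
  obtain ⟨k, hk⟩ := D.odd
  rw [D.hq, hk, pow_succ, pow_mul, pow_mul, ← D.hF₀, FiniteField.pow_card_pow]

theorem jq (x : F₀) : (j x) ^ q = j (x ^ q₀) := by rw [← map_pow, D.powq]

theorem finA : Finite (F ≃+* F) := by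
  apply Finite.of_injective (fun τ : F ≃+* F => (fun x : F => τ x))
  intro a b h
  ext x
  exact congrFun h x

theorem L1 (c : Fˣ) (h1 : c ^ (q + 1) = 1) (h2 : ∏ i ∈ Finset.range (orderOf σ), (σ ^ i) (c : F) = 1) :
    ∃ d : Fˣ, d ^ (q + 1) = 1 ∧ (c : F) * σ d = d := by
  obtain ⟨d₀, hd₀⟩ := AutPSL.h90_field σ c h2
  have hc : (c : F) ^ (q + 1) = 1 := by rw [← Units.val_pow_eq_pow_val, h1]; rfl
  have hσu : σ ((d₀ : F) ^ (q + 1)) = (d₀ : F) ^ (q + 1) := by
    rw [map_pow]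
    conv_rhs => rw [← hd₀]
    rw [mul_pow, hc, one_mul]
  obtain ⟨x, hx⟩ := D.hjs _ hσu
  have hx0 : x ≠ 0 := by
    rintro rfl
    rw [map_zero] at hx
    exact (pow_ne_zero _ d₀.ne_zero) hx.symm
  have hxq : x ^ q₀ = x := by
    apply j.injective
    rw [← D.jq, hx, ← pow_mul]
    have h3 : (q + 1) * q = q ^ 2 + q := by ring
    rw [h3, pow_add, ← D.hF, FiniteField.pow_card, pow_succ']
  obtain ⟨s, h4, h5, h6⟩ := exists_frob D.hF₀
  obtain ⟨y, hy⟩ := norm_surj D.hF₀ h4 x hx0 (by rw [h4, hxq])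
  have hy0 : y ≠ 0 := by
    rintro rfl
    rw [zero_mul] at hy
    exact hx0 hy.symm
  have hjy : (j y) ^ (q + 1) = (d₀ : F) ^ (q + 1) := by
    rw [pow_succ, D.jq, ← map_mul, mul_comm, ← h4, hy, hx]
  have hjy0 : j y ≠ 0 := (map_ne_zero j).2 hy0
  refine ⟨d₀ * (Units.mk0 _ hjy0)⁻¹, ?_, ?_⟩
  · apply Units.ext
    rw [mul_pow, inv_pow, Units.val_mul, Units.val_inv_eq_inv_val, Units.val_pow_eq_pow_val, Units.val_pow_eq_pow_val, Units.val_mk0, hjy,
      mul_inv_cancel₀ (pow_ne_zero _ d₀.ne_zero)]; rfl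
  · rw [Units.val_mul, Units.val_inv_eq_inv_val, Units.val_mk0, map_mul, map_inv₀, D.hj, ← mul_assoc, hd₀]

theorem N_tel (w : F) (hw : w ≠ 0) : ∏ i ∈ Finset.range (orderOf σ), (σ ^ i) (w * (σ w)⁻¹) = 1 := by
  haveI := D.finA
  have h1 : ∀ k : ℕ, ∏ i ∈ Finset.range k, (σ ^ i) (w * (σ w)⁻¹) = w * ((σ ^ k) w)⁻¹ := by
    intro k
    induction k with
    | zero => rw [Finset.range_zero, Finset.prod_empty, pow_zero]; exact (mul_inv_cancel₀ hw).symm
    | succ k ih =>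
      have h2 : (σ ^ (k + 1)) w = (σ ^ k) (σ w) := by rw [pow_succ]; rfl
      have h3 : (σ ^ k) w ≠ 0 := (map_ne_zero _).2 hw
      rw [Finset.prod_range_succ, ih, h2, map_mul, map_inv₀, mul_assoc, ← mul_assoc _ _ ((σ ^ k) (σ w))⁻¹, inv_mul_cancel₀ h3, one_mul]
  rw [h1, pow_orderOf_eq_one]
  exact mul_inv_cancel₀ hw

theorem L2 (c : Fˣ) (h0 : σ (c : F) = c) (h1 : c ^ (q + 1) = 1) :
    ∃ d : Fˣ, d ^ (q + 1) = 1 ∧ ∏ i ∈ Finset.range (orderOf σ), (σ ^ i) (d : F) = (c : F)⁻¹ := by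
  haveI := D.finA
  have hc : (c : F) ^ (q + 1) = 1 := by rw [← Units.val_pow_eq_pow_val, h1]; rfl
  have hq1 := one_lt_q D.hF
  obtain ⟨d₀, hd₀⟩ := AutPSL.exists_cyc_norm σ ((c : F)⁻¹) (by rw [map_inv₀, h0])
  have hd0 : d₀ ≠ 0 := by
    rintro rfl
    have : ∏ i ∈ Finset.range (orderOf σ), (σ ^ i) (0 : F) = 0 := Finset.prod_eq_zero (Finset.mem_range.2 (orderOf_pos σ)) (map_zero _)
    rw [this] at hd₀
    exact inv_ne_zero c.ne_zero hd₀.symm
  set u := d₀ ^ (q + 1) with hu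
  have hu0 : u ≠ 0 := pow_ne_zero _ hd0
  have hNu : ∏ i ∈ Finset.range (orderOf σ), (σ ^ i) u = 1 := by
    have : ∀ i ∈ Finset.range (orderOf σ), (σ ^ i) u = ((σ ^ i) d₀) ^ (q + 1) := fun i _ => map_pow _ _ _
    rw [Finset.prod_congr rfl this, Finset.prod_pow, hd₀, inv_pow, hc, inv_one]
  have huq : u ^ q = u := by
    rw [hu, ← pow_mul]
    have h3 : (q + 1) * q = q ^ 2 + q := by ring
    rw [h3, pow_add, ← D.hF, FiniteField.pow_card, pow_succ']
  obtain ⟨v, hv⟩ := AutPSL.h90_field σ (Units.mk0 u hu0) hNu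
  have hv : u * σ (v : F) = v := hv
  have hv0 : (v : F) ≠ 0 := v.ne_zero
  have hσv : σ (v : F) = u⁻¹ * v := by
    conv_rhs => rw [← hv]
    rw [← mul_assoc, inv_mul_cancel₀ hu0, one_mul]
  set y := (v : F) ^ q * (v : F)⁻¹ with hy
  have hσy : σ y = y := by
    rw [hy, map_mul, map_pow, map_inv₀, hσv, mul_pow, inv_pow, huq]
    field_simp
  obtain ⟨y', hy'⟩ := D.hjs y hσy
  have hyq : y ^ (q + 1) = 1 := by
    have h7 : y = (v : F) ^ (q - 1) := by
      rw [hy]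
      have : (v : F) ^ q = (v : F) ^ (q - 1) * v := by rw [← pow_succ]; congr 1; omega
      rw [this, mul_assoc, mul_inv_cancel₀ hv0, mul_one]
    rw [h7, ← pow_mul]
    have h8 : (q - 1) * (q + 1) = Fintype.card F - 1 := by
      rw [D.hF]
      obtain ⟨r, rfl⟩ : ∃ r, q = r + 1 := ⟨q - 1, by omega⟩
      rw [Nat.add_sub_cancel]
      have : (r + 1) ^ 2 = r * (r + 1 + 1) + 1 := by ring
      omega
    rw [h8]
    exact FiniteField.pow_card_sub_one_eq_one _ hv0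
  obtain ⟨s, h4, h5, h6⟩ := exists_frob D.hF₀
  obtain ⟨t, ht0, ht⟩ := TVU.h90 h5 h6 y' (by
    apply j.injective
    rw [map_mul, h4, ← D.jq, hy', map_one, ← pow_succ', hyq])
  have hjt0 : j t ≠ 0 := (map_ne_zero j).2 ht0
  have hjt : (j t) ^ q = y * j t := by
    rw [D.jq, ← h4, ht, map_mul, hy']
  set v' := (v : F) * (j t)⁻¹ with hv'
  have hv'0 : v' ≠ 0 := mul_ne_zero hv0 (inv_ne_zero hjt0)
  have hy0 : y ≠ 0 := by
    intro h; rw [h, zero_pow (by omega)] at hyq; exact zero_ne_one hyq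
  have hv'q : v' ^ q = v' := by
    rw [hv', mul_pow, inv_pow, hjt]
    have : (v : F) ^ q = y * v := by rw [hy, mul_assoc, inv_mul_cancel₀ hv0, mul_one]
    rw [this]
    field_simp
  have hσv' : u * σ v' = v' := by
    rw [hv', map_mul, map_inv₀, D.hj, ← mul_assoc, hv]
  obtain ⟨s', h4', h5', h6'⟩ := exists_frob D.hF
  obtain ⟨w, hw⟩ := norm_surj D.hF h4' v' hv'0 (by rw [h4', hv'q])
  have hw' : w ^ (q + 1) = v' := by rw [pow_succ', ← h4', hw]
  have hw0 : w ≠ 0 := by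
    rintro rfl
    rw [zero_mul] at hw
    exact hv'0 hw.symm
  have hσw0 : σ w ≠ 0 := (map_ne_zero σ).2 hw0
  set t' := w * (σ w)⁻¹ with ht'
  have ht'0 : t' ≠ 0 := mul_ne_zero hw0 (inv_ne_zero hσw0)
  have hNt : ∏ i ∈ Finset.range (orderOf σ), (σ ^ i) t' = 1 := D.N_tel w hw0
  have ht'q : t' ^ (q + 1) = u := by
    have h10 : σ v' ≠ 0 := (map_ne_zero σ).2 hv'0
    rw [ht', mul_pow, inv_pow, ← map_pow, hw', ← div_eq_mul_inv, div_eq_iff h10]
    exact hσv'.symm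
  refine ⟨Units.mk0 _ (mul_ne_zero hd0 (inv_ne_zero ht'0)), ?_, ?_⟩
  · apply Units.ext
    rw [Units.val_pow_eq_pow_val, Units.val_mk0, mul_pow, inv_pow, ht'q, ← hu, mul_inv_cancel₀ hu0]; rfl
  · rw [Units.val_mk0]
    have : ∀ i ∈ Finset.range (orderOf σ), (σ ^ i) (d₀ * t'⁻¹) = (σ ^ i) d₀ * ((σ ^ i) t')⁻¹ := fun i _ => by rw [map_mul, map_inv₀]
    rw [Finset.prod_congr rfl this, Finset.prod_mul_distrib, Finset.prod_inv_distrib, hNt, hd₀, inv_one, mul_one]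

theorem desc (W : GL (Fin n) F) (hW : W ∈ GU n F q) (V : GL (Fin n) F) (h : W = V * (fW σ V)⁻¹) :
    ∃ V' ∈ GU n F q, W = V' * (fW σ V')⁻¹ := by
  obtain ⟨s, h1, h2, h3⟩ := exists_frob D.hF
  obtain ⟨s', h1', h2', h3'⟩ := exists_frob D.hF₀
  have hW1 : fW σ V = W⁻¹ * V := by rw [h]; group
  have hWi : (((W⁻¹ : GL (Fin n) F) : Matrix (Fin n) (Fin n) F))ᵀ * (((W⁻¹ : GL (Fin n) F) : Matrix (Fin n) (Fin n) F)).map s = 1 :=
    (preserve_iff h1).1 (memU.1 ((GU n F q).inv_mem hW))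
  have hW2 : (V : Matrix (Fin n) (Fin n) F).map σ = ((W⁻¹ : GL (Fin n) F) : Matrix (Fin n) (Fin n) F) * (V : Matrix (Fin n) (Fin n) F) := congrArg Units.val hW1
  set Vm := (V : Matrix (Fin n) (Fin n) F) with hVm
  set H : Matrix (Fin n) (Fin n) F := Vmᵀ * Vm.map s with hH
  have hcomm : ∀ x, s (σ x) = σ (s x) := fun x => by rw [h1, h1, map_pow]
  have hHσ : H.map σ = H := by
    have e1 : (Vm.map s).map σ = (Vm.map σ).map s := by
      ext a b
      simp only [Matrix.map_apply]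
      exact (hcomm _).symm
    rw [hH, Matrix.map_mul, Matrix.transpose_map, e1, hW2, Matrix.transpose_mul, Matrix.map_mul]
    rw [mul_assoc, ← mul_assoc _ (Matrix.map _ s) (Vm.map s), hWi, one_mul]
  have hHs : (H.map s)ᵀ = H := by
    rw [hH, Matrix.map_mul, Matrix.transpose_mul]
    have e1 : (Vm.map s).map s = Vm := by
      ext a b
      simp only [Matrix.map_apply, h2]
    rw [e1, Matrix.transpose_map, Matrix.transpose_transpose]
  have hent : ∀ a b, σ (H a b) = H a b := fun a b => congrFun (congrFun hHσ a) b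
  choose g hg using fun a b => D.hjs _ (hent a b)
  have hH' : (Matrix.of g).map j = H := by
    ext a b
    exact hg a b
  have hVdet : Vm.det ≠ 0 := ((Matrix.isUnit_iff_isUnit_det _).1 V.isUnit).ne_zero
  have hdet : (Matrix.of g).det ≠ 0 := by
    intro h0
    have h7 : ((Matrix.of g : Matrix (Fin n) (Fin n) F₀).map j).det = j (Matrix.of g : Matrix (Fin n) (Fin n) F₀).det := (RingHom.map_det j _).symm
    rw [h0, map_zero, hH', hH, Matrix.det_mul, Matrix.det_transpose] at h7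
    have h8 : (Vm.map s).det = s Vm.det := (RingHom.map_det s _).symm
    rw [h8] at h7
    rcases mul_eq_zero.1 h7 with h9 | h9
    · exact hVdet h9
    · exact hVdet ((map_eq_zero s).1 h9)
  have hsj : ∀ x, s (j x) = j (s' x) := fun x => by rw [h1, D.jq, h1']
  have hs'b : Function.Bijective s' := Finite.injective_iff_bijective.1 s'.injective
  let s'' : F₀ ≃+* F₀ := RingEquiv.ofBijective s' hs'b
  have hs'' : ∀ x, s'' x = s' x := fun x => rfl
  obtain ⟨U, hU⟩ := AutPSL.herm_decomp s'' (by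
      intro h; apply h3'; apply RingHom.ext; intro x
      rw [← hs'', h]; rfl) (fun a => by rw [hs'', hs'', h2']) (Matrix.GeneralLinearGroup.mkOfDetNeZero (Matrix.of g) hdet) (by
      ext a b
      apply j.injective
      show j (s'' (g b a)) = j (g a b)
      rw [hs'', ← hsj, hg, hg]
      exact congrFun (congrFun hHs a) b)
  have hU' : (Matrix.of g) = (U : Matrix (Fin n) (Fin n) F₀) * ((U : Matrix (Fin n) (Fin n) F₀).map s')ᵀ := hU
  -- X = jUᵀ
  set Um : Matrix (Fin n) (Fin n) F := (U : Matrix (Fin n) (Fin n) F₀).map j with hUm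
  have hH2 : H = Um * (Um.map s)ᵀ := by
    rw [← hH', hU', Matrix.map_mul, hUm]
    congr 1
    ext a b
    simp only [Matrix.map_apply, Matrix.transpose_apply]
    exact (hsj _).symm
  have hUu : IsUnit Umᵀ := by
    rw [Matrix.isUnit_iff_isUnit_det, Matrix.det_transpose, isUnit_iff_ne_zero]
    have h7 : Um.det = j (U : Matrix (Fin n) (Fin n) F₀).det := (RingHom.map_det j _).symm
    rw [h7]
    exact (map_ne_zero j).2 ((Matrix.isUnit_iff_isUnit_det _).1 U.isUnit).ne_zero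
  let X : GL (Fin n) F := hUu.unit
  have hX : (X : Matrix (Fin n) (Fin n) F) = Umᵀ := rfl
  have hXσ : fW σ X = X := by
    apply Units.ext
    rw [fW_val, hX]
    ext a b
    simp only [Matrix.map_apply, Matrix.transpose_apply, hUm]
    exact D.hj _
  refine ⟨V * X⁻¹, ?_, ?_⟩
  · rw [memU]
    apply (preserve_iff h1).2
    have hXi : (X : Matrix (Fin n) (Fin n) F) * ((X⁻¹ : GL (Fin n) F) : Matrix (Fin n) (Fin n) F) = 1 := congrArg Units.val (mul_inv_cancel X)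
    set Xi := ((X⁻¹ : GL (Fin n) F) : Matrix (Fin n) (Fin n) F) with hXidef
    have e0 : ((V * X⁻¹ : GL (Fin n) F) : Matrix (Fin n) (Fin n) F) = Vm * Xi := rfl
    have hH3 : H = (X : Matrix (Fin n) (Fin n) F)ᵀ * (X : Matrix (Fin n) (Fin n) F).map s := by
      rw [hX, Matrix.transpose_transpose, Matrix.transpose_map]
      exact hH2
    rw [e0, Matrix.transpose_mul, Matrix.map_mul]
    have e1 : Xiᵀ * Vmᵀ * (Vm.map s * Xi.map s) = Xiᵀ * H * Xi.map s := by rw [hH]; simp only [mul_assoc]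
    rw [e1, hH3]
    have e2 : Xiᵀ * (X : Matrix (Fin n) (Fin n) F)ᵀ = 1 := by rw [← Matrix.transpose_mul, hXi, Matrix.transpose_one]
    have e3 : (X : Matrix (Fin n) (Fin n) F).map s * Xi.map s = 1 := by rw [← Matrix.map_mul, hXi, Matrix.map_one s (map_zero s) (map_one s)]
    rw [← mul_assoc, e2, one_mul, e3]
  · rw [map_mul, map_inv, hXσ, h]; group

end Des

end Cfsg.Agent.H8.TVU
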