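import Mathlib
import Cfsg.Agent.H8.TVU7

set_option autoImplicit false

namespace Cfsg.Agent.H8.TVU

open Cfsg Cfsg.Agent.H8.TVA Cfsg.Agent.H7.Herm Matrix Cfsg.Agent.H8.MDat
open Cfsg.Agent.H8.AutPSL (ind ind_mk)

theorem dvd_of_odd {r f : ℕ} (hr : Odd r) (h : r ∣ 2 * f) : r ∣ f :=
  (Nat.Coprime.dvd_of_dvd_mul_left (Nat.Coprime.symm (Nat.coprime_two_left.2 hr)) h)

variable {F : Type*} [Field F] [Fintype F] {q n : ℕ}

theorem exists_des {p f : ℕ} [Fact p.Prime] (hq : q = p ^ f) (hf : 1 ≤ f) (hF : Fintype.card F = q ^ 2) (σ : F ≃+* F) (hodd : Odd (orderOf σ)) :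
    orderOf σ ∣ f ∧ ∀ (F₀ : Type*) [Field F₀] [Fintype F₀], Fintype.card F₀ = p ^ (2 * (f / orderOf σ)) → ∃ j : F₀ →+* F, Des σ j q (p ^ (f / orderOf σ)) := by
  obtain ⟨h1, h2, h3, h4⟩ := AutPSL.fix_iff (F := F) (p := p) (f := 2 * f) (by rw [Nat.card_eq_fintype_card, hF, hq, ← pow_mul, mul_comm]) (by omega) σ
  have h5 : orderOf σ ∣ f := dvd_of_odd hodd h1
  refine ⟨h5, ?_⟩
  intro F₀ _ _ hF₀
  have h6 : 2 * f / orderOf σ = 2 * (f / orderOf σ) := Nat.mul_div_assoc 2 h5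
  rw [h6] at h3
  set K := FixedPoints.subfield (Subgroup.zpowers (σ : RingAut F)) F with hK
  haveI : Fintype K := Fintype.ofFinite K
  let e : F₀ ≃+* K := FiniteField.ringEquivOfCardEq (by rw [hF₀, Fintype.card_eq_nat_card, h3])
  refine ⟨K.subtype.comp (e : F₀ →+* K), hF, ?_, hodd, ?_, ?_, ?_⟩
  · rw [hF₀, mul_comm, pow_mul]
  · rw [hq, ← pow_mul, Nat.div_mul_cancel h5]
  · intro x
    exact (h4 _).1 (e x).2
  · intro y hy
    refine ⟨e.symm ⟨y, (h4 y).2 hy⟩, ?_⟩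
    show ((e (e.symm ⟨y, (h4 y).2 hy⟩) : K) : F) = y
    rw [RingEquiv.apply_symm_apply]

theorem exists_des' {p f : ℕ} [Fact p.Prime] (hq : q = p ^ f) (hf : 1 ≤ f) (hF : Fintype.card F = q ^ 2) (σ : F ≃+* F) (hodd : Odd (orderOf σ)) :
    ∃ (K : Subfield F) (_ : Fintype K) (j : K →+* F), Des σ j q (p ^ (f / orderOf σ)) := by
  obtain ⟨h1, h2, h3, h4⟩ := AutPSL.fix_iff (F := F) (p := p) (f := 2 * f) (by rw [Nat.card_eq_fintype_card, hF, hq, ← pow_mul, mul_comm]) (by omega) σ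
  obtain ⟨h5, h6⟩ := exists_des hq hf hF σ hodd
  haveI : Fintype (FixedPoints.subfield (Subgroup.zpowers (σ : RingAut F)) F) := Fintype.ofFinite _
  have h7 : 2 * f / orderOf σ = 2 * (f / orderOf σ) := Nat.mul_div_assoc 2 h5
  rw [h7, Nat.card_eq_fintype_card] at h3
  obtain ⟨j, hj⟩ := h6 _ h3
  exact ⟨_, inferInstance, j, hj⟩

variable (p : ℕ) [Fact p.Prime] [CharP F p] (hF : Fintype.card F = q ^ 2) (hn : 3 ≤ n) (hs : ¬ (n = 3 ∧ q = 2))

theorem cosetU {q₀ : ℕ} {F₀ : Type*} [Field F₀] [Fintype F₀] {σ : F ≃+* F} {j : F₀ →+* F} (D : Des σ j q q₀)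
    (W : (mdU p hF hn hs).D) (hW : (ind ((mdU p hF hn hs).cj W * (mdU p hF hn hs).fd σ)) ^ orderOf σ = 1) :
    ∃ V : (mdU p hF hn hs).D, ind ((mdU p hF hn hs).cj W * (mdU p hF hn hs).fd σ) = ind ((mdU p hF hn hs).cj V) * ind ((mdU p hF hn hs).fd σ) * (ind ((mdU p hF hn hs).cj V))⁻¹ := by
  haveI : Nonempty (Fin n) := ⟨⟨0, by omega⟩⟩
  apply (mdU p hF hn hs).coset σ _ _ W hW
  · intro c hc hcD
    have h1 : c ^ (q + 1) = 1 := (sc_memU hF (by omega : 1 ≤ n) c).1 hcD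
    obtain ⟨d, hd, hd2⟩ := D.L2 c hc h1
    exact ⟨d, (sc_memU hF (by omega : 1 ≤ n) d).2 hd, hd2⟩
  · intro W hW V hV
    exact D.desc W hW V hV

theorem commU {q₀ : ℕ} {F₀ : Type*} [Field F₀] [Fintype F₀] {σ : F ≃+* F} {j : F₀ →+* F} (D : Des σ j q q₀) :
    ∀ c : Fˣ, (sc c : GL (Fin n) F) ∈ (mdU p hF hn hs).D → ∏ i ∈ Finset.range (orderOf σ), (σ ^ i) (c : F) = 1 →
      ∃ d : Fˣ, (sc d : GL (Fin n) F) ∈ (mdU p hF hn hs).D ∧ (c : F) * σ d = d := by
  intro c hc hc2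
  have h1 : c ^ (q + 1) = 1 := (sc_memU hF (by omega : 1 ≤ n) c).1 hc
  obtain ⟨d, hd, hd2⟩ := D.L1 c h1 hc2
  exact ⟨d, (sc_memU hF (by omega : 1 ≤ n) d).2 hd, hd2⟩

theorem centU {q₀ : ℕ} {F₀ : Type*} [Field F₀] [Fintype F₀] {σ : F ≃+* F} {j : F₀ →+* F} (D : Des σ j q q₀) :
    Nonempty (↥((mdU p hF hn hs).N ⊓ Subgroup.centralizer {ind ((mdU p hF hn hs).fd σ)}) ≃* PGU n F₀ q₀) := by
  haveI : Nonempty (Fin n) := ⟨⟨0, by omega⟩⟩
  apply (mdU p hF hn hs).cent_iso σ (commU p hF hn hs D) j D.hj D.hjs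
  intro g
  obtain ⟨s, h1, h2, h3⟩ := exists_frob D.hF
  obtain ⟨s', h1', h2', h3'⟩ := exists_frob D.hF₀
  have e1 : (Matrix.GeneralLinearGroup.map j g ∈ GU n F q) ↔ ((g : Matrix (Fin n) (Fin n) F₀).map j)ᵀ * ((g : Matrix (Fin n) (Fin n) F₀).map j).map s = 1 := by
    rw [memU]
    exact preserve_iff h1
  have e2 : (g ∈ GU n F₀ q₀) ↔ ((g : Matrix (Fin n) (Fin n) F₀))ᵀ * ((g : Matrix (Fin n) (Fin n) F₀)).map s' = 1 := by
    rw [memU]
    exact preserve_iff h1'
  show Matrix.GeneralLinearGroup.map j g ∈ GU n F q ↔ g ∈ GU n F₀ q₀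
  rw [e1, e2]
  have e3 : ((g : Matrix (Fin n) (Fin n) F₀).map j)ᵀ * ((g : Matrix (Fin n) (Fin n) F₀).map j).map s = (((g : Matrix (Fin n) (Fin n) F₀))ᵀ * ((g : Matrix (Fin n) (Fin n) F₀)).map s').map j := by
    rw [Matrix.map_mul, Matrix.transpose_map]
    congr 1
    ext a b
    simp only [Matrix.map_apply]
    rw [h1, D.jq, h1']
  rw [e3]
  constructor
  · intro h
    ext a b
    apply j.injective
    have h4 := congrFun (congrFun h a) b
    rw [Matrix.map_apply] at h4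
    rw [h4, Matrix.one_apply, Matrix.one_apply]
    split_ifs <;> simp
  · intro h
    rw [h, Matrix.map_one j (map_zero j) (map_one j)]

theorem splitU {q₀ : ℕ} {F₀ : Type*} [Field F₀] [Fintype F₀] {σ : F ≃+* F} {j : F₀ →+* F} (D : Des σ j q q₀) :
    splitClassCount (mdU p hF hn hs).N (Inn (PSU n F q)) (ind ((mdU p hF hn hs).fd σ)) = Nat.gcd n ((q + 1) / (q₀ + 1)) := by
  haveI : Nonempty (Fin n) := ⟨⟨0, by omega⟩⟩
  have hn0 : 0 < n := by omega
  have hdiv : (q₀ + 1) ∣ (q + 1) := by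
    have := Odd.nat_add_dvd_pow_add_pow q₀ 1 D.odd
    rwa [one_pow, ← D.hq] at this
  -- fixed elements
  have hfix : ∀ y : F, σ y = y → y ^ (q + 1) = 1 → y ^ (q₀ + 1) = 1 := by
    intro y h1 h2
    obtain ⟨x, rfl⟩ := D.hjs y h1
    rw [pow_succ, D.jq, map_pow, ← pow_succ] at h2
    exact h2
  have hfix2 : ∀ y : F, y ^ (q₀ + 1) = 1 → σ y = y := by
    intro y hy
    have hq0 := one_lt_q D.hF₀
    -- roots of X^(q0^2) - X are in the image of j
    have h1 : y ^ (q₀ ^ 2) = y := by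
      have h2 : q₀ ^ 2 = (q₀ + 1) * (q₀ - 1) + 1 := by
        obtain ⟨r, rfl⟩ : ∃ r, q₀ = r + 1 := ⟨q₀ - 1, by omega⟩
        rw [Nat.add_sub_cancel]; ring
      rw [h2, pow_succ, pow_mul, hy, one_pow, one_mul]
    classical
    let P : Polynomial F := Polynomial.X ^ (q₀ ^ 2) - Polynomial.X
    have hk1 : 1 < q₀ ^ 2 := by nlinarith
    have hP : P ≠ 0 := FiniteField.X_pow_card_sub_X_ne_zero F hk1
    have hdeg : P.natDegree = q₀ ^ 2 := FiniteField.X_pow_card_sub_X_natDegree_eq F hk1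
    let S : Finset F := Finset.univ.image j
    have hS : S.card = q₀ ^ 2 := by
      rw [Finset.card_image_of_injective _ j.injective, Finset.card_univ, D.hF₀]
    have hsub : S ⊆ P.roots.toFinset := by
      intro y hy
      obtain ⟨x, -, rfl⟩ := Finset.mem_image.1 hy
      rw [Multiset.mem_toFinset, Polynomial.mem_roots hP, Polynomial.IsRoot.def]
      simp only [P, Polynomial.eval_sub, Polynomial.eval_pow, Polynomial.eval_X]
      rw [← map_pow, ← D.hF₀, FiniteField.pow_card, sub_self]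
    have hcard : P.roots.toFinset.card ≤ S.card := by
      rw [hS, ← hdeg]
      exact (Multiset.toFinset_card_le _).trans (Polynomial.card_roots' P)
    have heq := Finset.eq_of_subset_of_card_le hsub hcard
    have hx2 : y ∈ P.roots.toFinset := by
      rw [Multiset.mem_toFinset, Polynomial.mem_roots hP, Polynomial.IsRoot.def]
      simp only [P, Polynomial.eval_sub, Polynomial.eval_pow, Polynomial.eval_X]
      rw [h1, sub_self]
    rw [← heq] at hx2
    obtain ⟨x, -, rfl⟩ := Finset.mem_image.1 hx2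
    exact D.hj x
  have hdsc : ∀ c : Fˣ, ((sc c : GL (Fin n) F) : Matrix (Fin n) (Fin n) F).det = (c : F) ^ n := by
    intro c
    rw [sc_val, Matrix.det_smul, Matrix.det_one, mul_one, Fintype.card_fin]
  rw [(mdU p hF hn hs).split_card (dtU p hF hn hs) (dtU_surj p hF hn hs) (dtU_ker p hF hn hs) (ind ((mdU p hF hn hs).fd σ))
    ((powMonoidHom n : NA F q →* NA F q).range ⊔ (powMonoidHom (q₀ + 1) : NA F q →* NA F q).ker)]
  · apply AutPSL.index_join
    rw [card_NA hF, Nat.mul_div_cancel' hdiv]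
  · intro W hW
    obtain ⟨d, hdD, hd⟩ := (mdU p hF hn hs).comm_field σ (commU p hF hn hs D) W hW
    have hdU : d ^ (q + 1) = 1 := (sc_memU hF (by omega : 1 ≤ n) d).1 hdD
    set W' : (mdU p hF hn hs).D := ⟨sc d * W.1, (mdU p hF hn hs).D.mul_mem hdD W.2⟩ with hW'
    have h5 : dtU p hF hn hs W' ∈ (powMonoidHom (q₀ + 1) : NA F q →* NA F q).ker := by
      rw [MonoidHom.mem_ker]
      apply Subtype.ext
      apply Units.ext
      show (((dtU p hF hn hs W').1 ^ (q₀ + 1) : Fˣ) : F) = 1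
      rw [Units.val_pow_eq_pow_val]
      apply hfix
      · rw [dtU_val]
        have h6 : ((W'.1 : Matrix (Fin n) (Fin n) F).map σ).det = σ (W'.1 : Matrix (Fin n) (Fin n) F).det := (RingHom.map_det (σ : F →+* F) _).symm
        have h7 : (W'.1 : Matrix (Fin n) (Fin n) F).map σ = (W'.1 : Matrix (Fin n) (Fin n) F) := congrArg Units.val hd
        rw [← h6, h7]
      · rw [← Units.val_pow_eq_pow_val]
        have : (dtU p hF hn hs W').1 ^ (q + 1) = 1 := (dtU p hF hn hs W').2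
        rw [this]; rfl
    have h6 : dtU p hF hn hs W = (⟨d, hdU⟩⁻¹ : NA F q) ^ n * dtU p hF hn hs W' := by
      have h8 : (⟨d, hdU⟩ : NA F q) ^ n * dtU p hF hn hs W = dtU p hF hn hs W' := by
        apply Subtype.ext
        apply Units.ext
        show ((d ^ n * (dtU p hF hn hs W).1 : Fˣ) : F) = _
        rw [Units.val_mul, Units.val_pow_eq_pow_val, dtU_val, dtU_val, hW', ← hdsc, ← Matrix.det_mul]
        rfl
      rw [← h8, ← mul_assoc, ← mul_pow, inv_mul_cancel, one_pow, one_mul]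
    rw [h6]
    exact Subgroup.mul_mem_sup ⟨_, rfl⟩ h5
  · intro m hm
    obtain ⟨a, ⟨x, rfl⟩, k, hk, rfl⟩ := Subgroup.mem_sup.1 hm
    have hk' : σ ((k.1 : Fˣ) : F) = k.1 := by
      apply hfix2
      have : k ^ (q₀ + 1) = 1 := hk
      have h9 : k.1 ^ (q₀ + 1) = 1 := congrArg Subtype.val this
      rw [← Units.val_pow_eq_pow_val, h9]; rfl
    have hdg : dg (Function.update (fun _ => (1 : Fˣ)) (⟨0, hn0⟩ : Fin n) k.1) ∈ GU n F q := by
      apply dg_mem
      intro i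
      by_cases hi : i = ⟨0, hn0⟩
      · rw [hi, Function.update_self]
        have : k.1 ^ (q + 1) = 1 := k.2
        rw [← Units.val_pow_eq_pow_val, this]; rfl
      · rw [Function.update_of_ne hi]; simp
    set K' : (mdU p hF hn hs).D := ⟨_, hdg⟩ with hK'
    have hxD : (sc x.1 : GL (Fin n) F) ∈ (mdU p hF hn hs).D := (sc_memU hF (by omega : 1 ≤ n) x.1).2 x.2
    refine ⟨⟨sc x.1 * K'.1, (mdU p hF hn hs).D.mul_mem hxD K'.2⟩, ?_, ?_⟩
    · apply Subtype.ext
      apply Units.ext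
      show _ = ((x.1 ^ n * k.1 : Fˣ) : F)
      rw [dtU_val, Units.val_mul, Matrix.det_mul, hdsc, Units.val_mul, Units.val_pow_eq_pow_val]
      congr 1
      show (diagonal _).det = _
      rw [Matrix.det_diagonal]
      have : ∀ i, ((Function.update (fun _ => (1 : Fˣ)) (⟨0, hn0⟩ : Fin n) k.1 i : Fˣ) : F) = Function.update (fun _ => (1 : F)) (⟨0, hn0⟩ : Fin n) (k.1 : F) i := by
        intro i
        by_cases hi : i = ⟨0, hn0⟩
        · rw [hi, Function.update_self, Function.update_self]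
        · rw [Function.update_of_ne hi, Function.update_of_ne hi]; rfl
      rw [Finset.prod_congr rfl (fun i _ => this i), Finset.prod_update_of_mem (Finset.mem_univ _)]
      simp
    · have h10 : (mdU p hF hn hs).cj ⟨sc x.1 * K'.1, (mdU p hF hn hs).D.mul_mem hxD K'.2⟩ = (mdU p hF hn hs).cj K' :=
        (mdU p hF hn hs).cj_sc_mul K' _ x.1 rfl
      rw [h10]
      apply (mdU p hF hn hs).comm_field'
      apply Units.ext
      rw [fW_val]
      show (diagonal _).map σ = diagonal _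
      rw [Matrix.diagonal_map (map_zero σ)]
      congr 1
      funext i
      show σ ((Function.update (fun _ => (1 : Fˣ)) (⟨0, hn0⟩ : Fin n) k.1 i : Fˣ) : F) = _
      by_cases hi : i = ⟨0, hn0⟩
      · rw [hi, Function.update_self, hk']
      · rw [Function.update_of_ne hi, Units.val_one, map_one]

end Cfsg.Agent.H8.TVU
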